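import Mathlib

set_option autoImplicit false

namespace Cfsg.Agent.Lib.helper6_HallAut

theorem dvd_card_of_orbits {S X : Type*} [Group S] [MulAction S X] [Finite X] (d : ℕ)
    (h : ∀ x : X, d ∣ (MulAction.stabilizer S x).index) : d ∣ Nat.card X := by
  classical
  have := Fintype.ofFinite X
  have : Fintype (MulAction.orbitRel.Quotient S X) := Fintype.ofFinite _
  rw [Nat.card_congr (MulAction.selfEquivSigmaOrbits S X), Nat.card_sigma]
  refine Finset.dvd_sum (fun ω _ => ?_)
  have := h (Quotient.out ω)
  rw [MulAction.index_stabilizer] at this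
  exact this

theorem dvd_card_invariant {S X : Type*} [Group S] [MulAction S X] [Finite X] (F : Set X)
    (hF : ∀ s : S, ∀ x ∈ F, s • x ∈ F) (d : ℕ)
    (h : ∀ x ∈ F, d ∣ (MulAction.stabilizer S x).index) : d ∣ Nat.card F := by
  let p : SubMulAction S X := ⟨F, fun s {x} hx => hF s x hx⟩
  have : d ∣ Nat.card p := by
    apply dvd_card_of_orbits (S := S)
    intro x
    rw [SubMulAction.stabilizer_of_subMul]
    exact h x x.2
  exact this

/-- a group of order `p ^ r` is generated by `r` elements -/
theorem exists_gens {E : Type*} [Group E] [Finite E] {p r : ℕ} [hp : Fact p.Prime]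
    (hE : Nat.card E = p ^ r) : ∃ x : Fin r → E, Subgroup.closure (Set.range x) = ⊤ := by
  have key : ∀ k ≤ r, ∃ (K : Subgroup E) (x : Fin k → E), Nat.card K = p ^ k ∧
      Subgroup.closure (Set.range x) = K := by
    intro k
    induction k with
    | zero =>
      intro _
      exact ⟨⊥, Fin.elim0, by simp, by simp [Set.range_eq_empty]⟩
    | succ k ih =>
      intro hk
      obtain ⟨K, x, hK, hx⟩ := ih (by omega)
      obtain ⟨K', hK', hle⟩ := Sylow.exists_subgroup_card_pow_succ (p := p) (n := k)
        (by rw [hE]; exact pow_dvd_pow p hk) hK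
      have hlt : K < K' := by
        refine lt_of_le_of_ne hle ?_
        rintro rfl
        rw [hK] at hK'
        have := Nat.pow_right_injective hp.out.two_le hK'
        omega
      obtain ⟨h, hh, hhK⟩ := SetLike.exists_of_lt hlt
      refine ⟨K', Fin.cons h x, hK', ?_⟩
      have hL1 : K ≤ Subgroup.closure (Set.range (Fin.cons h x : Fin (k + 1) → E)) := by
        rw [← hx, Fin.range_cons]
        exact Subgroup.closure_mono (Set.subset_insert _ _)
      have hL2 : h ∈ Subgroup.closure (Set.range (Fin.cons h x : Fin (k + 1) → E)) := by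
        apply Subgroup.subset_closure
        rw [Fin.range_cons]
        exact Set.mem_insert _ _
      have hL3 : Subgroup.closure (Set.range (Fin.cons h x : Fin (k + 1) → E)) ≤ K' := by
        rw [Subgroup.closure_le, Fin.range_cons]
        intro e he
        rcases he with rfl | he
        · exact hh
        · apply hle
          rw [← hx]
          exact Subgroup.subset_closure he
      have hd := Subgroup.card_dvd_of_le hL3
      rw [hK'] at hd
      obtain ⟨j, hj, hj2⟩ := (Nat.dvd_prime_pow hp.out).mp hd
      have hlt2 : K < Subgroup.closure (Set.range (Fin.cons h x : Fin (k + 1) → E)) :=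
        lt_of_le_of_ne hL1 (by
          intro heq
          apply hhK
          rw [heq]
          exact hL2)
      have hc : Nat.card K <
          Nat.card (Subgroup.closure (Set.range (Fin.cons h x : Fin (k + 1) → E))) := by
        by_contra hcon
        exact hlt2.ne (Subgroup.eq_of_le_of_card_ge hL1 (not_lt.mp hcon))
      rw [hK, hj2] at hc
      have hkj : k < j := (Nat.pow_lt_pow_iff_right hp.out.one_lt).mp hc
      have hj3 : j = k + 1 := by omega
      apply Subgroup.eq_of_le_of_card_ge hL3
      rw [hK', hj2, hj3]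
  obtain ⟨K, x, hK, hx⟩ := key r le_rfl
  refine ⟨x, ?_⟩
  rw [hx]
  apply Subgroup.eq_top_of_card_eq
  rw [hK, hE]

/-- **Burnside basis theorem** (existence of `r` generators). -/
theorem exists_gens_frattini {P : Type*} [Group P] [Finite P] {p r : ℕ} [hp : Fact p.Prime]
    (hr : (frattini P).index = p ^ r) :
    ∃ y : Fin r → P, ∀ z : Fin r → P, (∀ i, (y i)⁻¹ * z i ∈ frattini P) →
      Subgroup.closure (Set.range z) = ⊤ := by
  obtain ⟨x, hx⟩ := exists_gens (E := P ⧸ frattini P) (p := p) (r := r) hr
  choose y hy using fun i => QuotientGroup.mk_surjective (x i)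
  refine ⟨y, fun z hz => ?_⟩
  apply frattini_nongenerating
  rw [eq_top_iff]
  intro g _
  have hmap : (Subgroup.closure (Set.range z)).map (QuotientGroup.mk' (frattini P)) = ⊤ := by
    rw [MonoidHom.map_closure, ← hx]
    congr 1
    ext e
    constructor
    · rintro ⟨_, ⟨i, rfl⟩, rfl⟩
      refine ⟨i, ?_⟩
      rw [← hy i]
      exact QuotientGroup.eq.mpr (hz i)
    · rintro ⟨i, rfl⟩
      refine ⟨z i, ⟨i, rfl⟩, ?_⟩
      rw [← hy i]
      exact (QuotientGroup.eq.mpr (hz i)).symm
  have hg : QuotientGroup.mk' (frattini P) g ∈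
      (Subgroup.closure (Set.range z)).map (QuotientGroup.mk' (frattini P)) := by
    rw [hmap]; trivial
  obtain ⟨h, hh, hhg⟩ := hg
  have h1 : h⁻¹ * g ∈ frattini P := QuotientGroup.eq.mp hhg
  have h2 : g = h * (h⁻¹ * g) := by group
  rw [h2]
  exact Subgroup.mul_mem_sup hh h1

/-- P. Hall: automorphisms trivial on the Frattini quotient. -/
theorem card_dvd_of_trivial_on_frattini {P : Type*} [Group P] [Finite P] {p n r : ℕ}
    [hp : Fact p.Prime] (hP : Nat.card P = p ^ n) (hr : (frattini P).index = p ^ r)
    (A : Subgroup (MulAut P)) (hA : ∀ α ∈ A, ∀ x : P, α x * x⁻¹ ∈ frattini P) :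
    Nat.card A ∣ p ^ (r * (n - r)) := by
  classical
  obtain ⟨y, hy⟩ := exists_gens_frattini hr
  have hΦ : Nat.card (frattini P) = p ^ (n - r) := by
    have h1 := Subgroup.card_mul_index (frattini P)
    rw [hr, hP] at h1
    have hrn : r ≤ n := by
      have h2 : p ^ r ∣ p ^ n := ⟨_, by rw [← h1, mul_comm]⟩
      exact (Nat.pow_dvd_pow_iff_le_right hp.out.one_lt).mp h2
    have h3 : p ^ n = p ^ (n - r) * p ^ r := by rw [← pow_add, Nat.sub_add_cancel hrn]
    rw [h3] at h1
    exact Nat.eq_of_mul_eq_mul_right (pow_pos hp.out.pos r) h1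
  have hn : (frattini P).Normal := inferInstance
  have hcard : Nat.card {z : Fin r → P | ∀ i, (y i)⁻¹ * z i ∈ frattini P} = p ^ (r * (n - r)) := by
    have e : {z : Fin r → P | ∀ i, (y i)⁻¹ * z i ∈ frattini P} ≃ (Fin r → frattini P) :=
      { toFun := fun z i => ⟨(y i)⁻¹ * z.1 i, z.2 i⟩
        invFun := fun u => ⟨fun i => y i * u i, fun i => by simp⟩
        left_inv := fun z => by
          apply Subtype.ext
          funext i
          simp
        right_inv := fun u => by
          funext i
          apply Subtype.ext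
          simp }
    rw [Nat.card_congr e, Nat.card_fun, hΦ, Nat.card_eq_fintype_card, Fintype.card_fin, ← pow_mul,
      mul_comm]
  rw [← hcard]
  apply dvd_card_invariant (S := A)
  · intro α z hz i
    have h1 : (α • z) i = (α : MulAut P) (z i) := rfl
    rw [h1]
    have h2 := hA α α.2 (z i)
    have h3 := hn.conj_mem _ h2 (z i)⁻¹
    have h4 : (y i)⁻¹ * (α : MulAut P) (z i) =
        ((y i)⁻¹ * z i) * ((z i)⁻¹ * ((α : MulAut P) (z i) * (z i)⁻¹) * (z i)⁻¹⁻¹) := by group
    rw [h4]
    exact Subgroup.mul_mem _ (hz i) h3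
  · intro z hz
    have hbot : MulAction.stabilizer A z = ⊥ := by
      rw [eq_bot_iff]
      intro α hα
      rw [Subgroup.mem_bot]
      apply Subtype.ext
      have hfix : ∀ i, (α : MulAut P) (z i) = z i := fun i => congrFun hα i
      have h1 : ((α : MulAut P).toMonoidHom : P →* P) = MonoidHom.id P := by
        apply MonoidHom.eq_of_eqOn_dense (hy z hz)
        rintro _ ⟨i, rfl⟩
        exact hfix i
      ext x
      exact DFunLike.congr_fun h1 x
    rw [hbot, Subgroup.index_bot]


theorem card_mulAut_dvd' {E : Type*} [CommGroup E] [Finite E] {p r : ℕ} [hp : Fact p.Prime]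
    [Module (ZMod p) (Additive E)] (hcard : Nat.card E = p ^ r) :
    Nat.card (MulAut E) ∣ ∏ i ∈ Finset.range r, (p ^ r - p ^ i) := by
  classical
  letI : Fintype (Additive E) := Fintype.ofFinite _
  have hfin : Module.finrank (ZMod p) (Additive E) = r := by
    have h1 := Module.card_eq_pow_finrank (K := ZMod p) (V := Additive E)
    rw [ZMod.card, ← Nat.card_eq_fintype_card] at h1
    have h2 : Nat.card (Additive E) = p ^ r := hcard
    rw [h2] at h1
    exact (Nat.pow_right_injective hp.out.two_le h1).symm
  let b : Module.Basis (Fin r) (ZMod p) (Additive E) :=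
    Module.finBasisOfFinrankEq (ZMod p) (Additive E) hfin
  let ψ : MulAut E →* Matrix (Fin r) (Fin r) (ZMod p) :=
    { toFun := fun α => LinearMap.toMatrix b b
        ((MulEquiv.toAdditive α).toAddMonoidHom.toZModLinearMap p)
      map_one' := by
        rw [← LinearMap.toMatrix_id b]
        congr 1
      map_mul' := by
        intro α β
        rw [← LinearMap.toMatrix_mul]
        congr 1 }
  have hinj : Function.Injective ψ.toHomUnits := by
    intro α β h
    have h1 : ψ α = ψ β := congrArg Units.val h
    have h2 := (LinearMap.toMatrix b b).injective h1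
    ext x
    have h3 := DFunLike.congr_fun h2 (Additive.ofMul x)
    exact congrArg Additive.toMul h3
  have h4 := Subgroup.card_dvd_of_injective ψ.toHomUnits hinj
  have h5 := Matrix.card_GL_field (𝔽 := ZMod p) r
  rw [ZMod.card, Fin.prod_univ_eq_prod_range (fun i => p ^ r - p ^ i) r] at h5
  rw [← h5]
  exact h4

theorem card_mulAut_dvd {E : Type*} [CommGroup E] [Finite E] {p r : ℕ} [hp : Fact p.Prime]
    (hexp : ∀ x : E, x ^ p = 1) (hcard : Nat.card E = p ^ r) :
    Nat.card (MulAut E) ∣ ∏ i ∈ Finset.range r, (p ^ r - p ^ i) := by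
  letI : Module (ZMod p) (Additive E) := AddCommGroup.zmodModule (n := p) (fun x => by
    exact congrArg Additive.ofMul (hexp x.toMul))
  exact card_mulAut_dvd' hcard

/-- the action of automorphisms on the Frattini quotient -/
noncomputable def frattiniHom (P : Type*) [Group P] : MulAut P →* MulAut (P ⧸ frattini P) where
  toFun α := QuotientGroup.congr (frattini P) (frattini P) α
    (Subgroup.characteristic_iff_map_eq.mp frattini_characteristic α)
  map_one' := by
    ext x
    obtain ⟨x, rfl⟩ := QuotientGroup.mk_surjective x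
    rfl
  map_mul' α β := by
    ext x
    obtain ⟨x, rfl⟩ := QuotientGroup.mk_surjective x
    rfl

theorem frattiniHom_mk (P : Type*) [Group P] (α : MulAut P) (x : P) :
    frattiniHom P α (x : P ⧸ frattini P) = ((α x : P) : P ⧸ frattini P) := rfl

/-- P. Hall's bound for the order of the automorphism group of a `p`-group,
given that the Frattini quotient is elementary abelian. -/
theorem card_mulAut_dvd_hall {P : Type*} [Group P] [Finite P] {p n r : ℕ} [hp : Fact p.Prime]
    (hP : Nat.card P = p ^ n) (hr : (frattini P).index = p ^ r)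
    (hcomm : commutator P ≤ frattini P) (hpow : ∀ x : P, x ^ p ∈ frattini P) :
    Nat.card (MulAut P) ∣ p ^ (r * (n - r)) * ∏ i ∈ Finset.range r, (p ^ r - p ^ i) := by
  have h1 := Subgroup.card_mul_index (frattiniHom P).ker
  rw [Subgroup.index_ker] at h1
  rw [← h1]
  apply Nat.mul_dvd_mul
  · apply card_dvd_of_trivial_on_frattini hP hr
    intro α hα x
    have h2 : frattiniHom P α = 1 := hα
    have h3 := frattiniHom_mk P α x
    rw [h2] at h3
    rw [← QuotientGroup.eq_one_iff, QuotientGroup.mk_mul, ← h3, QuotientGroup.mk_inv]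
    simp
  · refine dvd_trans (Subgroup.card_subgroup_dvd_card _) ?_
    letI : CommGroup (P ⧸ frattini P) :=
      { (inferInstance : Group (P ⧸ frattini P)) with
        mul_comm := by
          have := (Subgroup.Normal.quotient_commutative_iff_commutator_le
            (N := frattini P)).mpr hcomm
          exact this.is_comm.comm }
    exact card_mulAut_dvd (E := P ⧸ frattini P) (p := p) (r := r) (by
      intro x
      obtain ⟨x, rfl⟩ := QuotientGroup.mk_surjective x
      rw [← QuotientGroup.mk_pow]
      exact (QuotientGroup.eq_one_iff _).mpr (hpow x)) hr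

end Cfsg.Agent.Lib.helper6_HallAut
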