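import Mathlib
import Cfsg.Prelude.Def_Blocks
import Cfsg.Agent.Lib.BlockPC
import Cfsg.Agent.Lib.BlockFongCover
import Cfsg.Agent.Lib.helper6_HallAut
import Cfsg.Agent.Lib.Helper7_Frat2

set_option autoImplicit false

namespace Cfsg.Agent.Lib.BlockDerived

open Cfsg

universe u

variable {G : Type u} [Group G] {M : Ideal AlgInt} {p : ℕ}

/-- a `p'`-element acting trivially on `D / D'` centralizes the normal `p`-subgroup `D` -/
theorem centralizes_of_mod_comm [Finite G] [hp : Fact p.Prime] (D : Subgroup G) [D.Normal]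
    (hD : IsPGroup p D) (x : G) (hx : ¬ p ∣ orderOf x)
    (h : ∀ y ∈ D, x * y * x⁻¹ * y⁻¹ ∈ ⁅D, D⁆) : x ∈ Subgroup.centralizer (D : Set G) := by
  set α : MulAut D := MulAut.conjNormal x with hα
  haveI : Group.IsNilpotent D := hD.isNilpotent
  have hfr : commutator D ≤ frattini D :=
    Cfsg.Agent.Lib.Helper7_Frat2.commutator_le_frattini_of_nilpotent
  have h1 : ∀ y : D, α y * y⁻¹ ∈ frattini D := by
    intro y
    apply hfr
    have h2 := h y y.2
    rw [← Subgroup.map_subtype_commutator] at h2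
    obtain ⟨w, hw, hw2⟩ := h2
    have : w = α y * y⁻¹ := by
      apply Subtype.ext
      rw [← Subgroup.coe_subtype, hw2]
      simp [hα, MulAut.conjNormal_apply]
    rwa [← this]
  have h2 : ∀ k : ℕ, ∀ y : D, (α ^ k) y * y⁻¹ ∈ frattini D := by
    intro k
    induction k with
    | zero => intro y; simp
    | succ k ih =>
      intro y
      have e : (α ^ (k + 1)) y * y⁻¹ = ((α ^ k) (α y) * (α y)⁻¹) * (α y * y⁻¹) := by
        rw [pow_succ, MulAut.mul_apply]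
        group
      rw [e]
      exact mul_mem (ih _) (h1 y)
  obtain ⟨n, hn⟩ := IsPGroup.iff_card.1 hD
  obtain ⟨r, hr⟩ := hD.index (frattini D)
  have h3 := Cfsg.Agent.Lib.helper6_HallAut.card_dvd_of_trivial_on_frattini hn hr
    (Subgroup.zpowers α) (by
      intro β hβ y
      rw [← mem_powers_iff_mem_zpowers] at hβ
      obtain ⟨k, rfl⟩ := hβ
      exact h2 k y)
  rw [Nat.card_zpowers] at h3
  have h4 : orderOf α ∣ orderOf x := orderOf_map_dvd _ x
  obtain ⟨j, -, hj⟩ := (Nat.dvd_prime_pow hp.out).1 h3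
  have h5 : orderOf α = 1 := by
    rcases Nat.eq_zero_or_pos j with rfl | hj0
    · rw [hj, pow_zero]
    · exfalso
      apply hx
      refine dvd_trans ?_ h4
      rw [hj]
      exact dvd_pow_self p hj0.ne'
  rw [orderOf_eq_one_iff] at h5
  rw [Subgroup.mem_centralizer_iff]
  intro y hy
  have h6 : α ⟨y, hy⟩ = ⟨y, hy⟩ := by rw [h5]; rfl
  have h7 := congrArg Subtype.val h6
  simp only [hα, MulAut.conjNormal_apply] at h7
  calc y * x = (x * y * x⁻¹) * x := by rw [h7]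
    _ = x * y := by group

theorem sameBlock_deflate_derived [Finite G] [hp : Fact p.Prime] (hM : IsPModular p M)
    (D : Subgroup G) [D.Normal] (hD : IsPGroup p D) (χ ψ : IrrCharacter (G ⧸ ⁅D, D⁆))
    (hs : SameBlock M (fun g : G => (χ : G ⧸ ⁅D, D⁆ → ℂ) (QuotientGroup.mk g))
      (fun g : G => (ψ : G ⧸ ⁅D, D⁆ → ℂ) (QuotientGroup.mk g))) :
    SameBlock M (χ : G ⧸ ⁅D, D⁆ → ℂ) (ψ : G ⧸ ⁅D, D⁆ → ℂ) := by
  have hle : ⁅D, D⁆ ≤ D := Subgroup.commutator_le_left D D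
  have hD' : IsPGroup p (⁅D, D⁆ : Subgroup G) := hD.to_le hle
  apply Cfsg.Agent.Lib.BlockFongCover.sameBlock_of_centralizer hM
    (D.map (QuotientGroup.mk' ⁅D, D⁆))
    (Subgroup.Normal.map inferInstance _ (QuotientGroup.mk'_surjective _)) (hD.map _) χ ψ
  intro y hy hyreg
  obtain ⟨x, rfl, hx⟩ := Cfsg.Agent.Lib.BlockPC.exists_regular_lift ⁅D, D⁆ hM.1 y hyreg
  have hxc : x ∈ Subgroup.centralizer (D : Set G) := by
    apply centralizes_of_mod_comm D hD x hx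
    intro d hd
    rw [Subgroup.mem_centralizer_iff] at hy
    have h1 := hy (QuotientGroup.mk' ⁅D, D⁆ d) ⟨d, hd, rfl⟩
    rw [← QuotientGroup.eq_one_iff]
    have h2 : ((x * d * x⁻¹ * d⁻¹ : G) : G ⧸ ⁅D, D⁆) =
      (x : G ⧸ ⁅D, D⁆) * QuotientGroup.mk' ⁅D, D⁆ d * (x : G ⧸ ⁅D, D⁆)⁻¹ *
        (QuotientGroup.mk' ⁅D, D⁆ d)⁻¹ := rfl
    rw [h2, ← h1]
    group
  have hxc' : x ∈ Subgroup.centralizer ((⁅D, D⁆ : Subgroup G) : Set G) :=
    Subgroup.centralizer_le hle hxc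
  rw [← Cfsg.Agent.Lib.BlockPC.centralChar_inflate ⁅D, D⁆ hM.1 hD' hxc' hx,
    ← Cfsg.Agent.Lib.BlockPC.centralChar_inflate ⁅D, D⁆ hM.1 hD' hxc' hx]
  exact hs x

end Cfsg.Agent.Lib.BlockDerived
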