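import Mathlib
import Cfsg.Prelude.Def_Characters
import Cfsg.Agent.Lib.CharInd

set_option autoImplicit false

namespace Cfsg.Agent.Lib.Helper5_IndCoset

open Cfsg Cfsg.Agent.Lib.CharInd

variable {G : Type*} [Group G]

theorem extendByZero_conj (H : Subgroup G) (θ : H → ℂ) (hθ : IsClassFunction H θ) (h : H) (y : G) :
    extendByZero H θ ((h : G)⁻¹ * y * h) = extendByZero H θ y := by
  by_cases hy : y ∈ H
  · have h1 : (h : G)⁻¹ * y * h = ((h⁻¹ * ⟨y, hy⟩ * h⁻¹⁻¹ : H) : G) := by simp
    rw [h1, extendByZero_coe, hθ, extendByZero_mem H θ hy]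
  · rw [extendByZero_not_mem H θ hy, extendByZero_not_mem]
    intro h2
    apply hy
    have := H.mul_mem (H.mul_mem h.2 h2) (H.inv_mem h.2)
    simpa [mul_assoc] using this

/-- the induced function as a sum over coset representatives -/
theorem indFun_eq_sum_reps [Fintype G] (H : Subgroup G) {ι : Type*} [Fintype ι] (r : ι → G)
    (hr : Function.Bijective (fun x : ι × H => r x.1 * (x.2 : G))) (θ : H → ℂ) (hθ : IsClassFunction H θ)
    (g : G) : indFun H θ g = ∑ i, extendByZero H θ ((r i)⁻¹ * g * r i) := by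
  classical
  haveI : Fintype H := Fintype.ofFinite H
  have hH : (Nat.card H : ℂ) ≠ 0 := by exact_mod_cast Nat.card_pos.ne'
  unfold indFun
  rw [← (Equiv.ofBijective _ hr).sum_comp, Fintype.sum_prod_type]
  have : ∀ i : ι, ∑ h : H, extendByZero H θ (((Equiv.ofBijective _ hr) (i, h))⁻¹ * g * (Equiv.ofBijective _ hr) (i, h)) =
      (Nat.card H : ℂ) * extendByZero H θ ((r i)⁻¹ * g * r i) := by
    intro i
    have h1 : ∀ h : H, extendByZero H θ (((Equiv.ofBijective _ hr) (i, h))⁻¹ * g * (Equiv.ofBijective _ hr) (i, h)) =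
        extendByZero H θ ((r i)⁻¹ * g * r i) := by
      intro h
      rw [← extendByZero_conj H θ hθ h ((r i)⁻¹ * g * r i)]
      congr 1
      simp only [Equiv.ofBijective_apply, mul_inv_rev]
      group
    rw [Finset.sum_congr rfl fun h _ => h1 h, Finset.sum_const, Finset.card_univ, nsmul_eq_mul,
      Nat.card_eq_fintype_card]
  rw [Finset.sum_congr rfl fun i _ => this i, ← Finset.mul_sum, ← mul_assoc, inv_mul_cancel₀ hH, one_mul]

end Cfsg.Agent.Lib.Helper5_IndCoset
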