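import Mathlib
import Cfsg.Prelude.Def_BrauerPairs
import Cfsg.Agent.Lib.BlockFong
import Cfsg.Agent.Lib.Helper5_IndCoset
import Cfsg.Agent.Lib.CharThompson

set_option autoImplicit false

namespace Cfsg.Agent.Lib.BlockFR

open Cfsg Cfsg.Agent.Lib.Helper2_BlockLocal Cfsg.Agent.Lib.Helper2_BlockOm
  Cfsg.Agent.Lib.Helper2_BlockOsima Cfsg.Agent.Lib.Helper2_BlockBasic
  Cfsg.Agent.Lib.Helper2_BlockOrtho Cfsg.Agent.Lib.Helper2_BlockMinMax
  Cfsg.Agent.Lib.Helper2_BlockInd Cfsg.Agent.Lib.Helper2_BlockDefect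
  Cfsg.Agent.Lib.Helper2_BlockPCore Cfsg.Agent.Lib.Helper2_BlockNormal
  Cfsg.Agent.Lib.Helper2_BlockBrauer Cfsg.Agent.Lib.Helper2_BlockFMT
  Cfsg.Agent.Lib.Helper2_BlockCover Cfsg.Agent.Lib.Helper2_BlockCover2
  Cfsg.Agent.Lib.Helper2_BlockCover3 Cfsg.Agent.Lib.Helper2_BlockDefOrder
  Cfsg.Agent.Lib.Helper2_BP1 Cfsg.Agent.Lib.Helper2_BP2 Cfsg.Agent.Lib.Helper2_BP11
  Cfsg.Agent.Lib.BlockIdemFMT Cfsg.Agent.Lib.BlockFong
  Cfsg.Agent.Lib.CharBasic Cfsg.Agent.Lib.CharOrtho
  Cfsg.Agent.Lib.CharComplete Cfsg.Agent.Lib.CharIntegral Cfsg.Agent.Lib.CharMore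
  Cfsg.Agent.Lib.CharPerm Cfsg.Agent.Lib.CharInd Cfsg.Agent.Lib.CharClifford
  Cfsg.Agent.Lib.CharThompson
open scoped ComplexConjugate Classical

universe u

variable {G : Type u} [Group G] [Fintype G] {M : Ideal AlgInt} {p : ℕ} (N : Subgroup G)
  (hN : N.Normal) [Fintype N]

/-- the weight of a function on `N` in a set of irreducible characters -/
noncomputable def wt (A : Set (IrrCharacter N)) (φ : N → ℂ) : ℂ := ∑ n : N, blockCoeff A n * φ n

theorem wt_irr (A : Set (IrrCharacter N)) (θ : IrrCharacter N) :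
    wt N A (θ : N → ℂ) = if θ ∈ A then (θ : N → ℂ) 1 else 0 := by
  have h := Om_blockCoeff A θ
  have h0 := irr_degree_ne_zero θ.2
  unfold Om at h
  unfold wt
  rw [div_eq_iff h0] at h
  rw [h]
  split_ifs <;> simp

theorem wt_sum {ι : Type*} (A : Set (IrrCharacter N)) (s : Finset ι) (c : ι → ℂ) (f : ι → N → ℂ) :
    wt N A (∑ i ∈ s, c i • f i) = ∑ i ∈ s, c i * wt N A (f i) := by
  unfold wt
  simp only [Finset.sum_apply, Pi.smul_apply, smul_eq_mul, Finset.mul_sum]
  rw [Finset.sum_comm]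
  refine Finset.sum_congr rfl fun i _ => Finset.sum_congr rfl fun n _ => ?_
  ring

/-- the weights of a character are natural numbers -/
theorem wt_char {φ : N → ℂ} (hφ : IsCharacter N φ) :
    ∃ m : IrrCharacter N → ℕ, (∀ θ : IrrCharacter N, classInner φ (θ : N → ℂ) = m θ) ∧
      ∀ A : Set (IrrCharacter N), wt N A φ =
        ((∑ θ : IrrCharacter N, if θ ∈ A then m θ * charDegree (θ : N → ℂ) else 0 : ℕ) : ℂ) := by
  obtain ⟨m, hm, hexp⟩ := exists_mult hφ
  refine ⟨m, hm, fun A => ?_⟩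
  conv_lhs => rw [hexp]
  rw [wt_sum]
  push_cast
  refine Finset.sum_congr rfl fun θ _ => ?_
  rw [wt_irr]
  split_ifs
  · rw [charDegree_spec θ.2]
  · simp

theorem wt_univ {φ : N → ℂ} (hφ : IsCharacter N φ) : wt N Set.univ φ = φ 1 := by
  obtain ⟨m, hm, hexp⟩ := exists_mult hφ
  conv_lhs => rw [hexp]
  rw [wt_sum]
  conv_rhs => rw [hexp]
  rw [Finset.sum_apply]
  refine Finset.sum_congr rfl fun θ _ => ?_
  rw [wt_irr, if_pos (Set.mem_univ _)]
  rfl

theorem wt_ne_zero_iff {φ : N → ℂ} (hφ : IsCharacter N φ) (A : Set (IrrCharacter N)) :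
    wt N A φ ≠ 0 ↔ ∃ θ ∈ A, classInner φ (θ : N → ℂ) ≠ 0 := by
  obtain ⟨m, hm, hw⟩ := wt_char N hφ
  rw [hw A]
  have hd : ∀ θ : IrrCharacter N, charDegree (θ : N → ℂ) ≠ 0 := by
    intro θ h
    have := charDegree_spec θ.2
    rw [h] at this
    exact irr_degree_ne_zero θ.2 (by simpa using this)
  constructor
  · intro h
    have h1 : (∑ θ : IrrCharacter N, if θ ∈ A then m θ * charDegree (θ : N → ℂ) else 0) ≠ 0 := by
      exact_mod_cast h
    obtain ⟨θ, -, hθ⟩ := Finset.exists_ne_zero_of_sum_ne_zero h1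
    by_cases hA : θ ∈ A
    · rw [if_pos hA] at hθ
      refine ⟨θ, hA, ?_⟩
      rw [hm]
      intro h0
      apply hθ
      have : m θ = 0 := by exact_mod_cast h0
      rw [this, zero_mul]
    · rw [if_neg hA] at hθ; exact absurd rfl hθ
  · rintro ⟨θ, hA, hθ⟩
    rw [hm] at hθ
    have h0 : m θ ≠ 0 := by exact_mod_cast hθ
    have h1 : (∑ θ : IrrCharacter N, if θ ∈ A then m θ * charDegree (θ : N → ℂ) else 0) ≠ 0 := by
      intro hs
      have := (Finset.sum_eq_zero_iff.mp hs) θ (Finset.mem_univ _)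
      rw [if_pos hA] at this
      exact (Nat.mul_ne_zero h0 (hd θ)) this
    exact_mod_cast h1

/-- If the whole degree of `φ` is concentrated in `A`, the weight in a disjoint set is zero. -/
theorem wt_disjoint {φ : N → ℂ} (hφ : IsCharacter N φ) {A A' : Set (IrrCharacter N)}
    (hA : wt N A φ = φ 1) (hd : ∀ θ ∈ A', θ ∉ A) : wt N A' φ = 0 := by
  obtain ⟨m, hm, hw⟩ := wt_char N hφ
  have h1 := wt_univ N hφ
  rw [← hA, hw, hw] at h1
  rw [hw]
  have h2 : (∑ θ : IrrCharacter N, m θ * charDegree (θ : N → ℂ)) =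
      ∑ θ : IrrCharacter N, if θ ∈ A then m θ * charDegree (θ : N → ℂ) else 0 := by
    simp only [Set.mem_univ, if_true] at h1
    exact_mod_cast h1
  have h3 : (∑ θ : IrrCharacter N, if θ ∈ A' then m θ * charDegree (θ : N → ℂ) else 0) = 0 := by
    have h4 : (∑ θ : IrrCharacter N, m θ * charDegree (θ : N → ℂ)) =
        (∑ θ : IrrCharacter N, if θ ∈ A then m θ * charDegree (θ : N → ℂ) else 0) +
        ∑ θ : IrrCharacter N, if θ ∉ A then m θ * charDegree (θ : N → ℂ) else 0 := by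
      rw [← Finset.sum_add_distrib]
      refine Finset.sum_congr rfl fun θ _ => ?_
      by_cases h : θ ∈ A <;> simp [h]
    have h5 : (∑ θ : IrrCharacter N, if θ ∉ A then m θ * charDegree (θ : N → ℂ) else 0) = 0 := by
      omega
    apply Finset.sum_eq_zero
    intro θ _
    have h6 := (Finset.sum_eq_zero_iff.mp h5) θ (Finset.mem_univ _)
    by_cases h : θ ∈ A'
    · rw [if_pos h]
      rwa [if_pos (hd θ h)] at h6
    · rw [if_neg h]
  rw [h3]
  simp

/-- the conjugate of a set of irreducible characters -/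
def cb (b : Set (IrrCharacter N)) (x : G) : Set (IrrCharacter N) := (conjIrr N hN x) '' b

theorem blockCoeff_cb (b : Set (IrrCharacter N)) (x : G) (n : N) :
    blockCoeff b ⟨x * n * x⁻¹, hN.conj_mem n n.2 x⟩ = blockCoeff (cb N hN b x) n := by
  unfold blockCoeff cb
  rw [finsum_mem_image (conjIrr N hN x).injective.injOn]
  congr 1
  apply finsum_mem_congr rfl
  intro χ _
  have h1 : ((conjIrr N hN x χ : IrrCharacter N) : N → ℂ) 1 = (χ : N → ℂ) 1 := by
    rw [conjIrr_coe, conjFun_apply]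
    have : (⟨x * ((1 : N) : G) * x⁻¹, hN.conj_mem _ (1 : N).2 x⟩ : N) = 1 := by
      apply Subtype.ext
      simp
    rw [this]
  rw [h1]
  rfl

theorem wt_conjFun (b : Set (IrrCharacter N)) (φ : N → ℂ) (x : G) :
    wt N b (conjFun N hN φ x⁻¹) = wt N (cb N hN b x) φ := by
  unfold wt
  rw [← Equiv.sum_comp (@MulAut.conjNormal G _ N hN x).toEquiv]
  refine Finset.sum_congr rfl fun n _ => ?_
  have h1 : ((@MulAut.conjNormal G _ N hN x).toEquiv n : N) =
      ⟨x * n * x⁻¹, hN.conj_mem n n.2 x⟩ := rfl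
  rw [h1, blockCoeff_cb N hN, conjFun_apply]
  congr 2
  apply Subtype.ext
  simp only [inv_inv]
  group

section stab

variable {b : Set (IrrCharacter N)} {T : Subgroup G} [Fintype T]
  (hT : ∀ g : G, g ∈ T ↔ ∀ θ ∈ b, conjIrr N hN g θ ∈ b) (hNT : N ≤ T)

include hT in
omit [Fintype N] [Fintype T] in
theorem cb_eq_of_mem {x : G} (hx : x ∈ T) : cb N hN b x = b := by
  apply Set.Subset.antisymm
  · rintro _ ⟨θ, hθ, rfl⟩
    exact (hT x).mp hx θ hθ
  · intro θ hθ
    exact ⟨conjIrr N hN x⁻¹ θ, (hT x⁻¹).mp (T.inv_mem hx) θ hθ, (conjIrr N hN x).right_inv θ⟩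

include hT in
omit [Fintype N] [Fintype T] in
theorem cb_disjoint (hM : M.IsPrime) (hb : IsPBlock M b) {x : G} (hx : x ∉ T) :
    ∀ θ ∈ cb N hN b x, θ ∉ b := by
  rintro _ ⟨θ, hθ, rfl⟩ hmem
  apply hx
  rw [hT]
  intro θ1 hθ1
  have h1 := sameBlock_conjFun N hN (sameBlock_of_mem hM hb hθ hθ1) x
  rw [block_eq_blockOf hM hb hmem]
  exact h1

/-- restriction from `T` to `N` -/
def resN (ψ : T → ℂ) : N → ℂ := fun n => ψ ⟨(n : G), hNT n.2⟩

omit [Fintype G] [Fintype N] [Fintype T] in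
theorem isCharacter_resN {ψ : T → ℂ} (hψ : IsCharacter T ψ) : IsCharacter N (resN N hNT ψ) :=
  isCharacter_comp (Subgroup.inclusion hNT) hψ

omit [Fintype N] [Fintype T] in
theorem ind_apply (ψ : T → ℂ) (n : N) :
    indFun T ψ (n : G) =
      (Nat.card T : ℂ)⁻¹ * ∑ x : G, conjFun N hN (resN N hNT ψ) x⁻¹ n := by
  unfold indFun
  congr 1
  refine Finset.sum_congr rfl fun x _ => ?_
  have h1 : x⁻¹ * (n : G) * x ∈ N := by
    have := hN.conj_mem n n.2 x⁻¹
    simpa using this
  rw [extendByZero_mem T ψ (hNT h1), conjFun_apply]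
  unfold resN
  congr 1
  apply Subtype.ext
  simp

include hT in
theorem wt_ind (hM : M.IsPrime) (hb : IsPBlock M b) {ψ : T → ℂ} (hψ : IsCharacter T ψ)
    (hw : wt N b (resN N hNT ψ) = ψ 1) : wt N b (fun n : N => indFun T ψ (n : G)) = ψ 1 := by
  have hTC : (Nat.card T : ℂ) ≠ 0 := by exact_mod_cast Nat.card_pos.ne'
  have h1 : wt N b (fun n : N => indFun T ψ (n : G)) =
      (Nat.card T : ℂ)⁻¹ * ∑ x : G, wt N b (conjFun N hN (resN N hNT ψ) x⁻¹) := by
    unfold wt
    simp only [ind_apply N hN hNT, Finset.mul_sum]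
    rw [Finset.sum_comm]
    refine Finset.sum_congr rfl fun x _ => Finset.sum_congr rfl fun n _ => ?_
    ring
  rw [h1]
  have h2 : ∀ x : G, wt N b (conjFun N hN (resN N hNT ψ) x⁻¹) = if x ∈ T then ψ 1 else 0 := by
    intro x
    rw [wt_conjFun]
    split_ifs with hx
    · rw [cb_eq_of_mem N hN hT hx, hw]
    · exact wt_disjoint N (isCharacter_resN N hNT hψ) hw (cb_disjoint N hN hT hM hb hx)
  simp only [h2]
  rw [← Finset.sum_filter, Finset.sum_const, nsmul_eq_mul]
  have h3 : ((Finset.univ.filter (fun x : G => x ∈ T)).card : ℂ) = (Nat.card T : ℂ) := by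
    congr 1
    rw [Nat.card_eq_fintype_card, Fintype.card_subtype]
  rw [h3, ← mul_assoc, inv_mul_cancel₀ hTC, one_mul]

include hT in
omit [Fintype T] in
theorem inv_extCoeff : Inv T (extCoeff N b) := by
  intro y hy x
  unfold extCoeff
  by_cases hx : x ∈ N
  · rw [extendByZero_mem N _ hx, extendByZero_mem N _ (hN.conj_mem x hx y)]
    have := blockCoeff_cb N hN b y ⟨x, hx⟩
    rw [cb_eq_of_mem N hN hT hy] at this
    exact this
  · have hx' : y * x * y⁻¹ ∉ N := by
      intro h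
      apply hx
      have := hN.conj_mem _ h y⁻¹
      simpa [mul_assoc] using this
    rw [extendByZero_not_mem N _ hx, extendByZero_not_mem N _ hx']

/-- the idempotent of `b` as a function on `T` -/
noncomputable def epsT (b : Set (IrrCharacter N)) (T : Subgroup G) : T → ℂ :=
  fun t => extCoeff N b (t : G)

include hT in
omit [Fintype T] in
theorem epsT_classFunction : IsClassFunction T (epsT N b T) :=
  restrict_classFunction_of_inv (inv_extCoeff N hN hT)

omit [Fintype N] [Fintype T] in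
theorem epsT_ring (hM : M.IsPrime) (hb : IsPBlock M b) (t : T) : MemLocalRing M (epsT N b T t) :=
  extCoeff_ring N hM hb _

theorem sum_epsT (δ : T → ℂ) : ∑ t : T, epsT N b T t * δ t = wt N b (resN N hNT δ) := by
  have h1 := sum_extendByZero_mul T δ (extCoeff N b)
  have h2 := sum_extendByZero_mul N (blockCoeff b) (extendByZero T δ)
  unfold wt epsT resN
  calc ∑ t : T, extCoeff N b (t : G) * δ t = ∑ t : T, δ t * extCoeff N b (t : G) :=
        Finset.sum_congr rfl fun t _ => mul_comm _ _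
    _ = ∑ g : G, extendByZero T δ g * extCoeff N b g := h1.symm
    _ = ∑ g : G, extendByZero N (blockCoeff b) g * extendByZero T δ g :=
        Finset.sum_congr rfl fun t _ => mul_comm _ _
    _ = ∑ n : N, blockCoeff b n * extendByZero T δ (n : G) := h2
    _ = _ := Finset.sum_congr rfl fun n _ => by rw [extendByZero_mem T δ (hNT n.2)]

theorem Om_epsT (δ : T → ℂ) : Om (epsT N b T) δ = wt N b (resN N hNT δ) / δ 1 := by
  unfold Om
  rw [sum_epsT N hNT]

include hN hT hNT in
theorem Om_epsT_zero_or_one (δ : IrrCharacter T) :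
    Om (epsT N b T) (δ : T → ℂ) = 1 ∨ Om (epsT N b T) (δ : T → ℂ) = 0 := by
  have hN' : (N.subgroupOf T).Normal := inferInstance
  obtain ⟨θ, hθ⟩ := exists_under (N.subgroupOf T) δ
  set φ := Subgroup.subgroupOfEquivOfLe hNT with hφ
  have hcL : IsClassFunction T (epsT N b T) := epsT_classFunction N hN hT
  have key : Om (epsT N b T) (δ : T → ℂ) =
      Om (blockCoeff b) ((mapIrr φ θ : IrrCharacter N) : N → ℂ) := by
    rw [Om_eq_Om_restrict (N.subgroupOf T) (c := epsT N b T) (fun l hl => by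
        rw [Subgroup.mem_subgroupOf] at hl
        exact extendByZero_not_mem N _ hl),
      Om_restrict_eq (N.subgroupOf T) hN' δ.2 θ.2 hθ hcL]
    unfold Om
    have h1 : ((mapIrr φ θ : IrrCharacter N) : N → ℂ) 1 = (θ : N.subgroupOf T → ℂ) 1 := by
      conv_lhs => rw [← map_one φ, mapIrr_apply]
    rw [h1]
    congr 1
    rw [← Equiv.sum_comp φ.toEquiv]
    refine Finset.sum_congr rfl fun y _ => ?_
    simp only [MulEquiv.toEquiv_eq_coe, EquivLike.coe_coe]
    rw [mapIrr_apply]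
    congr 1
    exact extendByZero_coe N _ (φ y)
  rw [key, Om_blockCoeff]
  split_ifs
  · left; rfl
  · right; rfl

/-- `δ` lies over `b`. -/
def OverB (b : Set (IrrCharacter N)) (δ : T → ℂ) : Prop := Om (epsT N b T) δ = 1

include hN hT in
theorem overB_iff (δ : IrrCharacter T) :
    OverB N b (δ : T → ℂ) ↔ ∃ θ ∈ b, classInner (resN N hNT (δ : T → ℂ)) (θ : N → ℂ) ≠ 0 := by
  have h0 := irr_degree_ne_zero δ.2
  rw [← wt_ne_zero_iff N (isCharacter_resN N hNT (isCharacter_of_isIrr δ.2))]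
  unfold OverB
  constructor
  · intro h hw
    rw [Om_epsT N hNT, hw, zero_div] at h
    exact zero_ne_one h
  · intro hw
    rcases Om_epsT_zero_or_one N hN hT hNT δ with h | h
    · exact h
    · exfalso
      rw [Om_epsT N hNT, div_eq_zero_iff] at h
      rcases h with h | h
      · exact hw h
      · exact h0 h

theorem wt_of_overB {δ : IrrCharacter T} (h : OverB N b (δ : T → ℂ)) :
    wt N b (resN N hNT (δ : T → ℂ)) = (δ : T → ℂ) 1 := by
  have h0 := irr_degree_ne_zero δ.2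
  unfold OverB at h
  rw [Om_epsT N hNT, div_eq_iff h0, one_mul] at h
  exact h

include hN hT in
theorem wt_of_not_overB {δ : IrrCharacter T} (h : ¬ OverB N b (δ : T → ℂ)) :
    wt N b (resN N hNT (δ : T → ℂ)) = 0 := by
  have h0 := irr_degree_ne_zero δ.2
  rcases Om_epsT_zero_or_one N hN hT hNT δ with h1 | h1
  · exact absurd h1 h
  · rw [Om_epsT N hNT, div_eq_zero_iff] at h1
    rcases h1 with h1 | h1
    · exact h1
    · exact absurd h1 h0

include hT hNT in
/-- The key multiplicity statement of the Fong-Reynolds correspondence. -/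
theorem mult (hM : M.IsPrime) (hb : IsPBlock M b) {ψ : IrrCharacter T}
    (hψ : OverB N b (ψ : T → ℂ)) (δ : IrrCharacter T) (hδ : OverB N b (δ : T → ℂ)) :
    classInner (fun t : T => indFun T (ψ : T → ℂ) (t : G)) (δ : T → ℂ) = if δ = ψ then 1 else 0 := by
  set χ := indFun T (ψ : T → ℂ) with hχ
  have hχc : IsCharacter G χ := isCharacter_indFun T _ (isCharacter_of_isIrr ψ.2)
  have hΦ : IsCharacter T (fun t : T => χ (t : G)) := isCharacter_restrict T hχc
  obtain ⟨m, hm, hexp⟩ := exists_mult hΦ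
  have hw := wt_ind N hN hT hNT hM hb (isCharacter_of_isIrr ψ.2) (wt_of_overB N hNT hψ)
  have h1 : (fun n : N => indFun T (ψ : T → ℂ) (n : G)) =
      ∑ η : IrrCharacter T, (m η : ℂ) • resN N hNT (η : T → ℂ) := by
    funext n
    have := congrFun hexp ⟨(n : G), hNT n.2⟩
    simp only [Finset.sum_apply, Pi.smul_apply] at this ⊢
    exact this
  rw [h1, wt_sum] at hw
  have h2 : ∀ η : IrrCharacter T, (m η : ℂ) * wt N b (resN N hNT (η : T → ℂ)) =
      ((if OverB N b (η : T → ℂ) then m η * charDegree (η : T → ℂ) else 0 : ℕ) : ℂ) := by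
    intro η
    split_ifs with hη
    · rw [wt_of_overB N hNT hη, charDegree_spec η.2]; push_cast; ring
    · rw [wt_of_not_overB N hN hT hNT hη]; simp
  simp only [h2] at hw
  rw [charDegree_spec ψ.2] at hw
  have h3 : (∑ η : IrrCharacter T, if OverB N b (η : T → ℂ) then m η * charDegree (η : T → ℂ)
      else 0) = charDegree (ψ : T → ℂ) := by exact_mod_cast hw
  have hd : ∀ η : IrrCharacter T, charDegree (η : T → ℂ) ≠ 0 := by
    intro η h
    have := charDegree_spec η.2
    rw [h] at this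
    exact irr_degree_ne_zero η.2 (by simpa using this)
  -- `m ψ ≠ 0`
  have hmψ : m ψ ≠ 0 := by
    intro h0
    have h4 : classInner χ χ = 0 := by
      conv_lhs => rw [hχ]
      rw [frobenius_reciprocity T _ _ (isClassFunction_of_isCharacter hχc), ← classInner_conj_symm,
        hm, h0]
      simp
    obtain ⟨η, hη⟩ := exists_constituent hχc (by
      intro h
      have h5 := indFun_one T (ψ : T → ℂ)
      rw [← hχ, h] at h5
      have h6 : (T.index : ℂ) ≠ 0 := by exact_mod_cast Subgroup.index_ne_zero_of_finite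
      exact (mul_ne_zero h6 (irr_degree_ne_zero ψ.2)) h5.symm)
    obtain ⟨k, hk, -⟩ := exists_mult hχc
    rw [classInner_eq_sum χ χ (isClassFunction_of_isCharacter hχc)] at h4
    simp_rw [hk, Complex.conj_natCast] at h4
    have h7 : ∑ η : IrrCharacter G, k η * k η = 0 := by exact_mod_cast h4
    have h8 := (Finset.sum_eq_zero_iff.mp h7) η (Finset.mem_univ _)
    rw [hk] at hη
    apply hη
    have : k η = 0 := by
      rcases Nat.mul_eq_zero.mp h8 with h | h <;> exact h
    rw [this]; simp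
  have h5 : ∀ η : IrrCharacter T, η ≠ ψ → OverB N b (η : T → ℂ) → m η = 0 := by
    intro η hne hη
    by_contra hmη
    have h6 : (∑ η ∈ ({ψ, η} : Finset (IrrCharacter T)), if OverB N b (η : T → ℂ) then
        m η * charDegree (η : T → ℂ) else 0) ≤ ∑ η : IrrCharacter T,
        if OverB N b (η : T → ℂ) then m η * charDegree (η : T → ℂ) else 0 :=
      Finset.sum_le_sum_of_subset (Finset.subset_univ _)
    rw [Finset.sum_pair hne.symm, if_pos hψ, if_pos hη, h3] at h6
    have h7 : 1 * charDegree (ψ : T → ℂ) ≤ m ψ * charDegree (ψ : T → ℂ) :=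
      Nat.mul_le_mul_right _ (Nat.one_le_iff_ne_zero.mpr hmψ)
    have h8 : 0 < m η * charDegree (η : T → ℂ) :=
      Nat.pos_of_ne_zero (Nat.mul_ne_zero hmη (hd η))
    omega
  have h6 : m ψ = 1 := by
    have h7 : (∑ η : IrrCharacter T, if OverB N b (η : T → ℂ) then m η * charDegree (η : T → ℂ)
        else 0) = m ψ * charDegree (ψ : T → ℂ) := by
      rw [Finset.sum_eq_single ψ]
      · rw [if_pos hψ]
      · intro η _ hne
        split_ifs with hη
        · rw [h5 η hne hη, zero_mul]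
        · rfl
      · intro h; exact absurd (Finset.mem_univ _) h
    rw [h7] at h3
    have : m ψ * charDegree (ψ : T → ℂ) = 1 * charDegree (ψ : T → ℂ) := by rw [h3, one_mul]
    exact Nat.eq_of_mul_eq_mul_right (Nat.pos_of_ne_zero (hd ψ)) this
  rw [hm]
  split_ifs with h
  · rw [h, h6]; simp
  · rw [h5 δ h hδ]; simp

include hT hNT in
theorem irr_ind (hM : M.IsPrime) (hb : IsPBlock M b) {ψ : IrrCharacter T}
    (hψ : OverB N b (ψ : T → ℂ)) : IsIrrCharacter G (indFun T (ψ : T → ℂ)) := by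
  have hχc : IsCharacter G (indFun T (ψ : T → ℂ)) :=
    isCharacter_indFun T _ (isCharacter_of_isIrr ψ.2)
  apply isIrr_of_norm_one hχc
  rw [frobenius_reciprocity T _ _ (isClassFunction_of_isCharacter hχc), ← classInner_conj_symm,
    mult N hN hT hNT hM hb hψ ψ hψ, if_pos rfl]
  simp

include hT hNT in
theorem ind_inj (hM : M.IsPrime) (hb : IsPBlock M b) {ψ δ : IrrCharacter T}
    (hψ : OverB N b (ψ : T → ℂ)) (hδ : OverB N b (δ : T → ℂ))
    (h : indFun T (ψ : T → ℂ) = indFun T (δ : T → ℂ)) : ψ = δ := by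
  have h1 := mult N hN hT hNT hM hb hψ δ hδ
  have h2 := mult N hN hT hNT hM hb hδ δ hδ
  rw [h, h2, if_pos rfl] at h1
  by_contra hne
  rw [if_neg (fun e => hne e.symm)] at h1
  exact one_ne_zero h1

include hT hNT in
theorem over_ind (hM : M.IsPrime) (hb : IsPBlock M b) {ψ : IrrCharacter T}
    (hψ : OverB N b (ψ : T → ℂ)) :
    ∃ θ ∈ b, classInner (fun n : N => indFun T (ψ : T → ℂ) (n : G)) (θ : N → ℂ) ≠ 0 := by
  rw [← wt_ne_zero_iff N (isCharacter_restrict N
    (isCharacter_indFun T _ (isCharacter_of_isIrr ψ.2))),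
    wt_ind N hN hT hNT hM hb (isCharacter_of_isIrr ψ.2) (wt_of_overB N hNT hψ)]
  exact irr_degree_ne_zero ψ.2

include hT hNT in
theorem ind_surj (hM : M.IsPrime) (hb : IsPBlock M b) (χ : IrrCharacter G) {θ : IrrCharacter N}
    (hθ : θ ∈ b) (h : classInner (fun n : N => (χ : G → ℂ) n) (θ : N → ℂ) ≠ 0) :
    ∃ δ : IrrCharacter T, OverB N b (δ : T → ℂ) ∧ (χ : G → ℂ) = indFun T (δ : T → ℂ) := by
  have hΦ : IsCharacter T (fun t : T => (χ : G → ℂ) (t : G)) :=
    isCharacter_restrict T (isCharacter_of_isIrr χ.2)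
  obtain ⟨m, hm, hexp⟩ := exists_mult hΦ
  have h1 : (fun n : N => (χ : G → ℂ) (n : G)) =
      ∑ η : IrrCharacter T, (m η : ℂ) • resN N hNT (η : T → ℂ) := by
    funext n
    have := congrFun hexp ⟨(n : G), hNT n.2⟩
    simp only [Finset.sum_apply, Pi.smul_apply] at this ⊢
    exact this
  rw [h1, classInner_sum_left] at h
  obtain ⟨δ, -, hδ⟩ := Finset.exists_ne_zero_of_sum_ne_zero h
  rw [classInner_smul_left] at hδ
  have hδ1 : (m δ : ℂ) ≠ 0 := left_ne_zero_of_mul hδ
  have hδ2 := right_ne_zero_of_mul hδ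
  have hov : OverB N b (δ : T → ℂ) := (overB_iff N hN hT hNT δ).mpr ⟨θ, hθ, hδ2⟩
  refine ⟨δ, hov, ?_⟩
  have hirr := irr_ind N hN hT hNT hM hb hov
  have h2 : classInner (indFun T (δ : T → ℂ)) (χ : G → ℂ) ≠ 0 := by
    rw [frobenius_reciprocity T _ _ (irr_classFunction χ), ← classInner_conj_symm, hm]
    simpa using hδ1
  rw [classInner_irr hirr χ.2] at h2
  by_contra hne
  rw [if_neg (fun e => hne e.symm)] at h2
  exact h2 rfl

include hN hT hNT in
theorem overB_of_sameBlock (hM : M.IsPrime) (hb : IsPBlock M b) {ψ δ : IrrCharacter T}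
    (hψ : OverB N b (ψ : T → ℂ)) (hs : SameBlock M (ψ : T → ℂ) (δ : T → ℂ)) :
    OverB N b (δ : T → ℂ) := by
  have h1 := Om_congr hM (epsT_classFunction N hN hT) (epsT_ring N hM hb) (irr_classFunction ψ)
    (irr_classFunction δ) hs
  rcases Om_epsT_zero_or_one N hN hT hNT δ with h | h
  · exact h
  · exfalso
    unfold OverB at hψ
    rw [hψ, h, sub_zero] at h1
    exact not_ideal_one hM h1

omit [Fintype G] [Fintype T] in
theorem out_bijective (T : Subgroup G) :
    Function.Bijective (fun x : (G ⧸ T) × T => (Quotient.out x.1 : G) * (x.2 : G)) := by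
  constructor
  · rintro ⟨q, h⟩ ⟨q', h'⟩ e
    simp only at e
    have h1 : q = q' := by
      have := congrArg (fun g => (QuotientGroup.mk g : G ⧸ T)) e
      simp only [QuotientGroup.mk_mul_of_mem _ h.2, QuotientGroup.mk_mul_of_mem _ h'.2,
        QuotientGroup.out_eq'] at this
      exact this
    subst h1
    have h2 : (h : G) = h' := mul_left_cancel e
    rw [Subtype.ext h2]
  · intro g
    refine ⟨⟨QuotientGroup.mk g, ⟨(Quotient.out (QuotientGroup.mk g : G ⧸ T))⁻¹ * g, ?_⟩⟩, ?_⟩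
    · rw [← QuotientGroup.eq, QuotientGroup.out_eq']
    · simp

omit [Fintype T] in
theorem ind_ring (hM : M.IsPrime) {c : T → ℂ} (hc : IsClassFunction T c)
    (hR : ∀ t, MemLocalRing M (c t)) (g : G) : MemLocalRing M (indFun T c g) := by
  haveI : Fintype (G ⧸ T) := Fintype.ofFinite _
  rw [Cfsg.Agent.Lib.Helper5_IndCoset.indFun_eq_sum_reps T (fun q : G ⧸ T => Quotient.out q)
    (out_bijective T) c hc g]
  refine ring_sum hM _ _ fun q _ => ?_
  by_cases h : (Quotient.out q)⁻¹ * g * Quotient.out q ∈ T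
  · rw [extendByZero_mem T c h]; exact hR _
  · rw [extendByZero_not_mem T c h]; exact ring_zero hM

theorem sum_ind_mul (c : T → ℂ) {χ : G → ℂ} (hχ : IsClassFunction G χ) :
    ∑ g : G, indFun T c g * χ g = (T.index : ℂ) * ∑ t : T, c t * χ (t : G) := by
  have hG : (Nat.card G : ℂ) ≠ 0 := by exact_mod_cast Nat.card_pos.ne'
  have hTC : (Nat.card T : ℂ) ≠ 0 := by exact_mod_cast Nat.card_pos.ne'
  have h1 := frobenius_reciprocity T c (fun g => conj (χ g)) (fun g y => by simp only [hχ g y])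
  unfold classInner at h1
  simp only [Complex.conj_conj] at h1
  have h2 : (Nat.card G : ℂ) = (Nat.card T : ℂ) * (T.index : ℂ) := by
    exact_mod_cast T.card_mul_index.symm
  have h3 : ∑ g : G, indFun T c g * χ g =
      (Nat.card G : ℂ) * ((Nat.card T : ℂ)⁻¹ * ∑ t : T, c t * χ (t : G)) := by
    rw [← h1, ← mul_assoc, mul_inv_cancel₀ hG, one_mul]
  rw [h3, h2]
  field_simp

include hT hNT in
/-- The trace formula: the central character of `ψ^G` on the trace of `c e_b`. -/
theorem Om_trace (hM : M.IsPrime) (hb : IsPBlock M b) {ψ : IrrCharacter T}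
    (hψ : OverB N b (ψ : T → ℂ)) {c : T → ℂ} (hc : IsClassFunction T c) :
    Om (indFun T (conv c (epsT N b T))) (indFun T (ψ : T → ℂ)) = Om c (ψ : T → ℂ) := by
  have hχc : IsCharacter G (indFun T (ψ : T → ℂ)) :=
    isCharacter_indFun T _ (isCharacter_of_isIrr ψ.2)
  have h0 := irr_degree_ne_zero ψ.2
  have h6 : (T.index : ℂ) ≠ 0 := by exact_mod_cast Subgroup.index_ne_zero_of_finite
  have hε := epsT_classFunction N hN hT
  unfold Om
  rw [sum_ind_mul _ (isClassFunction_of_isCharacter hχc), indFun_one,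
    sum_mul_classFunction (conv c (epsT N b T)) (fun t : T => indFun T (ψ : T → ℂ) (t : G))
      (isClassFunction_of_isCharacter (isCharacter_restrict T hχc)),
    Finset.sum_eq_single ψ]
  · rw [mult N hN hT hNT hM hb hψ ψ hψ, if_pos rfl, Om_conv hε ψ.2]
    have : Om (epsT N b T) (ψ : T → ℂ) = 1 := hψ
    rw [this]
    unfold Om
    field_simp
  · intro δ _ hne
    rw [Om_conv hε δ.2]
    by_cases hδ : OverB N b (δ : T → ℂ)
    · rw [mult N hN hT hNT hM hb hψ δ hδ, if_neg hne, zero_mul]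
    · rcases Om_epsT_zero_or_one N hN hT hNT δ with h | h
      · exact absurd h hδ
      · rw [h]; ring
  · intro h; exact absurd (Finset.mem_univ _) h

include hT hNT in
/-- Injectivity on blocks. -/
theorem sameBlock_of_ind (hM : M.IsPrime) (hb : IsPBlock M b) {ψ δ : IrrCharacter T}
    (hψ : OverB N b (ψ : T → ℂ)) (hδ : OverB N b (δ : T → ℂ))
    (hs : SameBlock M (indFun T (ψ : T → ℂ)) (indFun T (δ : T → ℂ))) :
    SameBlock M (ψ : T → ℂ) (δ : T → ℂ) := by
  intro t
  have hc := classInd_classFunction t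
  have hcc : IsClassFunction T (conv (classInd t) (epsT N b T)) :=
    conv_classFunction hc (epsT_classFunction N hN hT)
  have h1 := Om_congr hM (indFun_isClassFunction T (conv (classInd t) (epsT N b T)))
    (ind_ring hM hcc (conv_ring hM (classInd_ring hM t) (epsT_ring N hM hb)))
    (indFun_isClassFunction T (ψ : T → ℂ)) (indFun_isClassFunction T (δ : T → ℂ)) hs
  rw [Om_trace N hN hT hNT hM hb hψ hc, Om_trace N hN hT hNT hM hb hδ hc,
    Om_classInd t (irr_classFunction ψ), Om_classInd t (irr_classFunction δ)] at h1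
  exact h1

omit [Fintype N] in
theorem sameBlock_ind {ψ δ : IrrCharacter T} (hM : M.IsPrime)
    (hs : SameBlock M (ψ : T → ℂ) (δ : T → ℂ)) :
    SameBlock M (indFun T (ψ : T → ℂ)) (indFun T (δ : T → ℂ)) := by
  intro g
  rw [← inducedCentralChar_eq_ind T _ (isCharacter_of_isIrr ψ.2),
    ← inducedCentralChar_eq_ind T _ (isCharacter_of_isIrr δ.2)]
  exact inducedCentralChar_congr hM T (irr_classFunction ψ) (irr_classFunction δ) hs g

omit [Fintype N] in
theorem induced_blockOf (hM : M.IsPrime) (ψ : IrrCharacter T) (χ : IrrCharacter G)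
    (h : (χ : G → ℂ) = indFun T (ψ : T → ℂ)) :
    IsInducedBlock M T (blockOf M (ψ : T → ℂ)) (blockOf M (χ : G → ℂ)) := by
  refine ⟨⟨ψ, rfl⟩, ⟨χ, rfl⟩, ?_⟩
  intro ξ hξ χ' hχ' g
  rw [inducedCentralChar_eq_ind T _ (isCharacter_of_isIrr ξ.2)]
  have h1 : SameBlock M (indFun T (ψ : T → ℂ)) (indFun T (ξ : T → ℂ)) := sameBlock_ind hM hξ
  rw [← h] at h1
  exact ideal_sub_trans hM (ideal_sub_comm (h1 g)) (hχ' g)

omit [Fintype N] in
theorem sameBlock_of_induced {B' : Set (IrrCharacter T)} {B : Set (IrrCharacter G)}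
    (hind : IsInducedBlock M T B' B) {ψ : IrrCharacter T} (hψ : ψ ∈ B') {χ : IrrCharacter G}
    (hχ : χ ∈ B) : SameBlock M (indFun T (ψ : T → ℂ)) (χ : G → ℂ) := by
  intro g
  rw [← inducedCentralChar_eq_ind T _ (isCharacter_of_isIrr ψ.2)]
  exact hind.2.2 ψ hψ χ hχ g

include hT hNT in
/-- every member of a block of `G` covering `b` is induced from `T` -/
theorem exists_ind_of_covers (hM : M.IsPrime) (hb : IsPBlock M b) {χ0 χ : IrrCharacter G}
    (hs : SameBlock M (χ0 : G → ℂ) (χ : G → ℂ)) {θ0 : IrrCharacter N} (hθ0 : θ0 ∈ b)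
    (h0 : classInner (fun n : N => (χ0 : G → ℂ) n) (θ0 : N → ℂ) ≠ 0) :
    ∃ δ : IrrCharacter T, OverB N b (δ : T → ℂ) ∧ (χ : G → ℂ) = indFun T (δ : T → ℂ) := by
  obtain ⟨θ', hθ'⟩ := exists_under N χ
  have h1 := cover_invariant N hN hM (conjUnion_stable N hN b) (conjUnion_ring N hN hM hb) hs h0 hθ'
    (subset_conjUnion N hN b hθ0)
  obtain ⟨g, θ, hθ, rfl⟩ := h1
  exact ind_surj N hN hT hNT hM hb χ hθ (over_of_over_conj N hN χ θ g hθ')

end stab

end Cfsg.Agent.Lib.BlockFR
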