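import Mathlib
import Cfsg.Prelude.Def_Blocks
import Cfsg.Agent.Lib.Helper2_BlockOrtho
import Cfsg.Agent.Lib.Helper2_BlockCover3

set_option autoImplicit false

namespace Cfsg.Agent.Lib.BlockIndep

open Cfsg Cfsg.Agent.Lib.Helper2_BlockLocal Cfsg.Agent.Lib.Helper2_BlockOm
  Cfsg.Agent.Lib.Helper2_BlockOsima Cfsg.Agent.Lib.Helper2_BlockBasic
  Cfsg.Agent.Lib.Helper2_BlockOrtho Cfsg.Agent.Lib.Helper2_BlockCover3
  Cfsg.Agent.Lib.CharBasic Cfsg.Agent.Lib.CharOrtho
  Cfsg.Agent.Lib.CharComplete Cfsg.Agent.Lib.CharIntegral Cfsg.Agent.Lib.CharMore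
  Cfsg.Agent.Lib.CharPerm
open scoped ComplexConjugate Classical

universe u

variable {G : Type u} [Group G] [Fintype G] {M M' : Ideal AlgInt} {p : ℕ}

theorem blockCoeff_filter (B : Set (IrrCharacter G)) (g : G) :
    blockCoeff B g = (Nat.card G : ℂ)⁻¹ *
      ∑ χ ∈ Finset.univ.filter (fun χ : IrrCharacter G => χ ∈ B),
        (χ : G → ℂ) 1 * conj ((χ : G → ℂ) g) := by
  unfold blockCoeff
  congr 1
  rw [finsum_mem_eq_finite_toFinset_sum _ (Set.toFinite B)]
  apply Finset.sum_congr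
  · ext ψ; simp
  · intro _ _; rfl

theorem coeff_ring [Fact p.Prime] (hM : IsPModular p M) (hM' : IsPModular p M')
    {A : Set (IrrCharacter G)} (hA : IsPBlock M' A) (x : G) :
    MemLocalRing M (blockCoeff A x) := by
  have hPr := isPrime_of_modular hM
  by_cases hx : p ∣ orderOf x
  · rw [blockCoeff_singular hM' hA hx]; exact ring_zero hPr
  · obtain ⟨P⟩ : Nonempty (Sylow p G) := inferInstance
    have hxinv : ¬ p ∣ orderOf x⁻¹ := by rwa [orderOf_inv]
    have hP0 : (Nat.card (P : Subgroup G) : ℂ) ≠ 0 := by exact_mod_cast Nat.card_pos.ne'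
    have hm : ∀ χ : IrrCharacter G, ∃ m : ℕ,
        ∑ u : (P : Subgroup G), (χ : G → ℂ) u = (Nat.card (P : Subgroup G) : ℂ) * m := by
      intro χ
      obtain ⟨m, hm⟩ := classInner_char_nat
        (isCharacter_restrict (P : Subgroup G) (isCharacter_of_isIrr χ.2))
        (isCharacter_of_isIrr (isIrr_one (G := (P : Subgroup G))))
      refine ⟨m, ?_⟩
      rw [← hm]
      unfold classInner
      simp only [Pi.one_apply, map_one, mul_one]
      rw [← mul_assoc, mul_inv_cancel₀ hP0, one_mul]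
    choose m hm using hm
    set F := Finset.univ.filter (fun χ : IrrCharacter G => χ ∈ A) with hF
    have h1 : ∑ u : (P : Subgroup G), ∑ χ ∈ F, (χ : G → ℂ) x⁻¹ * (χ : G → ℂ) u =
        ∑ χ ∈ F, (χ : G → ℂ) x⁻¹ * (χ : G → ℂ) 1 := by
      rw [Finset.sum_eq_single (1 : (P : Subgroup G))]
      · simp
      · intro u _ hu
        apply weak_block_orthogonality hM' hA hxinv
        obtain ⟨k, hk⟩ := (IsPGroup.iff_orderOf.mp P.2) u
        rw [Subgroup.orderOf_coe, hk]
        rcases Nat.eq_zero_or_pos k with rfl | hk0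
        · rw [pow_zero, orderOf_eq_one_iff] at hk
          exact absurd hk hu
        · exact dvd_pow_self p hk0.ne'
      · intro h; exact absurd (Finset.mem_univ _) h
    rw [Finset.sum_comm] at h1
    have h2 : ∑ χ ∈ F, (χ : G → ℂ) 1 * conj ((χ : G → ℂ) x) =
        (Nat.card (P : Subgroup G) : ℂ) * ∑ χ ∈ F, conj ((χ : G → ℂ) x) * (m χ : ℂ) := by
      rw [Finset.mul_sum]
      have h3 : ∑ χ ∈ F, (χ : G → ℂ) 1 * conj ((χ : G → ℂ) x) =
          ∑ χ ∈ F, (χ : G → ℂ) x⁻¹ * (χ : G → ℂ) 1 := by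
        refine Finset.sum_congr rfl fun χ _ => ?_
        rw [isCharacter_inv (isCharacter_of_isIrr χ.2), mul_comm]
      rw [h3, ← h1]
      refine Finset.sum_congr rfl fun χ _ => ?_
      rw [← Finset.mul_sum, hm χ, isCharacter_inv (isCharacter_of_isIrr χ.2)]
      ring
    rw [blockCoeff_filter, h2]
    have h4 : (Nat.card G : ℂ) =
        (Nat.card (P : Subgroup G) : ℂ) * ((P : Subgroup G).index : ℂ) := by
      exact_mod_cast ((P : Subgroup G).card_mul_index).symm
    have h5 : (Nat.card G : ℂ)⁻¹ * ((Nat.card (P : Subgroup G) : ℂ) *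
        ∑ χ ∈ F, conj ((χ : G → ℂ) x) * (m χ : ℂ)) =
        ((P : Subgroup G).index : ℂ)⁻¹ * ∑ χ ∈ F, conj ((χ : G → ℂ) x) * (m χ : ℂ) := by
      rw [h4, mul_inv]
      generalize (∑ χ ∈ F, conj ((χ : G → ℂ) x) * (m χ : ℂ)) = S
      field_simp
    rw [h5]
    refine ring_mul hPr (ring_inv_natCast hM P.not_dvd_index) ?_
    exact ring_sum hPr _ _ fun χ _ =>
      ring_mul hPr (irr_conj_value_ring hPr χ x) (ring_natCast hPr _)

theorem sameBlock_indep [Fact p.Prime] (hM : IsPModular p M) (hM' : IsPModular p M')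
    (χ ψ : IrrCharacter G) (h : SameBlock M (χ : G → ℂ) (ψ : G → ℂ)) :
    SameBlock M' (χ : G → ℂ) (ψ : G → ℂ) := by
  have hPr := isPrime_of_modular hM
  have hPr' := isPrime_of_modular hM'
  set A := blockOf M' (χ : G → ℂ) with hAdef
  have hA : IsPBlock M' A := ⟨χ, rfl⟩
  have h1 := Om_congr hPr (blockCoeff_classFunction A) (coeff_ring hM hM' hA)
    (irr_classFunction χ) (irr_classFunction ψ) h
  rw [Om_blockCoeff, Om_blockCoeff, if_pos (self_mem_blockOf hPr' χ)] at h1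
  by_contra hcon
  have h2 : ψ ∉ A := hcon
  rw [if_neg h2, sub_zero] at h1
  exact not_ideal_one hPr h1

theorem main {G : Type u} [Group G] [Finite G] [Fact p.Prime] (hM : IsPModular p M)
    (χ ψ : IrrCharacter G) (h : SameBlock M (χ : G → ℂ) (ψ : G → ℂ))
    (hM' : IsPModular p M') (g : G) :
    ∃ r : AlgInt, r ∈ M' ∧ (r : ℂ) = centralChar (χ : G → ℂ) g - centralChar (ψ : G → ℂ) g := by
  haveI : Fintype G := Fintype.ofFinite G
  have h1 := sameBlock_indep hM hM' χ ψ h g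
  refine ⟨⟨centralChar (χ : G → ℂ) g - centralChar (ψ : G → ℂ) g,
    (centralChar_isIntegral χ.2 g).sub (centralChar_isIntegral ψ.2 g)⟩, ?_, rfl⟩
  exact mem_of_ideal_algInt (isPrime_of_modular hM') h1

end Cfsg.Agent.Lib.BlockIndep
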