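import Mathlib
import Cfsg.Prelude.Def_Blocks
import Cfsg.Prelude.Def_BlockRank
import Cfsg.Agent.Lib.BlockPC2

set_option autoImplicit false

namespace Cfsg.Agent.Lib.BlockPC3

open Cfsg Cfsg.Agent.Lib.Helper2_BlockLocal Cfsg.Agent.Lib.Helper2_BlockOm
  Cfsg.Agent.Lib.CharBasic Cfsg.Agent.Lib.CharOrtho
  Cfsg.Agent.Lib.CharComplete Cfsg.Agent.Lib.CharIntegral Cfsg.Agent.Lib.CharMore
  Cfsg.Agent.Lib.BlockPC Cfsg.Agent.Lib.BlockPC2 Cfsg.Agent.Lib.helper8_Defect
open scoped ComplexConjugate Classical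

universe u

variable {G : Type u} [Group G] [Fintype G] {M : Ideal AlgInt} {p : ℕ} {P : Subgroup G}
  {B : Set (IrrCharacter G)} {θ : IrrCharacter G}

theorem blockRank_eq_one (h : Ctx p M P B θ) : blockRank p B = 1 := by
  obtain ⟨f, f1, f2, f3, f4⟩ := main h
  unfold blockRank
  have hv : pRegularPart p (θ : G → ℂ) ≠ 0 := by
    intro h0
    have := congrFun h0 1
    unfold pRegularPart at this
    rw [if_pos (show IsPRegular p (1 : G) from not_dvd_orderOf_one h.hM.1)] at this
    exact irr_degree_ne_zero θ.2 this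
  have hspan : Submodule.span ℂ ((fun χ : IrrCharacter G => pRegularPart p (χ : G → ℂ)) '' B) =
      Submodule.span ℂ {pRegularPart p (θ : G → ℂ)} := by
    apply le_antisymm
    · rw [Submodule.span_le]
      rintro _ ⟨χ, hχ, rfl⟩
      obtain ⟨ζ, rfl⟩ := f3 χ hχ
      rw [SetLike.mem_coe, Submodule.mem_span_singleton]
      refine ⟨(ζ : P → ℂ) 1, ?_⟩
      ext x
      simp only [Pi.smul_apply, smul_eq_mul]
      unfold pRegularPart
      by_cases hx : IsPRegular p x
      · rw [if_pos hx, if_pos hx]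
        have := f4 ζ 1 x hx
        simpa using this.symm
      · rw [if_neg hx, if_neg hx, mul_zero]
    · rw [Submodule.span_le, Set.singleton_subset_iff]
      exact Submodule.subset_span ⟨θ, h.hθ, rfl⟩
  rw [hspan]
  exact finrank_span_singleton hv

end Cfsg.Agent.Lib.BlockPC3
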