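import Mathlib
import Cfsg.Prelude.Def_Characters
import Cfsg.Agent.Lib.CharLinear
import Cfsg.Agent.Lib.CharBurnside
import Cfsg.Agent.Lib.CharInd

/-!
# Characters of small degree restricted to `p`-groups
-/

set_option autoImplicit false

namespace Cfsg.Agent.Lib.CharSmall

open Cfsg Representation Module Cfsg.Agent.Lib.CharBasic Cfsg.Agent.Lib.CharOrtho
  Cfsg.Agent.Lib.CharComplete Cfsg.Agent.Lib.CharIntegral Cfsg.Agent.Lib.CharMore
  Cfsg.Agent.Lib.CharInd Cfsg.Agent.Lib.CharLinear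
open scoped ComplexConjugate

universe u v

/-- A linear character is trivial on commutators. -/
theorem linear_comm {G : Type u} [Group G] {χ : G → ℂ} (h : IsCharacter G χ) (h1 : χ 1 = 1)
    (a b : G) : χ (a * b * a⁻¹ * b⁻¹) = 1 := by
  rw [char_mul_of_degree_one h h1, char_mul_of_degree_one h h1, char_mul_of_degree_one h h1]
  have e1 : χ a * χ a⁻¹ = 1 := by rw [← char_mul_of_degree_one h h1, mul_inv_cancel, h1]
  have e2 : χ b * χ b⁻¹ = 1 := by rw [← char_mul_of_degree_one h h1, mul_inv_cancel, h1]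
  calc χ a * χ b * χ a⁻¹ * χ b⁻¹ = (χ a * χ a⁻¹) * (χ b * χ b⁻¹) := by ring
    _ = 1 := by rw [e1, e2, one_mul]

/-- A character all of whose irreducible constituents are linear has all commutators in its
kernel. -/
theorem comm_of_linear_constituents {G : Type u} [Group G] [Fintype G] {χ : G → ℂ}
    (hχ : IsCharacter G χ)
    (hlin : ∀ ψ : IrrCharacter G, classInner χ ψ ≠ 0 → (ψ : G → ℂ) 1 = 1) (a b : G) :
    χ (a * b * a⁻¹ * b⁻¹) = χ 1 := by
  classical
  have h := char_expansion hχ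
  rw [h, Finset.sum_apply, Finset.sum_apply]
  refine Finset.sum_congr rfl fun ψ _ => ?_
  simp only [Pi.smul_apply, smul_eq_mul]
  by_cases h0 : classInner χ ψ = 0
  · rw [h0, zero_mul, zero_mul]
  · rw [linear_comm (isCharacter_of_isIrr ψ.2) (hlin ψ h0), hlin ψ h0]

/-- A character of degree `< p` of a `p`-group has all commutators in its kernel. -/
theorem comm_of_degree_lt {P : Type u} [Group P] [Finite P] (p : ℕ) [hp : Fact p.Prime]
    (hP : IsPGroup p P) {χ : P → ℂ} (hχ : IsCharacter P χ) {d : ℕ} (hd : χ 1 = d) (hlt : d < p)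
    (a b : P) : χ (a * b * a⁻¹ * b⁻¹) = χ 1 := by
  classical
  haveI := Fintype.ofFinite P
  apply comm_of_linear_constituents hχ
  intro ψ hψ
  obtain ⟨x, y, hx, hy, hle⟩ := degree_le_of_constituent hχ ψ.2 hψ
  obtain ⟨n, hn0, hn1, hn2⟩ := irr_degree ψ.2
  have hxd : x = d := by
    have : (x : ℂ) = d := by rw [← hx, hd]
    exact_mod_cast this
  have hyn : y = n := by
    have : (y : ℂ) = n := by rw [← hy, hn1]
    exact_mod_cast this
  obtain ⟨k, hk⟩ := IsPGroup.iff_card.mp hP
  rw [hk] at hn2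
  obtain ⟨j, _, hj⟩ := (Nat.dvd_prime_pow hp.out).mp hn2
  have hnp : n < p := by omega
  have hj0 : j = 0 := by
    by_contra h0
    have : p ∣ n := by rw [hj]; exact dvd_pow_self p h0
    exact absurd (Nat.le_of_dvd hn0 this) (by omega)
  rw [hn1, hj, hj0, pow_zero, Nat.cast_one]

/-- In a nonabelian simple group with nonabelian Sylow `p`-subgroup every nontrivial irreducible
character has degree at least `p`. -/
theorem le_degree_of_simple {G : Type u} [Group G] [Finite G] [IsSimpleGroup G] (p : ℕ)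
    [hp : Fact p.Prime] (P : Subgroup G) (hP : IsPGroup p P) {a b : G} (ha : a ∈ P) (hb : b ∈ P)
    (hab : a * b ≠ b * a) {χ : G → ℂ} (hχ : IsIrrCharacter G χ) (h1 : χ ≠ 1) {d : ℕ}
    (hd : χ 1 = d) : p ≤ d := by
  classical
  haveI := Fintype.ofFinite G
  by_contra hlt
  push Not at hlt
  have hres := isCharacter_restrict P (isCharacter_of_isIrr hχ)
  have h2 := comm_of_degree_lt p hP hres (d := d) hd hlt ⟨a, ha⟩ ⟨b, hb⟩
  obtain ⟨n, ρ, hρ, rfl⟩ := hχ
  have h3 : ρ.character (a * b * a⁻¹ * b⁻¹) = ρ.character 1 := h2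
  rw [char_one, char_eq_finrank_iff] at h3
  have hne : a * b * a⁻¹ * b⁻¹ ≠ 1 := by
    intro h
    apply hab
    calc a * b = (a * b * a⁻¹ * b⁻¹) * (b * a) := by group
      _ = b * a := by rw [h, one_mul]
  exact CharBurnside.not_scalar_of_simple (fun h => hab (h a b)) ρ hρ h1 _ hne 1
    (by rw [h3, one_smul])

end Cfsg.Agent.Lib.CharSmall
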