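import Mathlib
import Cfsg.Prelude.Def_Characters
import Cfsg.Agent.Lib.CharThompson
import Cfsg.Agent.Lib.CharSmall

/-!
# Character degrees and group structure (Isaacs, chapter 12)
-/

set_option autoImplicit false

namespace Cfsg.Agent.Lib.CharDegrees

open Cfsg Representation Module MulAction Cfsg.Agent.Lib.CharBasic Cfsg.Agent.Lib.CharOrtho
  Cfsg.Agent.Lib.CharComplete Cfsg.Agent.Lib.CharIntegral Cfsg.Agent.Lib.CharMore
  Cfsg.Agent.Lib.CharInd Cfsg.Agent.Lib.CharClifford Cfsg.Agent.Lib.CharCorr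
  Cfsg.Agent.Lib.CharIto Cfsg.Agent.Lib.CharKer Cfsg.Agent.Lib.CharGallagher
  Cfsg.Agent.Lib.CharCover Cfsg.Agent.Lib.CharLinExt Cfsg.Agent.Lib.CharLinear
  Cfsg.Agent.Lib.CharCover2 Cfsg.Agent.Lib.CharDet Cfsg.Agent.Lib.Helper9_PResidual
  Cfsg.Agent.Lib.CharThompson Cfsg.Agent.Lib.CharSmall
open scoped ComplexConjugate

universe u v w

/-- A group all of whose irreducible characters are linear is abelian. -/
theorem comm_of_all_linear {K : Type u} [Group K] [Finite K]
    (h : ∀ ψ : IrrCharacter K, (ψ : K → ℂ) 1 = 1) (a b : K) : a * b = b * a := by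
  classical
  haveI : Fintype K := Fintype.ofFinite K
  have h1 := comm_of_linear_constituents
    (isCharacter_of_rep (Representation.leftRegular ℂ K)) (fun ψ _ => h ψ) a b
  rw [regular_char, regular_char, if_pos rfl] at h1
  by_cases hc : a * b * a⁻¹ * b⁻¹ = 1
  · calc a * b = (a * b * a⁻¹ * b⁻¹) * (b * a) := by group
      _ = b * a := by rw [hc, one_mul]
  · rw [if_neg hc] at h1
    exfalso
    have : (Nat.card K : ℂ) ≠ 0 := by exact_mod_cast Nat.card_pos.ne'
    exact this h1.symm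

/-- Ito's theorem for characters. -/
theorem ito_char {G : Type u} [Group G] [Finite G] (A : Subgroup G) (hA : A.Normal)
    (hab : ∀ a ∈ A, ∀ b ∈ A, a * b = b * a) {χ : G → ℂ} (hχ : IsIrrCharacter G χ) {d : ℕ}
    (hd : χ 1 = d) : d ∣ A.index := by
  obtain ⟨n, ρ, hirr, rfl⟩ := hχ
  haveI := hirr
  haveI := hA
  have := ito ρ A hab
  rw [Representation.char_one] at hd
  have hd' : finrank ℂ (Fin n → ℂ) = d := by exact_mod_cast hd
  rwa [hd'] at this

/-- Isaacs 12.?: all degrees are powers of `p` iff there is an abelian normal `p`-complement. -/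
theorem degrees_ppower_iff {G : Type u} [Group G] [Finite G] (p : ℕ) (hp : p.Prime) :
    (∀ χ : IrrCharacter G, ∃ k : ℕ, (χ : G → ℂ) 1 = (p : ℂ) ^ k) ↔
      ∃ A : Subgroup G, A.Normal ∧ (∀ a ∈ A, ∀ b ∈ A, a * b = b * a) ∧
        Nat.Coprime (Nat.card A) p ∧ ∃ k : ℕ, A.index = p ^ k := by
  classical
  haveI : Fact p.Prime := ⟨hp⟩
  haveI : Fintype G := Fintype.ofFinite G
  constructor
  · intro h
    have hK := pResidual_normal p G
    have hcop : Nat.Coprime (Nat.card (pResidual p G)) p := by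
      apply thompson p
      intro χ hχ d hd hd1
      obtain ⟨k, hk⟩ := h ⟨χ, hχ⟩
      simp only at hk
      rw [hd] at hk
      have hk' : d = p ^ k := by exact_mod_cast hk
      rw [hk']
      cases k with
      | zero => exact absurd (by simpa using hk') hd1
      | succ k => exact dvd_pow_self p (Nat.succ_ne_zero k)
    refine ⟨pResidual p G, hK, ?_, hcop, index_residual p G⟩
    haveI : Fintype (pResidual p G) := Fintype.ofFinite _
    have hlin : ∀ ψ : IrrCharacter (pResidual p G), (ψ : pResidual p G → ℂ) 1 = 1 := by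
      intro ψ
      obtain ⟨t, ht0, ht, htdvd⟩ := irr_degree ψ.2
      obtain ⟨χ, hχ, hc⟩ := exists_over (pResidual p G) ψ.2
      obtain ⟨e, he, -⟩ := degree_ratio (pResidual p G) hK ψ.2 hχ hc
      obtain ⟨k, hk⟩ := h ⟨χ, hχ⟩
      simp only at hk
      rw [hk, ht] at he
      have he' : p ^ k = e * t := by exact_mod_cast he
      have h1 : t ∣ p ^ k := ⟨e, by rw [he', mul_comm]⟩
      have h2 : Nat.Coprime t (p ^ k) :=
        Nat.Coprime.pow_right k (Nat.Coprime.coprime_dvd_left htdvd hcop)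
      have h3 : t = 1 := Nat.Coprime.eq_one_of_dvd h2 h1
      rw [ht, h3, Nat.cast_one]
    intro a ha b hb
    have := comm_of_all_linear hlin ⟨a, ha⟩ ⟨b, hb⟩
    exact congrArg Subtype.val this
  · rintro ⟨A, hA, hab, -, k, hk⟩ χ
    obtain ⟨d, -, hd, -⟩ := irr_degree χ.2
    have h1 := ito_char A hA hab χ.2 hd
    rw [hk] at h1
    obtain ⟨i, -, hi⟩ := (Nat.dvd_prime_pow hp).mp h1
    exact ⟨i, by rw [hd, hi]; push_cast; rfl⟩

end Cfsg.Agent.Lib.CharDegrees
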