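import Mathlib
import Cfsg.Prelude.Def_Blocks
import Cfsg.Agent.Lib.BlockPC2
import Cfsg.Agent.Lib.CharCover
import Cfsg.Agent.Lib.CharDegrees
import Cfsg.Agent.Lib.CharIto
import Cfsg.Agent.Lib.Helper2_BlockCover3
import Cfsg.Agent.S0971
import Cfsg.Agent.S0973

set_option autoImplicit false

namespace Cfsg.Agent.Lib.BlockPC4

open Cfsg Cfsg.Agent.Lib.Helper2_BlockLocal Cfsg.Agent.Lib.Helper2_BlockOm
  Cfsg.Agent.Lib.Helper2_BlockOsima Cfsg.Agent.Lib.Helper2_BlockBasic
  Cfsg.Agent.Lib.Helper2_BlockCover2 Cfsg.Agent.Lib.Helper2_BlockCover3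
  Cfsg.Agent.Lib.CharBasic Cfsg.Agent.Lib.CharOrtho
  Cfsg.Agent.Lib.CharComplete Cfsg.Agent.Lib.CharIntegral Cfsg.Agent.Lib.CharMore
  Cfsg.Agent.Lib.CharClifford
  Cfsg.Agent.Lib.BlockPC Cfsg.Agent.Lib.BlockPC2 Cfsg.Agent.Lib.helper8_Defect
open scoped ComplexConjugate Classical

universe u

variable {G : Type u} [Group G] [Fintype G] {M : Ideal AlgInt} {p : ℕ} (P : Subgroup G)

/-- `N = P C_G(P)` -/
abbrev NN : Subgroup G := P ⊔ Subgroup.centralizer (P : Set G)

/-- `P` as a subgroup of `N` -/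
abbrev PN : Subgroup (NN P) := P.subgroupOf (NN P)

omit [Fintype G] in
theorem sup_top [P.Normal] : (P.subgroupOf (NN P)) ⊔
    Subgroup.centralizer ((P.subgroupOf (NN P) : Subgroup (NN P)) : Set (NN P)) = ⊤ := by
  rw [eq_top_iff]
  rintro ⟨n, hn⟩ -
  have h := hn
  rw [← SetLike.mem_coe, Subgroup.normal_mul] at h
  obtain ⟨a, ha, c, hc, rfl⟩ := Set.mem_mul.mp h
  have haN : a ∈ NN P := (le_sup_left : P ≤ NN P) ha
  have hcN : c ∈ NN P := (le_sup_right : _ ≤ NN P) hc
  have e : (⟨a * c, hn⟩ : NN P) = ⟨a, haN⟩ * ⟨c, hcN⟩ := rfl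
  rw [e]
  apply Subgroup.mul_mem
  · apply Subgroup.mem_sup_left
    rw [Subgroup.mem_subgroupOf]
    exact ha
  · apply Subgroup.mem_sup_right
    rw [Subgroup.mem_centralizer_iff]
    intro h hh
    apply Subtype.ext
    exact (Subgroup.mem_centralizer_iff.mp hc) h (Subgroup.mem_subgroupOf.mp hh)

variable {P} {B : Set (IrrCharacter G)} {b : Set (IrrCharacter (NN P))}

theorem mem_of_induced (hM : M.IsPrime) (h1 : IsInducedBlock M (NN P) b B)
    {B' : Set (IrrCharacter G)} (h2 : IsInducedBlock M (NN P) b B') : B' = B := by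
  obtain ⟨ξ, hξ⟩ := block_nonempty hM h1.1
  obtain ⟨χ, hχ⟩ := block_nonempty hM h1.2.1
  obtain ⟨χ', hχ'⟩ := block_nonempty hM h2.2.1
  have hs : SameBlock M (χ : G → ℂ) (χ' : G → ℂ) := by
    intro g
    exact ideal_sub_trans hM (ideal_sub_comm (h1.2.2 ξ hξ χ hχ g)) (h2.2.2 ξ hξ χ' hχ' g)
  rw [block_eq_blockOf hM h1.2.1 hχ, block_eq_blockOf hM h2.2.1 hχ']
  exact (blockOf_eq_of_sameBlock hM hs).symm

theorem exists_over_in [Fact p.Prime] [P.Normal] (hM : IsPModular p M) (hP : IsPGroup p P)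
    (hind : IsInducedBlock M (NN P) b B) (η : IrrCharacter (NN P)) (hη : η ∈ b) :
    ∃ χ ∈ B, classInner (fun n : NN P => (χ : G → ℂ) n) (η : NN P → ℂ) ≠ 0 := by
  have hPr := isPrime_of_modular hM
  obtain ⟨χ, hχ, hc⟩ := Cfsg.Agent.Lib.CharCover.exists_over (NN P) η.2
  have h1 := (Cfsg.Agent.S0971.result p M hM P hP b hind.1).2 (blockOf M χ) ⟨⟨χ, hχ⟩, rfl⟩
    ⟨⟨χ, hχ⟩, self_mem_blockOf hPr ⟨χ, hχ⟩, η, hη, hc⟩
  have h2 := mem_of_induced hPr hind h1
  exact ⟨⟨χ, hχ⟩, h2 ▸ self_mem_blockOf hPr ⟨χ, hχ⟩, hc⟩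

theorem exists_under_in [Fact p.Prime] [P.Normal] (hM : IsPModular p M) (hP : IsPGroup p P)
    (hind : IsInducedBlock M (NN P) b B) (χ : IrrCharacter G) (hχ : χ ∈ B) :
    ∃ η ∈ b, classInner (fun n : NN P => (χ : G → ℂ) n) (η : NN P → ℂ) ≠ 0 := by
  have hPr := isPrime_of_modular hM
  have hN : (NN P).Normal := inferInstance
  obtain ⟨η0, hη0⟩ := block_nonempty hPr hind.1
  obtain ⟨χ0, hχ0, h0⟩ := exists_over_in hM hP hind η0 hη0
  obtain ⟨η', hη'⟩ := exists_under (N := NN P) χ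
  have h1 := cover_invariant (NN P) hN hPr (conjUnion_stable (NN P) hN b)
    (conjUnion_ring (NN P) hN hPr hind.1) (sameBlock_of_mem hPr hind.2.1 hχ0 hχ) h0 hη'
    (subset_conjUnion (NN P) hN b hη0)
  obtain ⟨g, η'', h2, rfl⟩ := h1
  exact ⟨η'', h2, over_of_over_conj (NN P) hN χ η'' g hη'⟩

theorem degree_val [Fact p.Prime] [P.Normal] (hM : IsPModular p M) (hB : IsPBlock M B)
    (hD : IsDefectGroup p M B P) {θ : IrrCharacter (NN P)}
    (h : Ctx p M (P.subgroupOf (NN P)) b θ) (ζ : IrrCharacter (PN P))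
    (η : IrrCharacter (NN P))
    (hval : ∀ x : NN P, ¬ p ∣ orderOf x → (η : NN P → ℂ) x = (ζ : PN P → ℂ) 1 * (θ : NN P → ℂ) x)
    (χ : IrrCharacter G) (hχ : χ ∈ B)
    (hc : classInner (fun n : NN P => (χ : G → ℂ) n) (η : NN P → ℂ) ≠ 0) :
    (charDegree (χ : G → ℂ)).factorization p =
      P.index.factorization p + (charDegree (ζ : PN P → ℂ)).factorization p := by
  have hPr := isPrime_of_modular hM
  have hp : p.Prime := hM.1
  have hN : (NN P).Normal := inferInstance
  obtain ⟨c0, c1, -⟩ := irr_charDegree χ.2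
  obtain ⟨t0, t1, -⟩ := irr_charDegree θ.2
  obtain ⟨z0, z1, -⟩ := irr_charDegree ζ.2
  have hη1 : (η : NN P → ℂ) 1 = (ζ : PN P → ℂ) 1 * (θ : NN P → ℂ) 1 :=
    hval 1 (not_dvd_orderOf_one hp)
  apply le_antisymm
  · obtain ⟨e, e1, e2⟩ := Cfsg.Agent.Lib.CharCover.degree_ratio (NN P) hN η.2 χ.2 hc
    rw [hη1, c1, t1, z1] at e1
    have e3 : charDegree (χ : G → ℂ) = e * (charDegree (ζ : PN P → ℂ) * charDegree (θ : NN P → ℂ)) := by
      exact_mod_cast e1
    have he0 : e ≠ 0 := by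
      rintro rfl
      rw [zero_mul] at e3
      exact c0.ne' e3
    have h1 := degree_val_of_ker (P.subgroupOf (NN P)) hM h.hD θ h.hθ h.hker
    have h2 : (P.subgroupOf (NN P)).index * (NN P).index = P.index :=
      Subgroup.relIndex_mul_index (le_sup_left : P ≤ NN P)
    have h3 : e.factorization p ≤ (NN P).index.factorization p :=
      (Nat.factorization_le_iff_dvd he0 Subgroup.index_ne_zero_of_finite).mpr e2 p
    rw [e3, Nat.factorization_mul he0 (Nat.mul_ne_zero z0.ne' t0.ne'),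
      Nat.factorization_mul z0.ne' t0.ne', ← h2,
      Nat.factorization_mul Subgroup.index_ne_zero_of_finite Subgroup.index_ne_zero_of_finite]
    simp only [Finsupp.add_apply]
    omega
  · obtain ⟨g, hg, hle, hcard⟩ := Cfsg.Agent.Lib.Helper2_BlockFMT.isDefectGroup_iff.mp hD
    have hidx : (Subgroup.centralizer ({g} : Set G)).index.factorization p =
        P.index.factorization p := by
      have h1 := (Subgroup.centralizer ({g} : Set G)).card_mul_index
      have h2 := P.card_mul_index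
      have h3 : (Nat.card (Subgroup.centralizer ({g} : Set G)) *
          (Subgroup.centralizer ({g} : Set G)).index).factorization p =
          (Nat.card G).factorization p := by rw [h1]
      have h4 : (Nat.card P * P.index).factorization p = (Nat.card G).factorization p := by rw [h2]
      rw [Nat.factorization_mul Nat.card_pos.ne' Subgroup.index_ne_zero_of_finite,
        Finsupp.add_apply] at h3 h4
      rw [hcard, Nat.Prime.factorization_pow hp, Finsupp.single_eq_same] at h4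
      omega
    have hgreg : ¬ p ∣ orderOf g := Cfsg.Agent.Lib.Helper2_BlockDefOrder.regular_of_coeff hM hB hg.2.1
    have hgN : g ∈ NN P := by
      apply (le_sup_right : Subgroup.centralizer (P : Set G) ≤ NN P)
      rw [Subgroup.mem_centralizer_iff]
      intro u hu
      exact (Subgroup.mem_centralizer_singleton_iff.mp (hle hu))
    have hz0 : (ζ : PN P → ℂ) 1 ≠ 0 := irr_degree_ne_zero ζ.2
    have hα : MemLocalRing M ((χ : G → ℂ) g / (ζ : PN P → ℂ) 1) := by
      have h1 := congrFun (clifford (NN P) hN χ.2 η.2 hc) ⟨g, hgN⟩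
      simp only [Pi.smul_apply, smul_eq_mul, Finset.sum_apply] at h1
      rw [h1, mul_div_assoc, Finset.sum_div]
      obtain ⟨m, hm⟩ := classInner_char_nat
        (isCharacter_restrict (NN P) (isCharacter_of_isIrr χ.2)) (isCharacter_of_isIrr η.2)
      rw [hm]
      refine ring_mul hPr (ring_natCast hPr m) (ring_sum hPr _ _ fun ψ hψ => ?_)
      obtain ⟨t, ht⟩ := (Finset.mem_filter.mp hψ).2
      rw [ht, conjFun_apply, hval, mul_div_assoc, mul_comm, div_mul_cancel₀ _ hz0]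
      · exact irr_value_ring hPr θ _
      · rw [Subgroup.orderOf_mk]
        have : orderOf (t * g * t⁻¹) = orderOf g := by
          have := orderOf_injective (MulAut.conj t).toMonoidHom (MulAut.conj t).injective g
          simpa using this
        rw [this]
        exact hgreg
    by_contra hlt
    push Not at hlt
    apply hg.2.2 χ hχ
    have h2 := Cfsg.Agent.Lib.Helper2_BlockDefOrder.ideal_of_ratio hM
      (A := (Subgroup.centralizer ({g} : Set G)).index * charDegree (ζ : PN P → ℂ))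
      (B := charDegree (χ : G → ℂ))
      (Nat.mul_ne_zero Subgroup.index_ne_zero_of_finite z0.ne') c0.ne' (by
        rw [Nat.factorization_mul Subgroup.index_ne_zero_of_finite z0.ne', Finsupp.add_apply, hidx]
        exact hlt)
    have h3 := ideal_mul_right hPr h2 hα
    convert h3 using 1
    unfold centralChar
    rw [c1, z1]
    have : (charDegree (ζ : PN P → ℂ) : ℂ) ≠ 0 := by exact_mod_cast z0.ne'
    push_cast
    field_simp

/-- **Reynolds**: a block with normal defect group `P` has all heights zero iff `P` is abelian. -/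
theorem reynolds [Fact p.Prime] [P.Normal] (hM : IsPModular p M) (hB : IsPBlock M B)
    (hD : IsDefectGroup p M B P) :
    (∀ a ∈ P, ∀ c ∈ P, a * c = c * a) ↔ ∀ χ ∈ B, blockHeight p B (χ : G → ℂ) = 0 := by
  have hp : p.Prime := hM.1
  have hPp : IsPGroup p P := Cfsg.Agent.Lib.Helper2_BlockFMT.isPGroup_of_defect hD
  obtain ⟨b, hbD, hind⟩ := (Cfsg.Agent.S0973.result p M hM B hB P hD).1
  have hPNp : IsPGroup p (PN P) := hPp.comap_subtype
  obtain ⟨θ, h⟩ := exists_ctx hM hPNp (sup_top P) hind.1 hbD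
  obtain ⟨f, f1, f2, f3, f4⟩ := main h
  have hval : ∀ (ζ : IrrCharacter (PN P)) (x : NN P), ¬ p ∣ orderOf x →
      (f ζ : NN P → ℂ) x = (ζ : PN P → ℂ) 1 * (θ : NN P → ℂ) x := by
    intro ζ x hx
    have := f4 ζ 1 x hx
    simpa using this
  obtain ⟨g, hg, hidx⟩ := index_val_eq P hD
  have hInf := Cfsg.Agent.Lib.Helper2_BlockDefOrder.sInf_degree_val hM hB hg
  have hheight : ∀ (ζ : IrrCharacter (PN P)) (χ : IrrCharacter G), χ ∈ B →
      classInner (fun n : NN P => (χ : G → ℂ) n) (f ζ : NN P → ℂ) ≠ 0 →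
      blockHeight p B (χ : G → ℂ) = (charDegree (ζ : PN P → ℂ)).factorization p := by
    intro ζ χ hχ hc
    unfold blockHeight
    rw [hInf, hidx, degree_val hM hB hD h ζ (f ζ) (hval ζ) χ hχ hc]
    omega
  constructor
  · intro hab χ hχ
    obtain ⟨η, hη, hc⟩ := exists_under_in hM hPp hind χ hχ
    obtain ⟨ζ, rfl⟩ := f3 η hη
    rw [hheight ζ χ hχ hc]
    have h1 : (ζ : PN P → ℂ) 1 = 1 := by
      apply Cfsg.Agent.Lib.CharIto.degree_one_of_comm _ ζ.2
      intro a c
      apply Subtype.ext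
      apply Subtype.ext
      exact hab _ (Subgroup.mem_subgroupOf.mp a.2) _ (Subgroup.mem_subgroupOf.mp c.2)
    have h2 : charDegree (ζ : PN P → ℂ) = 1 := charDegree_of_eq (by rw [h1]; simp)
    rw [h2]
    simp
  · intro hh
    have hlin : ∀ ζ : IrrCharacter (PN P), (ζ : PN P → ℂ) 1 = 1 := by
      intro ζ
      obtain ⟨χ, hχ, hc⟩ := exists_over_in hM hPp hind (f ζ) (f1 ζ)
      have h1 := hheight ζ χ hχ hc
      rw [hh χ hχ] at h1
      obtain ⟨z0, z1, z2⟩ := irr_charDegree ζ.2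
      obtain ⟨n, hn⟩ := IsPGroup.iff_card.mp hPNp
      rw [hn] at z2
      obtain ⟨j, -, hj⟩ := (Nat.dvd_prime_pow hp).mp z2
      rw [hj, Nat.Prime.factorization_pow hp, Finsupp.single_eq_same] at h1
      rw [z1, hj, ← h1]
      simp
    have hcomm := Cfsg.Agent.Lib.CharDegrees.comm_of_all_linear hlin
    intro a ha c hc
    have := hcomm ⟨⟨a, (le_sup_left : P ≤ NN P) ha⟩, Subgroup.mem_subgroupOf.mpr ha⟩
      ⟨⟨c, (le_sup_left : P ≤ NN P) hc⟩, Subgroup.mem_subgroupOf.mpr hc⟩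
    exact congrArg (fun w : PN P => ((w : NN P) : G)) this

end Cfsg.Agent.Lib.BlockPC4
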