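import Mathlib
import Cfsg.Prelude.Def_Blocks
import Cfsg.Agent.Lib.GlaubCount
import Cfsg.Agent.Lib.CharClifford
import Cfsg.Agent.Lib.Helper2_BlockNormal

set_option autoImplicit false
set_option linter.unusedSectionVars false
set_option linter.style.haveILetI false

/-! Coprime solvable actions: invariant characters of invariant normal subgroups lie under
invariant characters. -/

namespace Cfsg.Agent.Lib.GlaubOver

open Cfsg Cfsg.Agent.Lib.Helper2_BlockLocal Cfsg.Agent.Lib.Helper2_BlockOm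
  Cfsg.Agent.Lib.Helper2_BlockCover3
  Cfsg.Agent.Lib.Helper2_BP2 Cfsg.Agent.Lib.GlaubP Cfsg.Agent.Lib.GlaubCount
  Cfsg.Agent.Lib.CharBasic Cfsg.Agent.Lib.CharOrtho
  Cfsg.Agent.Lib.CharComplete Cfsg.Agent.Lib.CharIntegral Cfsg.Agent.Lib.CharMore
open scoped ComplexConjugate Classical

universe u

section abstract

variable {G C S : Type u} [Group G] [Fintype G] [Group C] [Fintype C] [Group S]
  {M : Ideal AlgInt} {p : ℕ} {φ : S →* MulAut G} {ι : C →* G}

/-- the Brauer image of `e_χ` is congruent to the idempotent of the correspondent. -/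
theorem rr_cong (hM : IsPModular p M) (h : Setup φ ι p) {χ : IrrCharacter G}
    (hχ : Inv φ (χ : G → ℂ)) {β : IrrCharacter C}
    (hβ : ¬ MemLocalIdeal M (Om (rr ι χ) (β : C → ℂ))) (c : C) :
    MemLocalIdeal M (rr ι χ c - ee β c) := by
  have hP := isPrime_of_modular hM
  rw [Om_inversion (rr_class (ι := ι) χ) c, ee_apply, ← mul_sub]
  refine ideal_mul_left hP (ring_inv_natCast hM h.copC) ?_
  rw [← Finset.add_sum_erase _ _ (Finset.mem_univ β), add_sub_right_comm]
  refine ideal_add hP ?_ (ideal_sum hP _ _ fun β' hβ' => ?_)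
  · have h2 := ideal_mul_left hP (ring_mul hP (irr_value_ring hP β 1)
      (irr_conj_value_ring hP β c)) (Om_rr_one hM h hχ β hβ)
    convert h2 using 1
    ring
  · refine ideal_mul_left hP (ring_mul hP (irr_value_ring hP β' 1)
      (irr_conj_value_ring hP β' c)) ?_
    by_contra hcon
    exact (Finset.mem_erase.mp hβ').1 (unique_under hM h hχ hβ hcon)

theorem pair_eq {N : Type u} [Group N] [Fintype N] (j : N →* G) (χ : IrrCharacter G)
    (θ : IrrCharacter N) :
    ∑ n : N, ee χ (j n)⁻¹ * ee θ n = (Nat.card G : ℂ)⁻¹ * (χ : G → ℂ) 1 * (θ : N → ℂ) 1 *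
      classInner ((χ : G → ℂ) ∘ j) (θ : N → ℂ) := by
  unfold classInner
  rw [Finset.mul_sum, Finset.mul_sum]
  refine Finset.sum_congr rfl fun n _ => ?_
  rw [ee_apply, ee_apply,
    Cfsg.Agent.Lib.helper8_Defect.inv_of_isCharacter (isCharacter_of_isIrr χ.2), Complex.conj_conj]
  simp only [Function.comp]
  ring

theorem rel_equiv (α : MulAut G) (γ : MulAut C) (hαγ : ∀ c, ι (γ c) = α (ι c))
    (χ : IrrCharacter G) (β : IrrCharacter C) :
    classInner (((mapIrr α χ : IrrCharacter G) : G → ℂ) ∘ ι)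
      ((mapIrr γ β : IrrCharacter C) : C → ℂ) = classInner ((χ : G → ℂ) ∘ ι) (β : C → ℂ) := by
  unfold classInner
  congr 1
  rw [← Equiv.sum_comp γ.toEquiv]
  refine Finset.sum_congr rfl fun d _ => ?_
  have e1 : ((mapIrr γ β : IrrCharacter C) : C → ℂ) (γ.toEquiv d) = (β : C → ℂ) d :=
    mapIrr_apply _ β d
  have e2 : (((mapIrr α χ : IrrCharacter G) : G → ℂ) ∘ ι) (γ.toEquiv d) =
      ((χ : G → ℂ) ∘ ι) d := by
    simp only [Function.comp]
    have : ι (γ.toEquiv d) = α (ι d) := hαγ d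
    rw [this]
    exact mapIrr_apply α χ (ι d)
  rw [e1, e2]

end abstract

section two

variable {G D N E S : Type u} [Group G] [Fintype G] [Group D] [Fintype D] [Group N] [Fintype N]
  [Group E] [Fintype E] [Group S] {M : Ideal AlgInt} {p : ℕ}
  {φG : S →* MulAut G} {ιG : D →* G} {φN : S →* MulAut N} {ιN : E →* N}

/-- multiplicities over an invariant subgroup are compatible with the correspondence mod `p`. -/
theorem mult_cong (hM : IsPModular p M) (hG : Setup φG ιG p) (hN : Setup φN ιN p)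
    (j : N →* G) (k : E →* D) (hjk : ∀ x, j (ιN x) = ιG (k x))
    (hj : ∀ s n, j (φN s n) = φG s (j n))
    {χ : IrrCharacter G} (hχ : Inv φG (χ : G → ℂ)) {θ : IrrCharacter N}
    (hθ : Inv φN (θ : N → ℂ)) {β : IrrCharacter D} {η : IrrCharacter E}
    (hβ : ¬ MemLocalIdeal M (Om (rr ιG χ) (β : D → ℂ)))
    (hη : ¬ MemLocalIdeal M (Om (rr ιN θ) (η : E → ℂ))) (m m' : ℕ)
    (hm : classInner ((χ : G → ℂ) ∘ j) (θ : N → ℂ) = m)
    (hm' : classInner ((β : D → ℂ) ∘ k) (η : E → ℂ) = m') : p ∣ m ↔ p ∣ m' := by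
  have hP := isPrime_of_modular hM
  have h1 := sum_G hM hN (fun n => ee χ (j n)⁻¹ * ee θ n) (by
    intro s n
    simp only
    rw [hj, ← map_inv, ee_inv hχ, ee_inv hθ]) (fun n => ring_mul hP (ee_ring hM hG.cop χ _)
      (ee_ring hM hN.cop θ _))
  have h2 : MemLocalIdeal M (∑ x : E, ee χ (j (ιN x))⁻¹ * ee θ (ιN x) -
      ∑ x : E, ee β (k x)⁻¹ * ee η x) := by
    rw [← Finset.sum_sub_distrib]
    refine ideal_sum hP _ _ fun x _ => ?_
    have a1 := rr_cong hM hG hχ hβ (k x)⁻¹
    have a2 := rr_cong hM hN hθ hη x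
    have e1 : rr ιG χ (k x)⁻¹ = ee χ (j (ιN x))⁻¹ := by
      unfold rr
      simp only [Function.comp, map_inv, hjk]
    have e2 : rr ιN θ x = ee θ (ιN x) := rfl
    rw [e1] at a1
    rw [e2] at a2
    have a3 := ideal_add hP (ideal_mul_right hP a1 (ee_ring hM hN.cop θ (ιN x)))
      (ideal_mul_left hP (ee_ring hM hG.copC β (k x)⁻¹) a2)
    convert a3 using 1
    ring
  have h3 := ideal_sub_trans hP h1 h2
  rw [pair_eq, pair_eq, hm, hm'] at h3
  obtain ⟨a1, a2⟩ := deg_unit hM hG.cop χ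
  obtain ⟨b1, b2⟩ := deg_unit hM hG.copC β
  obtain ⟨c1, c2⟩ := deg_unit hM hN.cop θ
  obtain ⟨d1, d2⟩ := deg_unit hM hN.copC η
  obtain ⟨g1, g2⟩ := card_unit (H := G) hM hG.cop
  obtain ⟨k1, k2⟩ := card_unit (H := D) hM hG.copC
  have u1r := ring_mul hP (ring_mul hP (ring_inv g1 g2) a1) c1
  have u1 := not_ideal_mul hP (ring_mul hP (ring_inv g1 g2) a1) c1
    (not_ideal_mul hP (ring_inv g1 g2) a1 (not_ideal_inv hP g1 g2) a2) c2
  have u2r := ring_mul hP (ring_mul hP (ring_inv k1 k2) b1) d1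
  have u2 := not_ideal_mul hP (ring_mul hP (ring_inv k1 k2) b1) d1
    (not_ideal_mul hP (ring_inv k1 k2) b1 (not_ideal_inv hP k1 k2) b2) d2
  rw [← ideal_natCast_iff hM, ← ideal_natCast_iff hM]
  constructor
  · intro hh
    have h4 := ideal_sub hP (ideal_mul_left hP u1r hh) h3
    rw [sub_sub_cancel] at h4
    exact (ideal_mul_mem hP u2r (ring_natCast hP _) h4).resolve_left u2
  · intro hh
    have h4 := ideal_add hP h3 (ideal_mul_left hP u2r hh)
    rw [sub_add_cancel] at h4
    exact (ideal_mul_mem hP u1r (ring_natCast hP _) h4).resolve_left u1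

end two

theorem mult_dvd_degree {D : Type u} [Group D] [Fintype D] (E : Subgroup D) [hE : E.Normal]
    [Fintype E] (β : IrrCharacter D) (η : IrrCharacter E) (m : ℕ)
    (hm : classInner ((β : D → ℂ) ∘ E.subtype) (η : E → ℂ) = m) (h0 : m ≠ 0) :
    m ∣ charDegree (β : D → ℂ) := by
  have hm' : classInner (fun n : E => (β : D → ℂ) n) (η : E → ℂ) = m := hm
  have h1 : classInner (fun n : E => (β : D → ℂ) n) (η : E → ℂ) ≠ 0 := by
    rw [hm']; exact_mod_cast h0
  have h2 := congrFun (Cfsg.Agent.Lib.CharClifford.clifford E hE β.2 η.2 h1) 1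
  rw [hm'] at h2
  simp only [Pi.smul_apply, Finset.sum_apply, smul_eq_mul, Subgroup.coe_one] at h2
  obtain ⟨-, b1, -⟩ := Cfsg.Agent.Lib.helper8_Defect.irr_charDegree β.2
  rw [b1] at h2
  have h3 : ∀ ψ : IrrCharacter E, (ψ : E → ℂ) 1 = (charDegree (ψ : E → ℂ) : ℂ) := fun ψ =>
    (Cfsg.Agent.Lib.helper8_Defect.irr_charDegree ψ.2).2.1
  simp only [h3] at h2
  refine ⟨∑ ψ ∈ Finset.univ.filter (fun ψ : IrrCharacter E => ∃ g : D, (ψ : E → ℂ) =
    Cfsg.Agent.Lib.CharClifford.conjFun E hE η g), charDegree (ψ : E → ℂ), ?_⟩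
  exact_mod_cast h2

section ind

variable {G : Type u} [Group G] {A : Type u} [Group A] {p : ℕ}

/-- restriction of the action to an invariant subgroup -/
def restrictHom (φ : A →* MulAut G) (H : Subgroup G) (hH : ∀ a, ∀ g ∈ H, φ a g ∈ H) :
    A →* MulAut H where
  toFun a :=
    { toFun := fun d => ⟨φ a d, hH a d d.2⟩
      invFun := fun d => ⟨φ a⁻¹ d, hH a⁻¹ d d.2⟩
      left_inv := fun d => by
        apply Subtype.ext
        change φ a⁻¹ (φ a d) = d
        rw [← MulAut.mul_apply, ← map_mul, inv_mul_cancel, map_one, MulAut.one_apply]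
      right_inv := fun d => by
        apply Subtype.ext
        change φ a (φ a⁻¹ d) = d
        rw [← MulAut.mul_apply, ← map_mul, mul_inv_cancel, map_one, MulAut.one_apply]
      map_mul' := fun d d' => by
        apply Subtype.ext
        change φ a (d * d') = φ a d * φ a d'
        rw [map_mul] }
  map_one' := by
    ext d
    change φ 1 d = d
    rw [map_one, MulAut.one_apply]
  map_mul' a b := by
    ext d
    change φ (a * b) d = φ a (φ b d)
    rw [map_mul, MulAut.mul_apply]

/-- the inclusion of `N ∩ D` (inside `D`) into `N` -/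
def iotaN (N D : Subgroup G) : (N.subgroupOf D) →* N where
  toFun x := ⟨(x.1 : G), Subgroup.mem_subgroupOf.mp x.2⟩
  map_one' := rfl
  map_mul' _ _ := rfl

theorem setup_N [Finite G] (φ : A →* MulAut G) (T : Subgroup A) (N : Subgroup G)
    (hN : ∀ a, ∀ g ∈ N, φ a g ∈ N) (hT : IsPGroup p T) (hpG : ¬ p ∣ Nat.card G) :
    Setup ((restrictHom φ N hN).comp T.subtype) (iotaN N (fixSub φ T)) p where
  inj := by
    intro x y e
    apply Subtype.ext
    apply Subtype.ext
    exact congrArg (fun z : N => (z : G)) e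
  fix := by
    intro n
    constructor
    · intro h
      exact ⟨⟨⟨n, fun t ht => congrArg Subtype.val (h ⟨t, ht⟩)⟩,
        Subgroup.mem_subgroupOf.mpr n.2⟩, rfl⟩
    · rintro ⟨x, rfl⟩ s
      apply Subtype.ext
      exact x.1.2 s s.2
  pgrp := hT
  cop := fun h => hpG (h.trans (Subgroup.card_subgroup_dvd_card N))

theorem inv_of_corr [Fintype G] (hp : p.Prime) (φ : A →* MulAut G) (T : Subgroup A)
    [hTn : T.Normal] [Fintype (fixSub φ T)] (hT : IsPGroup p T) (hpG : ¬ p ∣ Nat.card G)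
    (χ : IrrCharacter G) (hχ : Inv (φ.comp T.subtype) (χ : G → ℂ))
    (β : IrrCharacter (fixSub φ T)) (hβ : Inv (resHom φ T) (β : fixSub φ T → ℂ))
    (hm : ∃ m : ℕ, classInner ((χ : G → ℂ) ∘ (fixSub φ T).subtype) (β : fixSub φ T → ℂ) = m ∧
      ¬ p ∣ m) : Inv φ (χ : G → ℂ) := by
  have h := setup_fix φ T hT hpG
  obtain ⟨-, -, m3, -⟩ := main hp h
  have hTinv : ∀ (a : A), 
      Inv (φ.comp T.subtype) ((mapIrr (φ a) χ : IrrCharacter G) : G → ℂ) := by
    intro a t g
    rw [mapIrr_coe]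
    have h1 : a⁻¹ * t * a ∈ T := by
      have := hTn.conj_mem t t.2 a⁻¹
      rwa [inv_inv] at this
    have h2 := hχ ⟨_, h1⟩ ((φ a).symm g)
    have h3 : (φ a).symm ((φ.comp T.subtype) t g) =
        (φ.comp T.subtype) ⟨_, h1⟩ ((φ a).symm g) := by
      apply (φ a).injective
      rw [MulEquiv.apply_symm_apply]
      change φ t g = φ a (φ (a⁻¹ * t * a) ((φ a).symm g))
      rw [← MulAut.mul_apply, ← map_mul]
      have : a * (a⁻¹ * ↑t * a) = t * a := by group
      rw [this, map_mul, MulAut.mul_apply, MulEquiv.apply_symm_apply]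
    simp only [Function.comp]
    rw [h3, h2]
  rw [← actIrr_fixed_iff]
  intro a
  obtain ⟨m, hm, hpm⟩ := hm
  have h1 := rel_equivariant φ T a χ β
  rw [(actIrr_fixed_iff _ β).mpr hβ a, hm] at h1
  exact m3 _ _ (hTinv a) hχ β m m h1 hpm hm hpm

end ind

theorem exists_inv_over_aux : ∀ (n : ℕ) (G : Type u) [Group G] [Finite G] (A : Type u) [Group A]
    [Finite A] [Group.IsSolvable A] (φ : A →* MulAut G) (N : Subgroup G) [N.Normal] [Fintype N]
    (hN : ∀ a, ∀ g ∈ N, φ a g ∈ N) (θ : IrrCharacter N), Nat.card A ≤ n →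
    (Nat.card G).Coprime (Nat.card A) → Inv (restrictHom φ N hN) (θ : N → ℂ) →
    ∃ χ : IrrCharacter G, Inv φ (χ : G → ℂ) ∧
      classInner ((χ : G → ℂ) ∘ N.subtype) (θ : N → ℂ) ≠ 0 := by
  intro n
  induction n with
  | zero =>
    intro G _ _ A _ _ _ φ N _ _ hN θ hA
    have := Nat.card_pos (α := A)
    omega
  | succ n ih =>
    intro G _ _ A _ _ _ φ N _ _ hN θ hA hcop hθ
    by_cases hnt : Nontrivial A
    · obtain ⟨p, T, hp, hTn, hTbot, -, hpow, -⟩ :=
        Cfsg.Agent.Lib.Helper1_MinNormal.exists_normal_elementary_abelian (G := A)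
      haveI := hTn
      haveI : Fact p.Prime := ⟨hp⟩
      have hT : IsPGroup p T := fun x => ⟨1, by rw [pow_one]; exact Subtype.ext (hpow x x.2)⟩
      have hpT : p ∣ Nat.card T := by
        obtain ⟨k, hk⟩ := IsPGroup.iff_card.mp hT
        rw [hk]
        refine dvd_pow_self p ?_
        rintro rfl
        rw [pow_zero] at hk
        exact hTbot (Subgroup.card_eq_one.mp hk)
      have hpG : ¬ p ∣ Nat.card G := by
        intro h1
        have h2 := Nat.dvd_gcd h1 (hpT.trans (Subgroup.card_subgroup_dvd_card T))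
        rw [hcop] at h2
        exact hp.one_lt.ne' (Nat.dvd_one.mp h2)
      haveI : Fintype G := Fintype.ofFinite _
      haveI : Fintype (fixSub φ T) := Fintype.ofFinite _
      haveI : Fintype (N.subgroupOf (fixSub φ T)) := Fintype.ofFinite _
      obtain ⟨M, hM⟩ := Cfsg.Agent.Lib.helper8_DefectZero.exists_modular hp
      have sG := setup_fix φ T hT hpG
      have sN := setup_N φ T N hN hT hpG
      have hθT : Inv ((restrictHom φ N hN).comp T.subtype) (θ : N → ℂ) := fun s n => hθ s n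
      obtain ⟨η, ⟨m0, hm0, hpm0⟩, huniq⟩ := (main hp sN).1 θ hθT
      have hE : ∀ a, ∀ d ∈ N.subgroupOf (fixSub φ T),
          resHom φ T a d ∈ N.subgroupOf (fixSub φ T) := by
        intro a d hd
        exact Subgroup.mem_subgroupOf.mpr (hN a d (Subgroup.mem_subgroupOf.mp hd))
      have hηA : Inv (restrictHom (resHom φ T) _ hE) (η : N.subgroupOf (fixSub φ T) → ℂ) := by
        rw [← actIrr_fixed_iff]
        intro a
        apply huniq
        refine ⟨m0, ?_, hpm0⟩
        have := rel_equiv (ι := iotaN N (fixSub φ T)) (restrictHom φ N hN a)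
          (restrictHom (resHom φ T) _ hE a) (fun c => rfl) θ η
        rw [(actIrr_fixed_iff _ θ).mpr hθ a] at this
        rw [this]
        exact hm0
      have hker : ∀ t ∈ T, resHom φ T t = 1 := by
        intro t ht
        ext d
        exact d.2 t ht
      have hE' : ∀ a' : A ⧸ T, ∀ d ∈ N.subgroupOf (fixSub φ T),
          QuotientGroup.lift T (resHom φ T) hker a' d ∈ N.subgroupOf (fixSub φ T) := by
        intro a' d hd
        obtain ⟨a, rfl⟩ := QuotientGroup.mk_surjective a'
        exact hE a d hd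
      have hη' : Inv (restrictHom (QuotientGroup.lift T (resHom φ T) hker) _ hE')
          (η : N.subgroupOf (fixSub φ T) → ℂ) := by
        intro a' x
        obtain ⟨a, rfl⟩ := QuotientGroup.mk_surjective a'
        exact hηA a x
      have hcard : Nat.card (A ⧸ T) ≤ n := by
        have h1 := T.card_mul_index
        have h2 : 2 ≤ Nat.card T := le_trans hp.two_le (Nat.le_of_dvd Nat.card_pos hpT)
        have h3 : Nat.card (A ⧸ T) = T.index := rfl
        have h4 : 0 < T.index := Nat.pos_of_ne_zero T.index_ne_zero_of_finite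
        rw [h3]
        nlinarith
      have hcop' : (Nat.card (fixSub φ T)).Coprime (Nat.card (A ⧸ T)) :=
        Nat.Coprime.coprime_dvd_left (Subgroup.card_subgroup_dvd_card _)
          (Nat.Coprime.coprime_dvd_right (Subgroup.index_dvd_card T) hcop)
      obtain ⟨β, hβ', hβη⟩ := ih (fixSub φ T) (A ⧸ T) (QuotientGroup.lift T (resHom φ T) hker)
        (N.subgroupOf (fixSub φ T)) hE' η hcard hcop' hη'
      have hβ : Inv (resHom φ T) (β : fixSub φ T → ℂ) := fun a d => hβ' (a : A ⧸ T) d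
      obtain ⟨χ, hχT, hχβ⟩ := (main hp sG).2.2.2 β
      have hχA := inv_of_corr hp φ T hT hpG χ hχT β hβ hχβ
      refine ⟨χ, hχA, ?_⟩
      obtain ⟨m, hm⟩ := exists_m (ι := N.subtype) χ θ
      obtain ⟨m', hm'⟩ := exists_m (ι := (N.subgroupOf (fixSub φ T)).subtype) β η
      obtain ⟨mm, hmm, hpmm⟩ := hχβ
      have key := mult_cong hM sG sN N.subtype (N.subgroupOf (fixSub φ T)).subtype
        (fun x => rfl) (fun s n => rfl) hχT hθT
        (by rw [Om_rr_ideal_iff hM sG χ β mm hmm]; exact hpmm)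
        (by rw [Om_rr_ideal_iff hM sN θ η m0 hm0]; exact hpm0) m m' hm hm'
      have hm'0 : m' ≠ 0 := by
        rintro rfl
        apply hβη
        rw [hm', Nat.cast_zero]
      have h5 := mult_dvd_degree (N.subgroupOf (fixSub φ T)) β η m' hm' hm'0
      have h6 : ¬ p ∣ m' := by
        intro h7
        exact sG.copC ((h7.trans h5).trans
          (Cfsg.Agent.Lib.helper8_Defect.irr_charDegree β.2).2.2)
      rw [hm]
      intro h8
      have h9 : m = 0 := by exact_mod_cast h8
      apply h6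
      rw [← key, h9]
      exact dvd_zero p
    · rw [not_nontrivial_iff_subsingleton] at hnt
      have h1 : ∀ a : A, φ a = 1 := fun a => by rw [Subsingleton.elim a 1, map_one]
      haveI : Fintype G := Fintype.ofFinite _
      obtain ⟨χ, hχ⟩ := Cfsg.Agent.Lib.Helper2_BlockNormal.exists_over N θ
      refine ⟨χ, ?_, hχ⟩
      intro a g
      rw [h1 a, MulAut.one_apply]

end Cfsg.Agent.Lib.GlaubOver
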