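import Mathlib
import Cfsg.Prelude.Def_Local
import Cfsg.Prelude.Def_CaseTheorems
import Cfsg.Agent.Lib.Helper4_Core
import Cfsg.Agent.Lib.Helper2_PPart
import Cfsg.Agent.S0028
import Cfsg.Agent.S3800

set_option autoImplicit false

namespace Cfsg.Agent.Lib.PConstrained

open Cfsg

universe u

variable {G : Type u} [Group G] {p : ℕ}

/-- a group all of whose `p`-regular elements are trivial is a `p`-group -/
theorem isPGroup_of_regular_trivial [Finite G] (hp : p.Prime) (Y : Subgroup G)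
    (h : ∀ y ∈ Y, ¬ p ∣ orderOf y → y = 1) : IsPGroup p Y := by
  rintro ⟨g, hg⟩
  obtain ⟨a, y, hxy, -, ⟨k, hk⟩, hy⟩ := Cfsg.Agent.Lib.Helper2_PPart.exists_isPPart hp g
  have hyY : y ∈ Y := by
    have : y = (g ^ a)⁻¹ * g := eq_inv_mul_of_mul_eq hxy
    rw [this]
    exact mul_mem (inv_mem (pow_mem hg a)) hg
  have hy1 := h y hyY hy
  rw [hy1, mul_one] at hxy
  refine ⟨k, ?_⟩
  apply Subtype.ext
  show g ^ p ^ k = 1
  rw [← hk, hxy]
  exact pow_orderOf_eq_one g

/-- centralizers of `p`-subgroups in a `p`-constrained group are `p`-constrained -/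
theorem selfCentralizing_centralizer [Finite G] [hpF : Fact p.Prime]
    (K : Subgroup G) [K.Normal] (hK : (Nat.card K).Coprime p)
    (U : Subgroup (G ⧸ K)) [hUn : U.Normal] (hU : IsPGroup p U)
    (hCU : Subgroup.centralizer (U : Set (G ⧸ K)) ≤ U)
    (R : Subgroup G) (hR : IsPGroup p R) :
    Subgroup.centralizer ((pCore p (↥(Subgroup.centralizer (R : Set G)) ⧸
      K.subgroupOf (Subgroup.centralizer (R : Set G)))) : Set _) ≤
      pCore p (↥(Subgroup.centralizer (R : Set G)) ⧸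
        K.subgroupOf (Subgroup.centralizer (R : Set G))) := by
  have hp : p.Prime := hpF.out
  set C := Subgroup.centralizer (R : Set G) with hC
  set N := K.subgroupOf C with hN
  set P' := pCore p (↥C ⧸ N) with hP'
  set Y := Subgroup.centralizer (P' : Set (↥C ⧸ N)) with hY
  have hYn : Y.Normal := inferInstance
  have hmemN : ∀ x : ↥C, x ∈ N ↔ (x : G) ∈ K := fun x => Subgroup.mem_subgroupOf
  apply Cfsg.Agent.Lib.Helper4_Core.le_pCore hYn
  apply isPGroup_of_regular_trivial hp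
  intro yb hyb hreg
  obtain ⟨c, rfl⟩ := QuotientGroup.mk_surjective yb
  set y₁ : G ⧸ K := QuotientGroup.mk' K (c : G) with hy₁
  -- order of `y₁`
  have hord : orderOf y₁ ∣ orderOf (QuotientGroup.mk c : ↥C ⧸ N) := by
    apply orderOf_dvd_of_pow_eq_one
    have h1 : (QuotientGroup.mk c : ↥C ⧸ N) ^ orderOf (QuotientGroup.mk c : ↥C ⧸ N) = 1 :=
      pow_orderOf_eq_one _
    rw [← QuotientGroup.mk_pow, QuotientGroup.eq_one_iff, hmemN] at h1
    rw [hy₁, ← map_pow]
    exact (QuotientGroup.eq_one_iff _).2 h1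
  have hreg₁ : ¬ p ∣ orderOf y₁ := fun h => hreg (h.trans hord)
  -- the normal `p`-subgroup `W`
  set W : Subgroup (↥C ⧸ N) :=
    ((U.comap (QuotientGroup.mk' K)).subgroupOf C).map (QuotientGroup.mk' N) with hW
  have hWn : W.Normal :=
    Subgroup.Normal.map inferInstance _ (QuotientGroup.mk'_surjective N)
  have hWp : IsPGroup p W := by
    rintro ⟨w, hw⟩
    obtain ⟨x, hx, rfl⟩ := hw
    rw [SetLike.mem_coe, Subgroup.mem_subgroupOf, Subgroup.mem_comap] at hx
    obtain ⟨k, hk⟩ := hU ⟨_, hx⟩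
    refine ⟨k, ?_⟩
    apply Subtype.ext
    show (QuotientGroup.mk' N x) ^ p ^ k = 1
    have h1 : (QuotientGroup.mk' K (x : G)) ^ p ^ k = 1 := congrArg Subtype.val hk
    rw [← map_pow] at h1 ⊢
    have h2 : ((x : G) ^ p ^ k) ∈ K := (QuotientGroup.eq_one_iff _).1 h1
    apply (QuotientGroup.eq_one_iff _).2
    rw [hmemN]
    exact h2
  have hWP : W ≤ P' := Cfsg.Agent.Lib.Helper4_Core.le_pCore hWn hWp
  have key := Cfsg.Agent.S0028.result p (R.map (QuotientGroup.mk' K)) (Subgroup.zpowers y₁) U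
    (hR.map _) (by
      rw [Nat.card_zpowers]
      exact (Nat.Prime.coprime_iff_not_dvd hp).2 hreg₁ |>.symm) hU ?_ ?_ ?_ ?_
  · have h1 : y₁ ∈ U := hCU (key (Subgroup.mem_zpowers y₁))
    obtain ⟨k, hk⟩ := hU ⟨y₁, h1⟩
    have h2 : y₁ ^ p ^ k = 1 := congrArg Subtype.val hk
    have h3 : orderOf y₁ ∣ p ^ k := orderOf_dvd_of_pow_eq_one h2
    have h4 : orderOf y₁ = 1 := by
      obtain ⟨j, -, hj⟩ := (Nat.dvd_prime_pow hp).1 h3
      rcases Nat.eq_zero_or_pos j with rfl | hj0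
      · rw [hj, pow_zero]
      · exact absurd (hj ▸ dvd_pow_self p hj0.ne') hreg₁
    rw [orderOf_eq_one_iff] at h4
    apply (QuotientGroup.eq_one_iff _).2
    rw [hmemN]
    exact (QuotientGroup.eq_one_iff _).1 h4
  · -- `R̄` centralizes `y₁`
    rintro _ ⟨r, hr, rfl⟩
    rw [Subgroup.mem_centralizer_iff]
    intro z hz
    obtain ⟨n, rfl⟩ := Subgroup.mem_zpowers_iff.1 hz
    have h1 : (c : G) * r = r * (c : G) := ((Subgroup.mem_centralizer_iff.1 c.2) r hr).symm
    have h2 : Commute y₁ (QuotientGroup.mk' K r) := by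
      show y₁ * _ = _ * y₁
      rw [hy₁, ← map_mul, ← map_mul, h1]
    exact (h2.zpow_left n).eq
  · rw [Subgroup.normalizer_eq_top]; exact le_top
  · rw [Subgroup.normalizer_eq_top]; exact le_top
  · rintro u ⟨hu1, hu2⟩
    rw [SetLike.mem_coe, (Cfsg.Agent.S3800.result K hK R hR).2] at hu2
    obtain ⟨c', hc', rfl⟩ := hu2
    have h1 : (QuotientGroup.mk' N ⟨c', hc'⟩ : ↥C ⧸ N) ∈ W := by
      refine ⟨⟨c', hc'⟩, ?_, rfl⟩
      rw [SetLike.mem_coe, Subgroup.mem_subgroupOf, Subgroup.mem_comap]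
      exact hu1
    have h2 := (Subgroup.mem_centralizer_iff.1 hyb) _ (hWP h1)
    -- transfer to `G ⧸ K`
    have h3 : (⟨c', hc'⟩ * c : ↥C)⁻¹ * (c * ⟨c', hc'⟩) ∈ N := by
      rw [← QuotientGroup.eq]
      exact h2
    rw [hmemN] at h3
    have h4 : QuotientGroup.mk' K (c' * (c : G)) = QuotientGroup.mk' K ((c : G) * c') := by
      apply QuotientGroup.eq.2
      exact h3
    rw [Subgroup.mem_centralizer_iff]
    intro z hz
    obtain ⟨n, rfl⟩ := Subgroup.mem_zpowers_iff.1 hz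
    have h5 : Commute y₁ (QuotientGroup.mk' K c') := by
      show y₁ * _ = _ * y₁
      rw [hy₁, ← map_mul, ← map_mul, h4]
    exact (h5.zpow_left n).eq

/-- the hypothesis `C_G(Q) ≤ O_{p',p}(G)` in the quotient -/
theorem centralizer_pCore_le [Finite G] [hpF : Fact p.Prime] (Q : Subgroup G)
    (hQL : Q ≤ pPrimePCore p G) (hQp : IsPGroup p Q) (hQS : ¬ p ∣ Q.relIndex (pPrimePCore p G))
    (hCQ : Subgroup.centralizer (Q : Set G) ≤ pPrimePCore p G) :
    Subgroup.centralizer ((pCore p (G ⧸ pPrimeCore p G)) : Set (G ⧸ pPrimeCore p G)) ≤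
      pCore p (G ⧸ pPrimeCore p G) := by
  have hp : p.Prime := hpF.out
  set K := pPrimeCore p G with hK
  set U := pCore p (G ⧸ K) with hU
  set L := pPrimePCore p G with hL
  have hLU : L = U.comap (QuotientGroup.mk' K) := rfl
  have hUL : U = L.map (QuotientGroup.mk' K) := by
    rw [hLU, Subgroup.map_comap_eq_self_of_surjective (QuotientGroup.mk'_surjective K)]
  have hKL : K ≤ L := by
    intro k hk
    rw [hLU, Subgroup.mem_comap]
    have : QuotientGroup.mk' K k = 1 := (QuotientGroup.eq_one_iff k).2 hk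
    rw [this]
    exact one_mem _
  have hUp : IsPGroup p U := Cfsg.Agent.Lib.Helper4_Core.pCore_isPGroup p _
  have h1 : (Q.map (QuotientGroup.mk' K)).relIndex U = (Q ⊔ K).relIndex L := by
    rw [hUL, Subgroup.relIndex_map_map, QuotientGroup.ker_mk', sup_eq_left.2 hKL]
  have h2 : (Q ⊔ K).relIndex L ∣ Q.relIndex L := Subgroup.relIndex_dvd_of_le_left L le_sup_left
  have h3 : ¬ p ∣ (Q.map (QuotientGroup.mk' K)).relIndex U := fun h => hQS ((h1 ▸ h).trans h2)
  obtain ⟨k, hk⟩ := hUp.index ((Q.map (QuotientGroup.mk' K)).subgroupOf U)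
  have h4 : (Q.map (QuotientGroup.mk' K)).relIndex U = 1 := by
    have h5 : (Q.map (QuotientGroup.mk' K)).relIndex U = p ^ k := hk
    rcases Nat.eq_zero_or_pos k with rfl | hk0
    · rw [h5, pow_zero]
    · exact absurd (h5 ▸ dvd_pow_self p hk0.ne') h3
  have h5 : U ≤ Q.map (QuotientGroup.mk' K) := Subgroup.relIndex_eq_one.1 h4
  have hKc : (Nat.card K).Coprime p := Cfsg.Agent.Lib.Helper4_Core.pPrimeCore_coprime p
  calc Subgroup.centralizer (U : Set (G ⧸ K))
      ≤ Subgroup.centralizer ((Q.map (QuotientGroup.mk' K)) : Set (G ⧸ K)) := by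
        have h6 : Q.map (QuotientGroup.mk' K) ≤ U := by
          rw [hUL]; exact Subgroup.map_mono hQL
        rw [le_antisymm h5 h6]
    _ = (Subgroup.centralizer (Q : Set G)).map (QuotientGroup.mk' K) :=
        (Cfsg.Agent.S3800.result K hKc Q hQp).2
    _ ≤ L.map (QuotientGroup.mk' K) := Subgroup.map_mono hCQ
    _ = U := hUL.symm

end Cfsg.Agent.Lib.PConstrained
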