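import Mathlib
import Cfsg.Prelude.Def_Blocks
import Cfsg.Prelude.Def_BlockLocal
import Cfsg.Agent.Lib.PConstrained
import Cfsg.Agent.Lib.BlockFongMain
import Cfsg.Agent.Lib.GlaubOver
import Cfsg.Agent.Lib.Helper2_BlockBrauer
import Cfsg.Agent.Lib.Helper2_BlockDefect

set_option autoImplicit false
set_option linter.unusedSectionVars false
set_option linter.style.haveILetI false

namespace Cfsg.Agent.Lib.BlockPrincipalType

open Cfsg Cfsg.Agent.Lib.Helper2_BlockLocal Cfsg.Agent.Lib.Helper2_BlockOm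
  Cfsg.Agent.Lib.Helper2_BlockOsima Cfsg.Agent.Lib.Helper2_BlockBasic
  Cfsg.Agent.Lib.Helper2_BlockInd Cfsg.Agent.Lib.Helper2_BlockNormal
  Cfsg.Agent.Lib.Helper2_BlockCover2 Cfsg.Agent.Lib.Helper2_BlockCover3
  Cfsg.Agent.Lib.Helper2_BlockBrauer Cfsg.Agent.Lib.Helper2_BlockDefect
  Cfsg.Agent.Lib.Helper2_BlockOrtho
  Cfsg.Agent.Lib.CharBasic Cfsg.Agent.Lib.CharOrtho
  Cfsg.Agent.Lib.CharComplete Cfsg.Agent.Lib.CharIntegral Cfsg.Agent.Lib.CharMore
  Cfsg.Agent.Lib.CharInd Cfsg.Agent.Lib.CharClifford Cfsg.Agent.Lib.GlaubP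
  Cfsg.Agent.Lib.GlaubOver
open scoped ComplexConjugate Classical

universe u

variable {G : Type u} [Group G] [Fintype G] {M : Ideal AlgInt} {p : ℕ}
  (K : Subgroup G) [hK : K.Normal] [Fintype K] (R : Subgroup G)

/-- the conjugation action of `R` on `K` -/
noncomputable def act : R →* MulAut K := (MulAut.conjNormal (H := K)).comp R.subtype

theorem act_apply (r : R) (k : K) : ((act K R r k : K) : G) = r * k * (r : G)⁻¹ := by
  simp [act, MulAut.conjNormal_apply]

theorem setup (hR : IsPGroup p R) (hKp : ¬ p ∣ Nat.card K) :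
    Setup (act K R) (iotaN K (Subgroup.centralizer (R : Set G))) p where
  inj := by
    intro x y e
    apply Subtype.ext
    apply Subtype.ext
    exact congrArg (fun z : K => (z : G)) e
  fix := by
    intro k
    constructor
    · intro h
      have hk : (k : G) ∈ Subgroup.centralizer (R : Set G) := by
        rw [Subgroup.mem_centralizer_iff]
        intro r hr
        have h1 := congrArg (fun z : K => (z : G)) (h ⟨r, hr⟩)
        simp only [act_apply] at h1
        calc r * (k : G) = (r * k * r⁻¹) * r := by group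
          _ = k * r := by rw [h1]
      exact ⟨⟨⟨k, hk⟩, Subgroup.mem_subgroupOf.2 k.2⟩, Subtype.ext rfl⟩
    · rintro ⟨x, rfl⟩ s
      apply Subtype.ext
      rw [act_apply]
      have h1 : ((iotaN K (Subgroup.centralizer (R : Set G)) x : K) : G) = (x.1 : G) := rfl
      rw [h1]
      have h2 := (Subgroup.mem_centralizer_iff.1 x.1.2) s s.2
      rw [h2]
      group
  pgrp := hR
  cop := hKp

variable {K R}

theorem stable_singleton (θ : IrrCharacter K)
    (hθ : ∀ g : G, IsConjCharOf K g (θ : K → ℂ) (θ : K → ℂ)) : Stable K hK {θ} := by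
  intro g θ' hθ'
  rw [Set.mem_singleton_iff] at hθ' ⊢
  subst hθ'
  apply Subtype.ext
  rw [conjIrr_coe]
  funext n
  rw [conjFun_apply]
  exact hθ g n _ rfl

theorem inv_act (θ : IrrCharacter K)
    (hθ : ∀ g : G, IsConjCharOf K g (θ : K → ℂ) (θ : K → ℂ)) :
    Inv (act K R) (θ : K → ℂ) := by
  intro s k
  exact hθ s k _ (act_apply K R s k)

/-- the value of the idempotent of `θ`, cut down to `C_G(R)`, at a character of `C_G(R)` -/
theorem Om_ext [Fintype ↥(Subgroup.centralizer (R : Set G))]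
    [Fintype ↥(K.subgroupOf (Subgroup.centralizer (R : Set G)))] (θ : IrrCharacter K)
    (hθ : ∀ g : G, IsConjCharOf K g (θ : K → ℂ) (θ : K → ℂ))
    (ψ : IrrCharacter ↥(Subgroup.centralizer (R : Set G)))
    (η : IrrCharacter ↥(K.subgroupOf (Subgroup.centralizer (R : Set G))))
    (h : classInner (fun n : ↥(K.subgroupOf (Subgroup.centralizer (R : Set G))) =>
      (ψ : ↥(Subgroup.centralizer (R : Set G)) → ℂ) n)
      (η : ↥(K.subgroupOf (Subgroup.centralizer (R : Set G))) → ℂ) ≠ 0) :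
    Om (fun x : ↥(Subgroup.centralizer (R : Set G)) => extCoeff K {θ} (x : G))
      (ψ : ↥(Subgroup.centralizer (R : Set G)) → ℂ) =
      Om (rr (iotaN K (Subgroup.centralizer (R : Set G))) θ)
        (η : ↥(K.subgroupOf (Subgroup.centralizer (R : Set G))) → ℂ) := by
  have hc : IsClassFunction G (extCoeff K {θ}) :=
    extCoeff_classFunction K hK (stable_singleton θ hθ)
  rw [Om_eq_Om_restrict (K.subgroupOf (Subgroup.centralizer (R : Set G)))
    (c := fun x : ↥(Subgroup.centralizer (R : Set G)) => extCoeff K {θ} (x : G))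
    (fun g hg => extendByZero_not_mem K _ (fun h' => hg (Subgroup.mem_subgroupOf.2 h'))),
    Om_restrict_eq (K.subgroupOf (Subgroup.centralizer (R : Set G))) inferInstance ψ.2 η.2 h
      (restrict_classFunction _ hc)]
  congr 1
  funext n
  exact extendByZero_coe K _ (iotaN K (Subgroup.centralizer (R : Set G)) n)

theorem extCoeff_ring (hM : IsPModular p M) (hKp : ¬ p ∣ Nat.card K) (θ : IrrCharacter K) (g : G) :
    MemLocalRing M (extCoeff K {θ} g) := by
  unfold extCoeff
  by_cases hg : g ∈ K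
  · rw [extendByZero_mem K _ hg]
    exact blockCoeff_ring_of_pprime hM hKp _ _
  · rw [extendByZero_not_mem K _ hg]
    exact ring_zero (isPrime_of_modular hM)

theorem trunc_self (c : G → ℂ) :
    trunc R (Subgroup.centralizer (R : Set G)) c =
      fun x : ↥(Subgroup.centralizer (R : Set G)) => c (x : G) := by
  funext x
  unfold trunc
  rw [if_pos x.2]

theorem main [hpF : Fact p.Prime] (hM : IsPModular p M) (hKp : ¬ p ∣ Nat.card K)
    (U : Subgroup (G ⧸ K)) [U.Normal] (hU : IsPGroup p U)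
    (hCU : Subgroup.centralizer (U : Set (G ⧸ K)) ≤ U)
    (θ : IrrCharacter K) (hθ : ∀ g : G, IsConjCharOf K g (θ : K → ℂ) (θ : K → ℂ))
    (B : Set (IrrCharacter G)) (hB : IsPBlock M B)
    (hBdef : ∀ χ : IrrCharacter G, χ ∈ B ↔
      classInner (fun k : K => (χ : G → ℂ) k) (θ : K → ℂ) ≠ 0)
    (R : Subgroup G) (hR : IsPGroup p R) :
    ∃! f : Set (IrrCharacter ↥(Subgroup.centralizer (R : Set G))),
      IsInducedBlock M (Subgroup.centralizer (R : Set G)) f B := by
  have hPr := isPrime_of_modular hM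
  have hp : p.Prime := hpF.out
  haveI : Fintype ↥(Subgroup.centralizer (R : Set G)) := Fintype.ofFinite _
  haveI : Fintype ↥(K.subgroupOf (Subgroup.centralizer (R : Set G))) := Fintype.ofFinite _
  have hS := setup K R hR hKp
  have hinv := inv_act (R := R) θ hθ
  have hst := stable_singleton θ hθ
  have hKcop : (Nat.card K).Coprime p := ((Nat.Prime.coprime_iff_not_dvd hp).2 hKp).symm
  obtain ⟨β, hβ⟩ := Cfsg.Agent.Lib.GlaubP.exists_under hM hS θ
  have hNp : ¬ p ∣ Nat.card ↥(K.subgroupOf (Subgroup.centralizer (R : Set G))) := hS.copC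
  have hβinv : ∀ g : ↥(Subgroup.centralizer (R : Set G)),
      conjFun (K.subgroupOf (Subgroup.centralizer (R : Set G))) inferInstance
        (β : ↥(K.subgroupOf (Subgroup.centralizer (R : Set G))) → ℂ) g = β := by
    intro g
    obtain ⟨ψ, hψ, hover⟩ := Cfsg.Agent.Lib.CharCover.exists_over
      (K.subgroupOf (Subgroup.centralizer (R : Set G))) β.2
    have h1 := Om_ext θ hθ ⟨ψ, hψ⟩ β hover
    have hover' : classInner (fun n : ↥(K.subgroupOf (Subgroup.centralizer (R : Set G))) => ψ n)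
        (conjIrr (K.subgroupOf (Subgroup.centralizer (R : Set G))) inferInstance g β :
          ↥(K.subgroupOf (Subgroup.centralizer (R : Set G))) → ℂ) ≠ 0 := by
      rw [conjIrr_coe, classInner_restrict_conjFun _ _ _
        (irr_classFunction (⟨ψ, hψ⟩ : IrrCharacter ↥(Subgroup.centralizer (R : Set G))))]
      exact hover
    have h2 := Om_ext θ hθ ⟨ψ, hψ⟩ _ hover'
    have h3 : ¬ MemLocalIdeal M (Om (rr (iotaN K (Subgroup.centralizer (R : Set G))) θ)
        (conjIrr (K.subgroupOf (Subgroup.centralizer (R : Set G))) inferInstance g β :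
          ↥(K.subgroupOf (Subgroup.centralizer (R : Set G))) → ℂ)) := by
      rw [← h2, h1]; exact hβ
    have h4 := unique_under hM hS hinv hβ h3
    exact congrArg Subtype.val h4
  obtain ⟨f₀, hf₀, hf₀mem, -, -⟩ := Cfsg.Agent.Lib.BlockFongMain.fong_block hM
    (K.subgroupOf (Subgroup.centralizer (R : Set G))) hNp β hβinv
    (pCore p (↥(Subgroup.centralizer (R : Set G)) ⧸
      K.subgroupOf (Subgroup.centralizer (R : Set G))))
    (Cfsg.Agent.Lib.Helper4_Core.pCore_isPGroup p _)
    (Cfsg.Agent.Lib.PConstrained.selfCentralizing_centralizer K hKcop U hU hCU R hR)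
  have hc := extCoeff_classFunction K hK hst
  have hr := extCoeff_ring hM hKp θ
  have hOmG : ∀ χ : IrrCharacter G,
      Om (extCoeff K {θ}) (χ : G → ℂ) = if χ ∈ B then 1 else 0 := by
    intro χ
    by_cases hχ : χ ∈ B
    · rw [Om_extCoeff K hK hst χ θ ((hBdef χ).1 hχ), if_pos (Set.mem_singleton θ), if_pos hχ]
    · obtain ⟨θ', hθ'⟩ := Cfsg.Agent.Lib.Helper2_BlockCover2.exists_under K χ
      rw [Om_extCoeff K hK hst χ θ' hθ', if_neg hχ, if_neg]
      intro h
      rw [Set.mem_singleton_iff] at h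
      subst h
      exact hχ ((hBdef χ).2 hθ')
  obtain ⟨ξ0, hξ0⟩ := block_nonempty hPr hf₀
  obtain ⟨B', hB', -, hBc⟩ := exists_brauer_block hM hR le_rfl
    (Subgroup.centralizer_le_normalizer _) ξ0
  have hB'B : B' = B := by
    obtain ⟨χ, hχ⟩ := block_nonempty hPr hB'
    have h1 := hBc χ hχ _ hc hr
    rw [trunc_self, Om_ext θ hθ ξ0 β ((hf₀mem ξ0).1 hξ0), hOmG] at h1
    by_cases hχB : χ ∈ B
    · rw [block_eq_blockOf hPr hB' hχ, block_eq_blockOf hPr hB hχB]
    · rw [if_neg hχB, sub_zero] at h1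
      exact absurd h1 hβ
  have hind : IsInducedBlock M (Subgroup.centralizer (R : Set G)) f₀ B := by
    refine ⟨hf₀, hB, ?_⟩
    intro ξ hξ χ hχ g
    have h1 := inducedCentralChar_congr hPr (Subgroup.centralizer (R : Set G))
      (irr_classFunction ξ) (irr_classFunction ξ0) (sameBlock_of_mem hPr hf₀ hξ hξ0) g
    have h3 := hBc χ (hB'B ▸ hχ) (classInd g) (classInd_classFunction g) (classInd_ring hPr g)
    rw [trunc_self, ← inducedCentralChar_eq_Om, Om_classInd g (irr_classFunction χ)] at h3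
    exact ideal_sub_trans hPr h1 h3
  refine ⟨f₀, hind, ?_⟩
  intro f hf
  obtain ⟨ξ, hξ⟩ := block_nonempty hPr hf.1
  obtain ⟨χ, hχ⟩ := block_nonempty hPr hB
  have h1 := Om_restrict_congr_induced hPr hf hξ hχ hc hr
  obtain ⟨η, hη⟩ := Cfsg.Agent.Lib.Helper2_BlockCover2.exists_under
    (K.subgroupOf (Subgroup.centralizer (R : Set G))) ξ
  rw [Om_ext θ hθ ξ η hη, hOmG, if_pos hχ] at h1
  have h2 : ¬ MemLocalIdeal M (Om (rr (iotaN K (Subgroup.centralizer (R : Set G))) θ)
      (η : ↥(K.subgroupOf (Subgroup.centralizer (R : Set G))) → ℂ)) :=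
    not_ideal_of_sub hPr h1 (not_ideal_one hPr)
  have h3 : η = β := unique_under hM hS hinv hβ h2
  subst h3
  have h4 : ξ ∈ f₀ := (hf₀mem ξ).2 hη
  rw [block_eq_blockOf hPr hf.1 hξ, block_eq_blockOf hPr hf₀ h4]

end Cfsg.Agent.Lib.BlockPrincipalType
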