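import Mathlib
import Cfsg.Prelude.Def_Blocks
import Cfsg.Prelude.Def_BlockRank
import Cfsg.Agent.Lib.helper8_BlockRank
import Cfsg.Agent.Lib.helper8_RegularPart
import Cfsg.Agent.Lib.Helper2_BlockDefOrder
import Cfsg.Agent.Lib.CharGen
import Cfsg.Agent.S0189

set_option autoImplicit false

namespace Cfsg.Agent.Lib.BlockRankOne

open Cfsg Cfsg.Agent.Lib.Helper2_BlockLocal Cfsg.Agent.Lib.Helper2_BlockOm
  Cfsg.Agent.Lib.Helper2_BlockOsima Cfsg.Agent.Lib.Helper2_BlockBasic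
  Cfsg.Agent.Lib.CharBasic Cfsg.Agent.Lib.CharOrtho
  Cfsg.Agent.Lib.CharComplete Cfsg.Agent.Lib.CharIntegral Cfsg.Agent.Lib.CharMore
  Cfsg.Agent.Lib.helper8_Defect Cfsg.Agent.Lib.helper8_BlockRank
  Cfsg.Agent.Lib.helper8_RegularPart
open scoped ComplexConjugate Classical

universe u

variable {G : Type u} [Group G] {M : Ideal AlgInt} {p : ℕ}

theorem exists_bezout {ι : Type*} (S : Finset ι) (f : ι → ℕ) :
    ∃ n : ι → ℤ, ((S.gcd f : ℕ) : ℤ) = ∑ i ∈ S, n i * (f i : ℤ) := by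
  induction S using Finset.induction_on with
  | empty => exact ⟨fun _ => 0, by simp⟩
  | insert a s ha ih =>
    obtain ⟨n, hn⟩ := ih
    rw [Finset.gcd_insert]
    refine ⟨fun i => if i = a then Nat.gcdA (f a) (s.gcd f) else Nat.gcdB (f a) (s.gcd f) * n i, ?_⟩
    rw [Finset.sum_insert ha]
    dsimp only
    rw [if_pos rfl]
    have h1 : ∑ i ∈ s, (if i = a then Nat.gcdA (f a) (s.gcd f) else
        Nat.gcdB (f a) (s.gcd f) * n i) * (f i : ℤ) =
        Nat.gcdB (f a) (s.gcd f) * ∑ i ∈ s, n i * (f i : ℤ) := by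
      rw [Finset.mul_sum]
      apply Finset.sum_congr rfl
      intro i hi
      rw [if_neg (fun h : i = a => ha (h ▸ hi)), mul_assoc]
    rw [h1, ← hn]
    have h2 := Nat.gcd_eq_gcd_ab (f a) (s.gcd f)
    have h3 : (GCDMonoid.gcd (f a) (s.gcd f) : ℕ) = Nat.gcd (f a) (s.gcd f) := rfl
    rw [h3, h2]
    ring

/-- all members of a block of rank one are proportional on the regular elements -/
theorem exists_prop [Fintype G] {B : Set (IrrCharacter G)} (hl : blockRank p B = 1)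
    (hp : p.Prime) : ∃ v : G → ℂ, (∀ x : G, p ∣ orderOf x → v x = 0) ∧
      ∀ χ ∈ B, pRegularPart p (χ : G → ℂ) = (χ : G → ℂ) 1 • v := by
  unfold blockRank at hl
  obtain ⟨⟨v0, hv0⟩, -, hv⟩ := finrank_eq_one_iff'.1 hl
  have h1r : ¬ p ∣ orderOf (1 : G) := by
    rw [orderOf_one]; exact hp.one_lt.ne' ∘ Nat.dvd_one.1
  have hc : ∀ χ ∈ B, ∃ c : ℂ, c • v0 = pRegularPart p (χ : G → ℂ) := by
    intro χ hχ
    obtain ⟨c, hc⟩ := hv ⟨_, Submodule.subset_span ⟨χ, hχ, rfl⟩⟩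
    exact ⟨c, congrArg Subtype.val hc⟩
  by_cases hne : B.Nonempty
  · obtain ⟨χ0, hχ0⟩ := hne
    obtain ⟨c0, hc0⟩ := hc χ0 hχ0
    have h0 : c0 * v0 1 = (χ0 : G → ℂ) 1 := by
      have := congrFun hc0 1
      rwa [pRegularPart_regular _ h1r, Pi.smul_apply, smul_eq_mul] at this
    have hv1 : v0 1 ≠ 0 := by
      intro h
      rw [h, mul_zero] at h0
      exact irr_degree_ne_zero χ0.2 h0.symm
    have hc00 : c0 ≠ 0 := by
      intro h
      rw [h, zero_mul] at h0
      exact irr_degree_ne_zero χ0.2 h0.symm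
    refine ⟨(v0 1)⁻¹ • v0, ?_, ?_⟩
    · intro x hx
      have := congrFun hc0 x
      rw [pRegularPart_singular _ hx, Pi.smul_apply, smul_eq_mul] at this
      rw [Pi.smul_apply, smul_eq_mul, (mul_eq_zero.1 this).resolve_left hc00, mul_zero]
    · intro χ hχ
      obtain ⟨c, hc⟩ := hc χ hχ
      have h2 : c * v0 1 = (χ : G → ℂ) 1 := by
        have := congrFun hc 1
        rwa [pRegularPart_regular _ h1r, Pi.smul_apply, smul_eq_mul] at this
      rw [← hc, ← h2, smul_smul, mul_assoc, mul_inv_cancel₀ hv1, mul_one]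
  · refine ⟨0, fun _ _ => rfl, fun χ hχ => absurd ⟨χ, hχ⟩ hne⟩

theorem main [Fintype G] [Fact p.Prime] (hM : IsPModular p M) {B : Set (IrrCharacter G)}
    (hB : IsPBlock M B) {P : Subgroup G} (hP : IsDefectGroup p M B P) (hl : blockRank p B = 1) :
    ∃ φ : G → ℂ, ∃ d : IrrCharacter G → ℕ,
      (∃ n : IrrCharacter G → ℤ, ∀ x : G, IsPRegular p x → φ x =
        ∑ ψ ∈ Finset.univ.filter (fun ψ : IrrCharacter G => ψ ∈ B), (n ψ : ℂ) * (ψ : G → ℂ) x) ∧
      (∀ χ ∈ B, ∀ x : G, IsPRegular p x → (χ : G → ℂ) x = (d χ : ℂ) * φ x) ∧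
      ∑ χ ∈ Finset.univ.filter (fun χ : IrrCharacter G => χ ∈ B), d χ ^ 2 = Nat.card P := by
  have hp : p.Prime := hM.1
  have hPr := isPrime_of_modular hM
  obtain ⟨v, hvs, hv⟩ := exists_prop hl hp
  set S := Finset.univ.filter (fun χ : IrrCharacter G => χ ∈ B) with hS
  have hmemS : ∀ χ, χ ∈ S ↔ χ ∈ B := fun χ => by simp [hS]
  set f : IrrCharacter G → ℕ := fun χ => charDegree (χ : G → ℂ) with hf
  have hf1 : ∀ χ : IrrCharacter G, (χ : G → ℂ) 1 = (f χ : ℂ) := fun χ => (irr_charDegree χ.2).2.1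
  have hf0 : ∀ χ : IrrCharacter G, 0 < f χ := fun χ => (irr_charDegree χ.2).1
  set e := S.gcd f with he
  obtain ⟨n, hn⟩ := exists_bezout S f
  obtain ⟨χ0, hχ0⟩ : B.Nonempty := by
    obtain ⟨χ, rfl⟩ := hB
    exact ⟨χ, sameBlock_refl hPr _⟩
  have hed : ∀ χ ∈ B, e ∣ f χ := fun χ hχ => Finset.gcd_dvd ((hmemS χ).2 hχ)
  have he0 : 0 < e := Nat.pos_of_dvd_of_pos (hed χ0 hχ0) (hf0 χ0)
  have heC : (e : ℂ) ≠ 0 := by exact_mod_cast he0.ne'
  set d : IrrCharacter G → ℕ := fun χ => f χ / e with hd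
  have hde : ∀ χ ∈ B, f χ = d χ * e := fun χ hχ => (Nat.div_mul_cancel (hed χ hχ)).symm
  have hval : ∀ χ ∈ B, ∀ x : G, ¬ p ∣ orderOf x → (χ : G → ℂ) x = (f χ : ℂ) * v x := by
    intro χ hχ x hx
    have := congrFun (hv χ hχ) x
    rwa [pRegularPart_regular _ hx, Pi.smul_apply, smul_eq_mul, hf1] at this
  set c := ∑ χ ∈ S, d χ ^ 2 with hc
  -- Bezout for the `d`
  have hbez : (1 : ℤ) = ∑ χ ∈ S, n χ * (d χ : ℤ) := by
    have h1 : (e : ℤ) * 1 = (e : ℤ) * ∑ χ ∈ S, n χ * (d χ : ℤ) := by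
      rw [mul_one, Finset.mul_sum]
      refine hn.trans ?_
      apply Finset.sum_congr rfl
      intro χ hχ
      rw [hde χ ((hmemS χ).1 hχ)]
      push_cast
      ring
    exact mul_left_cancel₀ (by exact_mod_cast he0.ne') h1
  refine ⟨(e : ℂ) • v, d, ⟨n, ?_⟩, ?_, ?_⟩
  · intro x hx
    have h1 : ((e : ℤ) : ℂ) = ∑ χ ∈ S, (n χ : ℂ) * (f χ : ℂ) := by
      rw [hn]; push_cast; rfl
    rw [Pi.smul_apply, smul_eq_mul, ← Int.cast_natCast, h1, Finset.sum_mul]
    apply Finset.sum_congr rfl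
    intro χ hχ
    rw [hval χ ((hmemS χ).1 hχ) x hx, mul_assoc]
  · intro χ hχ x hx
    rw [hval χ hχ x hx, hde χ hχ, Pi.smul_apply, smul_eq_mul]
    push_cast
    ring
  · have h1r : ¬ p ∣ orderOf (1 : G) := by
      rw [orderOf_one]; exact hp.one_lt.ne' ∘ Nat.dvd_one.1
    set t : ℂ := (Nat.card G : ℂ)⁻¹ * ∑ x : G, v x * conj (v x) with ht
    have hinner : ∀ χ ∈ B, ∀ ψ ∈ B, classInner (pRegularPart p (χ : G → ℂ)) (ψ : G → ℂ) =
        (f χ : ℂ) * (f ψ : ℂ) * t := by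
      intro χ hχ ψ hψ
      unfold classInner
      have e1 : ∑ x : G, pRegularPart p (χ : G → ℂ) x * conj ((ψ : G → ℂ) x) =
          (f χ : ℂ) * (f ψ : ℂ) * ∑ x : G, v x * conj (v x) := by
        rw [Finset.mul_sum]
        apply Finset.sum_congr rfl
        intro x _
        by_cases hx : p ∣ orderOf x
        · rw [pRegularPart_singular _ hx, hvs x hx]; simp
        · rw [pRegularPart_regular _ hx, hval χ hχ x hx, hval ψ hψ x hx, map_mul,
            Complex.conj_natCast]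
          ring
      rw [e1, ht]
      ring
    have htr := blockRank_eq_trace hM hB
    rw [hl, ← sum_filter_eq_sum_subtype B
      (fun χ => classInner (pRegularPart p (χ : G → ℂ)) (χ : G → ℂ)), Nat.cast_one] at htr
    have h1 : (1 : ℂ) = (e : ℂ) ^ 2 * (c : ℂ) * t := by
      rw [htr, hc]
      push_cast
      rw [Finset.mul_sum, Finset.sum_mul]
      apply Finset.sum_congr rfl
      intro χ hχ
      have hχ' := (hmemS χ).1 hχ
      rw [hinner χ hχ' χ hχ', hde χ hχ']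
      push_cast
      ring
    set a := (Nat.card G).factorization p with ha
    set m := sInf ((fun χ : IrrCharacter G => (charDegree (χ : G → ℂ)).factorization p) '' B)
      with hm
    have hdef : blockDefect p B = a - m := rfl
    have hcard := Cfsg.Agent.Lib.Helper2_BlockDefOrder.card_defectGroup hM hB hP
    have hdiv1 : ∀ χ ∈ B, ∀ ψ ∈ B, (c : ℤ) ∣ ((p ^ (a - m) * d χ * d ψ : ℕ) : ℤ) := by
      intro χ hχ ψ hψ
      obtain ⟨z, hz, -⟩ := Cfsg.Agent.Lib.CharGen.exists_int_mult (isGen_regular_height hp χ)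
      have h2 := hz ψ
      set k := (Nat.card G).factorization p - (charDegree (χ : G → ℂ)).factorization p with hk
      have h3 : classInner (fun x => ((p ^ k : ℕ) : ℂ) * pRegularPart p (χ : G → ℂ) x)
          (ψ : G → ℂ) = ((p ^ k : ℕ) : ℂ) * ((f χ : ℂ) * (f ψ : ℂ) * t) := by
        have e1 : (fun x => ((p ^ k : ℕ) : ℂ) * pRegularPart p (χ : G → ℂ) x) =
            ((p ^ k : ℕ) : ℂ) • pRegularPart p (χ : G → ℂ) := rfl
        rw [e1, classInner_smul_left, hinner χ hχ ψ hψ]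
      have h4 : (c : ℂ) * (z ψ : ℂ) = ((p ^ k * d χ * d ψ : ℕ) : ℂ) := by
        rw [← h2, h3, hde χ hχ, hde ψ hψ]
        push_cast
        linear_combination (-((p : ℂ) ^ k * (d χ : ℂ) * (d ψ : ℂ))) * h1
      have h5 : (c : ℤ) * z ψ = ((p ^ k * d χ * d ψ : ℕ) : ℤ) := by exact_mod_cast h4
      have hkm : k ≤ a - m := Nat.sub_le_sub_left (Nat.sInf_le (Set.mem_image_of_mem
        (fun χ : IrrCharacter G => (charDegree (χ : G → ℂ)).factorization p) hχ)) a
      have h6 : p ^ (a - m) * d χ * d ψ = p ^ (a - m - k) * (p ^ k * d χ * d ψ) := by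
        rw [← mul_assoc, ← mul_assoc, ← pow_add, Nat.sub_add_cancel hkm]
      rw [h6]
      push_cast
      apply Dvd.dvd.mul_left
      refine ⟨z ψ, ?_⟩
      rw [h5]
      push_cast
      rfl
    have hdiv2 : (c : ℤ) ∣ ((p ^ (a - m) : ℕ) : ℤ) := by
      have h2 : ((p ^ (a - m) : ℕ) : ℤ) =
          ∑ χ ∈ S, ∑ ψ ∈ S, n χ * n ψ * ((p ^ (a - m) * d χ * d ψ : ℕ) : ℤ) := by
        have h3 : ((p ^ (a - m) : ℕ) : ℤ) = ((p ^ (a - m) : ℕ) : ℤ) *
            ((∑ χ ∈ S, n χ * (d χ : ℤ)) * (∑ ψ ∈ S, n ψ * (d ψ : ℤ))) := by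
          rw [← hbez]; ring
        rw [h3, Finset.sum_mul_sum, Finset.mul_sum]
        apply Finset.sum_congr rfl
        intro χ _
        rw [Finset.mul_sum]
        apply Finset.sum_congr rfl
        intro ψ _
        push_cast
        ring
      rw [h2]
      exact Finset.dvd_sum fun χ hχ => Finset.dvd_sum fun ψ hψ =>
        Dvd.dvd.mul_left (hdiv1 χ ((hmemS χ).1 hχ) ψ ((hmemS ψ).1 hψ)) _
    set Φ : G → ℂ := ∑ ψ : IrrCharacter G, ((if ψ ∈ B then d ψ else 0 : ℕ) : ℂ) • (ψ : G → ℂ)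
      with hΦdef
    have hΦ : IsCharacter G Φ := isCharacter_of_nat_comb _
    have hΦv : ∀ y, Φ y = ∑ ψ ∈ S, (d ψ : ℂ) * (ψ : G → ℂ) y := by
      intro y
      rw [hΦdef, Finset.sum_apply, hS, Finset.sum_filter]
      apply Finset.sum_congr rfl
      intro ψ _
      by_cases hψ : ψ ∈ B
      · simp [hψ]
      · simp [hψ]
    have hvan : ∀ y, p ∣ orderOf y → Φ y = 0 := by
      intro y hy
      have h := kB_eq_zero hM hB (x := 1) (g := y) (by
        intro h; exact h1r (h.2 hy))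
      unfold kB at h
      have h2 : (e : ℂ) * Φ y = 0 := by
        rw [hΦv, Finset.mul_sum, ← h]
        apply Finset.sum_congr rfl
        intro ψ hψ
        rw [hf1, Complex.conj_natCast, hde ψ ((hmemS ψ).1 hψ)]
        push_cast
        ring
      exact (mul_eq_zero.1 h2).resolve_left heC
    obtain ⟨P0⟩ : Nonempty (Sylow p G) := inferInstance
    obtain ⟨k, hk⟩ := Cfsg.Agent.S0189.result p P0 Φ hΦ (fun g hg hg1 => hvan g (by
      obtain ⟨j, hj⟩ := (IsPGroup.iff_orderOf.1 P0.2) ⟨g, hg⟩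
      rw [Subgroup.orderOf_mk] at hj
      rcases Nat.eq_zero_or_pos j with rfl | hj0
      · rw [pow_zero, orderOf_eq_one_iff] at hj
        exact absurd hj hg1
      · rw [hj]; exact dvd_pow_self p hj0.ne'))
    have hΦ1 : Φ 1 = ((e * c : ℕ) : ℂ) := by
      rw [hΦv, hc]
      push_cast
      rw [Finset.mul_sum]
      apply Finset.sum_congr rfl
      intro ψ hψ
      rw [hf1, hde ψ ((hmemS ψ).1 hψ)]
      push_cast
      ring
    have hP0 : Nat.card P0 = p ^ a := Sylow.card_eq_multiplicity P0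
    have h6 : p ^ a ∣ e * c := by
      refine ⟨k, ?_⟩
      rw [hΦ1, hP0] at hk
      exact_mod_cast hk
    obtain ⟨χ1, hχ1, hm1⟩ : ∃ χ1 ∈ B, (f χ1).factorization p = m :=
      Nat.sInf_mem (⟨_, χ0, hχ0, rfl⟩ : ((fun χ : IrrCharacter G =>
        (charDegree (χ : G → ℂ)).factorization p) '' B).Nonempty)
    have h7 : e.factorization p ≤ m := by
      rw [← hm1]
      exact (Nat.factorization_le_iff_dvd he0.ne' (hf0 χ1).ne').2 (hed χ1 hχ1) p
    have hc0 : 0 < c := by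
      rw [hc]
      apply Finset.sum_pos' (fun _ _ => Nat.zero_le _)
      refine ⟨χ0, (hmemS χ0).2 hχ0, ?_⟩
      have : 0 < d χ0 := by
        rcases Nat.eq_zero_or_pos (d χ0) with h | h
        · have := hde χ0 hχ0
          rw [h, zero_mul] at this
          exact absurd this (hf0 χ0).ne'
        · exact h
      positivity
    have h8 : a ≤ e.factorization p + c.factorization p := by
      have := (Nat.Prime.pow_dvd_iff_le_factorization hp (mul_ne_zero he0.ne' hc0.ne')).1 h6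
      rwa [Nat.factorization_mul he0.ne' hc0.ne', Finsupp.add_apply] at this
    have h9 : p ^ (a - m) ∣ c :=
      (Nat.Prime.pow_dvd_iff_le_factorization hp hc0.ne').2 (by omega)
    rw [hcard, hdef]
    exact Nat.dvd_antisymm (Int.natCast_dvd_natCast.1 hdiv2) h9

end Cfsg.Agent.Lib.BlockRankOne
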