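import Mathlib
import Cfsg.Prelude.Def_Blocks
import Cfsg.Agent.Lib.helper8_Center
import Cfsg.Agent.Lib.CharIto
import Cfsg.Agent.Lib.Helper7_Union
import Cfsg.Agent.Lib.Helper1_SZ
import Cfsg.Agent.S0187

/-!
# Groups all of whose irreducible degrees are prime to `p` (solvable-type arguments)
-/

set_option autoImplicit false

namespace Cfsg.Agent.Lib.helper8_ItoMichler

open Cfsg Module Cfsg.Agent.Lib.CharBasic Cfsg.Agent.Lib.CharOrtho Cfsg.Agent.Lib.CharComplete
  Cfsg.Agent.Lib.CharMore Cfsg.Agent.Lib.CharIntegral Cfsg.Agent.Lib.CharInd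
  Cfsg.Agent.Lib.CharClifford Cfsg.Agent.Lib.CharCorr Cfsg.Agent.Lib.CharIto
  Cfsg.Agent.Lib.helper8_Char Cfsg.Agent.Lib.helper8_Defect Cfsg.Agent.Lib.helper8_Kernel
  Cfsg.Agent.Lib.helper8_Codegree
open scoped ComplexConjugate

universe u

variable {G : Type u} [Group G]

/-- Every irreducible character of a subgroup lies under an irreducible character of `G`. -/
theorem exists_over [Fintype G] (K : Subgroup G) [Fintype K] {θ : K → ℂ}
    (hθ : IsIrrCharacter K θ) :
    ∃ χ : IrrCharacter G, classInner (fun n : K => (χ : G → ℂ) n) θ ≠ 0 := by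
  obtain ⟨χ, hχ⟩ := exists_constituent (isCharacter_indFun K θ (isCharacter_of_isIrr hθ))
    (indFun_irr_ne_zero K hθ)
  refine ⟨χ, ?_⟩
  rw [frobenius_reciprocity K θ χ (isClassFunction_of_isCharacter (isCharacter_of_isIrr χ.2)),
    ← classInner_conj_symm] at hχ
  exact fun h0 => hχ (by rw [h0, map_zero])

/-- The degree of a constituent of the restriction to a normal subgroup divides the degree. -/
theorem degree_dvd_of_over [Fintype G] (K : Subgroup G) (hK : K.Normal) [Fintype K] {θ : K → ℂ}
    (hθ : IsIrrCharacter K θ) {χ : G → ℂ} (hχ : IsIrrCharacter G χ)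
    (hc : classInner (fun n : K => χ n) θ ≠ 0) : charDegree θ ∣ charDegree χ := by
  classical
  have h1 := congrFun (clifford K hK hχ hθ hc) 1
  obtain ⟨a, ha⟩ := classInner_char_nat (isCharacter_restrict K (isCharacter_of_isIrr hχ))
    (isCharacter_of_isIrr hθ)
  rw [ha, Pi.smul_apply, Finset.sum_apply] at h1
  have h2 : ∀ ψ ∈ Finset.univ.filter
      (fun ψ : IrrCharacter K => ∃ g : G, (ψ : K → ℂ) = conjFun K hK θ g),
      (ψ : K → ℂ) 1 = θ 1 := by
    intro ψ hψ
    obtain ⟨g, hg⟩ := (Finset.mem_filter.1 hψ).2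
    rw [hg, conjFun_apply]
    congr 1
    apply Subtype.ext
    simp
  rw [Finset.sum_congr rfl h2, Finset.sum_const, (irr_charDegree hθ).2.1] at h1
  simp only [Subgroup.coe_one, (irr_charDegree hχ).2.1, nsmul_eq_mul, smul_eq_mul] at h1
  refine ⟨a * (Finset.univ.filter
      (fun ψ : IrrCharacter K => ∃ g : G, (ψ : K → ℂ) = conjFun K hK θ g)).card, ?_⟩
  have h3 : ((charDegree χ : ℕ) : ℂ) = ((charDegree θ * (a * (Finset.univ.filter
      (fun ψ : IrrCharacter K => ∃ g : G, (ψ : K → ℂ) = conjFun K hK θ g)).card) : ℕ) : ℂ) := by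
    rw [h1]; push_cast; ring
  exact_mod_cast h3

/-- The hypothesis "all degrees prime to `p`" passes to normal subgroups. -/
theorem degrees_normal [Finite G] {p : ℕ} (K : Subgroup G) [hK : K.Normal]
    (hdeg : ∀ χ : IrrCharacter G, ¬ p ∣ charDegree (χ : G → ℂ)) (θ : IrrCharacter K) :
    ¬ p ∣ charDegree (θ : K → ℂ) := by
  classical
  have := Fintype.ofFinite G
  obtain ⟨χ, hχ⟩ := exists_over K θ.2
  exact fun h => hdeg χ (h.trans (degree_dvd_of_over K hK θ.2 χ.2 hχ))

/-- The hypothesis passes to quotients. -/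
theorem degrees_quotient [Finite G] {p : ℕ} (K : Subgroup G) [hK : K.Normal]
    (hdeg : ∀ χ : IrrCharacter G, ¬ p ∣ charDegree (χ : G → ℂ)) (θ : IrrCharacter (G ⧸ K)) :
    ¬ p ∣ charDegree (θ : G ⧸ K → ℂ) :=
  hdeg ⟨_, inflate K θ.2⟩

/-- If all degrees are prime to `p` and `K` is normal of `p`-power index, every irreducible
character of `K` is invariant. -/
theorem invariant_of_degrees [Finite G] {p : ℕ} (hp : p.Prime) (K : Subgroup G) (hK : K.Normal)
    {m : ℕ} (hidx : K.index = p ^ m)
    (hdeg : ∀ χ : IrrCharacter G, ¬ p ∣ charDegree (χ : G → ℂ)) {θ : K → ℂ}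
    (hθ : IsIrrCharacter K θ) (g : G) : conjFun K hK θ g = θ := by
  classical
  have := Fintype.ofFinite G
  obtain ⟨χ, hχ⟩ := exists_over K hθ
  have hle := le_inertia K hK (isClassFunction_of_isCharacter (isCharacter_of_isIrr hθ))
  obtain ⟨ψ, hψ, hind, -⟩ := corr_surj K (inertia K hK θ) hK hle hθ
    (fun g => mem_inertia K hK θ g) χ.2 hχ
  have h1 := congrFun hind 1
  rw [indFun_one, (irr_charDegree hψ).2.1, (irr_charDegree χ.2).2.1] at h1
  have h2 : (inertia K hK θ).index * charDegree ψ = charDegree (χ : G → ℂ) := by exact_mod_cast h1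
  have h3 : (inertia K hK θ).index ∣ p ^ m := hidx ▸ Subgroup.index_dvd_of_le hle
  obtain ⟨i, -, hi⟩ := (Nat.dvd_prime_pow hp).1 h3
  have hi0 : i = 0 := by
    by_contra h0
    apply hdeg χ
    rw [← h2, hi]
    exact (dvd_pow_self p h0).mul_right _
  rw [hi0, pow_zero, Subgroup.index_eq_one] at hi
  have : g ∈ inertia K hK θ := by rw [hi]; exact Subgroup.mem_top g
  exact this

/-- Under the same hypotheses, every class of `K` is invariant under `G`. -/
theorem conj_isConj [Finite G] {p : ℕ} (hp : p.Prime) (K : Subgroup G) (hK : K.Normal)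
    {m : ℕ} (hidx : K.index = p ^ m)
    (hdeg : ∀ χ : IrrCharacter G, ¬ p ∣ charDegree (χ : G → ℂ)) (g : G) (h : K) :
    IsConj (⟨g * h * g⁻¹, hK.conj_mem h h.2 g⟩ : K) h := by
  classical
  have := Fintype.ofFinite K
  rw [isConj_iff_forall_irr]
  intro χ
  exact congrFun (invariant_of_degrees hp K hK hidx hdeg χ.2 g) h

/-- A `p`-element centralizes a normal `p'`-subgroup of `p`-power index when all degrees are
prime to `p`. -/
theorem centralizes_of_degrees [Finite G] {p : ℕ} [hp : Fact p.Prime] (K : Subgroup G)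
    (hK : K.Normal) {m : ℕ} (hidx : K.index = p ^ m) (hcop : ¬ p ∣ Nat.card K)
    (hdeg : ∀ χ : IrrCharacter G, ¬ p ∣ charDegree (χ : G → ℂ)) (s : G)
    (hs : IsPGroup p (Subgroup.zpowers s)) (h : G) (hh : h ∈ K) : s * h = h * s := by
  classical
  have := Fintype.ofFinite K
  set C : Subgroup K := (Subgroup.centralizer ({s} : Set G)).subgroupOf K with hC
  have hCtop : C = ⊤ := by
    by_contra hne
    obtain ⟨x, hx⟩ := Cfsg.Agent.Lib.Helper7_Union.exists_not_mem_conj C hne
    let X := {y : K // IsConj x y}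
    let act : MulAction (Subgroup.zpowers s) X :=
      { smul := fun a y => ⟨⟨a * y.1 * (a : G)⁻¹, hK.conj_mem y.1 y.1.2 a⟩,
          y.2.trans (conj_isConj hp.out K hK hidx hdeg a y.1).symm⟩
        one_smul := by
          intro y
          apply Subtype.ext
          apply Subtype.ext
          change ((1 : Subgroup.zpowers s) : G) * y.1 * ((1 : Subgroup.zpowers s) : G)⁻¹ = y.1
          simp
        mul_smul := by
          intro a b y
          apply Subtype.ext
          apply Subtype.ext
          change ((a * b : Subgroup.zpowers s) : G) * y.1 * ((a * b : Subgroup.zpowers s) : G)⁻¹ =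
            (a : G) * ((b : G) * y.1 * (b : G)⁻¹) * (a : G)⁻¹
          simp [mul_assoc] }
    have hcard : ¬ p ∣ Nat.card X := by
      have h1 : Nat.card X = (Subgroup.centralizer ({x} : Set K)).index := by
        rw [← card_class_eq_index x, Nat.card_eq_fintype_card, Fintype.card_subtype]
        congr
      rw [h1]
      exact fun h2 => hcop (h2.trans (Subgroup.index_dvd_card _))
    obtain ⟨y, hy⟩ := hs.nonempty_fixed_point_of_prime_not_dvd_card X hcard
    have hy1 := hy ⟨s, Subgroup.mem_zpowers s⟩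
    have hy2 : s * (y.1 : G) * s⁻¹ = y.1 := congrArg (fun z : X => ((z.1 : K) : G)) hy1
    obtain ⟨c, hc⟩ := isConj_iff.1 y.2
    apply hx c⁻¹
    rw [inv_inv, hc, hC, Subgroup.mem_subgroupOf, Subgroup.mem_centralizer_singleton_iff]
    rw [mul_inv_eq_iff_eq_mul] at hy2
    exact hy2.symm
  have h1 : (⟨h, hh⟩ : K) ∈ C := by rw [hCtop]; exact Subgroup.mem_top _
  rw [hC, Subgroup.mem_subgroupOf, Subgroup.mem_centralizer_singleton_iff] at h1
  exact h1.symm

/-- If some normal subgroup has the order of a Sylow `p`-subgroup, all Sylow `p`-subgroups are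
normal. -/
theorem sylow_normal_of_normal_card [Finite G] {p : ℕ} [hp : Fact p.Prime] (P : Subgroup G)
    (hP : P.Normal) (hc : Nat.card P = p ^ (Nat.card G).factorization p) (S : Sylow p G) :
    (S : Subgroup G).Normal := by
  obtain ⟨g, rfl⟩ := MulAction.exists_smul_eq G (Sylow.ofCard P hc) S
  have : ((Sylow.ofCard P hc : Sylow p G) : Subgroup G).Normal := hP
  rw [Sylow.smul_eq_of_normal]
  exact hP

theorem sylow_normal_of_pprime [Finite G] {p : ℕ} [hp : Fact p.Prime] (K : Subgroup G)
    (hK : K.Normal) {m : ℕ} (hidx : K.index = p ^ m) (hcop : ¬ p ∣ Nat.card K)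
    (hdeg : ∀ χ : IrrCharacter G, ¬ p ∣ charDegree (χ : G → ℂ)) (S : Sylow p G) :
    (S : Subgroup G).Normal := by
  rw [← Subgroup.normalizer_eq_top_iff]
  have hKN : K ≤ Subgroup.normalizer ((S : Subgroup G) : Set G) := by
    refine le_trans ?_ (Subgroup.centralizer_le_normalizer _)
    intro h hh
    rw [Subgroup.mem_centralizer_iff]
    intro s hs
    exact centralizes_of_degrees K hK hidx hcop hdeg s
      (S.2.to_le (Subgroup.zpowers_le.2 hs)) h hh
  have hSN : (S : Subgroup G) ≤ Subgroup.normalizer ((S : Subgroup G) : Set G) :=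
    Subgroup.le_normalizer
  have hG : Nat.card G = Nat.card K * p ^ m := by rw [← hidx, Subgroup.card_mul_index]
  have hSc : Nat.card (S : Subgroup G) = p ^ m := by
    rw [S.card_eq_multiplicity, hG, Nat.factorization_mul Nat.card_pos.ne'
      (pow_pos hp.out.pos m).ne', Finsupp.add_apply, Nat.factorization_eq_zero_of_not_dvd hcop,
      Nat.factorization_pow, Finsupp.smul_apply, hp.out.factorization_self]
    simp
  have h1 := Subgroup.card_dvd_of_le hKN
  have h2 := Subgroup.card_dvd_of_le hSN
  rw [hSc] at h2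
  have hcop' : Nat.Coprime (Nat.card K) (p ^ m) :=
    Nat.Coprime.pow_right m ((Nat.Prime.coprime_iff_not_dvd hp.out).2 hcop).symm
  have h3 := hcop'.mul_dvd_of_dvd_of_dvd h1 h2
  rw [← hG] at h3
  exact Subgroup.eq_top_of_card_eq _ (Nat.dvd_antisymm (Subgroup.card_subgroup_dvd_card _) h3)

/-- Inductive step: normality of the Sylow `p`-subgroups goes up a normal subgroup whose index is
a power of `p` or prime to `p`. -/
theorem sylow_normal_step [Finite G] {p : ℕ} [hp : Fact p.Prime] (K : Subgroup G) [hK : K.Normal]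
    (hidx : (∃ m : ℕ, K.index = p ^ m) ∨ K.index.Coprime p)
    (hdeg : ∀ χ : IrrCharacter G, ¬ p ∣ charDegree (χ : G → ℂ))
    (hKS : ∀ Q : Sylow p K, (Q : Subgroup K).Normal) (S : Sylow p G) :
    (S : Subgroup G).Normal := by
  obtain ⟨Q⟩ : Nonempty (Sylow p K) := inferInstance
  have hQc : (Q : Subgroup K).Characteristic := Q.characteristic_of_normal (hKS Q)
  set P : Subgroup G := (Q : Subgroup K).map K.subtype with hP
  have hPn : P.Normal := ConjAct.normal_of_characteristic_of_normal
  have hPc : Nat.card P = p ^ (Nat.card K).factorization p := by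
    rw [hP, Subgroup.card_map_of_injective K.subtype_injective, Q.card_eq_multiplicity]
  have hPK : P ≤ K := Subgroup.map_subtype_le _
  have hGK : Nat.card G = Nat.card K * K.index := (Subgroup.card_mul_index K).symm
  have hi0 : K.index ≠ 0 := Subgroup.index_ne_zero_of_finite
  rcases hidx with ⟨m, hm⟩ | hcop
  · -- pass to the quotient by `P`
    set f := QuotientGroup.mk' P with hf
    have hfs : Function.Surjective f := QuotientGroup.mk'_surjective P
    have hKbn : (K.map f).Normal := hK.map f hfs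
    have hKbi : (K.map f).index = p ^ m := by
      rw [Subgroup.index_map_eq K hfs (by rw [hf, QuotientGroup.ker_mk']; exact hPK), hm]
    have hGq : Nat.card G = Nat.card (G ⧸ P) * Nat.card P :=
      Subgroup.card_eq_card_quotient_mul_card_subgroup P
    have hKbc : Nat.card (K.map f) * Nat.card P = Nat.card K := by
      have h1 := Subgroup.card_mul_index (K.map f)
      rw [hKbi] at h1
      have h2 : Nat.card (K.map f) * Nat.card P * p ^ m = Nat.card K * p ^ m := by
        rw [← hm, ← hGK, hGq, ← h1, hm]; ring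
      exact Nat.eq_of_mul_eq_mul_right (pow_pos hp.out.pos m) h2
    have hKbcop : ¬ p ∣ Nat.card (K.map f) := by
      have h1 : Nat.card (K.map f) = ordCompl[p] (Nat.card K) := by
        have h2 := hKbc
        rw [hPc] at h2
        exact (Nat.div_eq_of_eq_mul_left (pow_pos hp.out.pos _) h2.symm).symm
      rw [h1]
      exact Nat.not_dvd_ordCompl hp.out Nat.card_pos.ne'
    obtain ⟨Sb⟩ : Nonempty (Sylow p (G ⧸ P)) := inferInstance
    have hSbn := sylow_normal_of_pprime (K.map f) hKbn hKbi hKbcop (degrees_quotient P hdeg) Sb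
    refine sylow_normal_of_normal_card ((Sb : Subgroup (G ⧸ P)).comap f) (hSbn.comap f) ?_ S
    rw [hf, Cfsg.Agent.Lib.Helper1_SZ.card_comap_mk', Sb.card_eq_multiplicity, hPc, ← pow_add]
    congr 1
    rw [hGq, Nat.factorization_mul Nat.card_pos.ne' Nat.card_pos.ne', Finsupp.add_apply, hPc,
      Nat.factorization_pow, Finsupp.smul_apply, hp.out.factorization_self]
    simp
  · refine sylow_normal_of_normal_card P hPn ?_ S
    rw [hPc, hGK, Nat.factorization_mul Nat.card_pos.ne' hi0, Finsupp.add_apply,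
      Nat.factorization_eq_zero_of_not_dvd
        (fun h => hp.out.one_lt.ne' (Nat.eq_one_of_dvd_coprimes hcop h (dvd_refl p))), add_zero]

/-- A normal Sylow `p`-subgroup is abelian when all degrees are prime to `p`. -/
theorem sylow_comm_of_normal [Finite G] {p : ℕ} [hp : Fact p.Prime]
    (hdeg : ∀ χ : IrrCharacter G, ¬ p ∣ charDegree (χ : G → ℂ)) (S : Sylow p G)
    (hS : (S : Subgroup G).Normal) : ∀ a b : (S : Subgroup G), a * b = b * a := by
  rw [Cfsg.Agent.S0187.result]
  intro θ
  have h1 := degrees_normal (S : Subgroup G) hdeg θ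
  obtain ⟨h0, h3, h5⟩ := irr_charDegree θ.2
  rw [S.card_eq_multiplicity] at h5
  obtain ⟨i, -, hi⟩ := (Nat.dvd_prime_pow hp.out).1 h5
  have hi0 : i = 0 := by
    by_contra h
    exact h1 (by rw [hi]; exact dvd_pow_self p h)
  rw [h3, hi, hi0]
  simp

/-- Itô: a normal abelian subgroup of index prime to `p` forces all degrees prime to `p`. -/
theorem degrees_of_normal_abelian [Finite G] {p : ℕ} (P : Subgroup G) (hP : P.Normal)
    (hab : ∀ a ∈ P, ∀ b ∈ P, a * b = b * a) (hidx : ¬ p ∣ P.index) (χ : IrrCharacter G) :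
    ¬ p ∣ charDegree (χ : G → ℂ) := by
  obtain ⟨n, ρ, hρ, hχ⟩ := χ.2
  have h1 := ito ρ P hab
  rw [← hχ, charDegree_of_eq (Representation.char_one ρ)]
  exact fun h => hidx (h.trans h1)

/-- Solvable groups with all degrees prime to `p` have normal Sylow `p`-subgroups. -/
theorem sylow_normal_of_solvable {p : ℕ} [hp : Fact p.Prime] : ∀ (n : ℕ) (G : Type u) [Group G]
    [Finite G], Nat.card G = n → Group.IsSolvable G →
    (∀ χ : IrrCharacter G, ¬ p ∣ charDegree (χ : G → ℂ)) → ∀ S : Sylow p G,
    (S : Subgroup G).Normal := by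
  intro n
  induction n using Nat.strong_induction_on with
  | _ n ih =>
    intro G _ _ hn hsolv hdeg S
    by_cases htriv : Subsingleton G
    · have : (S : Subgroup G) = ⊥ := Subsingleton.elim _ _
      rw [this]
      infer_instance
    · have hnt : Nontrivial G := not_subsingleton_iff_nontrivial.1 htriv
      have hlt := Group.IsSolvable.commutator_lt_top_of_nontrivial G
      obtain ⟨q, μ, hq, hμ⟩ := Cfsg.Agent.Lib.helper8_Center.exists_hom_ker_index_prime hlt.ne
      have hcard : Nat.card μ.ker < n := by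
        rw [← hn, ← Subgroup.card_mul_index μ.ker, hμ]
        exact lt_mul_of_one_lt_right Nat.card_pos hq.one_lt
      refine sylow_normal_step μ.ker ?_ hdeg
        (ih _ hcard μ.ker rfl inferInstance (degrees_normal μ.ker hdeg)) S
      rw [hμ]
      by_cases hqp : q = p
      · exact Or.inl ⟨1, by rw [hqp, pow_one]⟩
      · exact Or.inr ((Nat.coprime_primes hq hp.out).2 hqp)

/-- Groups with a normal series with `p`- and `p'`-factors and all degrees prime to `p` have
normal Sylow `p`-subgroups. -/
theorem sylow_normal_of_chain {p : ℕ} [hp : Fact p.Prime] : ∀ (n : ℕ) (G : Type u) [Group G]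
    [Finite G] (H : Fin (n + 1) → Subgroup G), H 0 = ⊥ → H (Fin.last n) = ⊤ → Monotone H →
    (∀ i, (H i).Normal) →
    (∀ i : Fin n, (∃ m : ℕ, (H i.castSucc).relIndex (H i.succ) = p ^ m) ∨
      ((H i.castSucc).relIndex (H i.succ)).Coprime p) →
    (∀ χ : IrrCharacter G, ¬ p ∣ charDegree (χ : G → ℂ)) → ∀ S : Sylow p G,
    (S : Subgroup G).Normal := by
  intro n
  induction n with
  | zero =>
    intro G _ _ H h0 h1 _ _ _ _ S
    have h2 : (⊥ : Subgroup G) = ⊤ := by rw [← h0, ← h1]; rfl
    have : Subsingleton (Subgroup G) := subsingleton_of_bot_eq_top h2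
    have : (S : Subgroup G) = ⊥ := Subsingleton.elim _ _
    rw [this]
    infer_instance
  | succ n ih =>
    intro G _ _ H h0 h1 hmono hnorm hstep hdeg S
    set K := H (Fin.last n).castSucc with hK
    have hKn : K.Normal := hnorm _
    have hidx : (∃ m : ℕ, K.index = p ^ m) ∨ K.index.Coprime p := by
      have := hstep (Fin.last n)
      rw [Fin.succ_last, h1, Subgroup.relIndex_top_right] at this
      exact this
    refine sylow_normal_step K hidx hdeg ?_ S
    refine ih K (fun i => (H i.castSucc).subgroupOf K) ?_ ?_ ?_ ?_ ?_ (degrees_normal K hdeg)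
    · simp only [Fin.castSucc_zero, h0, Subgroup.bot_subgroupOf]
    · exact Subgroup.subgroupOf_self K
    · intro i j hij
      exact Subgroup.comap_mono (hmono (Fin.castSucc_le_castSucc_iff.2 hij))
    · intro i
      exact (hnorm _).subgroupOf K
    · intro i
      have hle : H i.succ.castSucc ≤ K := hmono (Fin.castSucc_le_castSucc_iff.2 (Fin.le_last _))
      have := hstep i.castSucc
      rw [Fin.succ_castSucc] at this
      simp only [Subgroup.relIndex_subgroupOf hle]
      exact this

end Cfsg.Agent.Lib.helper8_ItoMichler
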