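import Mathlib
import Cfsg.Prelude.Def_BrauerPairs
import Cfsg.Agent.Lib.BlockFong
import Cfsg.Agent.Lib.helper8_ItoMichler
import Cfsg.Agent.S0970

set_option autoImplicit false

namespace Cfsg.Agent.Lib.BlockStabHt

open Cfsg Cfsg.Agent.Lib.Helper2_BlockLocal Cfsg.Agent.Lib.Helper2_BlockOm
  Cfsg.Agent.Lib.Helper2_BlockOsima Cfsg.Agent.Lib.Helper2_BlockBasic
  Cfsg.Agent.Lib.Helper2_BlockFMT
  Cfsg.Agent.Lib.Helper2_BlockCover2
  Cfsg.Agent.Lib.Helper2_BP2
  Cfsg.Agent.Lib.BlockFong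
  Cfsg.Agent.Lib.CharBasic Cfsg.Agent.Lib.CharOrtho
  Cfsg.Agent.Lib.CharComplete Cfsg.Agent.Lib.CharIntegral Cfsg.Agent.Lib.CharMore
  Cfsg.Agent.Lib.CharPerm Cfsg.Agent.Lib.CharInd Cfsg.Agent.Lib.CharClifford
  Cfsg.Agent.Lib.CharCorr Cfsg.Agent.Lib.CharIto Cfsg.Agent.Lib.helper8_Defect
  Cfsg.Agent.Lib.CharIndTrans
open scoped ComplexConjugate Classical

universe u

variable {G : Type u} [Group G] [Fintype G] {M : Ideal AlgInt} {p : ℕ} (N : Subgroup G)
  (hN : N.Normal) [Fintype N]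

/-- Clifford: the index of the inertia group times the degree below divides the degree above. -/
theorem index_mul_degree_dvd {θ : N → ℂ} (hθ : IsIrrCharacter N θ) {χ : G → ℂ}
    (hχ : IsIrrCharacter G χ) (hc : classInner (fun n : N => χ n) θ ≠ 0) :
    (inertia N hN θ).index * charDegree θ ∣ charDegree χ := by
  have hle := le_inertia N hN (isClassFunction_of_isCharacter (isCharacter_of_isIrr hθ))
  obtain ⟨ψ, hψ, hind, hov⟩ := corr_surj N (inertia N hN θ) hN hle hθ
    (fun g => mem_inertia N hN θ g) hχ hc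
  have h1 := congrFun hind 1
  rw [indFun_one, (irr_charDegree hψ).2.1, (irr_charDegree hχ).2.1] at h1
  have h2 : (inertia N hN θ).index * charDegree ψ = charDegree χ := by exact_mod_cast h1
  haveI := hN
  have hN' : (N.subgroupOf (inertia N hN θ)).Normal := inferInstance
  haveI : Fintype (N.subgroupOf (inertia N hN θ)) := Fintype.ofFinite _
  have h3 : classInner (fun n : N.subgroupOf (inertia N hN θ) => ψ n)
      (sub N (inertia N hN θ) θ) ≠ 0 := by
    have := classInner_comp_equiv (Subgroup.subgroupOfEquivOfLe hle)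
      (fun n : N => ψ ⟨(n : G), hle n.2⟩) θ
    rw [hov] at this
    rw [sub_eq_comp N _ hle]
    intro h0
    apply hc
    rw [← this]
    exact h0
  have h4 := Cfsg.Agent.Lib.helper8_ItoMichler.degree_dvd_of_over
    (N.subgroupOf (inertia N hN θ)) hN' (isIrr_sub N _ hle hθ) hψ h3
  have h5 : charDegree (sub N (inertia N hN θ) θ) = charDegree θ := by
    unfold charDegree sub
    rfl
  rw [h5] at h4
  rw [← h2]
  exact Nat.mul_dvd_mul_left _ h4

theorem invariant_case [Fact p.Prime] (hM : IsPModular p M) (b : Set (IrrCharacter N))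
    (hb : IsPBlock M b)
    (hinv : ∀ g : G, ∀ θ ∈ b, ∀ θ' : IrrCharacter N,
      (∀ n : N, (θ' : N → ℂ) n = (θ : N → ℂ) ⟨g * n * g⁻¹, hN.conj_mem n n.2 g⟩) → θ' ∈ b) :
    ∃ θ ∈ b, blockHeight p b (θ : N → ℂ) = 0 ∧ ¬ p ∣ (inertia N hN (θ : N → ℂ)).index := by
  have hp : p.Prime := Fact.out
  have hPr := isPrime_of_modular hM
  haveI := hN
  obtain ⟨θ0, hθ0⟩ := block_nonempty hPr hb
  obtain ⟨χ0, hχ0⟩ := Cfsg.Agent.Lib.Helper2_BlockNormal.exists_over N θ0
  set 𝓑 : Set (Set (IrrCharacter G)) := {B' | IsPBlock M B' ∧ ∃ χ ∈ B', ∃ θ ∈ b,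
    classInner (fun n : N => (χ : G → ℂ) n) (θ : N → ℂ) ≠ 0} with h𝓑
  have hne : 𝓑.Nonempty :=
    ⟨blockOf M (χ0 : G → ℂ), ⟨χ0, rfl⟩, χ0, self_mem_blockOf hPr χ0, θ0, hθ0, hχ0⟩
  obtain ⟨B, ⟨hB, hcov⟩, hmax⟩ := Set.exists_max_image 𝓑 (blockDefect p) (Set.toFinite 𝓑) hne
  obtain ⟨P, hP⟩ := exists_defectGroup (p := p) hPr hB
  have hkey := (Cfsg.Agent.S0970.result p M hM N b hb hinv B hB hcov
    (fun B' hB' hc' => hmax B' ⟨hB', hc'⟩) P hP).2.2
  have hst : Stable N hN b := by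
    intro g θ hθ
    exact hinv g θ hθ _ (fun n => rfl)
  -- minima
  set fB : IrrCharacter G → ℕ := fun χ => (charDegree (χ : G → ℂ)).factorization p with hfB
  set fb : IrrCharacter N → ℕ := fun χ => (charDegree (χ : N → ℂ)).factorization p with hfb
  obtain ⟨χ1, hχ1⟩ := block_nonempty hPr hB
  have hBne : (fB '' B).Nonempty := ⟨_, χ1, hχ1, rfl⟩
  obtain ⟨χ, hχB, hχm⟩ := Nat.sInf_mem hBne
  obtain ⟨θ, hθ⟩ := exists_under N χ
  have hθb : θ ∈ b := over_of_covers N hN hPr hb hst hB hcov hχB hθ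
  have hdvd := index_mul_degree_dvd N hN θ.2 χ.2 hθ
  have hdB : blockDefect p B = (Nat.card G).factorization p - sInf (fB '' B) := rfl
  have hdb : blockDefect p b = (Nat.card N).factorization p - sInf (fb '' b) := rfl
  have hle1 : sInf (fB '' B) ≤ (Nat.card G).factorization p := by
    rw [← hχm]
    exact (Nat.factorization_le_iff_dvd (irr_charDegree χ.2).1.ne' Nat.card_pos.ne').mpr
      (irr_charDegree χ.2).2.2 p
  have hle2 : sInf (fb '' b) ≤ fb θ := Nat.sInf_le ⟨θ, hθb, rfl⟩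
  have hle3 : fb θ ≤ (Nat.card N).factorization p :=
    (Nat.factorization_le_iff_dvd (irr_charDegree θ.2).1.ne' Nat.card_pos.ne').mpr
      (irr_charDegree θ.2).2.2 p
  have hcard : (Nat.card G).factorization p =
      (Nat.card N).factorization p + N.index.factorization p := by
    rw [← N.card_mul_index, Nat.factorization_mul Nat.card_pos.ne' N.index_ne_zero_of_finite]
    rfl
  have hI0 : (inertia N hN (θ : N → ℂ)).index ≠ 0 := Subgroup.index_ne_zero_of_finite
  have hval : (inertia N hN (θ : N → ℂ)).index.factorization p + fb θ ≤ fB χ := by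
    have h1 := (Nat.factorization_le_iff_dvd (Nat.mul_ne_zero hI0 (irr_charDegree θ.2).1.ne')
      (irr_charDegree χ.2).1.ne').mpr hdvd p
    rw [Nat.factorization_mul hI0 (irr_charDegree θ.2).1.ne'] at h1
    exact h1
  rw [hdB, hdb] at hkey
  have hIz : (inertia N hN (θ : N → ℂ)).index.factorization p = 0 := by omega
  have hht : fb θ = sInf (fb '' b) := by omega
  refine ⟨θ, hθb, ?_, ?_⟩
  · show fb θ - sInf (fb '' b) = 0
    omega
  · intro hd
    have := (hp.dvd_iff_one_le_factorization hI0).mp hd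
    omega

theorem main {G : Type u} [Group G] [Finite G] (p : ℕ) [Fact p.Prime] (M : Ideal AlgInt)
    (hM : IsPModular p M) (H : Subgroup G) [hH : H.Normal] (b : Set (IrrCharacter ↥H))
    (hb : IsPBlock M b) (T : Subgroup G)
    (hT : (∀ g : G, g ∈ T ↔ ∀ θ ∈ b, ∀ θ' : IrrCharacter ↥H,
      (∀ h h' : ↥H, (h' : G) = g * h * g⁻¹ → (θ' : ↥H → ℂ) h' = (θ : ↥H → ℂ) h) → θ' ∈ b)) :
    ∃ θ ∈ b, blockHeight p b (θ : ↥H → ℂ) = 0 ∧ ∃ S : Subgroup G, S ≤ T ∧
      (∀ g : G, g ∈ S ↔ (g ∈ T ∧ ∀ h h' : ↥H, (h' : G) = g * h * g⁻¹ →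
        (θ : ↥H → ℂ) h' = (θ : ↥H → ℂ) h)) ∧ ¬ p ∣ S.relIndex T := by
  haveI : Fintype G := Fintype.ofFinite G
  have hHT : H ≤ T := by
    intro g hg
    rw [hT]
    intro θ hθ θ' h
    have : θ' = θ := by
      apply Subtype.ext
      funext x
      have h1 := h (⟨g, hg⟩⁻¹ * x * ⟨g, hg⟩) x (by simp [mul_assoc])
      rw [h1]
      have h2 := irr_classFunction θ x (⟨g, hg⟩⁻¹ : H)
      rw [inv_inv] at h2
      exact h2
    rw [this]; exact hθ
  set N' : Subgroup T := H.subgroupOf T with hN'def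
  have hN' : N'.Normal := inferInstance
  haveI : Fintype N' := Fintype.ofFinite _
  set ι : N' ≃* H := Subgroup.subgroupOfEquivOfLe hHT with hι
  have hιc : ∀ n : N', ((ι n : H) : G) = ((n : T) : G) := fun n => rfl
  set b' : Set (IrrCharacter N') := mapBlock ι.symm b with hb'def
  have hb' : IsPBlock M b' := isPBlock_mapBlock ι.symm hb
  have hval : ∀ (θ : IrrCharacter H) (n : N'),
      ((mapIrr ι.symm θ : IrrCharacter N') : N' → ℂ) n = (θ : H → ℂ) (ι n) := by
    intro θ n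
    rw [mapIrr_coe]
    rfl
  have hinv : ∀ g : T, ∀ θ ∈ b', ∀ θ' : IrrCharacter N',
      (∀ n : N', (θ' : N' → ℂ) n = (θ : N' → ℂ) ⟨g * n * g⁻¹, hN'.conj_mem n n.2 g⟩) →
        θ' ∈ b' := by
    rintro g _ ⟨θ0, hθ0, rfl⟩ θ' h
    have h1 : mapIrr ι θ' ∈ b := by
      refine (hT (g⁻¹ : T)).mp (T.inv_mem g.2) θ0 hθ0 _ ?_
      intro x x' hx
      rw [mapIrr_coe]
      show (θ' : N' → ℂ) (ι.symm x') = _
      rw [h, hval]
      apply congrArg
      apply Subtype.ext
      rw [hιc]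
      have h2 : (((ι.symm x' : N') : T) : G) = (x' : G) := by
        rw [← hιc, MulEquiv.apply_symm_apply]
      show (g : G) * (((ι.symm x' : N') : T) : G) * ((g : G))⁻¹ = (x : G)
      rw [h2, hx]
      simp [mul_assoc]
    have h2 : θ' = mapIrr ι.symm (mapIrr ι θ') := by
      apply Subtype.ext
      funext n
      rw [hval, mapIrr_coe]
      simp
    rw [h2]
    exact (mem_mapBlock ι.symm b _).mpr h1
  obtain ⟨_, ⟨θ, hθ, rfl⟩, hht, hidx⟩ := invariant_case N' hN' hM b' hb' hinv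
  refine ⟨θ, hθ, ?_, (inertia N' hN' ((mapIrr ι.symm θ : IrrCharacter N') : N' → ℂ)).map T.subtype,
    Subgroup.map_subtype_le _, ?_, ?_⟩
  · have hdeg : ∀ ψ : IrrCharacter H,
        charDegree ((mapIrr ι.symm ψ : IrrCharacter N') : N' → ℂ) = charDegree (ψ : H → ℂ) := by
      intro ψ
      unfold charDegree
      rw [hval, map_one]
    unfold blockHeight at hht ⊢
    rw [hdeg, hb'def, mapBlock, Set.image_image] at hht
    simp only [hdeg] at hht
    exact hht
  · intro g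
    constructor
    · rintro ⟨t, ht, rfl⟩
      refine ⟨t.2, ?_⟩
      intro x x' hx
      have h1 := congrFun ((mem_inertia N' hN' _ t).mp ht) (ι.symm x)
      rw [conjFun_apply, hval, hval, MulEquiv.apply_symm_apply] at h1
      rw [← h1]
      apply congrArg
      apply Subtype.ext
      rw [hιc]
      have h2 : (((ι.symm x : N') : T) : G) = (x : G) := by
        rw [← hιc, MulEquiv.apply_symm_apply]
      show (x' : G) = (t : G) * (((ι.symm x : N') : T) : G) * ((t : G))⁻¹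
      rw [h2, hx]
      rfl
    · rintro ⟨hgT, h⟩
      refine ⟨⟨g, hgT⟩, ?_, rfl⟩
      show (⟨g, hgT⟩ : T) ∈ inertia N' hN' _
      rw [mem_inertia]
      funext n
      rw [conjFun_apply, hval, hval]
      exact h (ι n) _ rfl
  · rw [Subgroup.relIndex, Subgroup.subgroupOf,
      Subgroup.comap_map_eq_self_of_injective T.subtype_injective]
    exact hidx

end Cfsg.Agent.Lib.BlockStabHt
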