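import Mathlib
import Cfsg.Prelude.Def_Characters
import Cfsg.Agent.Lib.CharGallagher

/-!
# Restriction norms, vanishing off a subgroup, full ramification
-/

set_option autoImplicit false

namespace Cfsg.Agent.Lib.CharRam

open Cfsg Representation Module Cfsg.Agent.Lib.CharBasic Cfsg.Agent.Lib.CharOrtho
  Cfsg.Agent.Lib.CharComplete Cfsg.Agent.Lib.CharIntegral Cfsg.Agent.Lib.CharMore
  Cfsg.Agent.Lib.CharInd Cfsg.Agent.Lib.CharClifford Cfsg.Agent.Lib.CharCorr
  Cfsg.Agent.Lib.CharIto Cfsg.Agent.Lib.CharKer Cfsg.Agent.Lib.CharGallagher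
open scoped ComplexConjugate

universe u v

variable {G : Type u} [Group G] [Fintype G]

theorem card_mul_norm_restrict (H : Subgroup G) [Fintype H] (χ : G → ℂ)
    [DecidablePred fun g : G => g ∉ H] :
    (Nat.card G : ℂ) * classInner χ χ =
      (Nat.card H : ℂ) * classInner (fun h : H => χ h) (fun h : H => χ h) +
        ((∑ g ∈ Finset.univ.filter (fun g : G => g ∉ H), Complex.normSq (χ g) : ℝ) : ℂ) := by
  classical
  have hG : (Nat.card G : ℂ) ≠ 0 := by exact_mod_cast Nat.card_pos.ne'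
  have hH : (Nat.card H : ℂ) ≠ 0 := by exact_mod_cast Nat.card_pos.ne'
  unfold classInner
  rw [mul_inv_cancel_left₀ hG, mul_inv_cancel_left₀ hH]
  rw [← sum_extendByZero_mul H (fun h : H => χ h) (fun g => conj (χ g))]
  rw [← Finset.sum_filter_add_sum_filter_not Finset.univ (fun g : G => g ∈ H)]
  congr 1
  · symm
    rw [← Finset.sum_filter_add_sum_filter_not Finset.univ (fun g : G => g ∈ H)]
    rw [Finset.sum_eq_zero (s := Finset.univ.filter fun g : G => ¬ g ∈ H), add_zero]
    · refine Finset.sum_congr rfl fun g hg => ?_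
      rw [extendByZero_mem H _ (Finset.mem_filter.mp hg).2]
    · intro g hg
      rw [extendByZero_not_mem H _ (Finset.mem_filter.mp hg).2, zero_mul]
  · push_cast
    refine Finset.sum_congr (by ext; simp) fun g _ => ?_
    rw [Complex.mul_conj]

/-- Isaacs 2.29. -/
theorem vanish_off_iff (H : Subgroup G) [Fintype H] {χ : G → ℂ} (hχ : classInner χ χ = 1) :
    (∀ g : G, g ∉ H → χ g = 0) ↔
      classInner (fun h : H => χ h) (fun h : H => χ h) = (H.index : ℂ) := by
  classical
  have h1 := card_mul_norm_restrict H χ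
  rw [hχ, mul_one] at h1
  have hH : (Nat.card H : ℂ) ≠ 0 := by exact_mod_cast Nat.card_pos.ne'
  have hidx : (Nat.card G : ℂ) = (Nat.card H : ℂ) * (H.index : ℂ) := by
    exact_mod_cast (Subgroup.card_mul_index H).symm
  constructor
  · intro h
    rw [Finset.sum_eq_zero (fun g hg => by
      rw [h g (Finset.mem_filter.mp hg).2]; simp), Complex.ofReal_zero, add_zero, hidx] at h1
    exact (mul_left_cancel₀ hH h1).symm
  · intro h g hg
    rw [h, ← hidx] at h1
    have h2 : ((∑ g ∈ Finset.univ.filter (fun g : G => g ∉ H), Complex.normSq (χ g) : ℝ) : ℂ) = 0 := by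
      have := h1
      linear_combination -this
    have h3 : ∑ g ∈ Finset.univ.filter (fun g : G => g ∉ H), Complex.normSq (χ g) = 0 := by
      exact_mod_cast h2
    have h4 := (Finset.sum_eq_zero_iff_of_nonneg (fun g _ => Complex.normSq_nonneg (χ g))).mp h3 g
      (Finset.mem_filter.mpr ⟨Finset.mem_univ g, hg⟩)
    exact Complex.normSq_eq_zero.mp h4

variable (N : Subgroup G) (hN : N.Normal) [Fintype N]

include hN in
/-- Basic facts about `χ` over an invariant `θ`. -/
theorem over_invariant {χ : G → ℂ} (hχ : IsIrrCharacter G χ) {θ : N → ℂ} (hθ : IsIrrCharacter N θ)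
    (hinv : ∀ g : G, conjFun N hN θ g = θ) (hc : classInner (fun n : N => χ n) θ ≠ 0) :
    ∃ e : ℕ, e ≠ 0 ∧ (fun n : N => χ n) = (e : ℂ) • θ ∧ classInner (indFun N θ) χ = e ∧
      classInner (fun n : N => χ n) (fun n : N => χ n) = (e : ℂ) ^ 2 ∧ χ 1 = e * θ 1 := by
  obtain ⟨e, he⟩ := classInner_char_nat (isCharacter_restrict N (isCharacter_of_isIrr hχ))
    (isCharacter_of_isIrr hθ)
  have h1 := restrict_of_invariant N hN hχ hθ hinv hc
  rw [he] at h1 hc
  refine ⟨e, by exact_mod_cast hc, h1, ?_, ?_, ?_⟩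
  · rw [frobenius_reciprocity N _ _ (isClassFunction_of_isCharacter (isCharacter_of_isIrr hχ)),
      ← classInner_conj_symm, he, Complex.conj_natCast]
  · rw [h1, classInner_smul_left, classInner_smul_right, classInner_irr_self hθ,
      Complex.conj_natCast]
    ring
  · have := congrFun h1 1
    simpa using this

include hN in
theorem invariant_of_restrict_eq {χ : G → ℂ} (hχ : IsClassFunction G χ) {θ : N → ℂ} {e : ℂ}
    (he : e ≠ 0) (h : (fun n : N => χ n) = e • θ) (g : G) : conjFun N hN θ g = θ := by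
  have h1 := invariant_of_extends N hN hχ g
  rw [h] at h1
  ext n
  have h2 := congrFun h1 n
  rw [conjFun_apply] at h2 ⊢
  simp only [Pi.smul_apply, smul_eq_mul] at h2
  exact mul_left_cancel₀ he h2

include hN in
/-- Isaacs Problem 6.3: the three characterisations of full ramification. -/
theorem fully_ramified_tfae {χ : G → ℂ} (hχ : IsIrrCharacter G χ) {θ : N → ℂ}
    (hθ : IsIrrCharacter N θ) (hc : classInner (fun n : N => χ n) θ ≠ 0) :
    ((∃ e : ℕ, (fun n : N => χ n) = (e : ℂ) • θ ∧ e ^ 2 = N.index) ↔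
      ((∀ g : G, g ∉ N → χ g = 0) ∧ ∀ g : G, conjFun N hN θ g = θ)) ∧
    ((∃ e : ℕ, (fun n : N => χ n) = (e : ℂ) • θ ∧ e ^ 2 = N.index) ↔
      ((∀ g : G, conjFun N hN θ g = θ) ∧ ∀ ψ : G → ℂ, IsIrrCharacter G ψ →
        classInner (indFun N θ) ψ ≠ 0 → ψ = χ)) := by
  classical
  have hχc := isCharacter_of_isIrr hχ
  have hcl := isClassFunction_of_isCharacter hχc
  have hidx0 : N.index ≠ 0 := Subgroup.index_ne_zero_of_finite
  have hθ1 := irr_degree_ne_zero hθ
  have key : ∀ e : ℕ, (fun n : N => χ n) = (e : ℂ) • θ → e ^ 2 = N.index →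
      ∀ g : G, conjFun N hN θ g = θ := by
    intro e h1 h2
    have he : (e : ℂ) ≠ 0 := by
      intro h0
      have : e = 0 := by exact_mod_cast h0
      rw [this] at h2
      exact hidx0 (by simpa using h2.symm)
    exact invariant_of_restrict_eq N hN hcl he h1
  refine ⟨⟨?_, ?_⟩, ⟨?_, ?_⟩⟩
  · rintro ⟨e, h1, h2⟩
    refine ⟨?_, key e h1 h2⟩
    rw [vanish_off_iff N (classInner_irr_self hχ), h1, classInner_smul_left,
      classInner_smul_right, classInner_irr_self hθ, Complex.conj_natCast, ← h2]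
    push_cast
    ring
  · rintro ⟨h1, h2⟩
    obtain ⟨e, -, he1, -, he3, -⟩ := over_invariant N hN hχ hθ h2 hc
    refine ⟨e, he1, ?_⟩
    rw [vanish_off_iff N (classInner_irr_self hχ), he3] at h1
    exact_mod_cast h1
  · rintro ⟨e, h1, h2⟩
    have hinv := key e h1 h2
    refine ⟨hinv, ?_⟩
    obtain ⟨e', -, he1, he2, -, he4⟩ := over_invariant N hN hχ hθ hinv hc
    have hee : e' = e := by
      have h3 := congrFun (he1.symm.trans h1) 1
      simp only [Pi.smul_apply, smul_eq_mul] at h3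
      exact_mod_cast mul_right_cancel₀ hθ1 h3
    subst hee
    intro ψ hψ hψc
    by_contra hne
    obtain ⟨m, hm, hexp⟩ := exists_mult (isCharacter_indFun N θ (isCharacter_of_isIrr hθ))
    choose d hd0 hd hdvd using fun ψ : IrrCharacter G => irr_degree ψ.2
    obtain ⟨t, ht0, ht, -⟩ := irr_degree hθ
    have hsum : ∑ ψ : IrrCharacter G, m ψ * d ψ = N.index * t := by
      have h3 := congrFun hexp 1
      rw [indFun_one, Finset.sum_apply, ht] at h3
      simp only [Pi.smul_apply, smul_eq_mul, hd] at h3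
      exact_mod_cast h3.symm
    have hmχ : m ⟨χ, hχ⟩ = e' := by
      have := hm ⟨χ, hχ⟩
      simp only at this
      rw [he2] at this
      exact_mod_cast this.symm
    have hdχ : d ⟨χ, hχ⟩ = e' * t := by
      have := hd ⟨χ, hχ⟩
      simp only at this
      rw [he4, ht] at this
      exact_mod_cast this.symm
    have hmψ : m ⟨ψ, hψ⟩ ≠ 0 := by
      intro h0
      apply hψc
      rw [hm ⟨ψ, hψ⟩, h0, Nat.cast_zero]
    have hne' : (⟨ψ, hψ⟩ : IrrCharacter G) ≠ ⟨χ, hχ⟩ := fun h => hne (congrArg Subtype.val h)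
    rw [← Finset.add_sum_erase Finset.univ _ (Finset.mem_univ (⟨χ, hχ⟩ : IrrCharacter G)), hmχ, hdχ,
      ← h2] at hsum
    have h5 : ∑ x ∈ Finset.univ.erase (⟨χ, hχ⟩ : IrrCharacter G), m x * d x = 0 := by
      have : e' * (e' * t) = e' ^ 2 * t := by ring
      omega
    have h6 := (Finset.sum_eq_zero_iff.mp h5) ⟨ψ, hψ⟩
      (Finset.mem_erase.mpr ⟨hne', Finset.mem_univ _⟩)
    rcases Nat.mul_eq_zero.mp h6 with h | h
    · exact hmψ h
    · exact (hd0 _).ne' h
  · rintro ⟨hinv, huniq⟩
    obtain ⟨e, -, he1, he2, -, he4⟩ := over_invariant N hN hχ hθ hinv hc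
    refine ⟨e, he1, ?_⟩
    have hexp := char_expansion (isCharacter_indFun N θ (isCharacter_of_isIrr hθ))
    rw [Finset.sum_eq_single (⟨χ, hχ⟩ : IrrCharacter G)] at hexp
    · have h3 := congrFun hexp 1
      rw [indFun_one] at h3
      simp only [Pi.smul_apply, smul_eq_mul] at h3
      rw [he2, he4, ← mul_assoc] at h3
      have h4 := mul_right_cancel₀ hθ1 h3
      have h5 : N.index = e * e := by exact_mod_cast h4
      rw [h5, sq]
    · intro ψ _ hψ
      by_cases h0 : classInner (indFun N θ) (ψ : G → ℂ) = 0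
      · rw [h0, zero_smul]
      · exact absurd (Subtype.ext (huniq ψ ψ.2 h0)) hψ
    · intro h; exact absurd (Finset.mem_univ _) h

end Cfsg.Agent.Lib.CharRam
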