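import Mathlib
import Cfsg.Prelude.Def_Characters
import Cfsg.Agent.Lib.CharRam
import Cfsg.Agent.Lib.CharCover2
import Cfsg.Agent.Lib.CharDet

/-!
# Characters over an invariant character of a normal subgroup with abelian quotient
-/

set_option autoImplicit false

namespace Cfsg.Agent.Lib.CharAbQuot

open Cfsg Representation Module Cfsg.Agent.Lib.CharBasic Cfsg.Agent.Lib.CharOrtho
  Cfsg.Agent.Lib.CharComplete Cfsg.Agent.Lib.CharIntegral Cfsg.Agent.Lib.CharMore
  Cfsg.Agent.Lib.CharInd Cfsg.Agent.Lib.CharClifford Cfsg.Agent.Lib.CharCorr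
  Cfsg.Agent.Lib.CharIto Cfsg.Agent.Lib.CharKer Cfsg.Agent.Lib.CharGallagher
  Cfsg.Agent.Lib.CharQuot Cfsg.Agent.Lib.CharRam Cfsg.Agent.Lib.CharCover2
  Cfsg.Agent.Lib.CharLinear Cfsg.Agent.Lib.CharDet Cfsg.Agent.Lib.CharLinExt
open scoped ComplexConjugate

universe u v

variable {G : Type u} [Group G] [Fintype G] (N : Subgroup G) [Fintype N] (hN : N.Normal)

include hN in
/-- An irreducible character with `N` in its kernel, `G/N` abelian, is linear. -/
theorem linear_of_ker (hab : ∀ x y : G, x * y * x⁻¹ * y⁻¹ ∈ N) {β : G → ℂ}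
    (hβ : IsIrrCharacter G β) (hker : ∀ n ∈ N, β n = β 1) : β 1 = 1 := by
  haveI := hN
  obtain ⟨β', hβ', rfl⟩ := exists_deflate_irr N hβ hker
  have h := degree_one_of_comm (A := G ⧸ N) ?_ hβ'
  · simpa using h
  · intro a b
    induction a using QuotientGroup.induction_on with
    | H x =>
      induction b using QuotientGroup.induction_on with
      | H y =>
        rw [← QuotientGroup.mk_mul, ← QuotientGroup.mk_mul, QuotientGroup.eq]
        have := hab y⁻¹ x⁻¹
        simpa [mul_assoc] using this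

include hN in
theorem exists_twist (hab : ∀ x y : G, x * y * x⁻¹ * y⁻¹ ∈ N) {χ ψ : G → ℂ}
    (hχ : IsIrrCharacter G χ) (hψ : IsIrrCharacter G ψ)
    (hc : classInner (fun n : N => χ n) (fun n : N => ψ n) ≠ 0) :
    ∃ β : G → ℂ, IsIrrCharacter G β ∧ (∀ n ∈ N, β n = 1) ∧ β * χ = ψ := by
  classical
  have hclχ := isClassFunction_of_isCharacter (isCharacter_of_isIrr hχ)
  have hclψ := isClassFunction_of_isCharacter (isCharacter_of_isIrr hψ)
  have h1 : indFun N (fun n : N => χ n) = indFun N (1 : N → ℂ) * χ := by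
    have := indFun_mul_restrict N (1 : N → ℂ) χ hclχ
    simpa using this
  have h2 : classInner (indFun N (1 : N → ℂ) * χ) ψ ≠ 0 := by
    rw [← h1, frobenius_reciprocity N _ _ hclψ]
    exact hc
  rw [char_expansion (isCharacter_indFun N (1 : N → ℂ) isCharacter_one), Finset.sum_mul,
    classInner_sum_left] at h2
  obtain ⟨β, -, hβ⟩ := Finset.exists_ne_zero_of_sum_ne_zero h2
  rw [smul_mul_assoc, classInner_smul_left] at hβ
  have hm : classInner (indFun N (1 : N → ℂ)) (β : G → ℂ) ≠ 0 := left_ne_zero_of_mul hβ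
  have hb : classInner ((β : G → ℂ) * χ) ψ ≠ 0 := right_ne_zero_of_mul hβ
  have hker := (classInner_ind_one_ne_zero_iff N hN β.2).mp hm
  have hlin := linear_of_ker N hN hab β.2 hker
  have hirr : IsIrrCharacter G ((β : G → ℂ) * χ) :=
    isIrr_hom_mul (homOfLinear (isCharacter_of_isIrr β.2) hlin) hχ
  refine ⟨β, β.2, fun n hn => by rw [hker n hn, hlin], ?_⟩
  by_contra hne
  exact hb (classInner_irr_ne hirr hψ hne)

/-- `G/N` abelian, `θ` invariant: `θ^G = e ∑_{χ ∈ C} χ` with `e² |C| = |G : N|`. -/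
theorem ind_invariant (hab : ∀ x y : G, x * y * x⁻¹ * y⁻¹ ∈ N) {θ : N → ℂ}
    (hθ : IsIrrCharacter N θ) (hinv : ∀ g : G, conjFun N hN θ g = θ) :
    ∃ (e : ℕ) (C : Finset (IrrCharacter G)), 0 < e ∧ e ^ 2 * C.card * Nat.card N = Nat.card G ∧
      indFun N θ = (e : ℂ) • ∑ χ ∈ C, (χ : G → ℂ) ∧
      (∀ χ ∈ C, (fun n : N => (χ : G → ℂ) n) = (e : ℂ) • θ) ∧
      (∀ χ ∈ C, classInner (indFun N θ) (χ : G → ℂ) = e) ∧
      (∀ χ : IrrCharacter G, χ ∈ C ↔ classInner (fun n : N => (χ : G → ℂ) n) θ ≠ 0) := by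
  classical
  have hθ1 : θ 1 ≠ 0 := irr_degree_ne_zero hθ
  have hcl : ∀ χ : IrrCharacter G, IsClassFunction G (χ : G → ℂ) := fun χ =>
    isClassFunction_of_isCharacter (isCharacter_of_isIrr χ.2)
  have hfr : ∀ χ : IrrCharacter G, classInner (indFun N θ) (χ : G → ℂ) =
      conj (classInner (fun n : N => (χ : G → ℂ) n) θ) := by
    intro χ
    rw [frobenius_reciprocity N _ _ (hcl χ), classInner_conj_symm]
  obtain ⟨χ₀, hχ₀⟩ := exists_constituent (isCharacter_indFun N θ (isCharacter_of_isIrr hθ))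
    (indFun_irr_ne_zero N hθ)
  have hχ₀' : classInner (fun n : N => (χ₀ : G → ℂ) n) θ ≠ 0 := by
    intro h
    apply hχ₀
    rw [hfr, h, map_zero]
  obtain ⟨e, he0, hres, hmul, -, hdeg⟩ := over_invariant N hN χ₀.2 hθ hinv hχ₀'
  have key : ∀ χ : IrrCharacter G, classInner (fun n : N => (χ : G → ℂ) n) θ ≠ 0 →
      (fun n : N => (χ : G → ℂ) n) = (e : ℂ) • θ ∧ classInner (indFun N θ) (χ : G → ℂ) = e := by
    intro χ hχ
    obtain ⟨e', he0', hres', hmul', -, -⟩ := over_invariant N hN χ.2 hθ hinv hχ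
    have hc : classInner (fun n : N => (χ₀ : G → ℂ) n) (fun n : N => (χ : G → ℂ) n) ≠ 0 := by
      rw [hres, hres', classInner_smul_left, classInner_smul_right, classInner_irr_self hθ]
      simp [he0, he0']
    obtain ⟨β, hβ, hker, hmulβ⟩ := exists_twist N hN hab χ₀.2 χ.2 hc
    have hr : (fun n : N => (χ : G → ℂ) n) = (e : ℂ) • θ := by
      rw [← hres]
      ext n
      rw [← hmulβ, Pi.mul_apply, hker n n.2, one_mul]
    refine ⟨hr, ?_⟩
    rw [hmul']
    have h1 := congrFun (hr.symm.trans hres') 1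
    simp only [Pi.smul_apply, smul_eq_mul] at h1
    exact (mul_right_cancel₀ hθ1 h1).symm
  set C : Finset (IrrCharacter G) := Finset.univ.filter
    (fun χ : IrrCharacter G => classInner (fun n : N => (χ : G → ℂ) n) θ ≠ 0) with hC
  have hmem : ∀ χ : IrrCharacter G, χ ∈ C ↔ classInner (fun n : N => (χ : G → ℂ) n) θ ≠ 0 := by
    intro χ
    simp [hC]
  have hexp : indFun N θ = (e : ℂ) • ∑ χ ∈ C, (χ : G → ℂ) := by
    conv_lhs => rw [char_expansion (isCharacter_indFun N θ (isCharacter_of_isIrr hθ))]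
    rw [Finset.smul_sum, hC, Finset.sum_filter]
    refine Finset.sum_congr rfl fun χ _ => ?_
    by_cases h : classInner (fun n : N => (χ : G → ℂ) n) θ ≠ 0
    · rw [if_pos h, (key χ h).2]
    · rw [if_neg h]
      push Not at h
      rw [hfr, h, map_zero, zero_smul]
  refine ⟨e, C, Nat.pos_of_ne_zero he0, ?_, hexp, fun χ hχ => (key χ ((hmem χ).mp hχ)).1,
    fun χ hχ => (key χ ((hmem χ).mp hχ)).2, hmem⟩
  have h1 := congrFun hexp 1
  rw [indFun_one, Pi.smul_apply, Finset.sum_apply] at h1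
  have h2 : ∀ χ ∈ C, (χ : G → ℂ) 1 = (e : ℂ) * θ 1 := by
    intro χ hχ
    have := congrFun (key χ ((hmem χ).mp hχ)).1 1
    simpa using this
  rw [Finset.sum_congr rfl h2, Finset.sum_const, smul_eq_mul, nsmul_eq_mul] at h1
  have h3 : (N.index : ℂ) = (e : ℂ) ^ 2 * C.card := by
    apply mul_right_cancel₀ hθ1
    rw [h1]; ring
  have h4 : N.index = e ^ 2 * C.card := by exact_mod_cast h3
  rw [← h4, mul_comm, Subgroup.card_mul_index]

omit [Fintype G] [Fintype N] in
/-- An invariant irreducible character of a normal Hall subgroup extends. -/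
theorem exists_ext_hall [Finite G] {θ : N → ℂ} (hθ : IsIrrCharacter N θ)
    (hinv : ∀ g : G, conjFun N hN θ g = θ) (hcop : Nat.Coprime (Nat.card N) N.index) :
    ∃ χ : G → ℂ, IsIrrCharacter G χ ∧ ∀ n : N, χ n = θ n := by
  obtain ⟨d, -, hd, hdvd⟩ := irr_degree hθ
  obtain ⟨δ, hδ⟩ := exists_detHom (isCharacter_of_isIrr hθ)
  have hord : detOrder θ ∣ Nat.card N := by
    unfold detOrder
    rw [hδ, orderOf_toFun']
    exact orderOf_dvd_of_pow_eq_one (hom_pow_card δ)
  have hc : Nat.Coprime N.index (detOrder θ * d) :=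
    Nat.Coprime.mul_right (Nat.Coprime.coprime_dvd_right hord hcop.symm)
      (Nat.Coprime.coprime_dvd_right hdvd hcop.symm)
  obtain ⟨χ, ⟨h1, h2, -⟩, -⟩ := exists_ext_coprime N hN hθ hinv hd hc
  exact ⟨χ, h1, h2⟩

/-- The inertia-group version: `T = I_G(θ)` with `T/N` abelian. -/
theorem ind_inertia (T : Subgroup G) [Fintype T] {θ : N → ℂ} (hθ : IsIrrCharacter N θ)
    (hT : ∀ g : G, g ∈ T ↔ conjFun N hN θ g = θ)
    (hab : ∀ x ∈ T, ∀ y ∈ T, x * y * x⁻¹ * y⁻¹ ∈ N) :
    ∃ (e : ℕ) (C : Finset (G → ℂ)), 0 < e ∧ (∀ χ ∈ C, IsIrrCharacter G χ) ∧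
      e ^ 2 * C.card * Nat.card N = Nat.card T ∧ indFun N θ = (e : ℂ) • ∑ χ ∈ C, χ ∧
      (∀ χ ∈ C, χ 1 = (T.index : ℂ) * e * θ 1) ∧
      ((∃ ψ : T → ℂ, IsIrrCharacter T ψ ∧ ∀ n : N.subgroupOf T, ψ n = sub N T θ n) → e = 1) := by
  classical
  have hNT : N ≤ T := by
    intro g hg
    rw [hT]
    ext n
    rw [conjFun_apply]
    exact isClassFunction_of_isCharacter (isCharacter_of_isIrr hθ) n ⟨g, hg⟩
  haveI : Fintype (N.subgroupOf T) := Fintype.ofFinite _
  have hN' : (N.subgroupOf T).Normal := hN.subgroupOf T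
  have hθ' := isIrr_sub N T hNT hθ
  have hinv' : ∀ t : T, conjFun (N.subgroupOf T) hN' (sub N T θ) t = sub N T θ := by
    intro t
    ext n
    have := congrFun ((hT t).mp t.2) ⟨(n : T), Subgroup.mem_subgroupOf.mp n.2⟩
    rw [conjFun_apply] at this ⊢
    exact this
  have hab' : ∀ x y : T, x * y * x⁻¹ * y⁻¹ ∈ N.subgroupOf T := by
    intro x y
    rw [Subgroup.mem_subgroupOf]
    exact hab x x.2 y y.2
  obtain ⟨e, C', he, hcard, hexp, hres, hmul, hmem⟩ :=
    ind_invariant (N.subgroupOf T) hN' hab' hθ' hinv'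
  have hne : ∀ χ ∈ C', classInner (indFun (N.subgroupOf T) (sub N T θ)) (χ : T → ℂ) ≠ 0 := by
    intro χ hχ
    rw [hmul χ hχ]
    exact_mod_cast he.ne'
  have hinj : Set.InjOn (fun χ : IrrCharacter T => indFun T (χ : T → ℂ)) C' := by
    intro a ha b hb hab
    exact Subtype.ext (corr_inj N T hN hNT hθ hT a.2 b.2 (hne a ha) (hne b hb) hab)
  refine ⟨e, C'.image (fun χ : IrrCharacter T => indFun T (χ : T → ℂ)), he, ?_, ?_, ?_, ?_, ?_⟩
  · intro χ hχ
    obtain ⟨ψ, hψ, rfl⟩ := Finset.mem_image.mp hχ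
    exact corr_irr N T hN hNT hθ hT ψ.2 (hne ψ hψ)
  · rw [Finset.card_image_of_injOn hinj, ← hcard,
      Nat.card_congr (Subgroup.subgroupOfEquivOfLe hNT).toEquiv]
  · rw [← indFun_indFun_sub N T hNT θ, hexp, indFun_smul, indFun_sum, Finset.sum_image hinj]
  · intro χ hχ
    obtain ⟨ψ, hψ, rfl⟩ := Finset.mem_image.mp hχ
    rw [indFun_one]
    have := congrFun (hres ψ hψ) 1
    simp only [Pi.smul_apply, smul_eq_mul] at this
    have h2 : (ψ : T → ℂ) 1 = (e : ℂ) * θ 1 := this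
    rw [h2]; ring
  · rintro ⟨ψ, hψ, hext⟩
    have h1 : (fun n : N.subgroupOf T => ψ n) = sub N T θ := funext hext
    have h2 : (⟨ψ, hψ⟩ : IrrCharacter T) ∈ C' := by
      rw [hmem]
      change classInner (fun n : N.subgroupOf T => ψ n) _ ≠ 0
      rw [h1, classInner_irr_self hθ']
      exact one_ne_zero
    have h3 := congrFun ((hres _ h2).symm.trans h1) 1
    simp only [Pi.smul_apply, smul_eq_mul] at h3
    have h4 : (e : ℂ) = 1 := by
      have := mul_right_cancel₀ (irr_degree_ne_zero hθ') (h3.trans (one_mul _).symm)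
      exact this
    exact_mod_cast h4

end Cfsg.Agent.Lib.CharAbQuot
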