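import Mathlib
import Cfsg.Prelude.Def_Characters
import Cfsg.Agent.Lib.CharGalois
import Cfsg.Agent.Lib.CharIto

/-!
# Artin's induction theorem
-/

set_option autoImplicit false

namespace Cfsg.Agent.Lib.CharArtin

open Cfsg Representation Module Cfsg.Agent.Lib.CharBasic Cfsg.Agent.Lib.CharOrtho
  Cfsg.Agent.Lib.CharComplete Cfsg.Agent.Lib.CharIntegral Cfsg.Agent.Lib.CharMore
  Cfsg.Agent.Lib.CharInd Cfsg.Agent.Lib.CharLinear Cfsg.Agent.Lib.CharIto
  Cfsg.Agent.Lib.CharGalois
open scoped ComplexConjugate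

universe u v

/-- The sum of a character over a subset stable under coprime power maps is an integer. -/
theorem int_sum_of_stable {A : Type u} [Group A] [Fintype A] {Ψ : A → ℂ} (hΨ : IsCharacter A Ψ)
    (S : Finset A) (hS : ∀ k : ℕ, k.Coprime (Nat.card A) → ∀ a ∈ S, a ^ k ∈ S) :
    ∃ z : ℤ, ∑ a ∈ S, Ψ a = z := by
  classical
  choose α hα hτ using fun a : A => exists_lift_char hΨ a
  set β := ∑ a ∈ S, α a with hβ
  have hint : IsIntegral ℤ β := IsIntegral.sum _ fun a _ => hα a
  have h1 : emb (Nat.card A) β = ∑ a ∈ S, Ψ a := by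
    rw [hβ, map_sum]
    refine Finset.sum_congr rfl fun a _ => ?_
    have := hτ a AlgEquiv.refl 1 (by simp)
    simpa using this
  have hfix : ∀ τ : K (Nat.card A) ≃ₐ[ℚ] K (Nat.card A), τ β = β := by
    intro τ
    obtain ⟨k, hk, hk'⟩ := exists_pow (Nat.card A) τ
    apply (emb (Nat.card A)).injective
    rw [h1, hβ, map_sum, map_sum]
    rw [Finset.sum_congr rfl (fun a _ => hτ a τ k hk')]
    have hinj : Set.InjOn (fun a : A => a ^ k) S := fun a _ b _ h => (powCoprime hk.symm).injective h
    have himg : S.image (fun a : A => a ^ k) = S := by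
      apply Finset.eq_of_subset_of_card_le
      · intro b hb
        obtain ⟨a, ha, rfl⟩ := Finset.mem_image.mp hb
        exact hS k hk a ha
      · rw [Finset.card_image_of_injOn hinj]
    conv_rhs => rw [← himg]
    rw [Finset.sum_image hinj]
  obtain ⟨q, hq⟩ := (IsGalois.mem_range_algebraMap_iff_fixed β).mpr hfix
  have hq' : IsIntegral ℤ q := by
    rw [← isIntegral_algebraMap_iff (algebraMap ℚ (K (Nat.card A))).injective, hq]
    exact hint
  obtain ⟨z, hz⟩ := IsIntegrallyClosed.isIntegral_iff.mp hq'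
  refine ⟨z, ?_⟩
  rw [← h1, ← hq, emb_algebraMap, ← hz]
  simp

variable {G : Type u} [Group G] [Fintype G]

open scoped Classical in
/-- Artin's function on a subgroup `A`: `|A| χ(a)` on generators of `A`, and `0` elsewhere. -/
noncomputable def artinFun (χ : G → ℂ) (A : Subgroup G) : A → ℂ :=
  fun a => if Subgroup.zpowers (a : G) = A then (Nat.card A : ℂ) * χ a else 0

theorem sum_indFun_artinFun (χ : G → ℂ) (hχ : IsClassFunction G χ) :
    ∑ A : Subgroup G, indFun A (artinFun χ A) = (Nat.card G : ℂ) • χ := by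
  classical
  ext g
  rw [Finset.sum_apply, Pi.smul_apply, smul_eq_mul]
  have h1 : ∀ A : Subgroup G, indFun A (artinFun χ A) g =
      ∑ x : G, if Subgroup.zpowers (x⁻¹ * g * x) = A then χ g else 0 := by
    intro A
    have hA : (Nat.card A : ℂ) ≠ 0 := by exact_mod_cast Nat.card_pos.ne'
    unfold indFun
    rw [Finset.mul_sum]
    refine Finset.sum_congr rfl fun x _ => ?_
    by_cases hx : Subgroup.zpowers (x⁻¹ * g * x) = A
    · have hmem : x⁻¹ * g * x ∈ A := hx ▸ Subgroup.mem_zpowers _
      rw [if_pos hx, extendByZero_mem _ _ hmem, artinFun, if_pos hx]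
      have := hχ g x⁻¹
      rw [inv_inv] at this
      simp only [this]
      field_simp
    · rw [if_neg hx]
      by_cases hmem : x⁻¹ * g * x ∈ A
      · rw [extendByZero_mem _ _ hmem, artinFun, if_neg hx, mul_zero]
      · rw [extendByZero_not_mem _ _ hmem, mul_zero]
  simp only [h1]
  rw [Finset.sum_comm]
  simp only [Finset.sum_ite_eq, Finset.mem_univ, if_true, Finset.sum_const, Finset.card_univ,
    nsmul_eq_mul, ← Nat.card_eq_fintype_card]

/-- `artinFun` vanishes on noncyclic subgroups. -/
theorem artinFun_eq_zero (χ : G → ℂ) (A : Subgroup G) (hA : ¬ IsCyclic A) : artinFun χ A = 0 := by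
  classical
  ext a
  rw [artinFun, if_neg, Pi.zero_apply]
  intro h
  apply hA
  rw [← h]
  infer_instance

/-- On a cyclic subgroup `artinFun` is an integral combination of irreducible characters. -/
theorem artinFun_expansion {χ : G → ℂ} (hχ : IsCharacter G χ) (A : Subgroup G) (hA : IsCyclic A) :
    ∃ c : IrrCharacter A → ℤ, artinFun χ A = ∑ ψ : IrrCharacter A, (c ψ : ℂ) • (ψ : A → ℂ) := by
  classical
  haveI : Fintype A := Fintype.ofFinite A
  have hcomm : ∀ a b : A, a * b = b * a := fun a b => (IsCyclic.commGroup (α := A)).mul_comm a b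
  have hcl : IsClassFunction A (artinFun χ A) := by
    intro g h
    rw [hcomm h g, mul_assoc, mul_inv_cancel, mul_one]
  have hAc : (Nat.card A : ℂ) ≠ 0 := by exact_mod_cast Nat.card_pos.ne'
  have key : ∀ ψ : IrrCharacter A, ∃ z : ℤ, classInner (artinFun χ A) ψ = z := by
    intro ψ
    let S : Finset A := Finset.univ.filter fun a : A => Subgroup.zpowers (a : G) = A
    have hΨ : IsCharacter A ((fun a : A => χ a) * (fun a => conj ((ψ : A → ℂ) a))) :=
      isCharacter_mul (isCharacter_restrict A hχ) (isCharacter_conj (isCharacter_of_isIrr ψ.2))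
    have hS : ∀ k : ℕ, k.Coprime (Nat.card A) → ∀ a ∈ S, a ^ k ∈ S := by
      intro k hk a ha
      have ha' : Subgroup.zpowers (a : G) = A := (Finset.mem_filter.mp ha).2
      refine Finset.mem_filter.mpr ⟨Finset.mem_univ _, ?_⟩
      rw [Subgroup.coe_pow]
      conv_rhs => rw [← ha']
      apply le_antisymm
      · exact Subgroup.zpowers_le.mpr (Subgroup.pow_mem _ (Subgroup.mem_zpowers _) k)
      · have hk' : k.Coprime (orderOf (a : G)) := by
          rw [Subgroup.orderOf_coe]
          exact Nat.Coprime.coprime_dvd_right (orderOf_dvd_natCard a) hk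
        obtain ⟨m, hm⟩ := exists_pow_eq_self_of_coprime hk'
        apply Subgroup.zpowers_le.mpr
        have h5 : ((a : G) ^ k) ^ m ∈ Subgroup.zpowers ((a : G) ^ k) :=
          Subgroup.pow_mem _ (Subgroup.mem_zpowers _) m
        rwa [hm] at h5
    obtain ⟨z, hz⟩ := int_sum_of_stable hΨ S hS
    refine ⟨z, ?_⟩
    rw [← hz]
    unfold classInner
    rw [Finset.mul_sum, Finset.sum_filter]
    refine Finset.sum_congr rfl fun a _ => ?_
    by_cases ha : Subgroup.zpowers (a : G) = A
    · rw [if_pos ha, artinFun, if_pos ha]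
      simp only [Pi.mul_apply]
      field_simp
    · rw [if_neg ha, artinFun, if_neg ha, zero_mul, mul_zero]
  choose c hc using key
  refine ⟨c, ?_⟩
  conv_lhs => rw [classFunction_expansion _ hcl]
  exact Finset.sum_congr rfl fun ψ _ => by rw [hc]

open scoped Classical in
/-- the homomorphism attached to an irreducible character, when it is linear -/
noncomputable def homOf {A : Type u} [Group A] (ψ : IrrCharacter A) : A →* ℂˣ :=
  if h : (ψ : A → ℂ) 1 = 1 then homOfLinear (isCharacter_of_isIrr ψ.2) h else 1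

theorem homOf_apply {A : Type u} [Group A] (ψ : IrrCharacter A) (h : (ψ : A → ℂ) 1 = 1) (a : A) :
    ((homOf ψ a : ℂˣ) : ℂ) = (ψ : A → ℂ) a := by
  rw [homOf, dif_pos h, homOfLinear_apply]

/-- **Artin's induction theorem**. -/
theorem artin {χ : G → ℂ} (hχ : IsCharacter G χ) :
    ∃ l : List ((A : Subgroup G) × ((A →* ℂˣ) × ℤ)), (∀ t ∈ l, IsCyclic t.1) ∧
      (Nat.card G : ℂ) • χ =
        (l.map fun t => (t.2.2 : ℂ) • indFun t.1 (fun a => (t.2.1 a : ℂ))).sum := by
  classical
  have hex : ∀ A : Subgroup G, ∃ c : IrrCharacter A → ℤ,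
      artinFun χ A = ∑ ψ : IrrCharacter A, (c ψ : ℂ) • (ψ : A → ℂ) := by
    intro A
    by_cases hA : IsCyclic A
    · exact artinFun_expansion hχ A hA
    · exact ⟨0, by rw [artinFun_eq_zero χ A hA]; simp⟩
  choose c hc using hex
  let F : (Σ A : Subgroup G, IrrCharacter A) → ((A : Subgroup G) × ((A →* ℂˣ) × ℤ)) :=
    fun i => ⟨i.1, (homOf i.2, c i.1 i.2)⟩
  refine ⟨((Finset.univ : Finset (Σ A : Subgroup G, IrrCharacter A)).filter
    (fun i => IsCyclic i.1)).toList.map F, ?_, ?_⟩
  · intro t ht
    obtain ⟨i, hi, rfl⟩ := List.mem_map.mp ht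
    exact (Finset.mem_filter.mp (Finset.mem_toList.mp hi)).2
  · rw [List.map_map, Finset.sum_map_toList, Finset.sum_filter, Fintype.sum_sigma,
      ← sum_indFun_artinFun χ (isClassFunction_of_isCharacter hχ)]
    refine Finset.sum_congr rfl fun A _ => ?_
    by_cases hA : IsCyclic A
    · simp only [if_pos hA, Function.comp_apply, F]
      rw [hc A, indFun_sum]
      refine Finset.sum_congr rfl fun ψ _ => ?_
      rw [indFun_smul]
      congr 2
      ext a
      have hcomm : ∀ a b : A, a * b = b * a :=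
        fun a b => (IsCyclic.commGroup (α := A)).mul_comm a b
      rw [homOf_apply ψ (degree_one_of_comm hcomm ψ.2)]
    · simp only [if_neg hA, Finset.sum_const_zero]
      rw [artinFun_eq_zero χ A hA, indFun_zero]

end Cfsg.Agent.Lib.CharArtin
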