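import Mathlib
import Cfsg.Prelude.Def_Blocks
import Cfsg.Agent.Lib.CharDet
import Cfsg.Agent.Lib.helper8_Defect

set_option autoImplicit false
set_option linter.unusedSectionVars false
set_option linter.style.haveILetI false

/-! Characters of degree prime to the index of a normal Hall subgroup. -/

namespace Cfsg.Agent.Lib.CharCopDeg

open Cfsg Cfsg.Agent.Lib.CharBasic Cfsg.Agent.Lib.CharOrtho
  Cfsg.Agent.Lib.CharComplete Cfsg.Agent.Lib.CharIntegral Cfsg.Agent.Lib.CharMore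
  Cfsg.Agent.Lib.CharInd Cfsg.Agent.Lib.CharClifford Cfsg.Agent.Lib.CharGallagher
  Cfsg.Agent.Lib.CharCover Cfsg.Agent.Lib.CharLinExt Cfsg.Agent.Lib.CharLinear
  Cfsg.Agent.Lib.CharDet
open scoped ComplexConjugate Classical

universe u

theorem eq_of_constituent_of_degree {G : Type u} [Group G] [Fintype G] {Φ : G → ℂ}
    (hΦ : IsCharacter G Φ) (θ : IrrCharacter G) (h : classInner Φ (θ : G → ℂ) ≠ 0)
    (hdeg : Φ 1 = (θ : G → ℂ) 1) : Φ = θ := by
  obtain ⟨m, hm, hexp⟩ := exists_mult hΦ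
  choose d hd using fun ψ : IrrCharacter G => irr_degree ψ.2
  have h1 : ∑ ψ : IrrCharacter G, m ψ * d ψ = d θ := by
    have : ((∑ ψ : IrrCharacter G, m ψ * d ψ : ℕ) : ℂ) = d θ := by
      rw [← (hd θ).2.1, ← hdeg]
      conv_rhs => rw [hexp]
      rw [Finset.sum_apply]
      push_cast
      refine Finset.sum_congr rfl fun ψ _ => ?_
      rw [Pi.smul_apply, smul_eq_mul, (hd ψ).2.1]
    exact_mod_cast this
  have hmθ : m θ ≠ 0 := by
    intro h0
    apply h
    rw [hm θ, h0, Nat.cast_zero]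
  rw [← Finset.add_sum_erase _ _ (Finset.mem_univ θ)] at h1
  have h2 : d θ ≤ m θ * d θ := Nat.le_mul_of_pos_left _ (Nat.pos_of_ne_zero hmθ)
  have h3 : ∑ ψ ∈ Finset.univ.erase θ, m ψ * d ψ = 0 := by omega
  have h4 : m θ * d θ = d θ := by omega
  have h5 : m θ = 1 := by
    have := (hd θ).1
    nlinarith [Nat.eq_of_mul_eq_mul_right this (by rw [h4, one_mul] : m θ * d θ = 1 * d θ)]
  rw [hexp, Finset.sum_eq_single θ]
  · rw [h5]; simp
  · intro ψ _ hne
    have := (Finset.sum_eq_zero_iff.mp h3) ψ (Finset.mem_erase.mpr ⟨hne, Finset.mem_univ _⟩)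
    have h6 : m ψ = 0 := by
      rcases Nat.mul_eq_zero.mp this with h7 | h7
      · exact h7
      · exact absurd h7 (hd ψ).1.ne'
    rw [h6]; simp
  · intro h7; exact absurd (Finset.mem_univ _) h7

theorem detOrder_dvd_card {K : Type u} [Group K] [Finite K] {θ : K → ℂ} (hθ : IsCharacter K θ) :
    detOrder θ ∣ Nat.card K := by
  obtain ⟨δ, hδ⟩ := exists_detHom hθ
  unfold detOrder
  rw [hδ, orderOf_toFun']
  exact orderOf_dvd_of_pow_eq_one (hom_pow_card δ)

variable {X : Type u} [Group X] [Finite X] (K : Subgroup X) [hK : K.Normal]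

/-- invariance of a character of `K` under `X` -/
def XInv (θ : K → ℂ) : Prop := ∀ g : X, conjFun K hK θ g = θ

theorem exists_ext (hcop : (Nat.card K).Coprime K.index) (θ : IrrCharacter K)
    (hθ : XInv K (θ : K → ℂ)) :
    ∃ χ : IrrCharacter X, ∀ n : K, (χ : X → ℂ) n = (θ : K → ℂ) n := by
  obtain ⟨d, hd0, hd, hdvd⟩ := irr_degree θ.2
  obtain ⟨χ, ⟨h1, h2, -⟩, -⟩ := exists_ext_coprime K hK θ.2 hθ hd (by
    apply Nat.Coprime.symm
    exact Nat.Coprime.mul_left
      (Nat.Coprime.coprime_dvd_left (detOrder_dvd_card (isCharacter_of_isIrr θ.2)) hcop)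
      (Nat.Coprime.coprime_dvd_left hdvd hcop))
  exact ⟨⟨χ, h1⟩, h2⟩

/-- **Key count.** -/
theorem card_coprime_degree (hcop : (Nat.card K).Coprime K.index) :
    Nat.card {χ : IrrCharacter X // (charDegree (χ : X → ℂ)).Coprime K.index} =
      Nat.card {θ : IrrCharacter K // XInv K (θ : K → ℂ)} *
        Nat.card {β : IrrCharacter X // (β : X → ℂ) 1 = 1 ∧ ∀ n ∈ K, (β : X → ℂ) n = 1} := by
  haveI : Fintype X := Fintype.ofFinite _
  haveI : Fintype K := Fintype.ofFinite _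
  rw [← Nat.card_prod]
  symm
  choose ext hext using fun θ : {θ : IrrCharacter K // XInv K (θ : K → ℂ)} =>
    exists_ext K hcop θ.1 θ.2
  have hres : ∀ θ, IsIrrCharacter K (fun n : K => (ext θ : X → ℂ) n) := by
    intro θ
    have : (fun n : K => (ext θ : X → ℂ) n) = (θ.1 : K → ℂ) := funext (hext θ)
    rw [this]; exact θ.1.2
  have hirr : ∀ (θ : {θ : IrrCharacter K // XInv K (θ : K → ℂ)})
      (β : {β : IrrCharacter X // (β : X → ℂ) 1 = 1 ∧ ∀ n ∈ K, (β : X → ℂ) n = 1}),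
      IsIrrCharacter X ((β.1 : X → ℂ) * (ext θ : X → ℂ)) := by
    intro θ β
    exact gallagher_mul_irr K hK (ext θ).2 (hres θ) β.1.2
      (fun n hn => by rw [β.2.2 n hn, β.2.1])
  refine Nat.card_eq_of_bijective
    (fun x => ⟨⟨(x.2.1 : X → ℂ) * (ext x.1 : X → ℂ), hirr x.1 x.2⟩, ?_⟩) ⟨?_, ?_⟩
  · obtain ⟨d, hd0, hd, hdvd⟩ := irr_degree x.1.1.2
    have h1 : ((x.2.1 : X → ℂ) * (ext x.1 : X → ℂ)) 1 = d := by
      rw [Pi.mul_apply, x.2.2.1, one_mul, ← hd]
      exact hext x.1 1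
    change (charDegree ((x.2.1 : X → ℂ) * (ext x.1 : X → ℂ))).Coprime K.index
    rw [Cfsg.Agent.Lib.helper8_Defect.charDegree_of_eq h1]
    exact Nat.Coprime.coprime_dvd_left hdvd hcop
  · rintro ⟨θ, β⟩ ⟨θ', β'⟩ e
    have e1 : (β.1 : X → ℂ) * (ext θ : X → ℂ) = (β'.1 : X → ℂ) * (ext θ' : X → ℂ) :=
      congrArg (fun z => ((z.1 : IrrCharacter X) : X → ℂ)) e
    have e2 : θ = θ' := by
      apply Subtype.ext
      apply Subtype.ext
      funext n
      have := congrFun e1 n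
      rw [Pi.mul_apply, Pi.mul_apply, β.2.2 n n.2, β'.2.2 n n.2, one_mul, one_mul, hext,
        hext] at this
      exact this
    subst e2
    have e3 := gallagher_mul_inj K hK (ext θ).2 (hres θ) β.1.2
      (fun n hn => by rw [β.2.2 n hn, β.2.1]) β'.1.2
      (fun n hn => by rw [β'.2.2 n hn, β'.2.1]) e1
    have e4 : β = β' := Subtype.ext (Subtype.ext e3)
    rw [e4]
  · rintro ⟨χ, hχ⟩
    obtain ⟨θ, hθ⟩ := exists_constituent (isCharacter_restrict K (isCharacter_of_isIrr χ.2)) (by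
      intro h
      have := congrFun h 1
      simp only [OneMemClass.coe_one, Pi.zero_apply] at this
      exact irr_degree_ne_zero χ.2 this)
    obtain ⟨e, he1, he2⟩ := degree_ratio K hK θ.2 χ.2 hθ
    obtain ⟨c0, c1, -⟩ := Cfsg.Agent.Lib.helper8_Defect.irr_charDegree χ.2
    obtain ⟨d0, d1, -⟩ := Cfsg.Agent.Lib.helper8_Defect.irr_charDegree θ.2
    have he3 : charDegree (χ : X → ℂ) = e * charDegree (θ : K → ℂ) := by
      rw [c1, d1] at he1
      exact_mod_cast he1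
    have he4 : e = 1 := by
      have h1 : e ∣ charDegree (χ : X → ℂ) := ⟨_, he3⟩
      have := Nat.dvd_gcd h1 he2
      rw [hχ] at this
      exact Nat.dvd_one.mp this
    rw [he4, Nat.cast_one, one_mul] at he1
    have hχθ : (fun n : K => (χ : X → ℂ) n) = (θ : K → ℂ) :=
      eq_of_constituent_of_degree (isCharacter_restrict K (isCharacter_of_isIrr χ.2)) θ hθ he1
    have hθinv : XInv K (θ : K → ℂ) := by
      intro g
      rw [← hχθ]
      exact invariant_of_extends K hK (isClassFunction_of_isCharacter (isCharacter_of_isIrr χ.2)) g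
    obtain ⟨β, hβ, hβK, hβχ⟩ := gallagher_exists K hK (ext ⟨θ, hθinv⟩).2 (hres ⟨θ, hθinv⟩) χ.2 (by
      have : (fun n : K => (ext ⟨θ, hθinv⟩ : X → ℂ) n) = (θ : K → ℂ) := funext (hext ⟨θ, hθinv⟩)
      rw [this, hχθ, classInner_irr_self θ.2]
      exact one_ne_zero)
    have hβ1 : β 1 = 1 := by
      have h1 := congrFun hβχ 1
      rw [Pi.mul_apply] at h1
      have h2 : (ext ⟨θ, hθinv⟩ : X → ℂ) 1 = (θ : K → ℂ) 1 := hext ⟨θ, hθinv⟩ 1
      rw [h2, he1] at h1
      exact mul_right_cancel₀ (irr_degree_ne_zero θ.2) (by rw [h1, one_mul])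
    refine ⟨(⟨θ, hθinv⟩, ⟨⟨β, hβ⟩, hβ1, fun n hn => (hβK n hn).trans hβ1⟩), ?_⟩
    apply Subtype.ext
    apply Subtype.ext
    exact hβχ

theorem card_lin {H₀ : Type*} [Group H₀] (π : X →* H₀) (hπ : Function.Surjective π)
    (hker : π.ker = K) :
    Nat.card {β : IrrCharacter X // (β : X → ℂ) 1 = 1 ∧ ∀ n ∈ K, (β : X → ℂ) n = 1} =
      Nat.card (H₀ →* ℂˣ) := by
  rw [← Nat.card_congr (π.liftOfSurjective hπ (G₃ := ℂˣ))]
  refine Nat.card_eq_of_bijective
    (fun β => ⟨linearEquiv ⟨β.1, β.2.1⟩, ?_⟩) ⟨?_, ?_⟩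
  · intro x hx
    rw [hker] at hx
    rw [MonoidHom.mem_ker]
    apply Units.ext
    exact β.2.2 x hx
  · intro β β' e
    have e1 := linearEquiv.injective (congrArg Subtype.val e)
    exact Subtype.ext (Subtype.mk.inj e1)
  · rintro ⟨f, hf⟩
    refine ⟨⟨(linearEquiv.symm f).1, (linearEquiv.symm f).2, ?_⟩, ?_⟩
    · intro n hn
      rw [← hker] at hn
      have h1 := MonoidHom.mem_ker.mp (hf hn)
      change ((f n : ℂˣ) : ℂ) = 1
      rw [h1]; rfl
    · apply Subtype.ext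
      exact linearEquiv.apply_symm_apply f

end Cfsg.Agent.Lib.CharCopDeg
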