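import Mathlib
import Cfsg.Prelude.Def_Characters
import Cfsg.Agent.Lib.CharGallagher
import Cfsg.Agent.Lib.CharVanish
import Cfsg.Agent.Lib.CharQuot
import Cfsg.Agent.Lib.CharIndTrans

/-!
# Coset averages (Isaacs 8.14)
-/

set_option autoImplicit false

namespace Cfsg.Agent.Lib.CharCoset

open Cfsg Representation Module Cfsg.Agent.Lib.CharBasic Cfsg.Agent.Lib.CharOrtho
  Cfsg.Agent.Lib.CharComplete Cfsg.Agent.Lib.CharIntegral Cfsg.Agent.Lib.CharMore
  Cfsg.Agent.Lib.CharInd Cfsg.Agent.Lib.CharClifford Cfsg.Agent.Lib.CharCorr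
  Cfsg.Agent.Lib.CharIto Cfsg.Agent.Lib.CharKer Cfsg.Agent.Lib.CharGallagher
  Cfsg.Agent.Lib.CharVanish Cfsg.Agent.Lib.CharQuot Cfsg.Agent.Lib.CharIndTrans
open scoped ComplexConjugate

universe u v

variable {G : Type u} [Group G] [Fintype G] (N : Subgroup G) (hN : N.Normal) [Fintype N]

include hN in
theorem sum_coset_char_eq_zero {ξ : G → ℂ} (hξ : IsIrrCharacter G ξ)
    (hker : ∃ n ∈ N, ξ n ≠ ξ 1) (x : G) : ∑ n : N, ξ (n * x) = 0 := by
  obtain ⟨m, ρ, hirr, rfl⟩ := hξ
  haveI := hirr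
  haveI := hN
  have h1 : ∑ h : N, ρ (h : G) = 0 := by
    apply sum_normal_eq_zero ρ N
    obtain ⟨n, hn, hne⟩ := hker
    refine ⟨n, hn, fun h => hne ?_⟩
    unfold Representation.character
    rw [h, map_one]
    rfl
  unfold Representation.character
  simp only [map_mul]
  rw [← map_sum, ← Finset.sum_mul, h1, zero_mul, map_zero]

/-- The coset average of `ψ χ̄`. -/
noncomputable def avg (ψ χ : G → ℂ) : G → ℂ :=
  fun g => (Nat.card N : ℂ)⁻¹ * ∑ n : N, ψ ((n : G) * g) * conj (χ ((n : G) * g))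

include hN in
theorem avg_isClassFunction {ψ χ : G → ℂ} (hψ : IsClassFunction G ψ) (hχ : IsClassFunction G χ) :
    IsClassFunction G (avg N ψ χ) := by
  intro g h
  unfold avg
  congr 1
  rw [← Equiv.sum_comp (@MulAut.conjNormal G _ N hN h).toEquiv]
  refine Finset.sum_congr rfl fun n _ => ?_
  have e : (((@MulAut.conjNormal G _ N hN h).toEquiv n : N) : G) * (h * g * h⁻¹) =
      h * ((n : G) * g) * h⁻¹ := by
    simp only [MulEquiv.toEquiv_eq_coe, MulEquiv.coe_toEquiv, MulAut.conjNormal_apply]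
    group
  rw [e, hψ, hχ]

include hN in
theorem classInner_avg {ψ χ : G → ℂ} {ξ : G → ℂ} (hξ : IsIrrCharacter G ξ) :
    ((∀ n ∈ N, ξ n = ξ 1) → classInner (avg N ψ χ) ξ = classInner ψ (ξ * χ)) ∧
    ((∃ n ∈ N, ξ n ≠ ξ 1) → classInner (avg N ψ χ) ξ = 0) := by
  have hN0 : (Nat.card N : ℂ) ≠ 0 := by exact_mod_cast Nat.card_pos.ne'
  have hmain : classInner (avg N ψ χ) ξ = (Nat.card G : ℂ)⁻¹ * ((Nat.card N : ℂ)⁻¹ *
      ∑ x : G, ψ x * conj (χ x) * conj (∑ n : N, ξ ((n : G) * x))) := by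
    unfold classInner avg
    congr 1
    simp only [mul_assoc, Finset.sum_mul]
    rw [← Finset.mul_sum]
    congr 1
    rw [Finset.sum_comm]
    simp only [map_sum, Finset.mul_sum]
    rw [Finset.sum_comm (s := (Finset.univ : Finset G))]
    rw [← Equiv.sum_comp (Equiv.inv N)]
    refine Finset.sum_congr rfl fun n _ => ?_
    rw [← Equiv.sum_comp (Equiv.mulLeft (n : G))]
    refine Finset.sum_congr rfl fun x _ => ?_
    simp
  constructor
  · intro hker
    rw [hmain]
    unfold classInner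
    congr 1
    have h1 : ∀ x : G, ∑ n : N, ξ ((n : G) * x) = (Nat.card N : ℂ) * ξ x := by
      intro x
      rw [Finset.sum_congr rfl (fun (n : N) _ =>
        char_mul_left_of_ker (isCharacter_of_isIrr hξ) (hker (n : G) n.2) x), Finset.sum_const,
        Finset.card_univ, nsmul_eq_mul, Nat.card_eq_fintype_card]
    simp only [h1, map_mul, Complex.conj_natCast]
    rw [Finset.mul_sum]
    refine Finset.sum_congr rfl fun x _ => ?_
    simp only [Pi.mul_apply, map_mul]
    field_simp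
  · intro hker
    rw [hmain]
    simp only [sum_coset_char_eq_zero N hN hξ hker, map_zero, mul_zero, Finset.sum_const_zero]

include hN in
theorem avg_eq {χ : G → ℂ} (hχ : IsIrrCharacter G χ)
    (hχN : IsIrrCharacter N (fun n : N => χ n)) {ψ : G → ℂ} (hψ : IsIrrCharacter G ψ) :
    (∀ β : G → ℂ, IsIrrCharacter G β → (∀ n ∈ N, β n = β 1) → β * χ = ψ → avg N ψ χ = β) ∧
    ((∀ β : G → ℂ, IsIrrCharacter G β → (∀ n ∈ N, β n = β 1) → β * χ ≠ ψ) → avg N ψ χ = 0) := by
  classical
  have hcl := avg_isClassFunction N hN (isClassFunction_of_isCharacter (isCharacter_of_isIrr hψ))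
    (isClassFunction_of_isCharacter (isCharacter_of_isIrr hχ))
  constructor
  · intro β hβ hβN hβχ
    apply classFunction_ext hcl (isClassFunction_of_isCharacter (isCharacter_of_isIrr hβ))
    intro ξ
    by_cases hker : ∀ n ∈ N, (ξ : G → ℂ) n = (ξ : G → ℂ) 1
    · rw [(classInner_avg N hN ξ.2).1 hker, ← hβχ,
        classInner_irr (gallagher_mul_irr N hN hχ hχN hβ hβN)
          (gallagher_mul_irr N hN hχ hχN ξ.2 hker), classInner_irr hβ ξ.2]
      by_cases h : β = ξ
      · rw [if_pos h, if_pos (by rw [h])]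
      · rw [if_neg h, if_neg (fun h' => h (gallagher_mul_inj N hN hχ hχN hβ hβN ξ.2 hker h'))]
    · push Not at hker
      rw [(classInner_avg N hN ξ.2).2 hker, classInner_irr_ne hβ ξ.2]
      rintro rfl
      obtain ⟨n, hn, hne⟩ := hker
      exact hne (hβN n hn)
  · intro hno
    apply classFunction_ext hcl (fun _ _ => rfl)
    intro ξ
    rw [classInner_zero_left]
    by_cases hker : ∀ n ∈ N, (ξ : G → ℂ) n = (ξ : G → ℂ) 1
    · rw [(classInner_avg N hN ξ.2).1 hker]
      exact classInner_irr_ne hψ (gallagher_mul_irr N hN hχ hχN ξ.2 hker)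
        (fun h => hno ξ ξ.2 hker h.symm)
    · push Not at hker
      exact (classInner_avg N hN ξ.2).2 hker

end Cfsg.Agent.Lib.CharCoset
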