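import Mathlib
import Cfsg.Prelude.Def_Characters
import Cfsg.Agent.Lib.CharInd

/-!
# Induction from the normalizer of a TI-set
-/

set_option autoImplicit false

namespace Cfsg.Agent.Lib.CharTI

open Cfsg Representation Module Cfsg.Agent.Lib.CharBasic Cfsg.Agent.Lib.CharOrtho
  Cfsg.Agent.Lib.CharComplete Cfsg.Agent.Lib.CharIntegral Cfsg.Agent.Lib.CharMore
  Cfsg.Agent.Lib.CharInd
open scoped ComplexConjugate

universe u v

variable {G : Type u} [Group G] [Fintype G]

/-- General form: `N` a subgroup, `T ⊆ N` a subset such that `g t g⁻¹ ∈ T`, `1 ≠ t ∈ T` forces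
`g ∈ N`. -/
theorem indFun_eq_on_ti (N : Subgroup G) (T : Set G)
    (hTI : ∀ g : G, g ∉ N → ∀ t ∈ T, g * t * g⁻¹ ∈ T → t = 1)
    (ψ : N → ℂ) (hψ : IsClassFunction N ψ) (hψT : ∀ x : N, (x : G) ∉ T → ψ x = 0)
    (t : N) (htT : (t : G) ∈ T) (ht1 : t ≠ 1) : indFun N ψ t = ψ t := by
  classical
  haveI : Fintype N := Fintype.ofFinite N
  have hN : (Nat.card N : ℂ) ≠ 0 := by exact_mod_cast Nat.card_pos.ne'
  unfold indFun
  have h1 : ∀ x : G, extendByZero N ψ (x⁻¹ * t * x) = if x ∈ N then ψ t else 0 := by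
    intro x
    by_cases hx : x ∈ N
    · rw [if_pos hx]
      have hmem : x⁻¹ * t * x ∈ N := N.mul_mem (N.mul_mem (N.inv_mem hx) t.2) hx
      rw [extendByZero_mem N ψ hmem]
      have := hψ t (⟨x, hx⟩ : N)⁻¹
      rw [← this]
      congr 1
      apply Subtype.ext
      simp
    · rw [if_neg hx]
      by_cases hmem : x⁻¹ * t * x ∈ N
      · rw [extendByZero_mem N ψ hmem]
        apply hψT
        intro hT
        apply ht1
        apply Subtype.ext
        have hx' : x⁻¹ ∉ N := fun h => hx (by simpa using N.inv_mem h)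
        exact hTI x⁻¹ hx' t htT (by simpa using hT)
      · exact extendByZero_not_mem N ψ hmem
  simp only [h1]
  rw [Finset.sum_ite, Finset.sum_const_zero, add_zero, Finset.sum_const, nsmul_eq_mul]
  have h2 : (Finset.univ.filter fun x : G => x ∈ N).card = Nat.card N := by
    rw [Nat.card_eq_fintype_card, Fintype.card_subtype]
  rw [h2]
  field_simp

theorem classInner_indFun_ti (N : Subgroup G) [Fintype N] (T : Set G)
    (hTI : ∀ g : G, g ∉ N → ∀ t ∈ T, g * t * g⁻¹ ∈ T → t = 1)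
    (ψ θ : N → ℂ) (hθ : IsClassFunction N θ)
    (hψT : ∀ x : N, (x : G) ∉ T → ψ x = 0) (hθT : ∀ x : N, (x : G) ∉ T → θ x = 0)
    (hψ1 : ψ 1 = 0) : classInner (indFun N ψ) (indFun N θ) = classInner ψ θ := by
  rw [frobenius_reciprocity N ψ _ (indFun_isClassFunction N θ)]
  unfold classInner
  congr 1
  refine Finset.sum_congr rfl fun x _ => ?_
  by_cases hx : (x : G) ∈ T
  · by_cases hx1 : x = 1
    · rw [hx1, hψ1, zero_mul, zero_mul]
    · simp only
      rw [indFun_eq_on_ti N T hTI θ hθ hθT x hx hx1]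
  · rw [hψT x hx, zero_mul, zero_mul]

end Cfsg.Agent.Lib.CharTI
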