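import Mathlib
import Cfsg.Prelude.Def_Characters
import Cfsg.Agent.Lib.CharGen
import Cfsg.Agent.Lib.CharTI

/-!
# Exceptional characters
-/

set_option autoImplicit false

namespace Cfsg.Agent.Lib.CharExc

open Cfsg Representation Module Cfsg.Agent.Lib.CharBasic Cfsg.Agent.Lib.CharOrtho
  Cfsg.Agent.Lib.CharComplete Cfsg.Agent.Lib.CharIntegral Cfsg.Agent.Lib.CharMore
  Cfsg.Agent.Lib.CharInd Cfsg.Agent.Lib.CharGen Cfsg.Agent.Lib.CharTI
open scoped ComplexConjugate

universe u v

theorem comb {I X : Type*} (a b : I → X)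
    (h : ∀ i j, i ≠ j → (a i = a j ∧ b i ≠ b j) ∨ (a i ≠ a j ∧ b i = b j)) :
    (∀ i j, a i = a j) ∨ (∀ i j, b i = b j) := by
  classical
  by_contra hcon
  push Not at hcon
  obtain ⟨⟨i, j, hij⟩, ⟨k, l, hkl⟩⟩ := hcon
  have h' : ∀ i j, (a i = a j ∧ b i = b j → i = j) ∧ (a i = a j ∨ b i = b j) := by
    intro i j
    by_cases e : i = j
    · subst e; simp
    · rcases h i j e with h | h
      · exact ⟨fun h2 => absurd h2.2 h.2, Or.inl h.1⟩
      · exact ⟨fun h2 => absurd h2.1 h.1, Or.inr h.2⟩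
  have h1 := (h' i j).2.resolve_left hij
  have h6 := (h' k l).2.resolve_right hkl
  rcases (h' i k).2 with e1 | e1 <;> rcases (h' i l).2 with e2 | e2 <;>
   rcases (h' j k).2 with e3 | e3 <;> rcases (h' j l).2 with e4 | e4
  all_goals exact hij (by simp_all)

variable {G : Type u} [Group G] [Fintype G]

theorem exceptional (n : ℕ) (i₀ : Fin n) (τ : Fin n → (G → ℂ)) (h0 : τ i₀ = 0)
    (hgen : ∀ i, IsGeneralizedCharacter G (τ i)) (hone : ∀ i, τ i 1 = 0)
    (hgram : ∀ i j, i ≠ i₀ → j ≠ i₀ → classInner (τ i) (τ j) = if i = j then 2 else 1) :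
    ∃ ε : ℂ, (ε = 1 ∨ ε = -1) ∧ ∃ μ : Fin n → (G → ℂ), (∀ i, IsIrrCharacter G (μ i)) ∧
      Function.Injective μ ∧ ∀ i, τ i = ε • (μ i - μ i₀) := by
  classical
  have hex : ∀ i : Fin n, ∃ p : IrrCharacter G × IrrCharacter G,
      i ≠ i₀ → p.1 ≠ p.2 ∧ τ i = (p.1 : G → ℂ) - (p.2 : G → ℂ) := by
    intro i
    by_cases hi : i = i₀
    · exact ⟨(⟨1, isIrr_one⟩, ⟨1, isIrr_one⟩), fun h => absurd hi h⟩
    · obtain ⟨α, β, hne, he⟩ := eq_sub_of_norm_two (hgen i)
        (by rw [hgram i i hi hi, if_pos rfl]) (hone i)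
      exact ⟨(α, β), fun _ => ⟨hne, he⟩⟩
  choose p hp using hex
  have hpair : ∀ i j : Fin n, i ≠ i₀ → j ≠ i₀ → i ≠ j →
      ((p i).1 = (p j).1 ∧ (p i).2 ≠ (p j).2) ∨ ((p i).1 ≠ (p j).1 ∧ (p i).2 = (p j).2) := by
    intro i j hi hj hij
    have h1 := hgram i j hi hj
    rw [if_neg hij, (hp i hi).2, (hp j hj).2, inner_sub_sub] at h1
    have hi' := (hp i hi).1
    have hj' := (hp j hj).1
    by_cases e1 : (p i).1 = (p j).1 <;> by_cases e2 : (p i).2 = (p j).2 <;>
      by_cases e3 : (p i).1 = (p j).2 <;> by_cases e4 : (p i).2 = (p j).1 <;>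
      simp only [e1, e2, e3, e4, if_true, if_false] at h1 ⊢ <;> first | (norm_num at h1; done) | grind
  have hcomb := comb (fun i : {i : Fin n // i ≠ i₀} => (p i).1) (fun i => (p i).2)
    (fun i j hij => hpair i j i.2 j.2 (fun h => hij (Subtype.ext h)))
  by_cases hne : ∃ i₁ : Fin n, i₁ ≠ i₀
  swap
  · push Not at hne
    refine ⟨1, Or.inl rfl, fun _ => 1, fun _ => isIrr_one, fun i j _ => by rw [hne i, hne j], ?_⟩
    intro i
    rw [hne i, h0]
    simp
  obtain ⟨i₁, hi₁⟩ := hne
  rcases hcomb with hA | hB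
  · -- all share `a`
    have hA' : ∀ i, i ≠ i₀ → (p i).1 = (p i₁).1 := fun i hi => hA ⟨i, hi⟩ ⟨i₁, hi₁⟩
    refine ⟨-1, Or.inr rfl, fun i => if i = i₀ then ((p i₁).1 : G → ℂ) else ((p i).2 : G → ℂ),
      ?_, ?_, ?_⟩
    · intro i
      by_cases hi : i = i₀
      · simp only [hi, if_true]; exact (p i₁).1.2
      · simp only [hi, if_false]; exact (p i).2.2
    · intro i j hij
      by_contra hne
      by_cases hi : i = i₀ <;> by_cases hj : j = i₀
      · exact hne (hi.trans hj.symm)
      · simp only [hi, hj, if_true, if_false] at hij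
        have := Subtype.ext hij
        rw [← hA' j hj] at this
        exact (hp j hj).1 this
      · simp only [hi, hj, if_true, if_false] at hij
        have := Subtype.ext hij
        rw [← hA' i hi] at this
        exact (hp i hi).1 this.symm
      · simp only [hi, hj, if_false] at hij
        have := Subtype.ext hij
        rcases hpair i j hi hj hne with h | h
        · exact h.2 this
        · exact h.1 ((hA' i hi).trans (hA' j hj).symm)
    · intro i
      by_cases hi : i = i₀
      · simp [hi, h0]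
      · simp only [hi, if_true, if_false]
        rw [(hp i hi).2, hA' i hi]
        simp
  · have hB' : ∀ i, i ≠ i₀ → (p i).2 = (p i₁).2 := fun i hi => hB ⟨i, hi⟩ ⟨i₁, hi₁⟩
    refine ⟨1, Or.inl rfl, fun i => if i = i₀ then ((p i₁).2 : G → ℂ) else ((p i).1 : G → ℂ),
      ?_, ?_, ?_⟩
    · intro i
      by_cases hi : i = i₀
      · simp only [hi, if_true]; exact (p i₁).2.2
      · simp only [hi, if_false]; exact (p i).1.2
    · intro i j hij
      by_contra hne
      by_cases hi : i = i₀ <;> by_cases hj : j = i₀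
      · exact hne (hi.trans hj.symm)
      · simp only [hi, hj, if_true, if_false] at hij
        have := Subtype.ext hij
        rw [← hB' j hj] at this
        exact (hp j hj).1 this.symm
      · simp only [hi, hj, if_true, if_false] at hij
        have := Subtype.ext hij
        rw [← hB' i hi] at this
        exact (hp i hi).1 this
      · simp only [hi, hj, if_false] at hij
        have := Subtype.ext hij
        rcases hpair i j hi hj hne with h | h
        · exact h.2 ((hB' i hi).trans (hB' j hj).symm)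
        · exact h.1 this
    · intro i
      by_cases hi : i = i₀
      · simp [hi, h0]
      · simp only [hi, if_true, if_false]
        rw [(hp i hi).2, hB' i hi]
        simp

theorem exceptional_ti (N : Subgroup G) (S : Set G)
    (hTI : ∀ g : G, g ∉ N → ∀ s ∈ S, g * s * g⁻¹ ∈ S → s = 1) (n : ℕ) (hn : 2 ≤ n)
    (χ : Fin n → (N → ℂ)) (hirr : ∀ i, IsIrrCharacter N (χ i)) (hinj : Function.Injective χ)
    (hvan : ∀ i, ∀ x : N, (x : G) ∉ S → χ i x = 0) (hdeg : ∀ i j, χ i 1 = χ j 1) :
    ∃ ε : ℂ, (ε = 1 ∨ ε = -1) ∧ ∃ θ : Fin n → (G → ℂ), (∀ i, IsIrrCharacter G (θ i)) ∧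
      Function.Injective θ ∧ ∀ i j, indFun N (χ i) - indFun N (χ j) = ε • (θ i - θ j) := by
  classical
  haveI : Fintype N := Fintype.ofFinite _
  let i₀ : Fin n := ⟨0, by omega⟩
  have hg : ∀ i j, IsGeneralizedCharacter N (χ i - χ j) := fun i j =>
    isGen_sub (isGen_of_isCharacter (isCharacter_of_isIrr (hirr i)))
      (isGen_of_isCharacter (isCharacter_of_isIrr (hirr j)))
  have hinner : ∀ i j, classInner (χ i) (χ j) = if i = j then 1 else 0 := by
    intro i j
    rw [classInner_irr (hirr i) (hirr j)]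
    by_cases h : i = j
    · rw [if_pos h, if_pos (congrArg χ h)]
    · rw [if_neg h, if_neg (fun h' => h (hinj h'))]
  obtain ⟨ε, hε, μ, hμ, hμinj, hτ⟩ := exceptional n i₀ (fun i => indFun N (χ i - χ i₀))
    (by simp [indFun_zero])
    (fun i => isGen_indFun N (hg i i₀))
    (fun i => by
      show indFun N (χ i - χ i₀) 1 = 0
      rw [indFun_one, Pi.sub_apply, hdeg i i₀, sub_self, mul_zero])
    (fun i j hi hj => by
      show classInner (indFun N (χ i - χ i₀)) (indFun N (χ j - χ i₀)) = _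
      rw [classInner_indFun_ti N S hTI _ _ (isClassFunction_of_isGen (hg j i₀))
        (fun x hx => by rw [Pi.sub_apply, hvan i x hx, hvan i₀ x hx, sub_self])
        (fun x hx => by rw [Pi.sub_apply, hvan j x hx, hvan i₀ x hx, sub_self])
        (by rw [Pi.sub_apply, hdeg i i₀, sub_self])]
      rw [classInner_sub_left, classInner_sub_right, classInner_sub_right, hinner, hinner,
        hinner, hinner, if_neg hi, if_neg (Ne.symm hj), if_pos rfl]
      by_cases h : i = j
      · rw [if_pos h, if_pos h]; norm_num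
      · rw [if_neg h, if_neg h]; norm_num)
  refine ⟨ε, hε, μ, hμ, hμinj, fun i j => ?_⟩
  have h1 := hτ i
  have h2 := hτ j
  simp only [indFun_sub] at h1 h2
  have : indFun N (χ i) - indFun N (χ j) =
      (indFun N (χ i) - indFun N (χ i₀)) - (indFun N (χ j) - indFun N (χ i₀)) := by abel
  rw [this, h1, h2, ← smul_sub]
  congr 1
  abel

end Cfsg.Agent.Lib.CharExc
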