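import Mathlib
import Cfsg.Prelude.Def_Characters
import Cfsg.Agent.Lib.CharAbQuot
import Cfsg.Agent.Lib.CharThompson

/-!
# Characters of extraspecial groups
-/

set_option autoImplicit false

namespace Cfsg.Agent.Lib.CharExtra

open Cfsg Representation Module Cfsg.Agent.Lib.CharBasic Cfsg.Agent.Lib.CharOrtho
  Cfsg.Agent.Lib.CharComplete Cfsg.Agent.Lib.CharIntegral Cfsg.Agent.Lib.CharMore
  Cfsg.Agent.Lib.CharInd Cfsg.Agent.Lib.CharClifford Cfsg.Agent.Lib.CharCorr
  Cfsg.Agent.Lib.CharIto Cfsg.Agent.Lib.CharKer Cfsg.Agent.Lib.CharGallagher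
  Cfsg.Agent.Lib.CharQuot Cfsg.Agent.Lib.CharRam Cfsg.Agent.Lib.CharCover2
  Cfsg.Agent.Lib.CharLinear Cfsg.Agent.Lib.CharAbQuot
open scoped ComplexConjugate

universe u v

variable {P : Type u} [Group P] [Fintype P]

theorem comm_mem (x y : P) : x * y * x⁻¹ * y⁻¹ ∈ commutator P := by
  rw [commutator_def]
  exact Subgroup.commutator_mem_commutator (Subgroup.mem_top x) (Subgroup.mem_top y)

/-- Nonlinear irreducible characters of a group with `P' = Z(P)` of prime order vanish off the
centre. -/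
theorem vanish_off_center (p : ℕ) (hp : p.Prime) (hcomm : commutator P = Subgroup.center P)
    (hZ : Nat.card (Subgroup.center P) = p) {χ : P → ℂ} (hχ : IsIrrCharacter P χ) (h1 : χ 1 ≠ 1)
    (x : P) (hx : x ∉ Subgroup.center P) : χ x = 0 := by
  classical
  haveI : Fact p.Prime := ⟨hp⟩
  haveI : Fintype (commutator P) := Fintype.ofFinite _
  obtain ⟨y, hy⟩ : ∃ y, y * x ≠ x * y := by
    rw [Subgroup.mem_center_iff] at hx
    push Not at hx
    exact hx
  set z := x⁻¹ * y⁻¹ * x * y with hz
  have hzc : z ∈ commutator P := by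
    have := comm_mem x⁻¹ y⁻¹
    simpa using this
  have hzZ : z ∈ Subgroup.center P := hcomm ▸ hzc
  have hz1 : z ≠ 1 := by
    intro h
    apply hy
    have : x * y * z = x * y := by rw [h, mul_one]
    rw [hz] at this
    have h2 : x * y * (x⁻¹ * y⁻¹ * x * y) = x * y * x⁻¹ * y⁻¹ * (x * y) := by group
    rw [h2] at this
    have h3 : x * y * x⁻¹ * y⁻¹ = 1 := by
      exact mul_eq_right.mp this
    have h4 : x * y = y * x := by
      have := congrArg (fun t => t * (y * x)) h3
      simpa [mul_assoc] using this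
    exact h4.symm
  by_contra hχx
  have hcl := isClassFunction_of_isCharacter (isCharacter_of_isIrr hχ)
  have e1 : χ (x * z) = χ x := by
    have : x * z = y⁻¹ * x * (y⁻¹)⁻¹ := by rw [hz]; group
    rw [this, hcl]
  apply h1
  apply linear_of_ker (commutator P) inferInstance comm_mem hχ
  obtain ⟨m, ρ, hρ, rfl⟩ := hχ
  haveI := hρ
  have hsc := schur_commute ρ (ρ z) (fun g => by
    rw [← Module.End.mul_eq_comp, ← Module.End.mul_eq_comp, ← map_mul, ← map_mul,
      (Subgroup.mem_center_iff.mp hzZ g)])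
  set c := LinearMap.trace ℂ (Fin m → ℂ) (ρ z) / (finrank ℂ (Fin m → ℂ) : ℂ) with hc
  have e2 : ρ.character (x * z) = c * ρ.character x := by
    unfold Representation.character
    rw [map_mul, hsc, Module.End.mul_eq_comp, LinearMap.comp_smul, LinearMap.comp_id, map_smul,
      smul_eq_mul]
  rw [e2] at e1
  have hc1 : c = 1 := mul_right_cancel₀ hχx (e1.trans (one_mul _).symm)
  have hρz : ρ z = 1 := by rw [hsc, hc1, one_smul]; rfl
  intro n hn
  rw [hcomm] at hn
  have hmem : (⟨n, hn⟩ : Subgroup.center P) ∈ Subgroup.zpowers (⟨z, hzZ⟩ : Subgroup.center P) :=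
    mem_zpowers_of_prime_card hZ (fun h => hz1 (congrArg Subtype.val h))
  obtain ⟨k, hk⟩ := Subgroup.mem_zpowers_iff.mp hmem
  have hk' : z ^ k = n := by
    have := congrArg Subtype.val hk
    simpa using this
  have hρn : ρ n = 1 := by
    have h3 : z ∈ MonoidHom.ker ρ := MonoidHom.mem_ker.mpr hρz
    have h4 := (MonoidHom.ker ρ).zpow_mem h3 k
    rw [hk'] at h4
    exact MonoidHom.mem_ker.mp h4
  unfold Representation.character
  rw [hρn, ← map_one ρ]

/-- An irreducible character vanishing off the centre has `χ(1)² = |P : Z(P)|`. -/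
theorem degree_sq_of_vanish {χ : P → ℂ} (hχ : IsIrrCharacter P χ)
    (hv : ∀ x : P, x ∉ Subgroup.center P → χ x = 0) :
    χ 1 ^ 2 = ((Subgroup.center P).index : ℂ) := by
  classical
  haveI : Fintype (Subgroup.center P) := Fintype.ofFinite _
  have h1 := (vanish_off_iff (Subgroup.center P) (classInner_irr_self hχ)).mp hv
  have h0 : (fun n : Subgroup.center P => χ n) ≠ 0 := fun h =>
    irr_degree_ne_zero hχ (congrFun h 1)
  obtain ⟨θ, hθ⟩ := exists_constituent
    (isCharacter_restrict (Subgroup.center P) (isCharacter_of_isIrr hχ)) h0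
  have hinv : ∀ g : P, conjFun (Subgroup.center P) inferInstance (θ : Subgroup.center P → ℂ) g = θ := by
    intro g
    ext n
    rw [conjFun_apply]
    refine congrArg _ (Subtype.ext ?_)
    change g * n * g⁻¹ = n
    rw [(Subgroup.mem_center_iff.mp n.2 g), mul_assoc, mul_inv_cancel, mul_one]
  obtain ⟨e, -, -, -, hn, hd⟩ := over_invariant (Subgroup.center P) inferInstance hχ θ.2 hinv hθ
  have hθ1 : (θ : Subgroup.center P → ℂ) 1 = 1 :=
    degree_one_of_comm (fun a b => Subtype.ext (Subgroup.mem_center_iff.mp b.2 a)) θ.2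
  rw [hd, hθ1, mul_one, ← hn, h1]

end Cfsg.Agent.Lib.CharExtra
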