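import Mathlib
import Cfsg.Prelude.Def_Characters
import Cfsg.Agent.Lib.CharFS

/-!
# The Frobenius-Schur indicator: invariant forms
-/

set_option autoImplicit false

namespace Cfsg.Agent.Lib.CharFS2

open Cfsg Representation Module Cfsg.Agent.Lib.CharBasic Cfsg.Agent.Lib.CharOrtho
  Cfsg.Agent.Lib.CharComplete Cfsg.Agent.Lib.CharIntegral Cfsg.Agent.Lib.CharMore
  Cfsg.Agent.Lib.CharFS
open scoped ComplexConjugate

universe u

variable {G : Type u} [Group G] {n : ℕ} [Fintype G]

theorem fs_one' (A : G →* Matrix (Fin n) (Fin n) ℂ) (h : finrank ℂ (sqRep A).invariants = 1) :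
    ∃ (M0 : Matrix (Fin n) (Fin n) ℂ) (ε : ℂ), M0 ≠ 0 ∧
      (∀ g, A g * M0 * (A g).transpose = M0) ∧ M0.transpose = ε • M0 ∧
      (Nat.card G : ℂ)⁻¹ * ∑ g : G, (A (g * g)).trace = ε := by
  rw [← trace_avg_tr]
  obtain ⟨⟨M0, hM0⟩, hne, hspan⟩ := finrank_eq_one_iff'.mp h
  have hM0ne : M0 ≠ 0 := fun h0 => hne (Subtype.ext h0)
  have htr : tr M0 ∈ (sqRep A).invariants := by
    intro g
    rw [← tr_comm, hM0 g]
  obtain ⟨ε, hε⟩ := hspan ⟨tr M0, htr⟩
  have hε' : ε • M0 = tr M0 := congrArg Subtype.val hε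
  have hcomp : avg A ∘ₗ tr = ε • avg A := by
    ext1 M
    rw [LinearMap.comp_apply, ← tr_avg, LinearMap.smul_apply]
    obtain ⟨c, hc⟩ := hspan ⟨avg A M, avg_mem A M⟩
    have hc' : c • M0 = avg A M := congrArg Subtype.val hc
    rw [← hc', map_smul, ← hε', smul_comm]
  refine ⟨M0, ε, hM0ne, fun g => ?_, hε'.symm, ?_⟩
  · rw [← sqRep_apply]; exact hM0 g
  · rw [hcomp, map_smul, trace_avg, h, Nat.cast_one, smul_eq_mul, mul_one]

/-- A nonzero invariant bilinear form of an irreducible representation is nondegenerate. -/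
theorem det_ne_zero_of_invariant (ρ : Representation ℂ G (Fin n → ℂ)) (hρ : ρ.IsIrreducible)
    (M0 : Matrix (Fin n) (Fin n) ℂ) (h0 : M0 ≠ 0)
    (hinv : ∀ g, matHom ρ g * M0 * (matHom ρ g).transpose = M0) : M0.det ≠ 0 := by
  have hA : ∀ g, matHom ρ g * M0 = M0 * (matHom ρ g⁻¹).transpose := by
    intro g
    have h1 : (matHom ρ g).transpose * (matHom ρ g⁻¹).transpose = 1 := by
      rw [← Matrix.transpose_mul, ← map_mul, inv_mul_cancel, map_one, Matrix.transpose_one]
    calc matHom ρ g * M0 = matHom ρ g * M0 * ((matHom ρ g).transpose * (matHom ρ g⁻¹).transpose) := by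
          rw [h1, mul_one]
      _ = (matHom ρ g * M0 * (matHom ρ g).transpose) * (matHom ρ g⁻¹).transpose := by
          simp only [mul_assoc]
      _ = _ := by rw [hinv]
  have hρg : ∀ g v, ρ g v = (matHom ρ g).mulVec v := by
    intro g v
    change ρ g v = (LinearMap.toMatrix' (ρ g)).mulVec v
    rw [LinearMap.toMatrix'_mulVec]
  let W : Subrepresentation ρ :=
    { toSubmodule := LinearMap.range (Matrix.toLin' M0)
      apply_mem_toSubmodule := by
        rintro g _ ⟨v, rfl⟩
        refine ⟨(matHom ρ g⁻¹).transpose.mulVec v, ?_⟩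
        rw [Matrix.toLin'_apply, Matrix.toLin'_apply, hρg, Matrix.mulVec_mulVec,
          Matrix.mulVec_mulVec, hA] }
  rcases hρ.eq_bot_or_eq_top W with h1 | h1
  · exfalso
    apply h0
    have h2 : LinearMap.range (Matrix.toLin' M0) = ⊥ := congrArg Subrepresentation.toSubmodule h1
    rw [LinearMap.range_eq_bot] at h2
    exact (Matrix.toLin' (R := ℂ)).injective (h2.trans (map_zero _).symm)
  · have h2 : LinearMap.range (Matrix.toLin' M0) = ⊤ := congrArg Subrepresentation.toSubmodule h1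
    rw [LinearMap.range_eq_top] at h2
    have h3 : Function.Surjective M0.mulVec := h2
    have h4 := Matrix.mulVec_surjective_iff_isUnit.mp h3
    exact ((Matrix.isUnit_iff_isUnit_det M0).mp h4).ne_zero

/-- A real-valued irreducible character of odd degree has indicator `1`. -/
theorem fsInd_odd {χ : G → ℂ} (hχ : IsIrrCharacter G χ) (hreal : ∀ g, conj (χ g) = χ g)
    {d : ℕ} (hd : χ 1 = d) (hodd : Odd d) : fsInd χ = 1 := by
  classical
  rcases fsInd_real hχ hreal with h | h
  · exact h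
  exfalso
  obtain ⟨n, ρ, hρ, rfl⟩ := hχ
  have h1 := finrank_inv ρ hρ (matHom ρ) (matHom_trace ρ)
  rw [if_pos hreal] at h1
  obtain ⟨M0, ε, h0, hinv, htr, hfs⟩ := fs_one' (matHom ρ) h1
  simp only [matHom_trace] at hfs
  have hε : ε = -1 := by rw [← hfs]; exact h
  have hdet := det_ne_zero_of_invariant ρ hρ M0 h0 hinv
  have hn : n = d := by
    rw [char_one] at hd
    simpa using hd
  have h2 : M0.det = (-1 : ℂ) ^ n * M0.det := by
    conv_lhs => rw [← Matrix.det_transpose, htr, hε, Matrix.det_smul, Fintype.card_fin]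
  have hodd' : Odd n := hn ▸ hodd
  rw [hodd'.neg_one_pow] at h2
  apply hdet
  linear_combination h2 / 2

end Cfsg.Agent.Lib.CharFS2
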