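import Mathlib
import Cfsg.Prelude.Def_Characters
import Cfsg.Agent.Lib.CharClifford

/-!
# Characters of Frobenius groups (kernel `K`, complement `H`)
-/

set_option autoImplicit false

namespace Cfsg.Agent.Lib.CharFrob

open Cfsg Representation Module Cfsg.Agent.Lib.CharBasic Cfsg.Agent.Lib.CharOrtho
  Cfsg.Agent.Lib.CharComplete Cfsg.Agent.Lib.CharIntegral Cfsg.Agent.Lib.CharMore
  Cfsg.Agent.Lib.CharInd Cfsg.Agent.Lib.CharPerm Cfsg.Agent.Lib.CharClifford
open scoped ComplexConjugate

universe u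

variable {G : Type u} [Group G]

/-- In a Frobenius group every element of the coset `K h` is `K`-conjugate to `h`. -/
theorem exists_conj_eq_mul [Finite G] (K H : Subgroup G) [hK : K.Normal]
    (hfpf : ∀ h ∈ H, h ≠ 1 → ∀ k ∈ K, h * k = k * h → k = 1)
    {h : G} (hh : h ∈ H) (h1 : h ≠ 1) {c : G} (hc : c ∈ K) :
    ∃ y ∈ K, y⁻¹ * h * y = c * h := by
  classical
  let f : K → K := fun y => ⟨(y : G)⁻¹ * (h * y * h⁻¹), K.mul_mem (K.inv_mem y.2) (hK.conj_mem y y.2 h)⟩
  have hinj : Function.Injective f := by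
    intro y z hyz
    have e : (y : G)⁻¹ * (h * y * h⁻¹) = (z : G)⁻¹ * (h * z * h⁻¹) := congrArg Subtype.val hyz
    have e2 : h * ((y : G) * (z : G)⁻¹) = ((y : G) * (z : G)⁻¹) * h := by
      have e3 : (y : G)⁻¹ * h * y = (z : G)⁻¹ * h * z := by
        have := congrArg (· * h) e
        simpa [mul_assoc] using this
      have e4 : h * y = y * ((z : G)⁻¹ * h * z) := by
        rw [← e3]; group
      calc h * ((y : G) * (z : G)⁻¹) = (h * y) * (z : G)⁻¹ := by group
        _ = (y * ((z : G)⁻¹ * h * z)) * (z : G)⁻¹ := by rw [e4]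
        _ = _ := by group
    have := hfpf h hh h1 _ (K.mul_mem y.2 (K.inv_mem z.2)) e2
    apply Subtype.ext
    exact mul_inv_eq_one.mp this
  have hsurj : Function.Surjective f := Finite.surjective_of_injective hinj
  obtain ⟨y, hy⟩ := hsurj ⟨c, hc⟩
  refine ⟨y, y.2, ?_⟩
  have e : (y : G)⁻¹ * (h * y * h⁻¹) = c := congrArg Subtype.val hy
  rw [← e]; group

/-- An element outside the kernel of a Frobenius group centralizes no nontrivial element of
the kernel. -/
theorem eq_one_of_commute [Finite G] (K H : Subgroup G) [hK : K.Normal] (hKH' : K ⊔ H = ⊤)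
    (hfpf : ∀ h ∈ H, h ≠ 1 → ∀ k ∈ K, h * k = k * h → k = 1)
    {x : G} (hx : x ∉ K) {k : G} (hk : k ∈ K) (hc : x * k = k * x) : k = 1 := by
  have hx' : x ∈ K ⊔ H := by rw [hKH']; exact Subgroup.mem_top x
  rw [← SetLike.mem_coe, Subgroup.normal_mul] at hx'
  obtain ⟨c, hc', h, hh, rfl⟩ := Set.mem_mul.mp hx'
  have h1 : h ≠ 1 := by
    rintro rfl
    exact hx (by simpa using hc')
  obtain ⟨y, hy, e⟩ := exists_conj_eq_mul K H hfpf hh h1 hc'
  rw [← e] at hc
  have e2 : h * (y * k * y⁻¹) = (y * k * y⁻¹) * h := by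
    calc h * (y * k * y⁻¹) = y * ((y⁻¹ * h * y) * k) * y⁻¹ := by group
      _ = y * (k * (y⁻¹ * h * y)) * y⁻¹ := by rw [hc]
      _ = _ := by group
  have := hfpf h hh h1 _ (hK.conj_mem k hk y) e2
  have e3 : y * k * y⁻¹ = y * 1 * y⁻¹ := by rw [this]; group
  exact mul_left_cancel (mul_right_cancel e3)

/-- An irreducible character of the Frobenius kernel fixed by an element outside the kernel is
trivial. -/
theorem eq_one_of_conjFun_eq [Fintype G] (K H : Subgroup G) [hK : K.Normal] (hKH' : K ⊔ H = ⊤)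
    (hfpf : ∀ h ∈ H, h ≠ 1 → ∀ k ∈ K, h * k = k * h → k = 1)
    {x : G} (hx : x ∉ K) {τ : K → ℂ} (hτ : IsIrrCharacter K τ)
    (hfix : conjFun K hK τ x = τ) : τ = 1 := by
  classical
  haveI : Fintype K := Fintype.ofFinite K
  let α : K ≃* K := MulAut.conjNormal x
  have h1 := card_fixed_irr_eq_card_fixed_classes (G := K) α (fun χ => isIrr_comp_mulEquiv α χ.2)
    (fun g y => isConj_iff.mpr ⟨(α y)⁻¹, by simp [mul_assoc]⟩)
  have h2 : Subsingleton {c : ConjClasses K // IsConj (α (rep c)) (rep c)} := by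
    have key : ∀ c : ConjClasses K, IsConj (α (rep c)) (rep c) → c = ConjClasses.mk 1 := by
      intro c hc
      obtain ⟨d, hd⟩ := isConj_iff.mp hc
      have hd' : (d : G) * (x * (rep c : K) * x⁻¹) * (d : G)⁻¹ = (rep c : K) := by
        have := congrArg Subtype.val hd
        simpa [α] using this
      have hdx : (d : G) * x ∉ K := by
        intro hmem
        apply hx
        have := K.mul_mem (K.inv_mem d.2) hmem
        simpa using this
      have hcomm : ((d : G) * x) * (rep c : K) = (rep c : K) * ((d : G) * x) := by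
        conv_rhs => rw [← hd']
        group
      have := eq_one_of_commute K H hKH' hfpf hdx (rep c).2 hcomm
      have h3 : rep c = 1 := Subtype.ext this
      rw [← mk_rep c, h3]
    constructor
    rintro ⟨a, ha⟩ ⟨b, hb⟩
    apply Subtype.ext
    change a = b
    rw [key a ha, key b hb]
  have h3 : Nat.card {χ : IrrCharacter K // (χ : K → ℂ) ∘ α = (χ : K → ℂ)} ≤ 1 := by
    rw [h1]
    exact Finite.card_le_one_iff_subsingleton.mpr h2
  haveI : Finite (IrrCharacter K) := finite_irrCharacter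
  have h4 := Finite.card_le_one_iff_subsingleton.mp h3
  have e1 : (τ ∘ α) = τ := by
    rw [← conjFun_eq_comp]; exact hfix
  have e2 : ((1 : K → ℂ) ∘ α) = 1 := by
    ext; simp
  have := h4.elim ⟨⟨τ, hτ⟩, e1⟩ ⟨⟨1, isIrr_one⟩, e2⟩
  exact congrArg (fun z => (z.1 : K → ℂ)) this

/-- Nonprincipal irreducible characters of the Frobenius kernel induce irreducibly. -/
theorem isIrr_indFun [Fintype G] (K H : Subgroup G) [hK : K.Normal] (hKH' : K ⊔ H = ⊤)
    (hfpf : ∀ h ∈ H, h ≠ 1 → ∀ k ∈ K, h * k = k * h → k = 1)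
    {τ : K → ℂ} (hτ : IsIrrCharacter K τ) (hτ1 : τ ≠ 1) : IsIrrCharacter G (indFun K τ) := by
  classical
  apply isIrr_of_norm_one (isCharacter_indFun K τ (isCharacter_of_isIrr hτ))
  have e := card_mul_classInner_ind' K hK hτ hτ
  have hNc : (Nat.card K : ℂ) ≠ 0 := by exact_mod_cast Nat.card_pos.ne'
  have hcard : Nat.card {x : G // conjFun K hK τ x = τ} = Nat.card K := by
    apply Nat.card_congr
    refine Equiv.subtypeEquivRight fun x => ?_
    constructor
    · intro hx
      by_contra hxK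
      exact hτ1 (eq_one_of_conjFun_eq K H hKH' hfpf hxK hτ hx)
    · intro hx
      ext n
      exact isClassFunction_of_isCharacter (isCharacter_of_isIrr hτ) n ⟨x, hx⟩
  rw [hcard] at e
  exact mul_left_cancel₀ hNc (e.trans (mul_one _).symm)

end Cfsg.Agent.Lib.CharFrob
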