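import Mathlib
import Cfsg.Prelude.Def_Characters
import Cfsg.Agent.Lib.CharAbQuot
import Cfsg.Agent.Lib.CharClifford2

/-!
# The going-down theorem (Isaacs 6.18)
-/

set_option autoImplicit false

namespace Cfsg.Agent.Lib.CharGoDown

open Cfsg Representation Module Cfsg.Agent.Lib.CharBasic Cfsg.Agent.Lib.CharOrtho
  Cfsg.Agent.Lib.CharComplete Cfsg.Agent.Lib.CharIntegral Cfsg.Agent.Lib.CharMore
  Cfsg.Agent.Lib.CharInd Cfsg.Agent.Lib.CharClifford Cfsg.Agent.Lib.CharCorr
  Cfsg.Agent.Lib.CharIto Cfsg.Agent.Lib.CharKer Cfsg.Agent.Lib.CharGallagher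
  Cfsg.Agent.Lib.CharQuot Cfsg.Agent.Lib.CharRam Cfsg.Agent.Lib.CharCover2
  Cfsg.Agent.Lib.CharLinear Cfsg.Agent.Lib.CharAbQuot Cfsg.Agent.Lib.CharClifford2
  Cfsg.Agent.Lib.CharIndTrans
open scoped ComplexConjugate

universe u v

section general

variable {G : Type u} [Group G] [Fintype G] (N : Subgroup G) [Fintype N] (hN : N.Normal)

include hN in
/-- If no nontrivial linear character of `G/N` fixes `χ`, then `χ_N` is irreducible. -/
theorem norm_restrict_eq_one (hab : ∀ x y : G, x * y * x⁻¹ * y⁻¹ ∈ N) {χ : G → ℂ}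
    (hχ : IsIrrCharacter G χ)
    (hgen : ∀ b : G →* ℂˣ, (∀ n ∈ N, b n = 1) → (∀ g, χ g ≠ 0 → b g = 1) → b = 1) :
    classInner (fun n : N => χ n) (fun n : N => χ n) = 1 := by
  classical
  have hclχ := isClassFunction_of_isCharacter (isCharacter_of_isIrr hχ)
  have h1 : indFun N (fun n : N => χ n) = indFun N (1 : N → ℂ) * χ := by
    have := indFun_mul_restrict N (1 : N → ℂ) χ hclχ
    simpa using this
  rw [← frobenius_reciprocity N _ _ hclχ, h1,
    char_expansion (isCharacter_indFun N (1 : N → ℂ) isCharacter_one), Finset.sum_mul,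
    classInner_sum_left, Finset.sum_eq_single (⟨1, isIrr_one⟩ : IrrCharacter G)]
  · rw [smul_mul_assoc, classInner_smul_left]
    change classInner (indFun N (1 : N → ℂ)) (1 : G → ℂ) * classInner ((1 : G → ℂ) * χ) χ = 1
    rw [one_mul, classInner_irr_self hχ, mul_one, frobenius_reciprocity N _ _
      (isClassFunction_of_isCharacter isCharacter_one)]
    exact classInner_irr_self (isIrr_one (G := N))
  · intro β _ hβ1
    rw [smul_mul_assoc, classInner_smul_left]
    by_cases hm : classInner (indFun N (1 : N → ℂ)) (β : G → ℂ) = 0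
    · rw [hm, zero_mul]
    have hker := (classInner_ind_one_ne_zero_iff N hN β.2).mp hm
    have hlin := linear_of_ker N hN hab β.2 hker
    set b := homOfLinear (isCharacter_of_isIrr β.2) hlin with hb
    have hirr : IsIrrCharacter G ((β : G → ℂ) * χ) := isIrr_hom_mul b hχ
    rw [classInner_irr_ne hirr hχ, mul_zero]
    intro heq
    apply hβ1
    have hb1 : b = 1 := by
      apply hgen b
      · intro n hn
        apply Units.ext
        rw [hb, homOfLinear_apply, hker n hn, hlin]; rfl
      · intro g hg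
        apply Units.ext
        rw [hb, homOfLinear_apply]
        have := congrFun heq g
        rw [Pi.mul_apply] at this
        exact mul_right_cancel₀ hg (this.trans (one_mul _).symm)
    apply Subtype.ext
    ext g
    have := congrArg (fun f : G →* ℂˣ => ((f g : ℂˣ) : ℂ)) hb1
    simpa [hb, homOfLinear_apply] using this
  · intro h; exact absurd (Finset.mem_univ _) h

end general

section main

variable {G : Type u} [Group G] [Fintype G]

theorem going_down (K L : Subgroup G) (hK : K.Normal) (hL : L.Normal) (hLK : L ≤ K)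
    (hchief : ∀ M : Subgroup G, M.Normal → L ≤ M → M ≤ K → M = L ∨ M = K) (hab : ⁅K, K⁆ ≤ L)
    (ϑ : K → ℂ) (hϑ : IsIrrCharacter K ϑ)
    (hinv : ∀ (g : G) (n : K), ϑ ⟨g * n * g⁻¹, hK.conj_mem (n : G) n.2 g⟩ = ϑ n) :
    IsIrrCharacter L (fun x : L => ϑ ⟨(x : G), hLK x.2⟩) ∨
    (∃ (φ : L → ℂ) (e : ℕ), IsIrrCharacter L φ ∧
      (fun x : L => ϑ ⟨(x : G), hLK x.2⟩) = (e : ℂ) • φ ∧ e ^ 2 = L.relIndex K) ∨
    (∃ F : Finset (L → ℂ), (∀ φ ∈ F, IsIrrCharacter L φ) ∧ F.card = L.relIndex K ∧
      (fun x : L => ϑ ⟨(x : G), hLK x.2⟩) = ∑ φ ∈ F, φ) := by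
  classical
  haveI : Fintype K := Fintype.ofFinite K
  haveI : Fintype L := Fintype.ofFinite L
  haveI : Fintype (L.subgroupOf K) := Fintype.ofFinite _
  haveI := hK
  haveI := hL
  set ϑL : L → ℂ := fun x => ϑ ⟨x, hLK x.2⟩ with hϑL
  have hL' : (L.subgroupOf K).Normal := hL.subgroupOf K
  have hsub : (fun x : L.subgroupOf K => ϑ x) = sub L K ϑL := rfl
  have hclϑ := isClassFunction_of_isCharacter (isCharacter_of_isIrr hϑ)
  have hab' : ∀ x y : K, x * y * x⁻¹ * y⁻¹ ∈ L.subgroupOf K := by
    intro x y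
    rw [Subgroup.mem_subgroupOf]
    exact hab (Subgroup.commutator_mem_commutator x.2 y.2)
  have hinner : ∀ a b : L → ℂ, classInner (sub L K a) (sub L K b) = classInner a b := by
    intro a b
    rw [sub_eq_comp L K hLK, sub_eq_comp L K hLK]
    exact classInner_comp_equiv _ a b
  have hϑLchar : IsCharacter L ϑL :=
    isCharacter_comp (Subgroup.inclusion hLK) (isCharacter_of_isIrr hϑ)
  set S : Set G := {g | ∃ h : g ∈ K, ϑ ⟨g, h⟩ ≠ 0} with hS
  have hMn : (Subgroup.normalClosure S ⊔ L).Normal := inferInstance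
  have hMK : Subgroup.normalClosure S ⊔ L ≤ K :=
    sup_le (Subgroup.normalClosure_le_normal (fun g hg => hg.1)) hLK
  rcases hchief _ hMn le_sup_right hMK with hM | hM
  swap
  · left
    apply isIrr_of_norm_one hϑLchar
    rw [← hinner, ← hsub]
    apply norm_restrict_eq_one (L.subgroupOf K) hL' hab' hϑ
    intro b hbL hbS
    have hle : Subgroup.normalClosure S ⊔ L ≤ (b.ker).map K.subtype := by
      refine sup_le ?_ ?_
      · change Subgroup.closure (Group.conjugatesOfSet S) ≤ _
        rw [Subgroup.closure_le]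
        intro x hx
        obtain ⟨a, ⟨haK, ha0⟩, hax⟩ := Group.mem_conjugatesOfSet_iff.mp hx
        obtain ⟨c, rfl⟩ := isConj_iff.mp hax
        refine ⟨⟨c * a * c⁻¹, hK.conj_mem a haK c⟩, ?_, rfl⟩
        rw [SetLike.mem_coe, MonoidHom.mem_ker]
        apply hbS
        rw [hinv c ⟨a, haK⟩]
        exact ha0
      · intro x hx
        exact ⟨⟨x, hLK hx⟩, MonoidHom.mem_ker.mpr (hbL _ (Subgroup.mem_subgroupOf.mpr hx)), rfl⟩
    ext k
    have hk : (k : G) ∈ Subgroup.normalClosure S ⊔ L := by rw [hM]; exact k.2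
    obtain ⟨k', hk', heq⟩ := hle hk
    have : k' = k := Subtype.ext heq
    rw [← this, MonoidHom.mem_ker.mp hk']
    rfl
  right
  have hvan : ∀ k : K, k ∉ L.subgroupOf K → ϑ k = 0 := by
    intro k hk
    by_contra h0
    apply hk
    rw [Subgroup.mem_subgroupOf, ← hM]
    exact (le_sup_left : Subgroup.normalClosure S ≤ _) (Subgroup.subset_normalClosure ⟨k.2, h0⟩)
  have hnorm : classInner (fun x : L.subgroupOf K => ϑ x) (fun x : L.subgroupOf K => ϑ x) =
      ((L.subgroupOf K).index : ℂ) :=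
    (vanish_off_iff (L.subgroupOf K) (classInner_irr_self hϑ)).mp hvan
  have hϑL0 : ϑL ≠ 0 := by
    intro h
    exact irr_degree_ne_zero hϑ (congrFun h 1)
  obtain ⟨φ, hφ⟩ := exists_constituent hϑLchar hϑL0
  have hcf : IsClassFunction G (extendByZero K ϑ) := by
    intro x y
    by_cases hx : x ∈ K
    · rw [extendByZero_mem K _ hx, extendByZero_mem K _ (hK.conj_mem x hx y)]
      exact hinv y ⟨x, hx⟩
    · rw [extendByZero_not_mem K _ hx, extendByZero_not_mem K _]
      intro h
      apply hx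
      have := hK.conj_mem _ h y⁻¹
      simpa [mul_assoc] using this
  have hres : (fun n : L => extendByZero K ϑ n) = ϑL := by
    ext n
    exact extendByZero_mem K ϑ (hLK n.2)
  have hconst : ∀ g : G, classInner ϑL (conjFun L hL φ g) ≠ 0 := by
    intro g
    rw [← hres, classInner_restrict_conjFun L hL _ hcf, hres]
    exact hφ
  have hsubconj : ∀ (a : L → ℂ) (k : K),
      conjFun (L.subgroupOf K) hL' (sub L K a) k = sub L K (conjFun L hL a k) := fun a k => rfl
  have hsubinj : ∀ a b : L → ℂ, sub L K a = sub L K b → a = b := by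
    intro a b h
    ext x
    exact congrFun h ⟨⟨x, hLK x.2⟩, Subgroup.mem_subgroupOf.mpr x.2⟩
  have hφ' := isIrr_sub L K hLK φ.2
  have hφc : classInner (fun x : L.subgroupOf K => ϑ x) (sub L K φ) ≠ 0 := by
    rw [hsub, hinner]; exact hφ
  have hkconj : ∀ g : G, ∃ k : K, conjFun L hL φ g = conjFun L hL φ k := by
    intro g
    obtain ⟨k, hk⟩ := clifford_conj (L.subgroupOf K) hL' hϑ hφ'
      (isIrr_sub L K hLK (isIrr_conjFun L hL φ.2 g)) hφc (by rw [hsub, hinner]; exact hconst g)
    exact ⟨k, hsubinj _ _ hk⟩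
  have hLfix : ∀ c ∈ L, conjFun L hL φ c = φ := by
    intro c hc
    ext n
    exact isClassFunction_of_isCharacter (isCharacter_of_isIrr φ.2) n ⟨c, hc⟩
  let T : Subgroup G :=
    { carrier := {g | g ∈ K ∧ conjFun L hL φ g = φ}
      mul_mem' := by
        intro a b ha hb
        exact ⟨K.mul_mem ha.1 hb.1, by rw [← conjFun_mul, ha.2, hb.2]⟩
      one_mem' := ⟨K.one_mem, conjFun_one L hL _⟩
      inv_mem' := by
        intro a ha
        refine ⟨K.inv_mem ha.1, ?_⟩
        conv_lhs => rw [← ha.2]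
        rw [conjFun_mul, mul_inv_cancel, conjFun_one] }
  have hTmem : ∀ g : G, g ∈ T ↔ g ∈ K ∧ conjFun L hL φ g = φ := fun g => Iff.rfl
  have hTn : T.Normal := by
    refine ⟨fun t ht g => ?_⟩
    rw [hTmem] at ht ⊢
    refine ⟨hK.conj_mem t ht.1 g, ?_⟩
    obtain ⟨k, hk⟩ := hkconj g
    have h1 : conjFun L hL (conjFun L hL φ k) t = conjFun L hL φ k := by
      rw [conjFun_mul]
      have h2 : (k : G) * t = ((k : G) * t * (k : G)⁻¹ * t⁻¹) * (t * k) := by group
      have hc : (k : G) * t * (k : G)⁻¹ * t⁻¹ ∈ L :=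
        hab (Subgroup.commutator_mem_commutator k.2 ht.1)
      rw [h2, ← conjFun_mul, hLfix _ hc, ← conjFun_mul, ht.2]
    rw [← conjFun_mul, ← conjFun_mul, hk, h1, ← hk, conjFun_mul, mul_inv_cancel, conjFun_one]
  have hLT : L ≤ T := fun c hc => ⟨hLK hc, hLfix c hc⟩
  have hTK : T ≤ K := fun c hc => hc.1
  rcases hchief T hTn hLT hTK with hT | hT
  · right
    have hin : ∀ x : K, conjFun (L.subgroupOf K) hL' (sub L K φ) x = sub L K φ →
        x ∈ L.subgroupOf K := by
      intro x hx
      rw [Subgroup.mem_subgroupOf, ← hT]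
      exact ⟨x.2, hsubinj _ _ hx⟩
    have hirr := isIrr_indFun_of_inertia (L.subgroupOf K) hL' hφ' hin
    have heq : indFun (L.subgroupOf K) (sub L K φ) = ϑ := by
      by_contra hne
      have h0 := classInner_irr_ne hirr hϑ hne
      rw [frobenius_reciprocity (L.subgroupOf K) _ _ hclϑ, ← classInner_conj_symm] at h0
      exact hφc ((map_eq_zero _).mp h0)
    have hcard : Nat.card {x : K // conjFun (L.subgroupOf K) hL' (sub L K φ) x = sub L K φ} =
        Nat.card (L.subgroupOf K) := by
      apply Nat.card_congr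
      refine Equiv.subtypeEquivRight fun x => ⟨hin x, fun hx => ?_⟩
      ext n
      exact isClassFunction_of_isCharacter (isCharacter_of_isIrr hφ') n ⟨x, hx⟩
    have hNc : (Nat.card (L.subgroupOf K) : ℂ) ≠ 0 := by exact_mod_cast Nat.card_pos.ne'
    have hsum : (fun x : L.subgroupOf K => ϑ x) =
        ∑ ψ ∈ Finset.univ.image (fun x : K => conjFun (L.subgroupOf K) hL' (sub L K φ) x), ψ := by
      conv_lhs => rw [← heq]
      rw [indFun_restrict' (L.subgroupOf K) hL', sum_conjFun, hcard, smul_smul,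
        inv_mul_cancel₀ hNc, one_smul]
      congr!
    set F : Finset (L → ℂ) := Finset.univ.image (fun k : K => conjFun L hL φ k) with hF
    have himg : Finset.univ.image (fun x : K => conjFun (L.subgroupOf K) hL' (sub L K φ) x) =
        F.image (sub L K) := by
      rw [hF, Finset.image_image]
      rfl
    have hsumL : ϑL = ∑ a ∈ F, a := by
      apply hsubinj
      rw [← hsub, hsum, himg, Finset.sum_image (fun a _ b _ h => hsubinj a b h)]
      ext x
      simp only [Finset.sum_apply, sub]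
    refine ⟨F, ?_, ?_, hsumL⟩
    · intro a ha
      obtain ⟨k, -, rfl⟩ := Finset.mem_image.mp ha
      exact isIrr_conjFun L hL φ.2 k
    · have h1 := congrFun hsumL 1
      rw [Finset.sum_apply] at h1
      have h2 : ∀ a ∈ F, a 1 = (φ : L → ℂ) 1 := by
        intro a ha
        obtain ⟨k, -, rfl⟩ := Finset.mem_image.mp ha
        rw [conjFun_apply]
        exact congrArg _ (Subtype.ext (by simp))
      rw [Finset.sum_congr rfl h2, Finset.sum_const, nsmul_eq_mul] at h1
      have h3 : ϑL 1 = ((L.subgroupOf K).index : ℂ) * (φ : L → ℂ) 1 := by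
        have := congrFun heq 1
        rw [indFun_one] at this
        exact this.symm
      have h4 : (F.card : ℂ) = ((L.subgroupOf K).index : ℂ) :=
        mul_right_cancel₀ (irr_degree_ne_zero φ.2) (h1.symm.trans h3)
      exact_mod_cast h4
  · left
    have hinvK : ∀ k : K, conjFun (L.subgroupOf K) hL' (sub L K φ) k = sub L K φ := by
      intro k
      rw [hsubconj]
      have hk : (k : G) ∈ T := by rw [hT]; exact k.2
      rw [hk.2]
    obtain ⟨e, he0, hres', -, hn, -⟩ := over_invariant (L.subgroupOf K) hL' hϑ hφ' hinvK hφc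
    refine ⟨φ, e, φ.2, hsubinj _ _ hres', ?_⟩
    rw [hnorm] at hn
    have : ((L.subgroupOf K).index : ℂ) = ((e ^ 2 : ℕ) : ℂ) := by rw [hn]; push_cast; rfl
    exact (Nat.cast_injective this).symm

end main

end Cfsg.Agent.Lib.CharGoDown
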