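import Mathlib
import Cfsg.Prelude.Def_Characters
import Cfsg.Agent.Lib.CharInd

/-!
# Permutation characters
-/

set_option autoImplicit false

namespace Cfsg.Agent.Lib.CharPermChar

open Cfsg Representation Module Cfsg.Agent.Lib.CharBasic Cfsg.Agent.Lib.CharOrtho
  Cfsg.Agent.Lib.CharComplete Cfsg.Agent.Lib.CharIntegral Cfsg.Agent.Lib.CharMore
  Cfsg.Agent.Lib.CharInd
open scoped ComplexConjugate

universe u v

variable {G : Type u} [Group G] (X : Type v) [MulAction G X]

/-- The permutation character. -/
noncomputable def permChar : G → ℂ := fun g => (Nat.card (MulAction.fixedBy X g) : ℂ)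

theorem permChar_apply (g : G) : permChar X g = (Nat.card (MulAction.fixedBy X g) : ℂ) := rfl

/-- The permutation representation on functions. -/
noncomputable def permRep : Representation ℂ G (X → ℂ) where
  toFun g := LinearMap.funLeft ℂ ℂ (fun x => g⁻¹ • x)
  map_one' := by
    ext f x
    simp [LinearMap.funLeft]
  map_mul' := by
    intro a b
    ext f x
    simp [LinearMap.funLeft, mul_smul]

/-- The character of the permutation representation counts fixed points. -/
theorem permRep_character [Finite X] :
    (permRep (G := G) X).character = permChar (G := G) X := by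
  classical
  haveI := Fintype.ofFinite X
  ext g
  rw [Representation.character,
    LinearMap.trace_eq_matrix_trace ℂ (Pi.basisFun ℂ X), Matrix.trace]
  simp only [Matrix.diag_apply, LinearMap.toMatrix_apply, Pi.basisFun_apply, Pi.basisFun_repr]
  have : ∀ x : X, (permRep (G := G) X) g (Pi.single x 1) x = if g • x = x then 1 else 0 := by
    intro x
    change (Pi.single x (1 : ℂ) : X → ℂ) (g⁻¹ • x) = _
    rw [Pi.single_apply]
    congr 1
    rw [inv_smul_eq_iff]
    exact propext eq_comm
  simp only [this]
  rw [Finset.sum_boole, permChar_apply, Nat.card_eq_fintype_card]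
  congr 1
  rw [Fintype.card_subtype]
  rfl

theorem isCharacter_permChar [Finite X] : IsCharacter G (permChar (G := G) X) := by
  rw [← permRep_character]
  exact isCharacter_of_rep _

theorem conj_permChar (g : G) : conj (permChar X g) = permChar X g := by
  rw [permChar_apply, Complex.conj_natCast]

/-- Burnside's lemma. -/
theorem sum_permChar [Fintype G] [Finite X] :
    ∑ g : G, permChar X g = (Nat.card (MulAction.orbitRel.Quotient G X) : ℂ) * (Nat.card G : ℂ) := by
  classical
  haveI := Fintype.ofFinite X
  have h := MulAction.sum_card_fixedBy_eq_card_orbits_mul_card_group G X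
  simp only [permChar_apply, Nat.card_eq_fintype_card]
  exact_mod_cast h

theorem classInner_permChar_one [Fintype G] [Finite X] :
    classInner (permChar (G := G) X) 1 = (Nat.card (MulAction.orbitRel.Quotient G X) : ℂ) := by
  have hG : (Nat.card G : ℂ) ≠ 0 := by exact_mod_cast Nat.card_pos.ne'
  unfold classInner
  simp only [Pi.one_apply, map_one, mul_one]
  rw [sum_permChar]
  field_simp

theorem card_orbits_of_pretransitive [MulAction.IsPretransitive G X] [Nonempty X] :
    Nat.card (MulAction.orbitRel.Quotient G X) = 1 := by
  haveI := (MulAction.pretransitive_iff_subsingleton_quotient G X).mp inferInstance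
  haveI : Nonempty (MulAction.orbitRel.Quotient G X) := ⟨Quotient.mk'' (Classical.arbitrary X)⟩
  exact Nat.card_eq_one_iff_unique.mpr ⟨inferInstance, inferInstance⟩

/-- The number of group elements carrying `x` to `z`, in a transitive action. -/
theorem card_fiber [Fintype G] [MulAction.IsPretransitive G X] [DecidableEq X] (x z : X) :
    (Finset.univ.filter fun y : G => y • x = z).card = Nat.card (MulAction.stabilizer G x) := by
  classical
  obtain ⟨y0, hy0⟩ := MulAction.exists_smul_eq G x z
  rw [Nat.card_eq_fintype_card, ← Fintype.card_subtype]
  refine Fintype.card_congr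
    { toFun := fun y => ⟨y0⁻¹ * y.1, by
        rw [MulAction.mem_stabilizer_iff, mul_smul, y.2, ← hy0, inv_smul_smul]⟩
      invFun := fun h => ⟨y0 * h.1, by
        rw [mul_smul, MulAction.mem_stabilizer_iff.mp h.2, hy0]⟩
      left_inv := fun y => by simp
      right_inv := fun h => by simp }

/-- The permutation character of a transitive action is induced from the trivial character of a
point stabilizer. -/
theorem permChar_eq_indFun [Fintype G] [Finite X] [MulAction.IsPretransitive G X] (x : X) :
    permChar (G := G) X = indFun (MulAction.stabilizer G x) (fun _ => 1) := by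
  classical
  haveI := Fintype.ofFinite X
  ext g
  have hH : (Nat.card (MulAction.stabilizer G x) : ℂ) ≠ 0 := by exact_mod_cast Nat.card_pos.ne'
  unfold indFun
  have h1 : ∀ y : G, extendByZero (MulAction.stabilizer G x) (fun _ => (1 : ℂ)) (y⁻¹ * g * y) =
      if g • (y • x) = y • x then 1 else 0 := by
    intro y
    by_cases h : g • (y • x) = y • x
    · rw [if_pos h, extendByZero_mem]
      rw [MulAction.mem_stabilizer_iff, mul_smul, mul_smul, h, inv_smul_smul]
    · rw [if_neg h, extendByZero_not_mem]
      intro h'
      apply h
      rw [MulAction.mem_stabilizer_iff, mul_smul, mul_smul, inv_smul_eq_iff] at h'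
      exact h'
  simp only [h1]
  rw [Finset.sum_boole]
  have h2 : (Finset.univ.filter fun y : G => g • (y • x) = y • x).card =
      ∑ z ∈ Finset.univ.filter (fun z : X => g • z = z),
        (Finset.univ.filter fun y : G => y • x = z).card := by
    rw [Finset.card_eq_sum_card_fiberwise (f := fun y : G => y • x)
      (t := Finset.univ.filter (fun z : X => g • z = z))]
    · refine Finset.sum_congr rfl fun z hz => ?_
      congr 1
      ext y
      simp only [Finset.mem_filter, Finset.mem_univ, true_and]
      constructor
      · exact fun h => h.2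
      · intro h
        refine ⟨?_, h⟩
        rw [h]; exact (Finset.mem_filter.mp hz).2
    · intro y hy
      simp only [Finset.coe_filter, Finset.mem_univ, true_and, Set.mem_setOf_eq] at hy ⊢
      exact hy
  rw [h2]
  rw [Finset.sum_congr rfl (fun z _ => card_fiber X x z), Finset.sum_const, smul_eq_mul]
  rw [permChar_apply, Nat.card_eq_fintype_card (α := MulAction.fixedBy X g), Fintype.card_subtype]
  push_cast
  have h3 : (Finset.univ.filter fun z : X => z ∈ MulAction.fixedBy X g) =
      Finset.univ.filter (fun z : X => g • z = z) := by
    ext z; simp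
  rw [h3]
  field_simp

/-- Fixed points on injective pairs. -/
theorem permChar_emb_two [Finite X] (g : G) :
    permChar (G := G) (Fin 2 ↪ X) g = permChar X g * (permChar X g - 1) := by
  classical
  haveI := Fintype.ofFinite X
  have e : MulAction.fixedBy (Fin 2 ↪ X) g ≃ (Fin 2 ↪ MulAction.fixedBy X g) :=
    { toFun := fun f => ⟨fun i => ⟨f.1 i, by
          have := f.2
          rw [MulAction.mem_fixedBy] at this ⊢
          exact DFunLike.congr_fun this i⟩, fun i j h => f.1.injective (congrArg Subtype.val h)⟩
      invFun := fun f => ⟨⟨fun i => (f i).1, fun i j h => f.injective (Subtype.ext h)⟩, by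
          rw [MulAction.mem_fixedBy]
          ext i
          exact (f i).2⟩
      left_inv := fun f => rfl
      right_inv := fun f => rfl }
  rw [permChar_apply, permChar_apply, Nat.card_congr e, Nat.card_eq_fintype_card,
    Fintype.card_embedding_eq, Fintype.card_fin, Nat.card_eq_fintype_card]
  set n := Fintype.card (MulAction.fixedBy X g)
  rw [Nat.descFactorial_succ, Nat.descFactorial_one]
  rcases Nat.eq_zero_or_pos n with h0 | hpos
  · simp [h0]
  · push_cast [Nat.cast_sub hpos]
    ring

/-- `π - 1` is a character for a transitive action. -/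
theorem isCharacter_permChar_sub_one [Fintype G] [Finite X] [MulAction.IsPretransitive G X]
    [Nonempty X] : IsCharacter G (fun g => permChar X g - 1) := by
  classical
  have hπ := isCharacter_permChar (G := G) X
  have h1 : classInner (permChar (G := G) X) 1 = 1 := by
    rw [classInner_permChar_one, card_orbits_of_pretransitive, Nat.cast_one]
  apply isCharacter_of_classInner_nat
  · intro g h
    simp only
    rw [isClassFunction_of_isCharacter hπ g h]
  · intro ψ
    have e : (fun g => permChar X g - 1) = permChar (G := G) X - 1 := rfl
    rw [e, classInner_sub_left]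
    obtain ⟨m, hm⟩ := classInner_char_nat hπ (isCharacter_of_isIrr ψ.2)
    by_cases hψ : (ψ : G → ℂ) = 1
    · refine ⟨0, ?_⟩
      rw [hψ, h1, classInner_irr_self isIrr_one]
      simp
    · refine ⟨m, ?_⟩
      rw [hm, classInner_irr isIrr_one ψ.2, if_neg (fun h => hψ h.symm), sub_zero]

/-- The norm of `π - 1` is the number of orbits on injective pairs. -/
theorem norm_permChar_sub_one [Fintype G] [Finite X] [MulAction.IsPretransitive G X]
    [Nonempty X] :
    classInner (fun g : G => permChar X g - 1) (fun g => permChar X g - 1) =
      (Nat.card (MulAction.orbitRel.Quotient G (Fin 2 ↪ X)) : ℂ) := by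
  have hG : (Nat.card G : ℂ) ≠ 0 := by exact_mod_cast Nat.card_pos.ne'
  have h1 := sum_permChar (G := G) X
  rw [card_orbits_of_pretransitive, Nat.cast_one, one_mul] at h1
  have h2 := sum_permChar (G := G) (Fin 2 ↪ X)
  unfold classInner
  have h3 : ∀ g : G, (permChar X g - 1) * conj (permChar X g - 1) =
      permChar (G := G) (Fin 2 ↪ X) g - permChar X g + 1 := by
    intro g
    rw [map_sub, conj_permChar, map_one, permChar_emb_two]
    ring
  simp only [h3]
  rw [Finset.sum_add_distrib, Finset.sum_sub_distrib, h1, h2]
  simp only [Finset.sum_const, Finset.card_univ, nsmul_eq_mul, mul_one,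
    ← Nat.card_eq_fintype_card]
  field_simp
  ring

/-- `π - 1` is irreducible iff the action is doubly transitive. -/
theorem isIrr_permChar_sub_one_iff [Fintype G] [Finite X] [MulAction.IsPretransitive G X]
    (hX : 2 ≤ Nat.card X) :
    IsIrrCharacter G (fun g => permChar X g - 1) ↔ MulAction.IsMultiplyPretransitive G X 2 := by
  classical
  haveI := Fintype.ofFinite X
  haveI : Nonempty X := by
    by_contra h
    rw [not_nonempty_iff] at h
    rw [Nat.card_of_isEmpty] at hX
    omega
  haveI : Nonempty (Fin 2 ↪ X) := by
    rw [Function.Embedding.nonempty_iff_card_le, Fintype.card_fin, ← Nat.card_eq_fintype_card]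
    exact hX
  rw [isIrr_iff_norm_one (isCharacter_permChar_sub_one X), norm_permChar_sub_one]
  constructor
  · intro h
    have h1 : Nat.card (MulAction.orbitRel.Quotient G (Fin 2 ↪ X)) = 1 := by exact_mod_cast h
    exact (MulAction.pretransitive_iff_subsingleton_quotient G (Fin 2 ↪ X)).mpr
      (Nat.card_eq_one_iff_unique.mp h1).1
  · intro h
    haveI : MulAction.IsPretransitive G (Fin 2 ↪ X) := h
    rw [card_orbits_of_pretransitive, Nat.cast_one]

end Cfsg.Agent.Lib.CharPermChar
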