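import Mathlib
import Cfsg.Prelude.Def_Characters
import Cfsg.Prelude.Def_Transfer
import Cfsg.Agent.Lib.CharExc
import Cfsg.Agent.Lib.CharClifford2
import Cfsg.Agent.Lib.CharQuot
import Cfsg.Agent.Lib.CharIto

/-!
# TI subgroups that are Frobenius kernels in their normalizers
-/

set_option autoImplicit false

namespace Cfsg.Agent.Lib.CharTIFN

open Cfsg Representation Module Cfsg.Agent.Lib.CharBasic Cfsg.Agent.Lib.CharOrtho
  Cfsg.Agent.Lib.CharComplete Cfsg.Agent.Lib.CharIntegral Cfsg.Agent.Lib.CharMore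
  Cfsg.Agent.Lib.CharInd Cfsg.Agent.Lib.CharGen Cfsg.Agent.Lib.CharTI Cfsg.Agent.Lib.CharExc
  Cfsg.Agent.Lib.CharClifford Cfsg.Agent.Lib.CharClifford2 Cfsg.Agent.Lib.CharQuot
  Cfsg.Agent.Lib.CharIto
open scoped ComplexConjugate

universe u v

section quot

variable {G : Type u} [Group G] [Fintype G] (N : Subgroup G) [hN : N.Normal]

open scoped Classical in
/-- The squares of the degrees of the characters with `N` in the kernel sum to `|G : N|`. -/
theorem sum_sq_degree_ker :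
    ∑ ψ ∈ Finset.univ.filter (fun ψ : IrrCharacter G => ∀ n ∈ N, (ψ : G → ℂ) n = (ψ : G → ℂ) 1),
      (ψ : G → ℂ) 1 ^ 2 = (N.index : ℂ) := by
  haveI : Fintype (G ⧸ N) := Fintype.ofFinite _
  have h := sum_sq_degree (G := G ⧸ N)
  rw [Subgroup.index, ← h]
  symm
  refine Finset.sum_bij (fun β _ => (⟨fun g : G => (β : G ⧸ N → ℂ) (QuotientGroup.mk g),
    isIrr_inflate N β.2⟩ : IrrCharacter G)) ?_ ?_ ?_ ?_
  · intro β _
    rw [Finset.mem_filter]
    refine ⟨Finset.mem_univ _, fun n hn => ?_⟩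
    change (β : G ⧸ N → ℂ) (QuotientGroup.mk n) = (β : G ⧸ N → ℂ) (QuotientGroup.mk 1)
    rw [(QuotientGroup.eq_one_iff n).mpr hn]
    rfl
  · intro β _ γ _ hβγ
    apply Subtype.ext
    ext x
    induction x using QuotientGroup.induction_on with
    | H g => exact congrFun (congrArg Subtype.val hβγ) g
  · intro ψ hψ
    obtain ⟨β, hβ, hβψ⟩ := exists_deflate_irr N ψ.2 (Finset.mem_filter.mp hψ).2
    exact ⟨⟨β, hβ⟩, Finset.mem_univ _, Subtype.ext hβψ.symm⟩
  · intro β _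
    rfl

omit hN in
theorem indFun_eq_zero_of_not_mem (hN : N.Normal) (θ : N → ℂ) {x : G} (hx : x ∉ N) :
    indFun N θ x = 0 := by
  unfold indFun
  rw [Finset.sum_eq_zero, mul_zero]
  intro y _
  apply extendByZero_not_mem
  intro h
  apply hx
  have := hN.conj_mem _ h y
  simpa [mul_assoc] using this

end quot

section frob

variable {N : Type u} [Group N] [Fintype N] (K : Subgroup N) (hK : K.Normal)

include hK in
/-- In a "Frobenius group" with abelian kernel, the characters not containing the kernel in their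
kernel have degree the index and vanish off the kernel. -/
theorem degree_and_vanish (hfree : ∀ x : N, x ∉ K → ∀ k ∈ K, x * k = k * x → k = 1)
    (hab : ∀ a ∈ K, ∀ b ∈ K, a * b = b * a) {χ : N → ℂ} (hχ : IsIrrCharacter N χ)
    (hker : ∃ n ∈ K, χ n ≠ χ 1) : χ 1 = (K.index : ℂ) ∧ ∀ x : N, x ∉ K → χ x = 0 := by
  obtain ⟨φ, hφ, rfl⟩ := exists_ind_of_free K hK hfree hχ hker
  have h1 : φ 1 = 1 := degree_one_of_comm (fun a b => Subtype.ext (hab a a.2 b b.2)) hφ
  refine ⟨by rw [indFun_one, h1, mul_one], fun x hx => indFun_eq_zero_of_not_mem K hK φ hx⟩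

include hK in
/-- If there is exactly one such character, the kernel is elementary abelian of order
`|N : K| + 1`. -/
theorem unique_case (hfree : ∀ x : N, x ∉ K → ∀ k ∈ K, x * k = k * x → k = 1)
    (hab : ∀ a ∈ K, ∀ b ∈ K, a * b = b * a) (χ₀ : IrrCharacter N)
    (hker : ∃ n ∈ K, (χ₀ : N → ℂ) n ≠ (χ₀ : N → ℂ) 1)
    (huniq : ∀ ψ : IrrCharacter N, (∃ n ∈ K, (ψ : N → ℂ) n ≠ (ψ : N → ℂ) 1) → ψ = χ₀) :
    Nat.card K = K.index + 1 ∧ ∃ p : ℕ, p.Prime ∧ ∀ a ∈ K, a ^ p = 1 := by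
  classical
  haveI := hK
  obtain ⟨hdeg, hvan⟩ := degree_and_vanish K hK hfree hab χ₀.2 hker
  have hfilter : Finset.univ.filter
      (fun ψ : IrrCharacter N => ∀ n ∈ K, (ψ : N → ℂ) n = (ψ : N → ℂ) 1) =
      Finset.univ.erase χ₀ := by
    ext ψ
    simp only [Finset.mem_filter, Finset.mem_univ, true_and, Finset.mem_erase, and_true]
    constructor
    · rintro h rfl
      obtain ⟨n, hn, hne⟩ := hker
      exact hne (h n hn)
    · intro h n hn
      by_contra hne
      exact h (huniq ψ ⟨n, hn, hne⟩)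
  have hsum := sum_sq_degree (G := N)
  rw [← Finset.add_sum_erase Finset.univ _ (Finset.mem_univ χ₀), ← hfilter, sum_sq_degree_ker K,
    hdeg] at hsum
  have hcard : Nat.card K = K.index + 1 := by
    have h1 : K.index ^ 2 + K.index = Nat.card K * K.index := by
      rw [Subgroup.card_mul_index]
      exact_mod_cast hsum
    have hpos : 0 < K.index := Nat.pos_of_ne_zero Subgroup.index_ne_zero_of_finite
    have h2 : (K.index + 1) * K.index = Nat.card K * K.index := by rw [← h1]; ring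
    exact (Nat.eq_of_mul_eq_mul_right hpos h2).symm
  refine ⟨hcard, ?_⟩
  have hconj : ∀ a ∈ K, ∀ b ∈ K, a ≠ 1 → b ≠ 1 → IsConj a b := by
    intro a ha b hb ha1 hb1
    rw [isConj_iff_forall_irr]
    have hval : ∀ c ∈ K, c ≠ 1 → (χ₀ : N → ℂ) c * conj ((χ₀ : N → ℂ) 1) =
        -∑ ψ ∈ Finset.univ.erase χ₀, (ψ : N → ℂ) 1 * conj ((ψ : N → ℂ) 1) := by
      intro c hc hc1
      have h1 := second_orthogonality_not_conj c 1 (fun h => hc1 (isConj_one_left.mp h))
      rw [← Finset.add_sum_erase Finset.univ _ (Finset.mem_univ χ₀)] at h1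
      have h2 : ∑ ψ ∈ Finset.univ.erase χ₀, (ψ : N → ℂ) c * conj ((ψ : N → ℂ) 1) =
          ∑ ψ ∈ Finset.univ.erase χ₀, (ψ : N → ℂ) 1 * conj ((ψ : N → ℂ) 1) := by
        refine Finset.sum_congr rfl fun ψ hψ => ?_
        rw [← hfilter] at hψ
        rw [(Finset.mem_filter.mp hψ).2 c hc]
      rw [h2] at h1
      exact eq_neg_of_add_eq_zero_left h1
    intro ψ
    by_cases hψ : ψ = χ₀
    · subst hψ
      have h0 : conj ((ψ : N → ℂ) 1) ≠ 0 := by
        rw [Ne, map_eq_zero]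
        exact irr_degree_ne_zero ψ.2
      exact mul_right_cancel₀ h0 ((hval a ha ha1).trans (hval b hb hb1).symm)
    · have hmem : ψ ∈ Finset.univ.filter
          (fun ψ : IrrCharacter N => ∀ n ∈ K, (ψ : N → ℂ) n = (ψ : N → ℂ) 1) := by
        rw [hfilter]
        exact Finset.mem_erase.mpr ⟨hψ, Finset.mem_univ _⟩
      rw [(Finset.mem_filter.mp hmem).2 a ha, (Finset.mem_filter.mp hmem).2 b hb]
  have hK1 : Nat.card K ≠ 1 := by
    rw [hcard]
    have hpos : 0 < K.index := Nat.pos_of_ne_zero Subgroup.index_ne_zero_of_finite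
    omega
  obtain ⟨p, hp, hpd⟩ := Nat.exists_prime_and_dvd hK1
  haveI : Fact p.Prime := ⟨hp⟩
  obtain ⟨k₀, hk₀⟩ := exists_prime_orderOf_dvd_card' (G := K) p hpd
  have hk₀1 : (k₀ : N) ≠ 1 := by
    intro h
    have : k₀ = 1 := Subtype.ext h
    rw [this, orderOf_one] at hk₀
    exact hp.one_lt.ne hk₀
  have hk₀p : (k₀ : N) ^ p = 1 := by
    have := pow_orderOf_eq_one k₀
    rw [hk₀] at this
    have := congrArg Subtype.val this
    simpa using this
  refine ⟨p, hp, fun a ha => ?_⟩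
  by_cases ha1 : a = 1
  · rw [ha1, one_pow]
  · obtain ⟨c, rfl⟩ := isConj_iff.mp (hconj k₀ k₀.2 a ha hk₀1 ha1)
    rw [conj_pow, hk₀p]
    simp

end frob

section main

variable {G : Type u} [Group G] [Fintype G]

theorem free_of_centralizer (N K : Subgroup G)
    (hC : ∀ k ∈ K, k ≠ 1 → Subgroup.centralizer ({k} : Set G) ≤ K) :
    ∀ x : N, x ∉ K.subgroupOf N → ∀ k ∈ K.subgroupOf N, x * k = k * x → k = 1 := by
  intro x hx k hk hxk
  by_contra hk1
  apply hx
  rw [Subgroup.mem_subgroupOf] at hk ⊢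
  apply hC k hk (fun h => hk1 (Subtype.ext h))
  rw [Subgroup.mem_centralizer_singleton_iff]
  exact congrArg Subtype.val hxk

/-- Brauer-Suzuki: exceptional characters for an abelian TI subgroup which is a Frobenius kernel in
its normalizer `N`. -/
theorem tifn_abelian (N K : Subgroup G) (hnorm : (K.subgroupOf N).Normal)
    (hTI : ∀ g : G, g ∉ N → ∀ k ∈ K, g * k * g⁻¹ ∈ K → k = 1)
    (hC : ∀ k ∈ K, k ≠ 1 → Subgroup.centralizer ({k} : Set G) ≤ K)
    (hKN : K ≤ N) (hab : ∀ a ∈ K, ∀ b ∈ K, a * b = b * a) :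
    (Nat.card {χ : IrrCharacter N // ∃ k : N, (k : G) ∈ K ∧ (χ : N → ℂ) k ≠ (χ : N → ℂ) 1} = 1 ∧
      ∃ p : ℕ, p.Prime ∧ IsElementaryAbelian p K ∧ Nat.card K = (K.subgroupOf N).index + 1) ∨
    ∃ (ε : ℂ) (f : {χ : IrrCharacter N // ∃ k : N, (k : G) ∈ K ∧
        (χ : N → ℂ) k ≠ (χ : N → ℂ) 1} → IrrCharacter G),
      (ε = 1 ∨ ε = -1) ∧ Function.Injective f ∧
      ∀ χ ξ, indFun N ((χ.1 : N → ℂ) - (ξ.1 : N → ℂ)) = ε • ((f χ : G → ℂ) - (f ξ : G → ℂ)) := by
  classical
  haveI : Fintype N := Fintype.ofFinite N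
  set X := {χ : IrrCharacter N // ∃ k : N, (k : G) ∈ K ∧ (χ : N → ℂ) k ≠ (χ : N → ℂ) 1} with hX
  have hfree := free_of_centralizer N K hC
  have hab' : ∀ a ∈ K.subgroupOf N, ∀ b ∈ K.subgroupOf N, a * b = b * a := by
    intro a ha b hb
    exact Subtype.ext (hab a (Subgroup.mem_subgroupOf.mp ha) b (Subgroup.mem_subgroupOf.mp hb))
  have hdv : ∀ χ : X, (χ.1 : N → ℂ) 1 = ((K.subgroupOf N).index : ℂ) ∧
      ∀ x : N, x ∉ K.subgroupOf N → (χ.1 : N → ℂ) x = 0 := by
    intro χ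
    obtain ⟨k, hk, hne⟩ := χ.2
    exact degree_and_vanish (K.subgroupOf N) hnorm hfree hab' χ.1.2
      ⟨k, Subgroup.mem_subgroupOf.mpr hk, hne⟩
  rcases Nat.lt_or_ge (Fintype.card X) 2 with hlt | hge
  · rcases Nat.eq_zero_or_pos (Fintype.card X) with h0 | hpos
    · right
      haveI : IsEmpty X := Fintype.card_eq_zero_iff.mp h0
      exact ⟨1, isEmptyElim, Or.inl rfl, fun a => isEmptyElim a, fun a => isEmptyElim a⟩
    · left
      have h1 : Fintype.card X = 1 := by omega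
      obtain ⟨χ₀, hχ₀⟩ := Fintype.card_eq_one_iff.mp h1
      obtain ⟨k, hk, hne⟩ := χ₀.2
      obtain ⟨hcard, p, hp, hpow⟩ := unique_case (K.subgroupOf N) hnorm hfree hab' χ₀.1
        ⟨k, Subgroup.mem_subgroupOf.mpr hk, hne⟩ (by
          rintro ψ ⟨n, hn, hne'⟩
          exact congrArg Subtype.val (hχ₀ ⟨ψ, n, Subgroup.mem_subgroupOf.mp hn, hne'⟩))
      refine ⟨by rw [Nat.card_eq_fintype_card, h1], p, hp, ⟨⟨⟨fun a b => ?_⟩⟩, fun a ha => ?_⟩, ?_⟩
      · exact Subtype.ext (hab a a.2 b b.2)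
      · have := hpow ⟨a, hKN ha⟩ (Subgroup.mem_subgroupOf.mpr ha)
        have := congrArg Subtype.val this
        simpa using this
      · rw [← hcard]
        exact (Nat.card_congr (Subgroup.subgroupOfEquivOfLe hKN).toEquiv).symm
  · right
    let e := Fintype.equivFin X
    obtain ⟨ε, hε, θ, hθirr, hθinj, hθ⟩ := exceptional_ti N (K : Set G) hTI (Fintype.card X) hge
      (fun i => ((e.symm i).1 : N → ℂ)) (fun i => (e.symm i).1.2)
      (fun i j hij => e.symm.injective (Subtype.ext (Subtype.ext hij)))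
      (fun i x hx => (hdv (e.symm i)).2 x (fun h => hx (Subgroup.mem_subgroupOf.mp h)))
      (fun i j => by rw [(hdv (e.symm i)).1, (hdv (e.symm j)).1])
    refine ⟨ε, fun χ => ⟨θ (e χ), hθirr (e χ)⟩, hε, ?_, ?_⟩
    · intro a b hab
      exact e.injective (hθinj (congrArg Subtype.val hab))
    · intro χ ξ
      have := hθ (e χ) (e ξ)
      simp only [Equiv.symm_apply_apply] at this
      rw [indFun_sub]
      exact this

end main

end Cfsg.Agent.Lib.CharTIFN
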