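import Mathlib
import Cfsg.Prelude.Def_Characters
import Cfsg.Agent.Lib.CharMono
import Cfsg.Agent.Lib.CharSmall

/-!
# Taketa's theorem: M-groups are solvable
-/

set_option autoImplicit false

namespace Cfsg.Agent.Lib.CharTaketa

open Cfsg Representation Module Cfsg.Agent.Lib.CharBasic Cfsg.Agent.Lib.CharOrtho
  Cfsg.Agent.Lib.CharComplete Cfsg.Agent.Lib.CharIntegral Cfsg.Agent.Lib.CharMore
  Cfsg.Agent.Lib.CharInd Cfsg.Agent.Lib.CharCenter Cfsg.Agent.Lib.CharQuot
  Cfsg.Agent.Lib.CharIndTrans Cfsg.Agent.Lib.CharClifford Cfsg.Agent.Lib.CharCorr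
  Cfsg.Agent.Lib.CharLinear Cfsg.Agent.Lib.CharIto Cfsg.Agent.Lib.CharPerm
  Cfsg.Agent.Lib.CharMono
open scoped ComplexConjugate commutatorElement

universe u v

variable {G : Type u} [Group G] [Fintype G]

/-- If `(1_H)^G g = (1_H)^G 1` then `g ∈ H`. -/
theorem mem_of_ind_one_eq (H : Subgroup G) {g : G}
    (h : indFun H (fun _ => (1 : ℂ)) g = indFun H (fun _ => (1 : ℂ)) 1) : g ∈ H := by
  classical
  have hH : (Nat.card H : ℂ)⁻¹ ≠ 0 := inv_ne_zero (by exact_mod_cast Nat.card_pos.ne')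
  unfold indFun at h
  have h1 := mul_left_cancel₀ hH h
  have e1 : ∀ x : G, extendByZero H (fun _ => (1 : ℂ)) (x⁻¹ * 1 * x) = 1 := by
    intro x
    rw [extendByZero_mem]
    simp
  have e2 : ∀ x : G, extendByZero H (fun _ => (1 : ℂ)) (x⁻¹ * g * x) =
      if x⁻¹ * g * x ∈ H then 1 else 0 := by
    intro x
    by_cases hx : x⁻¹ * g * x ∈ H
    · rw [if_pos hx, extendByZero_mem _ _ hx]
    · rw [if_neg hx, extendByZero_not_mem _ _ hx]
  simp only [e1, e2] at h1
  rw [Finset.sum_boole, Finset.sum_const, nsmul_eq_mul, mul_one] at h1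
  have h2 : (Finset.univ.filter fun x : G => x⁻¹ * g * x ∈ H).card = (Finset.univ : Finset G).card := by
    exact_mod_cast h1
  have h3 := (Finset.card_eq_iff_eq_univ _).mp (h2.trans Finset.card_univ)
  have h4 : (1 : G) ∈ Finset.univ.filter fun x : G => x⁻¹ * g * x ∈ H := by
    rw [h3]; exact Finset.mem_univ _
  simpa using (Finset.mem_filter.mp h4).2

/-- A character takes its degree at `g` if all its irreducible constituents do. -/
theorem eq_degree_of_constituents {χ : G → ℂ} (hχ : IsCharacter G χ) {g : G}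
    (h : ∀ ψ : IrrCharacter G, classInner χ ψ ≠ 0 → (ψ : G → ℂ) g = (ψ : G → ℂ) 1) :
    χ g = χ 1 := by
  classical
  have hexp := char_expansion hχ
  rw [hexp, Finset.sum_apply, Finset.sum_apply]
  refine Finset.sum_congr rfl fun ψ _ => ?_
  simp only [Pi.smul_apply, smul_eq_mul]
  by_cases h0 : classInner χ ψ = 0
  · rw [h0, zero_mul, zero_mul]
  · rw [h ψ h0]

/-- Two distinct irreducible constituents: the sum of their degrees is at most the degree. -/
theorem degree_add_le {χ : G → ℂ} (hχ : IsCharacter G χ) {ψ φ : IrrCharacter G} (hne : ψ ≠ φ)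
    (h1 : classInner χ ψ ≠ 0) (h2 : classInner χ φ ≠ 0) {a b c : ℕ} (ha : χ 1 = a)
    (hb : (ψ : G → ℂ) 1 = b) (hc : (φ : G → ℂ) 1 = c) : b + c ≤ a := by
  classical
  obtain ⟨m, hm, hexp⟩ := exists_mult hχ
  choose d hd using fun ψ : IrrCharacter G => irr_degree ψ.2
  have e1 : a = ∑ ψ : IrrCharacter G, m ψ * d ψ := by
    have := congrFun hexp 1
    rw [Finset.sum_apply, ha] at this
    have h3 : (a : ℂ) = ((∑ ψ : IrrCharacter G, m ψ * d ψ : ℕ) : ℂ) := by
      rw [this]
      push_cast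
      refine Finset.sum_congr rfl fun ψ _ => ?_
      rw [Pi.smul_apply, smul_eq_mul, (hd ψ).2.1]
    exact_mod_cast h3
  have hmψ : 1 ≤ m ψ := Nat.pos_of_ne_zero (fun h0 => h1 (by rw [hm, h0, Nat.cast_zero]))
  have hmφ : 1 ≤ m φ := Nat.pos_of_ne_zero (fun h0 => h2 (by rw [hm, h0, Nat.cast_zero]))
  have hbd : b = d ψ := by
    have : (b : ℂ) = d ψ := by rw [← hb, (hd ψ).2.1]
    exact_mod_cast this
  have hcd : c = d φ := by
    have : (c : ℂ) = d φ := by rw [← hc, (hd φ).2.1]
    exact_mod_cast this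
  rw [e1, ← Finset.add_sum_erase Finset.univ _ (Finset.mem_univ ψ), hbd, hcd]
  have h4 : m φ * d φ ≤ ∑ x ∈ Finset.univ.erase ψ, m x * d x :=
    Finset.single_le_sum (f := fun x => m x * d x) (fun _ _ => Nat.zero_le _)
      (Finset.mem_erase.mpr ⟨hne.symm, Finset.mem_univ _⟩)
  have h5 : d ψ ≤ m ψ * d ψ := Nat.le_mul_of_pos_left _ hmψ
  have h6 : d φ ≤ m φ * d φ := Nat.le_mul_of_pos_left _ hmφ
  omega

theorem taketa_aux (hM : ∀ χ : G → ℂ, IsIrrCharacter G χ → IsMonomial χ) (d : ℕ) :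
    ∃ i : ℕ, ∀ (χ : G → ℂ) (e : ℕ), IsIrrCharacter G χ → χ 1 = e → e ≤ d →
      ∀ g ∈ derivedSeries G i, χ g = χ 1 := by
  classical
  induction d with
  | zero =>
    refine ⟨0, fun χ e hχ he hle => ?_⟩
    exfalso
    have : e = 0 := by omega
    rw [this, Nat.cast_zero] at he
    exact irr_degree_ne_zero hχ he
  | succ d ih =>
    obtain ⟨i, hi⟩ := ih
    refine ⟨i + 1, fun χ e hχ he hle g hg => ?_⟩
    have hgi : g ∈ derivedSeries G i := derivedSeries_antitone G (Nat.le_succ i) hg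
    rcases Nat.lt_or_ge e (d + 1) with hlt | hge
    · exact hi χ e hχ he (by omega) g hgi
    have hed : e = d + 1 := by omega
    obtain ⟨H, lam, hlam⟩ := hM χ hχ
    have hidx : H.index = d + 1 := by
      have h1 := congrFun hlam 1
      rw [indFun_one, he, hed] at h1
      simp only [map_one, Units.val_one, mul_one] at h1
      exact_mod_cast h1.symm
    -- `D_i ≤ H`
    have hDH : derivedSeries G i ≤ H := by
      intro y hy
      apply mem_of_ind_one_eq H
      have hπ : IsCharacter G (indFun H (fun _ => (1 : ℂ))) :=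
        isCharacter_indFun H _ isCharacter_one
      apply eq_degree_of_constituents hπ
      intro ψ hψ
      obtain ⟨b, hb0, hb, _⟩ := irr_degree ψ.2
      haveI : Fintype H := Fintype.ofFinite H
      have hone : classInner (indFun H (fun _ => (1 : ℂ))) (1 : G → ℂ) ≠ 0 := by
        rw [frobenius_reciprocity H _ _ (isClassFunction_of_isCharacter isCharacter_one)]
        have := classInner_irr_self (isIrr_one (G := H))
        have e : classInner (fun _ : H => (1 : ℂ)) (fun h : H => (1 : G → ℂ) h) = 1 := this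
        rw [e]
        exact one_ne_zero
      have hdeg : indFun H (fun _ => (1 : ℂ)) 1 = ((d + 1 : ℕ) : ℂ) := by
        rw [indFun_one, hidx, mul_one]
      by_cases h1 : ψ = ⟨1, isIrr_one⟩
      · rw [h1]; rfl
      · have := degree_add_le hπ h1 hψ hone hdeg hb (c := 1) (by simp)
        exact hi ψ b ψ.2 hb (by omega) y hy
    -- `D_{i+1} ≤ ker λ`
    let L : Subgroup G := (MonoidHom.ker lam).map H.subtype
    have hDL : derivedSeries G (i + 1) ≤ L := by
      rw [derivedSeries_succ, Subgroup.commutator_le]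
      intro a ha b hb
      refine ⟨⁅(⟨a, hDH ha⟩ : H), ⟨b, hDH hb⟩⁆, ?_, rfl⟩
      rw [SetLike.mem_coe, MonoidHom.mem_ker, map_commutatorElement]
      exact commutatorElement_eq_one_iff_mul_comm.mpr (mul_comm _ _)
    have hnorm := derivedSeries_normal G (i + 1)
    have hval : ∀ x : G, extendByZero H (fun h => (lam h : ℂ)) (x⁻¹ * g * x) = 1 := by
      intro x
      have h1 : x⁻¹ * g * x ∈ derivedSeries G (i + 1) := by
        have := hnorm.conj_mem g hg x⁻¹
        rwa [inv_inv] at this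
      obtain ⟨y, hy, hyx⟩ := hDL h1
      rw [← hyx]
      change extendByZero H (fun h => (lam h : ℂ)) (y : G) = 1
      rw [extendByZero_coe, MonoidHom.mem_ker.mp hy, Units.val_one]
    have hval1 : ∀ x : G, extendByZero H (fun h => (lam h : ℂ)) (x⁻¹ * 1 * x) = 1 := by
      intro x
      have : x⁻¹ * 1 * x = ((1 : H) : G) := by simp
      rw [this, extendByZero_coe, map_one, Units.val_one]
    rw [hlam]
    unfold indFun
    simp only [hval, hval1]

/-- **Taketa**: M-groups are solvable. -/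
theorem taketa (hM : ∀ χ : G → ℂ, IsIrrCharacter G χ → IsMonomial χ) : Group.IsSolvable G := by
  obtain ⟨i, hi⟩ := taketa_aux hM (Nat.card G)
  refine ⟨⟨i, ?_⟩⟩
  rw [eq_bot_iff]
  intro g hg
  rw [Subgroup.mem_bot]
  have : IsConj g 1 := by
    rw [isConj_iff_forall_irr]
    intro χ
    obtain ⟨e, he0, he, hdvd⟩ := irr_degree χ.2
    exact hi χ e χ.2 he (Nat.le_of_dvd Nat.card_pos hdvd) g hg
  exact isConj_one_left.mp this

end Cfsg.Agent.Lib.CharTaketa
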