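import Mathlib
import Cfsg.Prelude.Def_Solvable

set_option autoImplicit false

namespace Cfsg.Agent.Lib.ClassSumNil

open Cfsg
open scoped Classical

universe u v

variable {G : Type u} [Group G] [Fintype G] (p : ℕ) [hp : Fact p.Prime]

/-- group element in the group algebra over the prime field -/
noncomputable abbrev sg (x : G) : MonoidAlgebra (ZMod p) G := MonoidAlgebra.single x 1

/-- class sum over the prime field -/
noncomputable def cs (g : G) : MonoidAlgebra (ZMod p) G :=
  ∑ x ∈ Finset.univ.filter (fun x => IsConj g x), sg p x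

theorem sg_mul (x y : G) : sg p x * sg p y = sg p (x * y) := by
  simp [sg, MonoidAlgebra.single_mul_single]

theorem sg_one : sg p (1 : G) = 1 := rfl

theorem comm_cs (g u : G) : sg p u * cs p g = cs p g * sg p u := by
  unfold cs
  rw [Finset.mul_sum, Finset.sum_mul]
  simp only [sg_mul]
  refine Finset.sum_bij' (fun x _ => u * x * u⁻¹) (fun x _ => u⁻¹ * x * u) ?_ ?_ ?_ ?_ ?_
  · intro x hx
    simp only [Finset.mem_filter, Finset.mem_univ, true_and] at hx ⊢
    exact hx.trans (isConj_iff.mpr ⟨u, rfl⟩)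
  · intro x hx
    simp only [Finset.mem_filter, Finset.mem_univ, true_and] at hx ⊢
    exact hx.trans (isConj_iff.mpr ⟨u⁻¹, by simp⟩)
  · intro x _; group
  · intro x _; group
  · intro x _
    congr 1
    group

theorem comm_cs_pow (g u : G) (n : ℕ) : sg p u * cs p g ^ n = cs p g ^ n * sg p u := by
  have : Commute (sg p u) (cs p g) := comm_cs p g u
  exact (this.pow_right n)

theorem p_smul (b : MonoidAlgebra (ZMod p) G) {n : ℕ} (hn : p ∣ n) : n • b = 0 := by
  rw [← Nat.cast_smul_eq_nsmul (ZMod p) n b, (ZMod.natCast_eq_zero_iff n p).mpr hn, zero_smul]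

theorem kill (Q : Subgroup G) (hQn : Q.Normal) (hQ : IsPGroup p Q) (g : G)
    (hg : ∀ x : G, IsConj g x → x ∉ Subgroup.centralizer (Q : Set G))
    (v : MonoidAlgebra (ZMod p) G) (hv : ∀ u ∈ Q, sg p u * v = v) : cs p g * v = 0 := by
  unfold cs
  rw [Finset.sum_mul]
  have hφ : ∀ (u : G), u ∈ Q → ∀ y : G, sg p (u * y * u⁻¹) * v = sg p y * v := by
    intro u hu y
    have h1 : u * y * u⁻¹ = y * ((y⁻¹ * u * y) * u⁻¹) := by group
    have h2 : (y⁻¹ * u * y) * u⁻¹ ∈ Q := by
      refine Q.mul_mem ?_ (Q.inv_mem hu)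
      have := hQn.conj_mem u hu y⁻¹
      simpa using this
    rw [h1, ← sg_mul, mul_assoc, hv _ h2]
  rw [Finset.sum_comp (fun b => b) (fun x => sg p x * v)]
  apply Finset.sum_eq_zero
  intro b _
  apply p_smul
  -- the fibre
  set X := {a : G // IsConj g a ∧ sg p a * v = b} with hX
  letI : MulAction Q X :=
    { smul := fun u a => ⟨(u : G) * a.1 * (u : G)⁻¹,
        a.2.1.trans (isConj_iff.mpr ⟨u, rfl⟩), by rw [hφ u u.2]; exact a.2.2⟩
      one_smul := fun a => Subtype.ext (by
        show ((1 : Q) : G) * a.1 * ((1 : Q) : G)⁻¹ = a.1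
        simp)
      mul_smul := fun u w a => Subtype.ext (by
        show ((u * w : Q) : G) * a.1 * ((u * w : Q) : G)⁻¹ =
          (u : G) * ((w : G) * a.1 * (w : G)⁻¹) * (u : G)⁻¹
        simp only [Subgroup.coe_mul]
        group) }
  have h1 := hQ.card_modEq_card_fixedPoints X
  have h2 : IsEmpty (MulAction.fixedPoints Q X) := by
    constructor
    rintro ⟨a, ha⟩
    apply hg a.1 a.2.1
    rw [Subgroup.mem_centralizer_iff]
    intro u hu
    have := congrArg Subtype.val (ha ⟨u, hu⟩)
    have h3 : u * a.1 * u⁻¹ = a.1 := this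
    calc u * a.1 = (u * a.1 * u⁻¹) * u := by group
      _ = a.1 * u := by rw [h3]
  have h2' : Nat.card (MulAction.fixedPoints Q X) = 0 := Nat.card_of_isEmpty
  rw [h2'] at h1
  have h3 : p ∣ Nat.card X := (Nat.modEq_zero_iff_dvd).mp h1
  have h4 : Nat.card X =
      (Finset.filter (fun a => sg p a * v = b)
        (Finset.univ.filter (fun x => IsConj g x))).card := by
    rw [Nat.card_eq_fintype_card, Fintype.card_subtype]
    congr 1
    ext a
    simp
  rwa [h4] at h3

instance : Finite (MonoidAlgebra (ZMod p) G) :=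
  Finite.of_equiv _ (MonoidAlgebra.coeffEquiv (R := ZMod p) (M := G)).symm

theorem nil_prime (Q : Subgroup G) (hQn : Q.Normal) (hQ : IsPGroup p Q) (g : G)
    (hg : ∀ x : G, IsConj g x → x ∉ Subgroup.centralizer (Q : Set G)) :
    IsNilpotent (cs p g) := by
  set z := cs p g with hz
  obtain ⟨i, j, hij, he⟩ : ∃ i j : ℕ, i < j ∧ z ^ i = z ^ j := by
    obtain ⟨i, j, hne, he⟩ := Finite.exists_ne_map_eq_of_infinite (fun k : ℕ => z ^ k)
    rcases lt_or_gt_of_ne hne with h | h
    · exact ⟨i, j, h, he⟩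
    · exact ⟨j, i, h, he.symm⟩
  refine ⟨i, ?_⟩
  by_contra hne
  obtain ⟨d, hd, hdj⟩ : ∃ d : ℕ, 0 < d ∧ j = d + i := ⟨j - i, Nat.sub_pos_of_lt hij, by omega⟩
  -- the fixed space of `z ^ d`
  let X : AddSubgroup (MonoidAlgebra (ZMod p) G) :=
    { carrier := {v | z ^ d * v = v}
      zero_mem' := by simp
      add_mem' := by
        intro a b ha hb
        simp only [Set.mem_ofPred_eq] at ha hb ⊢
        rw [mul_add, ha, hb]
      neg_mem' := by
        intro a ha
        simp only [Set.mem_ofPred_eq] at ha ⊢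
        rw [mul_neg, ha] }
  have hmemX : ∀ v, v ∈ X ↔ z ^ d * v = v := fun v => Iff.rfl
  letI : MulAction Q X :=
    { smul := fun u a => ⟨sg p (u : G) * a.1, by
        rw [hmemX, ← mul_assoc, ← comm_cs_pow, mul_assoc, (hmemX _).mp a.2]⟩
      one_smul := fun a => Subtype.ext (by
        show sg p ((1 : Q) : G) * a.1 = a.1
        rw [Subgroup.coe_one, sg_one, one_mul])
      mul_smul := fun u w a => Subtype.ext (by
        show sg p ((u * w : Q) : G) * a.1 = sg p (u : G) * (sg p (w : G) * a.1)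
        rw [Subgroup.coe_mul, ← sg_mul, mul_assoc]) }
  have hziX : z ^ i ∈ X := by rw [hmemX, ← pow_add, ← hdj, he]
  have hdvd : p ∣ Nat.card X := by
    have h1 : addOrderOf (⟨z ^ i, hziX⟩ : X) = p := by
      apply addOrderOf_eq_prime
      · apply Subtype.ext
        show p • z ^ i = 0
        exact p_smul p _ dvd_rfl
      · intro h0
        exact hne (congrArg Subtype.val h0)
    have h2 := addOrderOf_dvd_natCard (⟨z ^ i, hziX⟩ : X)
    rwa [h1] at h2
  have h0 : (0 : X) ∈ MulAction.fixedPoints Q X := by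
    intro u
    apply Subtype.ext
    show sg p (u : G) * (0 : MonoidAlgebra (ZMod p) G) = 0
    rw [mul_zero]
  obtain ⟨b, hb, hb0⟩ := hQ.exists_fixed_point_of_prime_dvd_card_of_fixed_point X hdvd h0
  have hk : z * b.1 = 0 := by
    apply kill p Q hQn hQ g hg
    intro u hu
    exact congrArg Subtype.val (hb ⟨u, hu⟩)
  have h5 : z ^ d * b.1 = 0 := by
    obtain ⟨d', rfl⟩ : ∃ d', d = d' + 1 := ⟨d - 1, by omega⟩
    rw [pow_succ, mul_assoc, hk, mul_zero]
  apply hb0
  apply Subtype.ext
  show (0 : MonoidAlgebra (ZMod p) G) = b.1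
  rw [← (hmemX _).mp b.2, h5]

theorem main {G : Type u} [Group G] [Finite G] (p : ℕ) [Fact p.Prime] (F : Type v) [Field F]
    [CharP F p] (g : G)
    (hg : ∀ x : G, IsConj g x → x ∉ Subgroup.centralizer (Cfsg.pCore p G : Set G)) :
    IsNilpotent (∑ᶠ x ∈ ConjClasses.carrier (ConjClasses.mk g),
      MonoidAlgebra.single x (1 : F) : MonoidAlgebra F G) := by
  haveI : Fintype G := Fintype.ofFinite G
  have hn : (pCore p G).Normal := Subgroup.sSup_normal _ (fun _ h => h.1)
  have hpg : IsPGroup p (pCore p G) := Sylow.sSup_of_normal _ (fun _ h => h.2) (fun _ h => h.1)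
  have h1 := nil_prime p (pCore p G) hn hpg g hg
  have h2 := h1.map (MonoidAlgebra.mapRingHom G (ZMod.castHom (dvd_refl p) F))
  have h3 : (∑ᶠ x ∈ ConjClasses.carrier (ConjClasses.mk g),
      MonoidAlgebra.single x (1 : F) : MonoidAlgebra F G) =
      MonoidAlgebra.mapRingHom G (ZMod.castHom (dvd_refl p) F) (cs p g) := by
    unfold cs
    rw [map_sum, finsum_mem_eq_finite_toFinset_sum _ (Set.toFinite _)]
    apply Finset.sum_congr
    · ext x
      simp only [Set.Finite.mem_toFinset, ConjClasses.mem_carrier_iff_mk_eq, Finset.mem_filter,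
        Finset.mem_univ, true_and, ConjClasses.mk_eq_mk_iff_isConj]
      exact ⟨fun h => h.symm, fun h => h.symm⟩
    · intro x _
      simp [sg]
  rw [h3]
  exact h2

end Cfsg.Agent.Lib.ClassSumNil
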