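import Mathlib
import Cfsg.Prelude.Def_BrauerPairs
import Cfsg.Agent.Lib.BlockFong
import Cfsg.Agent.S0860
import Cfsg.Agent.S0920
import Cfsg.Agent.S4505

set_option autoImplicit false

namespace Cfsg.Agent.Lib.FullDefCount

open Cfsg Cfsg.Agent.Lib.Helper2_BlockLocal Cfsg.Agent.Lib.Helper2_BlockOm
  Cfsg.Agent.Lib.Helper2_BlockOsima Cfsg.Agent.Lib.Helper2_BlockBasic
  Cfsg.Agent.Lib.Helper2_BlockFMT Cfsg.Agent.Lib.Helper2_BlockPCore
  Cfsg.Agent.Lib.Helper2_BlockCover2 Cfsg.Agent.Lib.Helper2_BlockCover3
  Cfsg.Agent.Lib.Helper2_BlockDefOrder Cfsg.Agent.Lib.BlockIdemFMT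
  Cfsg.Agent.Lib.CharBasic Cfsg.Agent.Lib.CharOrtho
  Cfsg.Agent.Lib.CharComplete Cfsg.Agent.Lib.CharIntegral Cfsg.Agent.Lib.CharMore
  Cfsg.Agent.Lib.CharPerm Cfsg.Agent.Lib.CharInd Cfsg.Agent.Lib.CharClifford
open scoped ComplexConjugate Classical

universe u

variable {X : Type u} [Group X] [Fintype X] {p : ℕ} [hp : Fact p.Prime]

theorem orderOf_conj'' (g h : X) : orderOf (h * g * h⁻¹) = orderOf g := by
  have := (MulAut.conj h).orderOf_eq g
  simpa using this

theorem exists_K (S : Sylow p X) (hS : (S : Subgroup X).Normal) :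
    ∃ K : Subgroup X, K.Normal ∧ ¬ p ∣ Nat.card K ∧
      ∀ x : X, x ∈ K ↔ (x ∈ Subgroup.centralizer ((S : Subgroup X) : Set X) ∧
        ¬ p ∣ orderOf x) := by
  have hpp : p.Prime := hp.out
  set C := Subgroup.centralizer ((S : Subgroup X) : Set X) with hC
  set k := (Subgroup.center C).index with hk
  set n' := Nat.card X / p ^ (Nat.card X).factorization p with hn'
  have hpn' : ¬ p ∣ n' := Nat.not_dvd_ordCompl hpp Nat.card_pos.ne'
  have hpk : ¬ p ∣ k := by
    have h1 : ((S : Subgroup X).subgroupOf C) ≤ Subgroup.center C := by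
      intro c hc
      rw [Subgroup.mem_center_iff]
      intro d
      apply Subtype.ext
      have := (Subgroup.mem_centralizer_iff.mp d.2) c (Subgroup.mem_subgroupOf.mp hc)
      exact this.symm
    have h2 : k ∣ ((S : Subgroup X).subgroupOf C).index := Subgroup.index_dvd_of_le h1
    have h3 : ((S : Subgroup X).subgroupOf C).index ∣ (S : Subgroup X).index :=
      Subgroup.relIndex_dvd_index_of_normal _ _
    exact fun h => S.not_dvd_index (h.trans (h2.trans h3))
  let Ψ : C →* Subgroup.center C :=
    { toFun := fun c => (MonoidHom.transferCenterPow C c) ^ n'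
      map_one' := by simp
      map_mul' := fun a b => by
        rw [map_mul]
        apply Commute.mul_pow
        apply Subtype.ext
        exact ((Subgroup.mem_center_iff.mp (MonoidHom.transferCenterPow C a).2) _).symm }
  have hΨ : ∀ c : C, Ψ c = 1 ↔ (c : X) ^ (k * n') = 1 := by
    intro c
    have h1 : ((Ψ c : Subgroup.center C) : C) = c ^ (k * n') := by
      show (((MonoidHom.transferCenterPow C c) ^ n' : Subgroup.center C) : C) = _
      rw [Subgroup.coe_pow, MonoidHom.transferCenterPow_apply, ← pow_mul]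
    constructor
    · intro h
      rw [h] at h1
      have := congrArg (Subtype.val : C → X) h1
      simpa using this.symm
    · intro h
      apply Subtype.ext
      rw [h1]
      apply Subtype.ext
      simpa using h
  have hmem : ∀ x : X, x ∈ (Ψ.ker).map C.subtype ↔ (x ∈ C ∧ ¬ p ∣ orderOf x) := by
    intro x
    constructor
    · rintro ⟨c, hc, rfl⟩
      refine ⟨c.2, ?_⟩
      have h1 := (hΨ c).mp hc
      have h2 := orderOf_dvd_of_pow_eq_one h1
      intro h3
      exact (hpp.dvd_mul.mp (h3.trans h2)).elim hpk hpn'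
    · rintro ⟨hx, hxp⟩
      refine ⟨⟨x, hx⟩, (hΨ _).mpr ?_, rfl⟩
      have h1 : orderOf x ∣ Nat.card X := orderOf_dvd_natCard x
      have h2 : orderOf x ∣ p ^ (Nat.card X).factorization p * n' := by
        rw [hn', Nat.ordProj_mul_ordCompl_eq_self]; exact h1
      have h3 : (orderOf x).Coprime (p ^ (Nat.card X).factorization p) :=
        Nat.Coprime.pow_right _ ((Nat.Prime.coprime_iff_not_dvd hpp).mpr hxp).symm
      have h4 : orderOf x ∣ n' := h3.dvd_of_dvd_mul_left h2
      show x ^ (k * n') = 1
      exact orderOf_dvd_iff_pow_eq_one.mp (h4.mul_left k)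
  refine ⟨(Ψ.ker).map C.subtype, ⟨?_⟩, ?_, hmem⟩
  · intro x hx g
    rw [hmem] at hx ⊢
    refine ⟨?_, by rw [orderOf_conj'']; exact hx.2⟩
    rw [hC, Subgroup.mem_centralizer_iff]
    intro s hs
    have h1 : g⁻¹ * s * g ∈ (S : Subgroup X) := by
      have := hS.conj_mem s hs g⁻¹
      simpa using this
    have h2 := (Subgroup.mem_centralizer_iff.mp hx.1) _ h1
    calc s * (g * x * g⁻¹) = g * ((g⁻¹ * s * g) * x) * g⁻¹ := by group
      _ = g * (x * (g⁻¹ * s * g)) * g⁻¹ := by rw [h2]
      _ = g * x * g⁻¹ * s := by group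
  · intro hd
    obtain ⟨y, hy⟩ := exists_prime_orderOf_dvd_card' p hd
    have := ((hmem y).mp y.2).2
    rw [Subgroup.orderOf_coe, hy] at this
    exact this dvd_rfl

section lower

variable (K : Subgroup X) (hK : K.Normal)

/-- left action on `Irr K` -/
noncomputable def actIrr : MulAction X (IrrCharacter K) where
  smul x η := ⟨conjFun K hK η x⁻¹, isIrr_conjFun K hK η.2 x⁻¹⟩
  one_smul η := by
    apply Subtype.ext
    show conjFun K hK η (1 : X)⁻¹ = η
    rw [inv_one, conjFun_one]
  mul_smul x y η := by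
    apply Subtype.ext
    show conjFun K hK η (x * y)⁻¹ = conjFun K hK (conjFun K hK η y⁻¹) x⁻¹
    rw [conjFun_mul, mul_inv_rev]

/-- left action on the classes of `K` -/
noncomputable def actCl : MulAction X (ConjClasses K) where
  smul x C := ConjClasses.map (@MulAut.conjNormal X _ K hK x).toMonoidHom C
  one_smul C := by
    obtain ⟨k, rfl⟩ := ConjClasses.mk_surjective C
    show ConjClasses.mk ((@MulAut.conjNormal X _ K hK 1) k) = ConjClasses.mk k
    rw [map_one]; rfl
  mul_smul x y C := by
    obtain ⟨k, rfl⟩ := ConjClasses.mk_surjective C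
    show ConjClasses.mk ((@MulAut.conjNormal X _ K hK (x * y)) k) =
      ConjClasses.mk ((@MulAut.conjNormal X _ K hK x) ((@MulAut.conjNormal X _ K hK y) k))
    rw [map_mul]; rfl

theorem orbits_eq :
    Nat.card (Quotient (@MulAction.orbitRel X (IrrCharacter K) _ (actIrr K hK))) =
      Nat.card (Quotient (@MulAction.orbitRel X (ConjClasses K) _ (actCl K hK))) := by
  letI := actIrr K hK
  letI := actCl K hK
  have hcompat : ∀ (a : X) (χ : IrrCharacter K) (g g' : K),
      ConjClasses.mk g' = a • ConjClasses.mk g →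
      ((a • χ : IrrCharacter K) : K → ℂ) g' = (χ : K → ℂ) g := by
    intro a χ g g' h
    have h1 : ConjClasses.mk g' = ConjClasses.mk ((@MulAut.conjNormal X _ K hK a) g) := h
    have h2 : IsConj g' ((@MulAut.conjNormal X _ K hK a) g) :=
      ConjClasses.mk_eq_mk_iff_isConj.mp h1
    obtain ⟨c, hc⟩ := isConj_iff.mp h2
    have h3 := irr_classFunction (a • χ : IrrCharacter K) g' c
    rw [hc] at h3
    rw [← h3]
    show conjFun K hK χ a⁻¹ _ = _
    rw [conjFun_apply]
    apply congrArg
    apply Subtype.ext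
    show a⁻¹ * (a * (g : X) * a⁻¹) * a⁻¹⁻¹ = g
    group
  have hfix := fun a : X => Cfsg.Agent.S0860.result (G := K) (A := X) hcompat a
  haveI : Fintype (Quotient (MulAction.orbitRel X (IrrCharacter K))) := Fintype.ofFinite _
  haveI : Fintype (Quotient (MulAction.orbitRel X (ConjClasses K))) := Fintype.ofFinite _
  haveI : ∀ a : X, Fintype (MulAction.fixedBy (IrrCharacter K) a) := fun a => Fintype.ofFinite _
  haveI : ∀ a : X, Fintype (MulAction.fixedBy (ConjClasses K) a) := fun a => Fintype.ofFinite _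
  have b1 := MulAction.sum_card_fixedBy_eq_card_orbits_mul_card_group X (IrrCharacter K)
  have b2 := MulAction.sum_card_fixedBy_eq_card_orbits_mul_card_group X (ConjClasses K)
  have b3 : ∑ a : X, Fintype.card (MulAction.fixedBy (IrrCharacter K) a) =
      ∑ a : X, Fintype.card (MulAction.fixedBy (ConjClasses K) a) := by
    refine Finset.sum_congr rfl fun a _ => ?_
    rw [← Nat.card_eq_fintype_card, ← Nat.card_eq_fintype_card]
    exact hfix a
  rw [b1, b2] at b3
  rw [Nat.card_eq_fintype_card, Nat.card_eq_fintype_card]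
  exact Nat.eq_of_mul_eq_mul_right Fintype.card_pos b3

theorem good_le (Gd : Set (ConjClasses X))
    (hGd : ∀ C ∈ Gd, ∃ n : X, ConjClasses.mk n = C ∧ n ∈ K) :
    Nat.card Gd ≤ Nat.card (Quotient (@MulAction.orbitRel X (ConjClasses K) _ (actCl K hK))) := by
  letI := actCl K hK
  let g : Quotient (MulAction.orbitRel X (ConjClasses K)) → ConjClasses X :=
    Quotient.lift (ConjClasses.map K.subtype) (by
      intro a b hab
      obtain ⟨x, hx⟩ := hab
      obtain ⟨k, rfl⟩ := ConjClasses.mk_surjective b
      rw [← hx]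
      show ConjClasses.mk (((@MulAut.conjNormal X _ K hK x) k : K) : X) = ConjClasses.mk (k : X)
      apply ConjClasses.mk_eq_mk_iff_isConj.mpr
      exact (isConj_iff.mpr ⟨x, rfl⟩).symm)
  have hsurj : ∀ C : Gd, ∃ q, g q = C.1 := by
    intro C
    obtain ⟨n, hn, hnK⟩ := hGd C.1 C.2
    exact ⟨Quotient.mk _ (ConjClasses.mk ⟨n, hnK⟩), hn⟩
  choose f hf using hsurj
  apply Nat.card_le_card_of_injective f
  intro C C' h
  apply Subtype.ext
  rw [← hf C, ← hf C', h]

theorem orbits_le {M : Ideal AlgInt} (hM : IsPModular p M) (hKp : ¬ p ∣ Nat.card K) :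
    Nat.card (Quotient (@MulAction.orbitRel X (IrrCharacter K) _ (actIrr K hK))) ≤
      Nat.card {B : Set (IrrCharacter X) // IsPBlock M B} := by
  letI := actIrr K hK
  haveI : Fintype K := Fintype.ofFinite K
  have hPr := isPrime_of_modular hM
  have hex : ∀ q : Quotient (MulAction.orbitRel X (IrrCharacter K)), ∃ χ : IrrCharacter X,
      classInner (fun n : K => (χ : X → ℂ) n) (q.out : K → ℂ) ≠ 0 :=
    fun q => Cfsg.Agent.Lib.Helper2_BlockNormal.exists_over K q.out
  choose χ hχ using hex
  apply Nat.card_le_card_of_injective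
    (fun q => (⟨blockOf M (χ q : X → ℂ), χ q, rfl⟩ : {B : Set (IrrCharacter X) // IsPBlock M B}))
  intro q q' h
  have h1 : blockOf M (χ q : X → ℂ) = blockOf M (χ q' : X → ℂ) := congrArg Subtype.val h
  have h2 : SameBlock M (χ q : X → ℂ) (χ q' : X → ℂ) := by
    have : χ q' ∈ blockOf M (χ q : X → ℂ) := by rw [h1]; exact self_mem_blockOf hPr _
    exact this
  have h3 := over_of_sameBlock_pprime K hK hM hKp h2 q.out (hχ q)
  obtain ⟨g, hg⟩ := clifford_conj K hK (χ q').2 q.out.2 q'.out.2 h3 (hχ q')
  rw [← Quotient.out_eq q, ← Quotient.out_eq q']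
  apply Quotient.sound
  refine ⟨g, ?_⟩
  apply Subtype.ext
  show conjFun K hK (q'.out : K → ℂ) g⁻¹ = (q.out : K → ℂ)
  rw [hg, conjFun_mul, mul_inv_cancel, conjFun_one]

end lower

theorem defect_full {M : Ideal AlgInt} (hM : IsPModular p M) (S : Sylow p X)
    (hS : (S : Subgroup X).Normal) {B : Set (IrrCharacter X)} (hB : IsPBlock M B) :
    blockDefect p B = (Nat.card X).factorization p ∧ IsDefectGroup p M B (S : Subgroup X) := by
  have hpp : p.Prime := hp.out
  have hPr := isPrime_of_modular hM
  obtain ⟨D, hD⟩ := exists_defectGroup (p := p) hPr hB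
  have h1 := normal_pGroup_le_defect hM hB hD (S : Subgroup X) hS S.2
  have h2 := card_defectGroup hM hB hD
  have h3 : Nat.card (S : Subgroup X) = p ^ (Nat.card X).factorization p :=
    S.card_eq_multiplicity
  have h4 : Nat.card (S : Subgroup X) ≤ Nat.card D :=
    Nat.card_le_card_of_injective _ (Subgroup.inclusion_injective h1)
  rw [h2, h3] at h4
  have h5 : (Nat.card X).factorization p ≤ blockDefect p B :=
    (Nat.pow_le_pow_iff_right hpp.one_lt).mp h4
  have h6 : blockDefect p B ≤ (Nat.card X).factorization p := Nat.sub_le _ _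
  have h7 := le_antisymm h6 h5
  refine ⟨h7, ?_⟩
  have h8 : (S : Subgroup X) = D := by
    apply Subgroup.eq_of_le_of_card_ge h1
    rw [h2, h3, h7]
  rw [h8]; exact hD

theorem le_centralizer_of_full (S : Sylow p X) (hS : (S : Subgroup X).Normal) (n : X)
    (h : (Nat.card (Subgroup.centralizer ({n} : Set X))).factorization p =
      (Nat.card X).factorization p) : n ∈ Subgroup.centralizer ((S : Subgroup X) : Set X) := by
  obtain ⟨Q⟩ : Nonempty (Sylow p (Subgroup.centralizer ({n} : Set X))) := inferInstance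
  set Q' := (Q : Subgroup (Subgroup.centralizer ({n} : Set X))).map
    (Subgroup.centralizer ({n} : Set X)).subtype with hQ'
  have hQp : IsPGroup p Q' := Q.2.map _
  obtain ⟨S', hS'⟩ := hQp.exists_le_sylow
  haveI := Sylow.unique_of_normal S hS
  have hSS : S' = S := Subsingleton.elim _ _
  rw [hSS] at hS'
  have hc : Nat.card Q' = p ^ (Nat.card X).factorization p := by
    rw [hQ', Subgroup.card_map_of_injective (Subgroup.subtype_injective _),
      Q.card_eq_multiplicity, h]
  have heq : Q' = (S : Subgroup X) := by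
    apply Subgroup.eq_of_le_of_card_ge hS'
    rw [hc, S.card_eq_multiplicity]
  rw [Subgroup.mem_centralizer_iff]
  intro s hs
  rw [SetLike.mem_coe, ← heq] at hs
  obtain ⟨c, -, rfl⟩ := hs
  have := c.2
  rw [Subgroup.mem_centralizer_singleton_iff] at this
  exact this

theorem count_normal {M : Ideal AlgInt} (hM : IsPModular p M) (S : Sylow p X)
    (hS : (S : Subgroup X).Normal) :
    Nat.card {B : Set (IrrCharacter X) // IsPBlock M B} =
      Nat.card {C : ConjClasses X // ∀ n : X, ConjClasses.mk n = C →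
        ¬ p ∣ orderOf n ∧ n ∈ Subgroup.centralizer ((S : Subgroup X) : Set X)} := by
  apply le_antisymm
  · have h1 := Cfsg.Agent.S4505.result (G := X) p M hM ((Nat.card X).factorization p)
    have h2 : Nat.card {B : Set (IrrCharacter X) // IsPBlock M B} =
        Nat.card {B : Set (IrrCharacter X) // IsPBlock M B ∧
          blockDefect p B = (Nat.card X).factorization p} :=
      Nat.card_congr (Equiv.subtypeEquivRight fun B =>
        ⟨fun h => ⟨h, (defect_full hM S hS h).1⟩, fun h => h.1⟩)
    rw [h2]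
    refine h1.trans ?_
    apply Nat.card_le_card_of_injective
      (fun C : {C : ConjClasses X // ∃ g : X, ConjClasses.mk g = C ∧ ¬ p ∣ orderOf g ∧
          (Nat.card (Subgroup.centralizer ({g} : Set X))).factorization p =
            (Nat.card X).factorization p} =>
        (⟨C.1, by
          obtain ⟨g, hg, hgp, hgc⟩ := C.2
          intro n hn
          have hconj : IsConj g n := ConjClasses.mk_eq_mk_iff_isConj.mp (hg.trans hn.symm)
          obtain ⟨c, rfl⟩ := isConj_iff.mp hconj
          refine ⟨by rw [orderOf_conj'']; exact hgp, ?_⟩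
          have h3 := le_centralizer_of_full S hS g hgc
          rw [Subgroup.mem_centralizer_iff] at h3 ⊢
          intro s hs
          have h4 : c⁻¹ * s * c ∈ (S : Subgroup X) := by
            have := hS.conj_mem s hs c⁻¹
            simpa using this
          have h5 := h3 _ h4
          calc s * (c * g * c⁻¹) = c * ((c⁻¹ * s * c) * g) * c⁻¹ := by group
            _ = c * (g * (c⁻¹ * s * c)) * c⁻¹ := by rw [h5]
            _ = c * g * c⁻¹ * s := by group⟩ :
        {C : ConjClasses X // ∀ n : X, ConjClasses.mk n = C →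
          ¬ p ∣ orderOf n ∧ n ∈ Subgroup.centralizer ((S : Subgroup X) : Set X)}))
    intro C C' h
    apply Subtype.ext
    have h' := congrArg (fun z => z.1) h
    exact h'
  · obtain ⟨K, hK, hKp, hmem⟩ := exists_K S hS
    have h1 := good_le K hK {C : ConjClasses X | ∀ n : X, ConjClasses.mk n = C →
        ¬ p ∣ orderOf n ∧ n ∈ Subgroup.centralizer ((S : Subgroup X) : Set X)} (by
      intro C hC
      obtain ⟨n, rfl⟩ := ConjClasses.mk_surjective C
      have := hC n rfl
      exact ⟨n, rfl, (hmem n).mpr ⟨this.2, this.1⟩⟩)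
    rw [← orbits_eq K hK] at h1
    exact h1.trans (orbits_le K hK hM hKp)

theorem main {G : Type u} [Group G] [Finite G] {M : Ideal AlgInt} (hM : IsPModular p M)
    (P : Sylow p G) :
    Nat.card {B : Set (IrrCharacter G) //
        IsPBlock M B ∧ IsDefectGroup p M B (P : Subgroup G)} =
      Nat.card {C : ConjClasses (Subgroup.normalizer ((P : Subgroup G) : Set G)) //
        ∀ n : Subgroup.normalizer ((P : Subgroup G) : Set G), ConjClasses.mk n = C →
          ¬ p ∣ orderOf n ∧ (n : G) ∈ Subgroup.centralizer ((P : Subgroup G) : Set G)} := by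
  have hPr := isPrime_of_modular hM
  haveI : Fintype (Subgroup.normalizer ((P : Subgroup G) : Set G)) := Fintype.ofFinite _
  obtain ⟨h1, h2⟩ := Cfsg.Agent.S0920.result p M hM (P : Subgroup G) P.2
  have hle : (P : Subgroup G) ≤ Subgroup.normalizer ((P : Subgroup G) : Set G) :=
    Subgroup.le_normalizer
  let S : Sylow p (Subgroup.normalizer ((P : Subgroup G) : Set G)) := P.subtype hle
  have hSc : (S : Subgroup (Subgroup.normalizer ((P : Subgroup G) : Set G))) =
      (P : Subgroup G).subgroupOf (Subgroup.normalizer ((P : Subgroup G) : Set G)) := rfl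
  have hSn : (S : Subgroup (Subgroup.normalizer ((P : Subgroup G) : Set G))).Normal := by
    rw [hSc]; exact Subgroup.normal_in_normalizer
  have e1 : Nat.card {B : Set (IrrCharacter G) //
        IsPBlock M B ∧ IsDefectGroup p M B (P : Subgroup G)} =
      Nat.card {b : Set (IrrCharacter (Subgroup.normalizer ((P : Subgroup G) : Set G))) //
        IsPBlock M b ∧ IsDefectGroup p M b
          ((P : Subgroup G).subgroupOf (Subgroup.normalizer ((P : Subgroup G) : Set G)))} := by
    apply Nat.card_congr
    refine Equiv.ofBijective (fun B => ⟨(h2 B.1 B.2.1 B.2.2).choose,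
      (h2 B.1 B.2.1 B.2.2).choose_spec.1.1, (h2 B.1 B.2.1 B.2.2).choose_spec.1.2.1⟩) ⟨?_, ?_⟩
    · intro B B' h
      have hb := (h2 B.1 B.2.1 B.2.2).choose_spec.1.2.2
      have hb' := (h2 B'.1 B'.2.1 B'.2.2).choose_spec.1.2.2
      have heq : (h2 B.1 B.2.1 B.2.2).choose = (h2 B'.1 B'.2.1 B'.2.2).choose :=
        congrArg (fun z => z.1) h
      rw [heq] at hb
      exact Subtype.ext (induced_unique hPr hb hb')
    · intro b
      obtain ⟨B, hB, hBD, hind⟩ := h1 b.1 b.2.1 b.2.2
      refine ⟨⟨B, hB, hBD⟩, ?_⟩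
      apply Subtype.ext
      exact ((h2 B hB hBD).choose_spec.2 b.1 ⟨b.2.1, b.2.2, hind⟩).symm
  have e2 : Nat.card {b : Set (IrrCharacter (Subgroup.normalizer ((P : Subgroup G) : Set G))) //
        IsPBlock M b ∧ IsDefectGroup p M b
          ((P : Subgroup G).subgroupOf (Subgroup.normalizer ((P : Subgroup G) : Set G)))} =
      Nat.card {b : Set (IrrCharacter (Subgroup.normalizer ((P : Subgroup G) : Set G))) //
        IsPBlock M b} :=
    Nat.card_congr (Equiv.subtypeEquivRight fun b => ⟨fun h => h.1, fun h => ⟨h, by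
      have := (defect_full hM S hSn h).2
      rwa [hSc] at this⟩⟩)
  rw [e1, e2, count_normal hM S hSn]
  apply Nat.card_congr
  apply Equiv.subtypeEquivRight
  intro C
  refine forall_congr' fun n => imp_congr_right fun _ => and_congr_right fun _ => ?_
  rw [Subgroup.mem_centralizer_iff, Subgroup.mem_centralizer_iff]
  constructor
  · intro h s hs
    have h3 := h ⟨s, hle hs⟩ (by
      rw [SetLike.mem_coe, hSc, Subgroup.mem_subgroupOf]
      exact hs)
    exact congrArg Subtype.val h3
  · intro h s hs
    apply Subtype.ext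
    rw [SetLike.mem_coe, hSc, Subgroup.mem_subgroupOf] at hs
    exact h s.1 hs

end Cfsg.Agent.Lib.FullDefCount
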