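import Mathlib
import Cfsg.Prelude.Def_Blocks
import Cfsg.Agent.Lib.GlaubCount

set_option autoImplicit false
set_option linter.unusedSectionVars false
set_option linter.style.haveILetI false

/-! Coprime solvable actions: the number of invariant irreducible characters equals the number of
irreducible characters of the fixed point subgroup. -/

namespace Cfsg.Agent.Lib.GlaubCount2

open Cfsg Cfsg.Agent.Lib.Helper2_BP2 Cfsg.Agent.Lib.GlaubP Cfsg.Agent.Lib.GlaubCount
open scoped ComplexConjugate Classical

universe u

theorem count2_aux : ∀ (n : ℕ) (G : Type u) [Group G] [Finite G] (A : Type u) [Group A] [Finite A]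
    [Group.IsSolvable A] (φ : A →* MulAut G), Nat.card A ≤ n →
    (Nat.card G).Coprime (Nat.card A) →
    Nat.card {χ : IrrCharacter G // Inv φ (χ : G → ℂ)} =
      Nat.card (IrrCharacter (fixSub φ ⊤)) := by
  intro n
  induction n with
  | zero =>
    intro G _ _ A _ _ _ φ hA
    have := Nat.card_pos (α := A)
    omega
  | succ n ih =>
    intro G _ _ A _ _ _ φ hA hcop
    by_cases hnt : Nontrivial A
    · obtain ⟨p, T, hp, hTn, hTbot, -, hpow, -⟩ :=
        Cfsg.Agent.Lib.Helper1_MinNormal.exists_normal_elementary_abelian (G := A)
      haveI := hTn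
      haveI : Fact p.Prime := ⟨hp⟩
      have hT : IsPGroup p T := fun x => ⟨1, by rw [pow_one]; exact Subtype.ext (hpow x x.2)⟩
      have hpT : p ∣ Nat.card T := by
        obtain ⟨k, hk⟩ := IsPGroup.iff_card.mp hT
        rw [hk]
        refine dvd_pow_self p ?_
        rintro rfl
        rw [pow_zero] at hk
        exact hTbot (Subgroup.card_eq_one.mp hk)
      have hpG : ¬ p ∣ Nat.card G := by
        intro h1
        have h2 := Nat.dvd_gcd h1 (hpT.trans (Subgroup.card_subgroup_dvd_card T))
        rw [hcop] at h2
        exact hp.one_lt.ne' (Nat.dvd_one.mp h2)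
      rw [card_inv_char hp φ T hT hpG]
      have hker : ∀ t ∈ T, resHom φ T t = 1 := by
        intro t ht
        ext d
        exact d.2 t ht
      have e1 : ∀ b : fixSub φ T → ℂ,
          Inv (QuotientGroup.lift T (resHom φ T) hker) b ↔ Inv (resHom φ T) b := by
        intro b
        constructor
        · intro h a d
          exact h (a : A ⧸ T) d
        · intro h a d
          obtain ⟨a, rfl⟩ := QuotientGroup.mk_surjective a
          exact h a d
      have hcard : Nat.card (A ⧸ T) ≤ n := by
        have h1 := T.card_mul_index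
        have h2 : 2 ≤ Nat.card T := le_trans hp.two_le (Nat.le_of_dvd Nat.card_pos hpT)
        have h3 : Nat.card (A ⧸ T) = T.index := rfl
        have h4 : 0 < T.index := Nat.pos_of_ne_zero T.index_ne_zero_of_finite
        rw [h3]
        nlinarith
      have hcop' : (Nat.card (fixSub φ T)).Coprime (Nat.card (A ⧸ T)) :=
        Nat.Coprime.coprime_dvd_left (Subgroup.card_subgroup_dvd_card _)
          (Nat.Coprime.coprime_dvd_right (Subgroup.index_dvd_card T) hcop)
      have := ih (fixSub φ T) (A ⧸ T) (QuotientGroup.lift T (resHom φ T) hker) hcard hcop'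
      simp only [e1] at this
      rw [this]
      refine Nat.card_congr (mapIrr
        { toFun := fun x => ⟨x.1.1, fun a _ =>
            congrArg Subtype.val (x.2 (a : A ⧸ T) (Subgroup.mem_top _))⟩
          invFun := fun y => ⟨⟨y.1, fun t _ => y.2 t (Subgroup.mem_top _)⟩, fun a' _ => by
            obtain ⟨a, rfl⟩ := QuotientGroup.mk_surjective a'
            exact Subtype.ext (y.2 a (Subgroup.mem_top _))⟩
          left_inv := fun x => rfl
          right_inv := fun y => rfl
          map_mul' := fun _ _ => rfl })
    · rw [not_nontrivial_iff_subsingleton] at hnt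
      have h1 : ∀ a : A, φ a = 1 := fun a => by rw [Subsingleton.elim a 1, map_one]
      rw [Nat.card_congr (Equiv.subtypeUnivEquiv (fun χ : IrrCharacter G => by
          intro a g; rw [h1 a, MulAut.one_apply]))]
      have h2 : fixSub φ ⊤ = ⊤ := by
        rw [eq_top_iff]
        intro g _ a _
        rw [h1 a, MulAut.one_apply]
      exact (Nat.card_congr (mapIrr ((MulEquiv.subgroupCongr h2).trans Subgroup.topEquiv))).symm

/-- **Glauberman count.** -/
theorem count2 (G : Type u) [Group G] [Finite G] (A : Type u) [Group A] [Finite A]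
    [Group.IsSolvable A] (φ : A →* MulAut G) (hcop : (Nat.card G).Coprime (Nat.card A)) :
    Nat.card {χ : IrrCharacter G // Inv φ (χ : G → ℂ)} =
      Nat.card (IrrCharacter (fixSub φ ⊤)) :=
  count2_aux _ G A φ le_rfl hcop

end Cfsg.Agent.Lib.GlaubCount2
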