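import Mathlib
import Cfsg.Prelude.Def_Blocks
import Cfsg.Agent.Lib.CharDet
import Cfsg.Agent.Lib.CharCopDeg
import Cfsg.Agent.Lib.CharPow2
import Cfsg.Agent.Lib.CharGalois
import Cfsg.Agent.Lib.Helper1_SZ
import Cfsg.Agent.Lib.Helper3_CharGen
import Cfsg.Agent.Lib.CharGen
import Cfsg.Agent.Lib.CharKer

set_option autoImplicit false
set_option linter.unusedSectionVars false
set_option linter.style.haveILetI false

/-! Canonical extensions for coprime cyclic actions (Isaacs 13.6). -/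

namespace Cfsg.Agent.Lib.GlaubCyc

open Cfsg Cfsg.Agent.Lib.CharBasic Cfsg.Agent.Lib.CharOrtho
  Cfsg.Agent.Lib.CharComplete Cfsg.Agent.Lib.CharIntegral Cfsg.Agent.Lib.CharMore
  Cfsg.Agent.Lib.CharInd Cfsg.Agent.Lib.CharClifford Cfsg.Agent.Lib.CharGallagher
  Cfsg.Agent.Lib.CharCover Cfsg.Agent.Lib.CharLinExt Cfsg.Agent.Lib.CharLinear
  Cfsg.Agent.Lib.CharDet Cfsg.Agent.Lib.CharPow Cfsg.Agent.Lib.CharPow2
  Cfsg.Agent.Lib.CharCopDeg Cfsg.Agent.Lib.CharGalois
open scoped ComplexConjugate Classical Pointwise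

universe u

theorem detChar_powFun {X : Type u} [Group X] [Fintype X] {χ : X → ℂ} (hχ : IsCharacter X χ)
    {k : ℕ} (hk : k.Coprime (Nat.card X)) (g : X) :
    detChar (powFun χ k) g = detChar χ (g ^ k) := by
  have hp := isCharacter_powFun hχ hk
  obtain ⟨m, ρ, rfl⟩ := hχ
  let ψ : Subgroup.zpowers g →* X :=
    { toFun := fun z => (z : X) ^ k
      map_one' := by simp
      map_mul' := fun a b => by
        have : Commute (a : X) (b : X) := by
          obtain ⟨i, hi⟩ := Subgroup.mem_zpowers_iff.1 a.2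
          obtain ⟨j, hj⟩ := Subgroup.mem_zpowers_iff.1 b.2
          rw [← hi, ← hj]
          exact (Commute.refl g).zpow_zpow i j
        simpa using this.mul_pow k }
  let σ : Representation ℂ (Subgroup.zpowers g) (Fin m → ℂ) := ρ.comp ψ
  have h1 : (fun z : Subgroup.zpowers g => powFun ρ.character k z) = σ.character := rfl
  have h2 := detChar_restrict (Subgroup.zpowers g) hp ⟨g, Subgroup.mem_zpowers g⟩
  rw [← h2, h1, detChar_apply, detChar_apply]
  rfl

variable {Γ : Type u} [Group Γ] [Fintype Γ]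

theorem powFun_canonical (G : Subgroup Γ) (hG : G.Normal) {χh : Γ → ℂ}
    (hχh : IsIrrCharacter Γ χh) (hres : IsIrrCharacter G (fun g : G => χh g))
    (hcop : (Nat.card G).Coprime G.index) (hdet : (detOrder χh).Coprime G.index) {k : ℕ}
    (hk : k.Coprime (Nat.card Γ)) (hk1 : k ≡ 1 [MOD Nat.card G]) : powFun χh k = χh := by
  obtain ⟨d, hd0, hd, hdvd⟩ := irr_degree hres
  have hc := isCharacter_of_isIrr hχh
  obtain ⟨χ, -, huniq⟩ := exists_ext_coprime G hG hres
    (invariant_of_extends G hG (isClassFunction_of_isCharacter hc)) hd (by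
    apply Nat.Coprime.symm
    exact Nat.Coprime.mul_left
      (Nat.Coprime.coprime_dvd_left (detOrder_dvd_card (isCharacter_of_isIrr hres)) hcop)
      (Nat.Coprime.coprime_dvd_left hdvd hcop))
  refine (huniq _ (isIrr_powFun hχh hk) ?_ ?_).trans (huniq χh hχh (fun _ => rfl) hdet.symm).symm
  · intro n
    rw [powFun_apply]
    have h1 : (n : Γ) ^ k = n := by
      have h2 : k ≡ 1 [MOD orderOf (n : Γ)] := by
        apply hk1.of_dvd
        rw [Subgroup.orderOf_coe]
        exact orderOf_dvd_natCard n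
      have := (pow_eq_pow_iff_modEq (x := (n : Γ))).2 h2
      rwa [pow_one] at this
    rw [h1]
  · obtain ⟨δ, hδ⟩ := exists_detHom hc
    have h1 : detChar (powFun χh k) = (detChar χh) ^ k := by
      ext g
      rw [detChar_powFun hc hk, hδ]
      simp
    unfold detOrder at hdet ⊢
    rw [h1]
    apply Nat.Coprime.symm
    exact Nat.Coprime.coprime_dvd_left (orderOf_pow_dvd k) hdet

theorem value_pow (G : Subgroup Γ) (hG : G.Normal) {χh : Γ → ℂ}
    (hχh : IsIrrCharacter Γ χh) (hres : IsIrrCharacter G (fun g : G => χh g))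
    (hcop : (Nat.card G).Coprime G.index) (hdet : (detOrder χh).Coprime G.index)
    {c s : Γ} (hc : c ∈ G) (hcs : Commute c s) (hs : s ^ G.index = 1) {j : ℕ}
    (hj : j.Coprime G.index) : χh (c * s ^ j) = χh (c * s) := by
  obtain ⟨k, hk1, hk2⟩ := Nat.chineseRemainder hcop 1 j
  have hkG : k.Coprime (Nat.card G) := by
    have := hk1.gcd_eq
    rw [Nat.gcd_one_left] at this
    exact this
  have hkn : k.Coprime G.index := by
    have := hk2.gcd_eq
    rw [hj] at this
    exact this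
  have hk : k.Coprime (Nat.card Γ) := by
    rw [← G.card_mul_index]
    exact Nat.Coprime.mul_right hkG hkn
  have h1 := congrFun (powFun_canonical G hG hχh hres hcop hdet hk hk1) (c * s)
  rw [powFun_apply, hcs.mul_pow] at h1
  have h2 : c ^ k = c := by
    have h2 : k ≡ 1 [MOD orderOf c] := by
      apply hk1.of_dvd
      have : orderOf (⟨c, hc⟩ : G) = orderOf c := Subgroup.orderOf_mk c hc
      rw [← this]
      exact orderOf_dvd_natCard _
    have := (pow_eq_pow_iff_modEq (x := c)).2 h2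
    rwa [pow_one] at this
  have h3 : s ^ k = s ^ j :=
    (pow_eq_pow_iff_modEq (x := s)).2 (hk2.of_dvd (orderOf_dvd_of_pow_eq_one hs))
  rw [h2, h3] at h1
  exact h1

/-- the configuration of Isaacs 13.6 -/
structure Cfg (G S C : Subgroup Γ) (s : Γ) : Prop where
  normal : G.Normal
  cop : (Nat.card G).Coprime (Nat.card S)
  top : G ⊔ S = ⊤
  gen : Subgroup.zpowers s = S
  hC : C = G ⊓ Subgroup.centralizer (S : Set Γ)

namespace Cfg

variable {G S C : Subgroup Γ} {s : Γ}

theorem disj (h : Cfg G S C s) : Disjoint S G :=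
  (Subgroup.disjoint_of_coprime_natCard h.cop).symm

theorem index_eq (h : Cfg G S C s) : G.index = Nat.card S := by
  haveI := h.normal
  rw [← Subgroup.relIndex_top_right, ← h.top, sup_comm]
  exact Cfsg.Agent.Lib.Helper1_SZ.relIndex_sup_eq_card_of_disjoint h.disj

theorem cop' (h : Cfg G S C s) : (Nat.card G).Coprime G.index := by
  rw [h.index_eq]; exact h.cop

theorem s_mem (h : Cfg G S C s) : s ∈ S := by
  rw [← h.gen]; exact Subgroup.mem_zpowers s

theorem orderOf_s (h : Cfg G S C s) : orderOf s = G.index := by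
  rw [h.index_eq, ← h.gen, Nat.card_zpowers]

theorem s_pow (h : Cfg G S C s) : s ^ G.index = 1 := by
  rw [← h.orderOf_s]; exact pow_orderOf_eq_one s

theorem mem_C (h : Cfg G S C s) {c : Γ} : c ∈ C ↔ c ∈ G ∧ Commute c s := by
  rw [h.hC, Subgroup.mem_inf, ← h.gen, Subgroup.zpowers_eq_closure, Subgroup.centralizer_closure,
    Subgroup.mem_centralizer_singleton_iff]
  rfl

theorem eq_of_mk_eq (h : Cfg G S C s) {t : Γ} (ht : t ∈ S) (hts : s⁻¹ * t ∈ G) : t = s := by
  have h1 : s⁻¹ * t ∈ S ⊓ G := ⟨S.mul_mem (S.inv_mem h.s_mem) ht, hts⟩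
  rw [disjoint_iff.1 h.disj, Subgroup.mem_bot] at h1
  exact (inv_mul_eq_one.1 h1).symm

theorem exists_conj (h : Cfg G S C s) {y : Γ} (hy : y ∈ G) :
    ∃ g ∈ G, g⁻¹ * (y * s) * g * s⁻¹ ∈ C := by
  haveI := h.normal
  obtain ⟨k, hk0, hk1⟩ := Nat.chineseRemainder h.cop' 0 1
  set x := y * s with hx
  set z := x ^ k with hz
  have hsk : s ^ k = s := by
    have h1 : k ≡ 1 [MOD orderOf s] := by rw [h.orderOf_s]; exact hk1
    have := (pow_eq_pow_iff_modEq (x := s)).2 h1
    rwa [pow_one] at this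
  have hmkx : (QuotientGroup.mk x : Γ ⧸ G) = QuotientGroup.mk s := by
    rw [hx, QuotientGroup.mk_mul, (QuotientGroup.eq_one_iff y).2 hy, one_mul]
  have hmkz : (QuotientGroup.mk z : Γ ⧸ G) = QuotientGroup.mk s := by
    rw [hz, QuotientGroup.mk_pow, hmkx, ← QuotientGroup.mk_pow, hsk]
  have hzn : z ^ G.index = 1 := by
    obtain ⟨m, hm⟩ := (Nat.modEq_zero_iff_dvd.1 hk0)
    rw [hz, ← pow_mul, hm, mul_right_comm, G.card_mul_index, pow_mul, pow_card_eq_one', one_pow]
  have hoz : orderOf z = G.index := by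
    apply Nat.dvd_antisymm (orderOf_dvd_of_pow_eq_one hzn)
    rw [← h.orderOf_s]
    apply orderOf_dvd_of_pow_eq_one
    have h1 : (QuotientGroup.mk (s ^ orderOf z) : Γ ⧸ G) = 1 := by
      rw [QuotientGroup.mk_pow, ← hmkz, ← QuotientGroup.mk_pow, pow_orderOf_eq_one]
      rfl
    have h2 : s ^ orderOf z ∈ S ⊓ G :=
      ⟨S.pow_mem h.s_mem _, (QuotientGroup.eq_one_iff _).1 h1⟩
    rwa [disjoint_iff.1 h.disj, Subgroup.mem_bot] at h2
  have hsolv : Group.IsSolvable S := by
    apply Group.isSolvable_of_comm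
    intro a b
    apply Subtype.ext
    have ha : (a : Γ) ∈ Subgroup.zpowers s := by rw [h.gen]; exact a.2
    have hb : (b : Γ) ∈ Subgroup.zpowers s := by rw [h.gen]; exact b.2
    obtain ⟨i, hi⟩ := Subgroup.mem_zpowers_iff.1 ha
    obtain ⟨j, hj⟩ := Subgroup.mem_zpowers_iff.1 hb
    show (a : Γ) * b = b * a
    rw [← hi, ← hj]
    exact ((Commute.refl s).zpow_zpow i j).eq
  obtain ⟨x0, hx0, hconj⟩ := Cfsg.Agent.Lib.Helper1_SZ.SZ_rel_conj (N := G) (L := ⊤) (X := S)
    (Y := Subgroup.zpowers z) le_top (by rw [Subgroup.normalizer_eq_top])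
    (by rw [Subgroup.relIndex_top_right]; exact h.cop') (Or.inr hsolv) le_top le_top
    (by rw [Subgroup.relIndex_top_right, h.index_eq])
    (by rw [Subgroup.relIndex_top_right, Nat.card_zpowers, hoz])
  have hzmem : z ∈ MulAut.conj x0 • S := by rw [hconj]; exact Subgroup.mem_zpowers z
  rw [Subgroup.mem_pointwise_smul_iff_inv_smul_mem] at hzmem
  have ht : x0⁻¹ * z * x0 ∈ S := by simpa [MulAut.smul_def] using hzmem
  have hts : x0⁻¹ * z * x0 = s := by
    apply h.eq_of_mk_eq ht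
    rw [← QuotientGroup.eq, QuotientGroup.mk_mul, QuotientGroup.mk_mul, hmkz,
      QuotientGroup.mk_inv, (QuotientGroup.eq_one_iff x0).2 hx0]
    simp
  refine ⟨x0, hx0, ?_⟩
  set x' := x0⁻¹ * x * x0 with hx'
  have hx'k : x' ^ k = s := by
    rw [hx', ← hts, hz]
    have : x0⁻¹ * x * x0 = MulAut.conj x0⁻¹ x := by simp
    rw [this, ← map_pow]
    simp
  have hcomm : Commute x' s := by
    rw [← hx'k]; exact (Commute.refl x').pow_right k
  rw [h.mem_C]
  constructor
  · rw [← QuotientGroup.eq_one_iff, QuotientGroup.mk_mul, hx', QuotientGroup.mk_mul,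
      QuotientGroup.mk_mul, hmkx, QuotientGroup.mk_inv, (QuotientGroup.eq_one_iff x0).2 hx0,
      QuotientGroup.mk_inv]
    simp
  · exact hcomm.mul_left (Commute.refl s).inv_left

theorem C_le (h : Cfg G S C s) : C ≤ G := fun _ hc => (h.mem_C.1 hc).1

theorem exists_k (h : Cfg G S C s) : ∃ k : ℕ, ∀ c ∈ C, (c * s) ^ k = s := by
  obtain ⟨k, hk0, hk1⟩ := Nat.chineseRemainder h.cop' 0 1
  refine ⟨k, fun c hc => ?_⟩
  obtain ⟨hcG, hcs⟩ := h.mem_C.1 hc
  have hsk : s ^ k = s := by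
    have h1 : k ≡ 1 [MOD orderOf s] := by rw [h.orderOf_s]; exact hk1
    have := (pow_eq_pow_iff_modEq (x := s)).2 h1
    rwa [pow_one] at this
  have hck : c ^ k = 1 := by
    obtain ⟨m, hm⟩ := (Nat.modEq_zero_iff_dvd.1 hk0)
    have h1 : c ^ Nat.card G = 1 := by
      have := pow_card_eq_one' (x := (⟨c, hcG⟩ : G))
      exact congrArg Subtype.val this
    rw [hm, pow_mul, h1, one_pow]
  rw [hcs.mul_pow, hck, hsk, one_mul]

theorem card_fiber (h : Cfg G S C s) [Fintype G] {y : Γ} (hy : y ∈ G) :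
    (Finset.univ.filter fun g : G => (g : Γ)⁻¹ * (y * s) * g * s⁻¹ ∈ C).card = Nat.card C := by
  haveI : Fintype C := Fintype.ofFinite C
  obtain ⟨g0, hg0, hc0⟩ := h.exists_conj hy
  obtain ⟨k, hk⟩ := h.exists_k
  rw [Nat.card_eq_fintype_card, ← Finset.card_univ]
  symm
  apply Finset.card_bij (fun (c : C) _ => (⟨g0 * c, G.mul_mem hg0 (h.C_le c.2)⟩ : G))
  · intro c _
    rw [Finset.mem_filter]
    refine ⟨Finset.mem_univ _, ?_⟩
    have hcs := (h.mem_C.1 c.2).2
    have e : ((g0 * (c : Γ))⁻¹ * (y * s) * (g0 * c) * s⁻¹) =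
        (c : Γ)⁻¹ * (g0⁻¹ * (y * s) * g0 * s⁻¹) * (s * c * s⁻¹) := by group
    show ((g0 * (c : Γ))⁻¹ * (y * s) * (g0 * c) * s⁻¹) ∈ C
    rw [e, ← hcs.eq, mul_inv_cancel_right]
    exact C.mul_mem (C.mul_mem (C.inv_mem c.2) hc0) c.2
  · intro c _ c' _ hcc
    have := congrArg Subtype.val hcc
    simp only [mul_right_inj] at this
    exact Subtype.ext this
  · intro g hg
    rw [Finset.mem_filter] at hg
    have hc1 := hg.2
    set c0 := g0⁻¹ * (y * s) * g0 * s⁻¹ with hc0d
    set c1 := (g : Γ)⁻¹ * (y * s) * g * s⁻¹ with hc1d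
    set hh := g0⁻¹ * (g : Γ) with hhd
    have e1 : hh⁻¹ * (c0 * s) * hh = c1 * s := by
      rw [hhd, hc0d, hc1d]; group
    have e2 : hh⁻¹ * s * hh = s := by
      have h1 : (hh⁻¹ * (c0 * s) * hh) ^ k = hh⁻¹ * (c0 * s) ^ k * hh := by
        have : ∀ w : Γ, hh⁻¹ * w * hh = MulAut.conj hh⁻¹ w := by intro w; simp
        rw [this, this, map_pow]
      rw [e1, hk c1 hc1, hk c0 hc0] at h1
      exact h1.symm
    have hhC : hh ∈ C := by
      rw [h.mem_C]
      refine ⟨G.mul_mem (G.inv_mem hg0) g.2, ?_⟩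
      show hh * s = s * hh
      calc hh * s = hh * (hh⁻¹ * s * hh) := by rw [e2]
        _ = s * hh := by group
    refine ⟨⟨hh, hhC⟩, Finset.mem_univ _, ?_⟩
    apply Subtype.ext
    show g0 * hh = g
    rw [hhd]; group

theorem coset_sum (h : Cfg G S C s) [Fintype G] [Fintype C] {F : Γ → ℂ}
    (hF : IsClassFunction Γ F) :
    (Nat.card C : ℂ) * ∑ y : G, F (y * s) = (Nat.card G : ℂ) * ∑ c : C, F (c * s) := by
  have hN := h.normal
  have h1 : ∑ y : G, ∑ g : G, (if (g : Γ)⁻¹ * (y * s) * g * s⁻¹ ∈ C then F (y * s) else 0) =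
      (Nat.card C : ℂ) * ∑ y : G, F (y * s) := by
    rw [Finset.mul_sum]
    apply Finset.sum_congr rfl
    intro y _
    rw [← Finset.sum_filter, Finset.sum_const, h.card_fiber y.2, nsmul_eq_mul]
  have h2 : ∀ g : G, ∑ y : G, (if (g : Γ)⁻¹ * (y * s) * g * s⁻¹ ∈ C then F (y * s) else 0) =
      ∑ c : C, F (c * s) := by
    intro g
    let a : G := ⟨s * g * s⁻¹, hN.conj_mem g g.2 s⟩
    let e : G ≃ G := (Equiv.mulLeft g⁻¹).trans (Equiv.mulRight a)
    have he : ∀ y : G, ((e y : G) : Γ) = (g : Γ)⁻¹ * (y * s) * g * s⁻¹ := by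
      intro y
      show (g : Γ)⁻¹ * y * (s * g * s⁻¹) = _
      group
    have h3 : ∑ y : G, (if (g : Γ)⁻¹ * (y * s) * g * s⁻¹ ∈ C then F (y * s) else 0) =
        ∑ y : G, (if ((e y : G) : Γ) ∈ C then F ((e y : G) * s) else 0) := by
      apply Finset.sum_congr rfl
      intro y _
      rw [he y]
      have : (g : Γ)⁻¹ * (y * s) * g * s⁻¹ * s = (g : Γ)⁻¹ * (y * s) * ((g : Γ)⁻¹)⁻¹ := by group
      rw [this, hF]
    rw [h3, Equiv.sum_comp e (fun y' : G => if (y' : Γ) ∈ C then F (y' * s) else 0),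
      ← Finset.sum_filter]
    symm
    apply Finset.sum_bij (fun (c : C) _ => (⟨c, h.C_le c.2⟩ : G))
    · intro c _
      rw [Finset.mem_filter]
      exact ⟨Finset.mem_univ _, c.2⟩
    · intro c _ c' _ hcc
      have : (c : Γ) = c' := congrArg (fun w : G => (w : Γ)) hcc
      exact Subtype.ext this
    · intro y hy
      rw [Finset.mem_filter] at hy
      exact ⟨⟨y, hy.2⟩, Finset.mem_univ _, rfl⟩
    · intro c _
      rfl
  rw [← h1, Finset.sum_comm, Finset.sum_congr rfl (fun g _ => h2 g), Finset.sum_const,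
    Finset.card_univ, nsmul_eq_mul, Nat.card_eq_fintype_card]

theorem quot_comm [G.Normal] (h : Cfg G S C s) (a b : Γ ⧸ G) : a * b = b * a := by
  have hgen : ∀ a : Γ ⧸ G, ∃ i : ℤ, a = (QuotientGroup.mk s : Γ ⧸ G) ^ i := by
    intro a
    obtain ⟨x, rfl⟩ := QuotientGroup.mk_surjective a
    have hx : x ∈ G ⊔ S := by rw [h.top]; exact Subgroup.mem_top x
    rw [Subgroup.mem_sup_of_normal_left] at hx
    obtain ⟨g, hg, t, ht, rfl⟩ := hx
    rw [← h.gen] at ht
    obtain ⟨i, rfl⟩ := Subgroup.mem_zpowers_iff.1 ht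
    refine ⟨i, ?_⟩
    rw [QuotientGroup.mk_mul, (QuotientGroup.eq_one_iff g).2 hg, one_mul, QuotientGroup.mk_zpow]
  obtain ⟨i, rfl⟩ := hgen a
  obtain ⟨j, rfl⟩ := hgen b
  exact ((Commute.refl _).zpow_zpow i j).eq

theorem coset_expand [G.Normal] (h : Cfg G S C s) [Fintype G] (Φ : Γ → ℂ) :
    (G.index : ℂ) * ∑ y : G, Φ (y * s) =
      ∑ lam : IrrCharacter (Γ ⧸ G), conj ((lam : Γ ⧸ G → ℂ) (QuotientGroup.mk s)) *
        ∑ x : Γ, (lam : Γ ⧸ G → ℂ) (QuotientGroup.mk x) * Φ x := by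
  have h1 : ∀ x : Γ, ∑ lam : IrrCharacter (Γ ⧸ G), (lam : Γ ⧸ G → ℂ) (QuotientGroup.mk x) *
      conj ((lam : Γ ⧸ G → ℂ) (QuotientGroup.mk s)) =
      if (QuotientGroup.mk x : Γ ⧸ G) = QuotientGroup.mk s then (G.index : ℂ) else 0 := by
    intro x
    rw [second_orthogonality_count]
    have h2 : ∀ w : Γ ⧸ G, w * (QuotientGroup.mk x) * w⁻¹ = QuotientGroup.mk x := by
      intro w
      rw [h.quot_comm w, mul_inv_cancel_right]
    simp only [h2]
    split_ifs with hx
    · rw [Finset.filter_true_of_mem (fun _ _ => hx), Finset.card_univ,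
        ← Nat.card_eq_fintype_card]
      rfl
    · rw [Finset.filter_false_of_mem (fun _ _ => hx)]
      simp
  calc (G.index : ℂ) * ∑ y : G, Φ (y * s)
      = ∑ x : Γ, (if (QuotientGroup.mk x : Γ ⧸ G) = QuotientGroup.mk s then (G.index : ℂ) else 0) *
          Φ x := by
        simp only [ite_mul, zero_mul]
        rw [← Finset.sum_filter, Finset.mul_sum]
        apply Finset.sum_bij (fun (y : G) _ => (y : Γ) * s)
        · intro y _
          rw [Finset.mem_filter]
          refine ⟨Finset.mem_univ _, ?_⟩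
          rw [QuotientGroup.mk_mul, (QuotientGroup.eq_one_iff (y : Γ)).2 y.2, one_mul]
        · intro y _ y' _ hyy
          exact Subtype.ext (mul_right_cancel hyy)
        · intro x hx
          rw [Finset.mem_filter] at hx
          refine ⟨⟨x * s⁻¹, ?_⟩, Finset.mem_univ _, by simp⟩
          rw [← QuotientGroup.eq_one_iff, QuotientGroup.mk_mul, hx.2, QuotientGroup.mk_inv,
            mul_inv_cancel]
        · intro y _
          rfl
    _ = ∑ x : Γ, ∑ lam : IrrCharacter (Γ ⧸ G), conj ((lam : Γ ⧸ G → ℂ) (QuotientGroup.mk s)) *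
          ((lam : Γ ⧸ G → ℂ) (QuotientGroup.mk x) * Φ x) := by
        apply Finset.sum_congr rfl
        intro x _
        rw [← h1 x, Finset.sum_mul]
        apply Finset.sum_congr rfl
        intro lam _
        ring
    _ = _ := by
        rw [Finset.sum_comm]
        apply Finset.sum_congr rfl
        intro lam _
        rw [Finset.mul_sum]

theorem inner_term [hG : G.Normal] (lam : IrrCharacter (Γ ⧸ G)) (χh χh' : Γ → ℂ) :
    ∑ x : Γ, (lam : Γ ⧸ G → ℂ) (QuotientGroup.mk x) * (χh x * conj (χh' x)) =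
      (Nat.card Γ : ℂ) *
        classInner ((fun x : Γ => (lam : Γ ⧸ G → ℂ) (QuotientGroup.mk x)) * χh) χh' := by
  have hΓ : (Nat.card Γ : ℂ) ≠ 0 := by exact_mod_cast Nat.card_pos.ne'
  unfold classInner
  rw [← mul_assoc, mul_inv_cancel₀ hΓ, one_mul]
  apply Finset.sum_congr rfl
  intro x _
  simp only [Pi.mul_apply]
  ring

theorem coset_orth [hG : G.Normal] (h : Cfg G S C s) [Fintype G] {χh χh' : Γ → ℂ}
    (h1 : IsIrrCharacter Γ χh) (h1' : IsIrrCharacter Γ χh')
    (hres : IsIrrCharacter G (fun g : G => χh g)) (hres' : IsIrrCharacter G (fun g : G => χh' g))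
    (hne : (fun g : G => χh g) ≠ fun g : G => χh' g) :
    ∑ y : G, χh (y * s) * conj (χh' (y * s)) = 0 := by
  have h2 := h.coset_expand (fun x => χh x * conj (χh' x))
  have h3 : ∀ lam : IrrCharacter (Γ ⧸ G),
      classInner ((fun x : Γ => (lam : Γ ⧸ G → ℂ) (QuotientGroup.mk x)) * χh) χh' = 0 := by
    intro lam
    have hl := Cfsg.Agent.Lib.CharQuot.isIrr_inflate G lam.2
    have hker : ∀ n ∈ G, (fun x : Γ => (lam : Γ ⧸ G → ℂ) (QuotientGroup.mk x)) n =
        (fun x : Γ => (lam : Γ ⧸ G → ℂ) (QuotientGroup.mk x)) 1 := by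
      intro n hn
      show (lam : Γ ⧸ G → ℂ) (QuotientGroup.mk n) = (lam : Γ ⧸ G → ℂ) (QuotientGroup.mk 1)
      rw [(QuotientGroup.eq_one_iff n).2 hn]; rfl
    apply classInner_irr_ne (gallagher_mul_irr G hG h1 hres hl hker) h1'
    intro heq
    have h4 : (fun g : G => χh' g) = ((lam : Γ ⧸ G → ℂ) 1) • (fun g : G => χh g) := by
      ext g
      rw [← heq]
      simp only [Pi.mul_apply, Pi.smul_apply, smul_eq_mul]
      rw [(QuotientGroup.eq_one_iff (g : Γ)).2 g.2]
    have h5 := classInner_irr_ne hres' hres (fun e => hne e.symm)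
    rw [h4, classInner_smul_left, classInner_irr_self hres, mul_one] at h5
    exact irr_degree_ne_zero lam.2 h5
  simp only [inner_term, h3, mul_zero, Finset.sum_const_zero] at h2
  have hn : (G.index : ℂ) ≠ 0 := by exact_mod_cast Subgroup.index_ne_zero_of_finite
  exact (mul_eq_zero.1 h2).resolve_left hn

theorem coset_norm [hG : G.Normal] (h : Cfg G S C s) [Fintype G] {χh : Γ → ℂ}
    (h1 : IsIrrCharacter Γ χh) (hres : IsIrrCharacter G (fun g : G => χh g)) :
    ∑ y : G, χh (y * s) * conj (χh (y * s)) = (Nat.card G : ℂ) := by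
  have h2 := h.coset_expand (fun x => χh x * conj (χh x))
  let triv : IrrCharacter (Γ ⧸ G) := ⟨1, isIrr_one⟩
  have h3 : ∀ lam : IrrCharacter (Γ ⧸ G), lam ≠ triv →
      classInner ((fun x : Γ => (lam : Γ ⧸ G → ℂ) (QuotientGroup.mk x)) * χh) χh = 0 := by
    intro lam hlam
    have hl := Cfsg.Agent.Lib.CharQuot.isIrr_inflate G lam.2
    have hker : ∀ n ∈ G, (fun x : Γ => (lam : Γ ⧸ G → ℂ) (QuotientGroup.mk x)) n =
        (fun x : Γ => (lam : Γ ⧸ G → ℂ) (QuotientGroup.mk x)) 1 := by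
      intro n hn
      show (lam : Γ ⧸ G → ℂ) (QuotientGroup.mk n) = (lam : Γ ⧸ G → ℂ) (QuotientGroup.mk 1)
      rw [(QuotientGroup.eq_one_iff n).2 hn]; rfl
    apply classInner_irr_ne (gallagher_mul_irr G hG h1 hres hl hker) h1
    intro heq
    apply hlam
    have h4 := gallagher_mul_inj G hG h1 hres hl hker (γ := 1) isIrr_one (fun _ _ => rfl)
      (by rw [heq, one_mul])
    apply Subtype.ext
    ext q
    obtain ⟨x, rfl⟩ := QuotientGroup.mk_surjective q
    exact congrFun h4 x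
  simp only [inner_term] at h2
  rw [Finset.sum_eq_single triv (fun lam _ hlam => by rw [h3 lam hlam]; simp)
    (fun hh => absurd (Finset.mem_univ _) hh)] at h2
  have h5 : ((fun x : Γ => (triv : Γ ⧸ G → ℂ) (QuotientGroup.mk x)) * χh) = χh := by
    ext x
    simp [triv]
  rw [h5, classInner_irr_self h1, mul_one] at h2
  have h6 : conj ((triv : Γ ⧸ G → ℂ) (QuotientGroup.mk s)) = 1 := by simp [triv]
  rw [h6, one_mul, ← G.card_mul_index] at h2
  have hn : (G.index : ℂ) ≠ 0 := by exact_mod_cast Subgroup.index_ne_zero_of_finite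
  apply mul_left_cancel₀ hn
  rw [h2]
  push_cast
  ring

theorem comm_CS (h : Cfg G S C s) (c : C) (x : S) : Commute (c : Γ) (x : Γ) := by
  have h1 : (c : Γ) ∈ Subgroup.centralizer (S : Set Γ) := by
    have h0 : (c : Γ) ∈ G ⊓ Subgroup.centralizer (S : Set Γ) := by rw [← h.hC]; exact c.2
    exact h0.2
  exact ((Subgroup.mem_centralizer_iff.1 h1) x x.2).symm

theorem S_comm (h : Cfg G S C s) (a b : S) : a * b = b * a := by
  apply Subtype.ext
  have ha : (a : Γ) ∈ Subgroup.zpowers s := by rw [h.gen]; exact a.2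
  have hb : (b : Γ) ∈ Subgroup.zpowers s := by rw [h.gen]; exact b.2
  obtain ⟨i, hi⟩ := Subgroup.mem_zpowers_iff.1 ha
  obtain ⟨j, hj⟩ := Subgroup.mem_zpowers_iff.1 hb
  show (a : Γ) * b = b * a
  rw [← hi, ← hj]
  exact ((Commute.refl s).zpow_zpow i j).eq

/-- the multiplicity function -/
noncomputable def ff (C S : Subgroup Γ) [Fintype C] (χh : Γ → ℂ) (β : C → ℂ) : S → ℂ :=
  fun x => classInner (fun c : C => χh (c * x)) β

theorem ff_char (h : Cfg G S C s) [Fintype C] {χh : Γ → ℂ} (hχ : IsCharacter Γ χh)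
    (β : IrrCharacter C) : IsCharacter S (ff C S χh (β : C → ℂ)) := by
  haveI : Fintype S := Fintype.ofFinite S
  apply isCharacter_of_classInner_nat
  · intro g x
    have : x * g * x⁻¹ = g := by rw [h.S_comm x g, mul_inv_cancel_right]
    rw [this]
  · intro ψ
    let φ : C × S →* Γ := MonoidHom.noncommCoprod C.subtype S.subtype (fun c x => h.comm_CS c x)
    have h1 : IsCharacter (C × S) (χh ∘ φ) := isCharacter_comp φ hχ
    have h2 : IsCharacter (C × S) ((β : C → ℂ) ∘ (MonoidHom.fst C S)) :=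
      isCharacter_comp _ (isCharacter_of_isIrr β.2)
    have h3 : IsCharacter (C × S) ((ψ : S → ℂ) ∘ (MonoidHom.snd C S)) :=
      isCharacter_comp _ (isCharacter_of_isIrr ψ.2)
    obtain ⟨n, hn⟩ := classInner_char_nat h1 (isCharacter_mul h2 h3)
    refine ⟨n, ?_⟩
    rw [← hn]
    unfold classInner ff classInner
    rw [Nat.card_prod, Fintype.sum_prod_type_right, Finset.mul_sum, Finset.mul_sum]
    apply Finset.sum_congr rfl
    intro x _
    rw [mul_assoc, Finset.sum_mul, Finset.mul_sum, Finset.mul_sum, Finset.mul_sum]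
    apply Finset.sum_congr rfl
    intro c _
    have hφ : φ (c, x) = (c : Γ) * x := rfl
    simp only [Function.comp_apply, Pi.mul_apply, MonoidHom.coe_fst, MonoidHom.coe_snd, map_mul, hφ]
    push_cast
    rw [mul_inv]
    ring

theorem ff_int [hG : G.Normal] (h : Cfg G S C s) [Fintype C] {χh : Γ → ℂ}
    (hχh : IsIrrCharacter Γ χh) (hres : IsIrrCharacter G (fun g : G => χh g))
    (hdet : (detOrder χh).Coprime G.index) (β : IrrCharacter C) :
    ∃ z : ℤ, classInner (fun c : C => χh (c * s)) (β : C → ℂ) = z := by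
  have h1 := int_of_fixed (h.ff_char (isCharacter_of_isIrr hχh) β) ⟨s, h.s_mem⟩ (by
    intro k hk
    unfold ff
    congr 1
    ext c
    rw [← h.index_eq] at hk
    exact value_pow G hG hχh hres h.cop' hdet (h.C_le c.2) (h.mem_C.1 c.2).2 h.s_pow hk)
  exact h1

theorem tw_class (h : Cfg G S C s) {χh : Γ → ℂ} (hc : IsClassFunction Γ χh) :
    IsClassFunction C (fun c : C => χh (c * s)) := by
  intro c x
  have hx := (h.mem_C.1 x.2).2
  have e : ((x * c * x⁻¹ : C) : Γ) * s = (x : Γ) * (c * s) * (x : Γ)⁻¹ := by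
    have : (x : Γ)⁻¹ * s = s * (x : Γ)⁻¹ := (hx.inv_left).eq
    show (x : Γ) * c * (x : Γ)⁻¹ * s = _
    rw [mul_assoc ((x : Γ) * c), this]
    group
  show χh (((x * c * x⁻¹ : C) : Γ) * s) = _
  rw [e, hc]

theorem tw_inner (h : Cfg G S C s) [Fintype C] [Fintype G] {χh χh' : Γ → ℂ}
    (hc : IsClassFunction Γ χh) (hc' : IsClassFunction Γ χh') :
    classInner (fun c : C => χh (c * s)) (fun c : C => χh' (c * s)) =
      (Nat.card G : ℂ)⁻¹ * ∑ y : G, χh (y * s) * conj (χh' (y * s)) := by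
  have h1 := h.coset_sum (F := fun x => χh x * conj (χh' x)) (fun g x => by
    show χh _ * conj (χh' _) = _
    rw [hc, hc'])
  have hG : (Nat.card G : ℂ) ≠ 0 := by exact_mod_cast Nat.card_pos.ne'
  have hC : (Nat.card C : ℂ) ≠ 0 := by exact_mod_cast Nat.card_pos.ne'
  unfold classInner
  field_simp
  rw [mul_comm, ← h1]

theorem exists_beta [hG : G.Normal] (h : Cfg G S C s) [Fintype C] [Fintype G] {χh : Γ → ℂ}
    (hχh : IsIrrCharacter Γ χh) (hres : IsIrrCharacter G (fun g : G => χh g))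
    (hdet : (detOrder χh).Coprime G.index) :
    ∃ β : IrrCharacter C, (fun c : C => χh (c * s)) = (β : C → ℂ) ∨
      (fun c : C => χh (c * s)) = -(β : C → ℂ) := by
  have hc := isClassFunction_of_isCharacter (isCharacter_of_isIrr hχh)
  apply Cfsg.Agent.Lib.Helper3_CharGen.pm_irr_of_norm_one
  · exact Cfsg.Agent.Lib.CharGen.isGen_of_classInner_int _ (h.tw_class hc)
      (fun β => h.ff_int hχh hres hdet β)
  · have hG0 : (Nat.card G : ℂ) ≠ 0 := by exact_mod_cast Nat.card_pos.ne'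
    rw [h.tw_inner hc hc, h.coset_norm hχh hres, inv_mul_cancel₀ hG0]

theorem constituent (h : Cfg G S C s) [Fintype C] {χh : Γ → ℂ} (hχ : IsCharacter Γ χh)
    (β : IrrCharacter C) (hne : classInner (fun c : C => χh (c * s)) (β : C → ℂ) ≠ 0) :
    classInner (fun c : C => χh c) (β : C → ℂ) ≠ 0 := by
  intro h0
  have h1 := Cfsg.Agent.Lib.CharKer.norm_le_degree (h.ff_char hχ β) ⟨s, h.s_mem⟩
  have h2 : ff C S χh (β : C → ℂ) 1 = 0 := by
    unfold ff
    simpa using h0
  rw [h2] at h1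
  apply hne
  have h3 : ‖ff C S χh (β : C → ℂ) ⟨s, h.s_mem⟩‖ = 0 := le_antisymm (by simpa using h1) (norm_nonneg _)
  exact norm_eq_zero.1 h3

theorem value_gen [hG : G.Normal] (h : Cfg G S C s) {χh : Γ → ℂ}
    (hχh : IsIrrCharacter Γ χh) (hres : IsIrrCharacter G (fun g : G => χh g))
    (hdet : (detOrder χh).Coprime G.index) {s' : Γ} (hs' : Subgroup.zpowers s' = S) (c : C) :
    χh (c * s') = χh (c * s) := by
  have h1 : s' ∈ Subgroup.zpowers s := by rw [h.gen, ← hs']; exact Subgroup.mem_zpowers s'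
  rw [← mem_powers_iff_mem_zpowers] at h1
  obtain ⟨j, rfl⟩ := h1
  have hj : j.Coprime G.index := by
    have h2 : orderOf (s ^ j) = G.index := by
      rw [h.index_eq, ← hs', Nat.card_zpowers]
    rw [orderOf_pow, h.orderOf_s] at h2
    have hpos : 0 < G.index := Nat.pos_of_ne_zero Subgroup.index_ne_zero_of_finite
    have h3 : G.index.gcd j = 1 := by
      have h4 := Nat.div_mul_cancel (Nat.gcd_dvd_left G.index j)
      rw [h2] at h4
      exact Nat.eq_of_mul_eq_mul_left hpos (by rw [h4, mul_one])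
    exact (Nat.coprime_comm.1 h3)
  exact value_pow G hG hχh hres h.cop' hdet (h.C_le c.2) (h.mem_C.1 c.2).2 h.s_pow hj

end Cfg

end Cfsg.Agent.Lib.GlaubCyc
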