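import Mathlib
import Cfsg.Prelude.Def_Blocks
import Cfsg.Agent.Lib.GlaubCount2
import Cfsg.Agent.Lib.CharCopDeg

set_option autoImplicit false
set_option linter.unusedSectionVars false
set_option linter.style.haveILetI false

/-! `G = K ⋊ H` coprime, `H` solvable: characters of degree prime to `|H|` of `G` and of `N_G(H)`. -/

namespace Cfsg.Agent.Lib.GlaubNorm

open Cfsg Cfsg.Agent.Lib.Helper2_BP2 Cfsg.Agent.Lib.GlaubP Cfsg.Agent.Lib.GlaubCount
  Cfsg.Agent.Lib.GlaubCount2 Cfsg.Agent.Lib.CharCopDeg Cfsg.Agent.Lib.CharClifford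
  Cfsg.Agent.Lib.CharBasic Cfsg.Agent.Lib.CharMore
open scoped ComplexConjugate Classical

universe u

variable {G : Type u} [Group G] [Finite G] (K H : Subgroup G) [hK : K.Normal]

/-- general count for a surjection with kernel `K` -/
theorem card_of_retraction {X : Type u} [Group X] [Finite X] (K : Subgroup X) [hK : K.Normal]
    {H₀ : Type u} [Group H₀] (π : X →* H₀) (hπ : Function.Surjective π) (hker : π.ker = K)
    (hcop : (Nat.card K).Coprime (Nat.card H₀)) :
    Nat.card {χ : IrrCharacter X // (charDegree (χ : X → ℂ)).Coprime (Nat.card H₀)} =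
      Nat.card {θ : IrrCharacter K // XInv K (θ : K → ℂ)} * Nat.card (H₀ →* ℂˣ) := by
  have hidx : K.index = Nat.card H₀ := by
    rw [← hker, Subgroup.index_ker, MonoidHom.range_eq_top.mpr hπ, Subgroup.card_top]
  rw [← hidx] at hcop ⊢
  rw [card_coprime_degree K hcop, card_lin K π hπ hker]

theorem mul_eq_univ (hKH : K ⊔ H = ⊤) : ∀ g : G, ∃ h ∈ H, ∃ k ∈ K, g = h * k := by
  intro g
  have h1 : g ∈ ((H ⊔ K : Subgroup G) : Set G) := by
    rw [sup_comm, hKH]; trivial
  rw [Subgroup.mul_normal] at h1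
  obtain ⟨h, hh, k, hk, e⟩ := Set.mem_mul.mp h1
  exact ⟨h, hh, k, hk, e.symm⟩

theorem hnorm : ∀ s ∈ H, ∀ g ∈ K, s * g * s⁻¹ ∈ K := fun s _ g hg => hK.conj_mem g hg s

theorem xinv_iff (hKH : K ⊔ H = ⊤) (θ : IrrCharacter K) :
    XInv K (θ : K → ℂ) ↔ Inv (conjHom K H (hnorm K H)) (θ : K → ℂ) := by
  constructor
  · intro h s n
    exact congrFun (h s) n
  · intro h g
    funext n
    obtain ⟨s, hs, k, hk, rfl⟩ := mul_eq_univ K H hKH g
    rw [conjFun_apply]
    have h1 := h ⟨s, hs⟩ (⟨k, hk⟩ * n * ⟨k, hk⟩⁻¹)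
    have h2 := isClassFunction_of_isCharacter (isCharacter_of_isIrr θ.2) n ⟨k, hk⟩
    rw [← h2, ← h1]
    refine congrArg (θ : K → ℂ) (Subtype.ext ?_)
    rw [conjHom_apply]
    simp only [Subgroup.coe_mul, Subgroup.coe_inv, mul_inv_rev]
    group

/-- elements of `K ∩ N_G(H)` centralize `H`. -/
theorem comm_of_mem (hcop : (Nat.card K).Coprime (Nat.card H)) {g : G} (hgK : g ∈ K)
    (hgN : g ∈ Subgroup.normalizer (H : Set G)) {s : G} (hs : s ∈ H) : s * g * s⁻¹ = g := by
  have hd : K ⊓ H = ⊥ := (Subgroup.disjoint_of_coprime_natCard hcop).eq_bot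
  have h1 : s * g * s⁻¹ * g⁻¹ ∈ K := K.mul_mem (hK.conj_mem g hgK s) (K.inv_mem hgK)
  have h2 : s * g * s⁻¹ * g⁻¹ ∈ H := by
    have h3 : g * s⁻¹ * g⁻¹ ∈ H := (Subgroup.mem_normalizer_iff.mp hgN s⁻¹).mp (H.inv_mem hs)
    have : s * g * s⁻¹ * g⁻¹ = s * (g * s⁻¹ * g⁻¹) := by group
    rw [this]
    exact H.mul_mem hs h3
  have h4 : s * g * s⁻¹ * g⁻¹ ∈ K ⊓ H := ⟨h1, h2⟩
  rw [hd, Subgroup.mem_bot] at h4
  exact mul_inv_eq_one.mp h4

theorem mem_normalizer_of_comm {g : G} (hg : ∀ s ∈ H, s * g * s⁻¹ = g) :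
    g ∈ Subgroup.normalizer (H : Set G) := by
  have hc : ∀ s ∈ H, g * s * g⁻¹ = s := by
    intro s hs
    have := hg s hs
    calc g * s * g⁻¹ = (s * g * s⁻¹) * s * g⁻¹ := by rw [this]
      _ = s := by group
  rw [Subgroup.mem_normalizer_iff]
  intro s
  constructor
  · intro hs
    rw [hc s hs]; exact hs
  · intro hs
    have h1 := hc _ hs
    have h2 : g * s * g⁻¹ = s := by
      have : g * (g * s * g⁻¹) * g⁻¹ = g * s * g⁻¹ := h1
      have h3 : g * (g * s * g⁻¹) = g * s := by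
        have := congrArg (· * g) this
        simpa [mul_assoc] using this
      exact mul_left_cancel h3
    rw [← h2]; exact hs

/-- `K ∩ N_G(H)` is the fixed point subgroup. -/
noncomputable def fixEquiv (hcop : (Nat.card K).Coprime (Nat.card H)) :
    K.subgroupOf (Subgroup.normalizer (H : Set G)) ≃* fixSub (conjHom K H (hnorm K H)) ⊤ where
  toFun x := ⟨⟨x.1.1, Subgroup.mem_subgroupOf.mp x.2⟩, fun s _ => Subtype.ext
    (comm_of_mem K H hcop (Subgroup.mem_subgroupOf.mp x.2) x.1.2 s.2)⟩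
  invFun y := ⟨⟨y.1.1, mem_normalizer_of_comm H (fun s hs =>
    congrArg Subtype.val (y.2 ⟨s, hs⟩ (Subgroup.mem_top _)))⟩, Subgroup.mem_subgroupOf.mpr y.1.2⟩
  left_inv _ := rfl
  right_inv _ := rfl
  map_mul' _ _ := rfl

theorem all_inv (hKH : K ⊔ H = ⊤) (hcop : (Nat.card K).Coprime (Nat.card H))
    (θ : IrrCharacter (K.subgroupOf (Subgroup.normalizer (H : Set G)))) :
    XInv (K.subgroupOf (Subgroup.normalizer (H : Set G)))
      (θ : K.subgroupOf (Subgroup.normalizer (H : Set G)) → ℂ) := by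
  intro x
  funext n
  rw [conjFun_apply]
  obtain ⟨s, hs, k, hk, e⟩ := mul_eq_univ K H hKH (x : G)
  have hsN : s ∈ Subgroup.normalizer (H : Set G) := Subgroup.le_normalizer hs
  have hkN : k ∈ Subgroup.normalizer (H : Set G) := by
    have : k = s⁻¹ * x := by rw [e]; group
    rw [this]
    exact Subgroup.mul_mem _ (Subgroup.inv_mem _ hsN) x.2
  let k' : K.subgroupOf (Subgroup.normalizer (H : Set G)) :=
    ⟨⟨k, hkN⟩, Subgroup.mem_subgroupOf.mpr hk⟩
  have h2 := isClassFunction_of_isCharacter (isCharacter_of_isIrr θ.2) n k'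
  rw [← h2]
  refine congrArg (θ : K.subgroupOf (Subgroup.normalizer (H : Set G)) → ℂ)
    (Subtype.ext (Subtype.ext ?_))
  have h3 : ((k' * n * k'⁻¹ : K.subgroupOf (Subgroup.normalizer (H : Set G))) : G) =
      k * (n : G) * k⁻¹ := rfl
  have h4 := comm_of_mem K H hcop
    (Subgroup.mem_subgroupOf.mp (k' * n * k'⁻¹).2) (k' * n * k'⁻¹).1.2 hs
  change (x : G) * (n : G) * (x : G)⁻¹ = k * (n : G) * k⁻¹
  rw [h3] at h4
  rw [← h4, e]
  group

theorem main (hKH : K ⊔ H = ⊤) (hcop : (Nat.card K).Coprime (Nat.card H))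
    (hsolv : Group.IsSolvable H) :
    Nat.card {χ : IrrCharacter G // (charDegree (χ : G → ℂ)).Coprime (Nat.card H)} =
      Nat.card {η : IrrCharacter (Subgroup.normalizer (H : Set G)) //
        (charDegree (η : Subgroup.normalizer (H : Set G) → ℂ)).Coprime (Nat.card H)} := by
  have hc : H.IsComplement' K := by
    apply Subgroup.isComplement'_of_disjoint_and_mul_eq_univ
      (Subgroup.disjoint_of_coprime_natCard hcop.symm)
    rw [← Subgroup.mul_normal, sup_comm, hKH]
    rfl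
  set π : G →* H := (hc.QuotientMulEquiv).toMonoidHom.comp (QuotientGroup.mk' K) with hπdef
  have hπH : ∀ h : H, π (h : G) = h := by
    intro h
    change hc.QuotientMulEquiv (QuotientGroup.mk (h : G)) = h
    have : hc.QuotientMulEquiv.symm h = QuotientGroup.mk (h : G) := rfl
    rw [← this, MulEquiv.apply_symm_apply]
  have hπs : Function.Surjective π := fun h => ⟨h, hπH h⟩
  have hπk : π.ker = K := by
    ext g
    rw [MonoidHom.mem_ker]
    change hc.QuotientMulEquiv (QuotientGroup.mk g) = 1 ↔ _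
    rw [map_eq_one_iff _ hc.QuotientMulEquiv.injective, QuotientGroup.eq_one_iff]
  set N := Subgroup.normalizer (H : Set G) with hN
  have hπNs : Function.Surjective (π.comp N.subtype) :=
    fun h => ⟨⟨h, Subgroup.le_normalizer h.2⟩, hπH h⟩
  have hπNk : (π.comp N.subtype).ker = K.subgroupOf N := by
    rw [← MonoidHom.comap_ker, hπk]
    rfl
  have hcopN : (Nat.card (K.subgroupOf N)).Coprime (Nat.card H) := by
    refine Nat.Coprime.coprime_dvd_left ?_ hcop
    refine Subgroup.card_dvd_of_injective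
      (⟨⟨fun x => ⟨x.1.1, Subgroup.mem_subgroupOf.mp x.2⟩, rfl⟩, fun _ _ => rfl⟩ :
        K.subgroupOf N →* K) ?_
    intro x y e
    apply Subtype.ext
    apply Subtype.ext
    exact congrArg (fun z : K => (z : G)) e
  rw [card_of_retraction K π hπs hπk hcop,
    card_of_retraction (K.subgroupOf N) (π.comp N.subtype) hπNs hπNk hcopN]
  congr 1
  rw [Nat.card_congr (Equiv.subtypeEquivRight (xinv_iff K H hKH)),
    count2 K H (conjHom K H (hnorm K H)) hcop,
    Nat.card_congr (Equiv.subtypeUnivEquiv (all_inv K H hKH hcop))]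
  exact (Nat.card_congr (mapIrr (fixEquiv K H hcop))).symm

end Cfsg.Agent.Lib.GlaubNorm
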