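import Mathlib
import Cfsg.Prelude.Def_Blocks
import Cfsg.Agent.Lib.GlaubCyc
import Cfsg.Agent.Lib.GlaubNorm
import Cfsg.Agent.Lib.Helper2_BP2

set_option autoImplicit false
set_option linter.unusedSectionVars false
set_option linter.style.haveILetI false

/-! Isaacs 13.6, final assembly. -/

namespace Cfsg.Agent.Lib.GlaubCyc2

open Cfsg Cfsg.Agent.Lib.CharBasic Cfsg.Agent.Lib.CharOrtho
  Cfsg.Agent.Lib.CharComplete Cfsg.Agent.Lib.CharIntegral Cfsg.Agent.Lib.CharMore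
  Cfsg.Agent.Lib.CharInd Cfsg.Agent.Lib.CharClifford Cfsg.Agent.Lib.CharGallagher
  Cfsg.Agent.Lib.CharDet Cfsg.Agent.Lib.CharCopDeg Cfsg.Agent.Lib.GlaubCyc
  Cfsg.Agent.Lib.GlaubP Cfsg.Agent.Lib.GlaubCount Cfsg.Agent.Lib.GlaubCount2
  Cfsg.Agent.Lib.GlaubNorm Cfsg.Agent.Lib.Helper2_BP2
open scoped ComplexConjugate Classical

universe u

variable {Γ : Type u} [Group Γ] [Fintype Γ]

theorem normal_of (G S : Subgroup Γ) (hnorm : ∀ s ∈ S, ∀ g ∈ G, s * g * s⁻¹ ∈ G)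
    (htop : G ⊔ S = ⊤) : G.Normal := by
  rw [← Subgroup.normalizer_eq_top_iff, eq_top_iff, ← htop, sup_le_iff]
  refine ⟨Subgroup.le_normalizer, fun s hs => ?_⟩
  rw [Subgroup.mem_normalizer_iff]
  intro g
  refine ⟨hnorm s hs g, fun h => ?_⟩
  have := hnorm s⁻¹ (S.inv_mem hs) _ h
  simpa [mul_assoc] using this

theorem exists_gen (S : Subgroup Γ) (hcyc : IsCyclic S) : ∃ s : Γ, Subgroup.zpowers s = S := by
  obtain ⟨g, hg⟩ := hcyc.exists_generator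
  refine ⟨g, ?_⟩
  have h1 : Subgroup.zpowers g = ⊤ := (Subgroup.eq_top_iff' _).2 hg
  have h2 := congrArg (Subgroup.map S.subtype) h1
  rw [MonoidHom.map_zpowers, ← MonoidHom.range_eq_map, Subgroup.range_subtype] at h2
  exact h2

/-- the fixed point subgroup -/
noncomputable def fixEquivC (G S C : Subgroup Γ) (hnorm : ∀ s ∈ S, ∀ g ∈ G, s * g * s⁻¹ ∈ G)
    (hC : C = G ⊓ Subgroup.centralizer (S : Set Γ)) (hCG : C ≤ G) :
    C ≃* fixSub (conjHom G S hnorm) ⊤ where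
  toFun c := ⟨⟨c, hCG c.2⟩, fun s _ => by
    apply Subtype.ext
    rw [conjHom_apply]
    have hc : (c : Γ) ∈ G ⊓ Subgroup.centralizer (S : Set Γ) := hC ▸ c.2
    have := (Subgroup.mem_centralizer_iff.mp (Subgroup.mem_inf.mp hc).2) s s.2
    exact mul_inv_eq_iff_eq_mul.mpr this⟩
  invFun y := ⟨y.1.1, by
    rw [hC]
    refine Subgroup.mem_inf.mpr ⟨y.1.2, ?_⟩
    rw [Subgroup.mem_centralizer_iff]
    intro s hs
    have := congrArg Subtype.val (y.2 ⟨s, hs⟩ (Subgroup.mem_top _))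
    rw [conjHom_apply] at this
    exact mul_inv_eq_iff_eq_mul.mp this⟩
  left_inv _ := rfl
  right_inv _ := rfl
  map_mul' _ _ := rfl

section core

variable (G S : Subgroup Γ) [Fintype G] (C : Subgroup Γ) [Fintype C]

theorem K1 [hG : G.Normal] {s0 : Γ} (h : Cfg G S C s0) {χh : Γ → ℂ}
    (hχh : IsIrrCharacter Γ χh) (hres : IsIrrCharacter G (fun g : G => χh g))
    (hdet : (detOrder χh).Coprime (Nat.card S)) :
    ∃ (β : IrrCharacter C) (ε : ℤ), (ε = 1 ∨ ε = -1) ∧ ∀ c : C, ∀ s : Γ,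
      Subgroup.zpowers s = S → χh ((c : Γ) * s) = (ε : ℂ) * (β : C → ℂ) c := by
  rw [← h.index_eq] at hdet
  obtain ⟨β, hβ | hβ⟩ := h.exists_beta hχh hres hdet
  · refine ⟨β, 1, Or.inl rfl, fun c s hs => ?_⟩
    rw [h.value_gen hχh hres hdet hs c]
    have := congrFun hβ c
    simpa using this
  · refine ⟨β, -1, Or.inr rfl, fun c s hs => ?_⟩
    rw [h.value_gen hχh hres hdet hs c]
    have := congrFun hβ c
    simpa using this

theorem K2 {β β' : IrrCharacter C} {ε ε' : ℤ} (hε : ε = 1 ∨ ε = -1) (hε' : ε' = 1 ∨ ε' = -1)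
    (h : ∀ c : C, (ε : ℂ) * (β : C → ℂ) c = (ε' : ℂ) * (β' : C → ℂ) c) : β = β' ∧ ε = ε' := by
  obtain ⟨d, hd0, hd, -⟩ := irr_degree β.2
  obtain ⟨d', hd0', hd', -⟩ := irr_degree β'.2
  have h1 := h 1
  rw [hd, hd'] at h1
  have h2 : ε * (d : ℤ) = ε' * (d' : ℤ) := by exact_mod_cast h1
  have h3 : ε = ε' := by
    rcases hε with rfl | rfl <;> rcases hε' with rfl | rfl
    · rfl
    · exfalso; omega
    · exfalso; omega
    · rfl
  subst h3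
  refine ⟨?_, rfl⟩
  apply Subtype.ext
  funext c
  have hne : (ε : ℂ) ≠ 0 := by
    rcases hε with rfl | rfl <;> simp
  exact mul_left_cancel₀ hne (h c)

theorem inner_eps {β : IrrCharacter C} {ε : ℤ} {f : C → ℂ}
    (hf : ∀ c : C, f c = (ε : ℂ) * (β : C → ℂ) c) : f = (ε : ℂ) • (β : C → ℂ) := by
  funext c
  rw [hf c]; rfl

end core

theorem main (G S : Subgroup Γ) [Fintype G] (hnorm : ∀ s ∈ S, ∀ g ∈ G, s * g * s⁻¹ ∈ G) (hcop : (Nat.card G).Coprime (Nat.card S)) (htop : G ⊔ S = ⊤) (hcyc : IsCyclic S) (C : Subgroup Γ) [Fintype C] (hC : C = G ⊓ Subgroup.centralizer (S : Set Γ)) (hCG : C ≤ G) : (∀ (χ : Cfsg.IrrCharacter G) (χh : Cfsg.IrrCharacter Γ), (∀ s ∈ S, ∀ g g' : G, (g' : Γ) = s * g * s⁻¹ → (χ : G → ℂ) g' = (χ : G → ℂ) g) → (∀ g : G, (χh : Γ → ℂ) g = (χ : G → ℂ) g) → (Cfsg.detOrder (χh : Γ → ℂ)).Coprime (Nat.card S) → (∃! βε : Cfsg.IrrCharacter C × ℤ, (βε.2 = 1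 ∨ βε.2 = -1) ∧ ∀ c : C, ∀ s : Γ, Subgroup.zpowers s = S → (χh : Γ → ℂ) ((c : Γ) * s) = (βε.2 : ℂ) * (βε.1 : C → ℂ) c) ∧ ∀ β : Cfsg.IrrCharacter C, ∀ ε : ℤ, (ε = 1 ∨ ε = -1) → (∀ c : C, ∀ s : Γ, Subgroup.zpowers s = S → (χh : Γ → ℂ) ((c : Γ) * s) = (ε : ℂ) * (β : C → ℂ) c) → Cfsg.classInner (fun c : C => (χ : G → ℂ) ⟨c, hCG c.2⟩) (β : C → ℂ) ≠ 0) ∧ (∀ (χ χ' : Cfsg.IrrCharacter G) (χh χh' : Cfsg.IrrCharacter Γ), (∀ s ∈ S, ∀ g g' : G, (g' : Γ) = s * g * s⁻¹ → (χ : G → ℂ) g' = (χ : G → ℂ) g) → (∀ s ∈ S, ∀ g g' : G, (g' : Γ) = s * g * s⁻¹ → (χ' : G → ℂ) g' = (χ' : G → ℂ) g) → (∀ g : G, (χh : Γ → ℂ) g = (χ : G → ℂ) g) → (∀ g : G, (χh' : Γ → ℂ) g = (χ' : G → ℂ) g) → (Cfsg.detOrder (χh : Γ → ℂ)).Coprime (Nat.card S) → (Cfsg.detOrder (χh' : Γ → ℂ)).Coprime (Nat.card S) → ∀ β : Cfsg.IrrCharacter C, ∀ ε ε' : ℤ, (ε = 1 ∨ ε = -1) → (ε' = 1 ∨ ε' = -1) → (∀ c : C, ∀ s : Γ, Subgroup.zpowers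 s = S → (χh : Γ → ℂ) ((c : Γ) * s) = (ε : ℂ) * (β : C → ℂ) c) → (∀ c : C, ∀ s : Γ, Subgroup.zpowers s = S → (χh' : Γ → ℂ) ((c : Γ) * s) = (ε' : ℂ) * (β : C → ℂ) c) → χ = χ') ∧ (∀ β : Cfsg.IrrCharacter C, ∃ (χ : Cfsg.IrrCharacter G) (χh : Cfsg.IrrCharacter Γ) (ε : ℤ), (∀ s ∈ S, ∀ g g' : G, (g' : Γ) = s * g * s⁻¹ → (χ : G → ℂ) g' = (χ : G → ℂ) g) ∧ (∀ g : G, (χh : Γ → ℂ) g = (χ : G → ℂ) g) ∧ (Cfsg.detOrder (χh : Γ → ℂ)).Coprime (Nat.card S) ∧ (ε = 1 ∨ ε = -1) ∧ ∀ c : C, ∀ s : Γ, Subgroup.zpowers s = S → (χh : Γ → ℂ) ((c : Γ) * s) = (ε : ℂ) * (β : C → ℂ) c) := by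
  haveI hG : G.Normal := normal_of G S hnorm htop
  obtain ⟨s0, hs0⟩ := exists_gen S hcyc
  have h : Cfg G S C s0 := ⟨hG, hcop, htop, hs0, hC⟩
  have hres : ∀ (χ : IrrCharacter G) (χh : IrrCharacter Γ),
      (∀ g : G, (χh : Γ → ℂ) g = (χ : G → ℂ) g) →
      IsIrrCharacter G (fun g : G => (χh : Γ → ℂ) g) := by
    intro χ χh hext
    have : (fun g : G => (χh : Γ → ℂ) g) = (χ : G → ℂ) := funext hext
    rw [this]; exact χ.2
  have hεne : ∀ ε : ℤ, (ε = 1 ∨ ε = -1) → (ε : ℂ) ≠ 0 := by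
    intro ε hε
    rcases hε with rfl | rfl <;> simp
  -- injectivity
  have hinj : ∀ (χ χ' : Cfsg.IrrCharacter G) (χh χh' : Cfsg.IrrCharacter Γ), (∀ g : G, (χh : Γ → ℂ) g = (χ : G → ℂ) g) → (∀ g : G, (χh' : Γ → ℂ) g = (χ' : G → ℂ) g) → ∀ β : Cfsg.IrrCharacter C, ∀ ε ε' : ℤ, (ε = 1 ∨ ε = -1) → (ε' = 1 ∨ ε' = -1) → (∀ c : C, ∀ s : Γ, Subgroup.zpowers s = S → (χh : Γ → ℂ) ((c : Γ) * s) = (ε : ℂ) * (β : C → ℂ) c) → (∀ c : C, ∀ s : Γ, Subgroup.zpowers s = S → (χh' : Γ → ℂ) ((c : Γ) * s) = (ε' : ℂ) * (β : C → ℂ) c) → χ = χ' := by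
    intro χ χ' χh χh' hext hext' β ε ε' hε hε' hv hv'
    by_contra hne
    have hne' : (fun g : G => (χh : Γ → ℂ) g) ≠ fun g : G => (χh' : Γ → ℂ) g := by
      intro e
      apply hne
      apply Subtype.ext
      funext g
      rw [← hext g, ← hext' g]
      exact congrFun e g
    have h1 := h.tw_inner (isClassFunction_of_isCharacter (isCharacter_of_isIrr χh.2))
      (isClassFunction_of_isCharacter (isCharacter_of_isIrr χh'.2))
    rw [h.coset_orth χh.2 χh'.2 (hres χ χh hext) (hres χ' χh' hext') hne', mul_zero,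
      inner_eps C (fun c => hv c s0 hs0), inner_eps C (fun c => hv' c s0 hs0),
      classInner_smul_left, classInner_smul_right, classInner_irr_self β.2, mul_one] at h1
    rcases mul_eq_zero.1 h1 with h2 | h2
    · exact hεne ε hε h2
    · rw [map_eq_zero] at h2
      exact hεne ε' hε' h2
  refine ⟨?_, ?_, ?_⟩
  · intro χ χh _ hext hdet
    constructor
    · obtain ⟨β, ε, hε, hv⟩ := K1 G S C h χh.2 (hres χ χh hext) hdet
      refine ⟨(β, ε), ⟨hε, hv⟩, ?_⟩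
      rintro ⟨β', ε'⟩ ⟨hε', hv'⟩
      obtain ⟨e1, e2⟩ := K2 C hε' hε (fun c => (hv' c s0 hs0).symm.trans (hv c s0 hs0))
      exact Prod.ext e1 e2
    · intro β ε hε hv
      have h1 : classInner (fun c : C => (χh : Γ → ℂ) (c * s0)) (β : C → ℂ) ≠ 0 := by
        rw [inner_eps C (fun c => hv c s0 hs0), classInner_smul_left, classInner_irr_self β.2,
          mul_one]
        exact hεne ε hε
      have h2 := h.constituent (isCharacter_of_isIrr χh.2) β h1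
      have h3 : (fun c : C => (χ : G → ℂ) ⟨c, hCG c.2⟩) = fun c : C => (χh : Γ → ℂ) c := by
        funext c
        exact (hext ⟨c, hCG c.2⟩).symm
      rw [h3]; exact h2
  · intro χ χ' χh χh' _ _ hext hext' _ _ β ε ε' hε hε' hv hv'
    exact hinj χ χ' χh χh' hext hext' β ε ε' hε hε' hv hv'
  · -- surjectivity by counting
    have hex : ∀ χ : {χ : IrrCharacter G // Inv (conjHom G S hnorm) (χ : G → ℂ)},
        ∃ (χh : IrrCharacter Γ) (β : IrrCharacter C) (ε : ℤ),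
          (∀ g : G, (χh : Γ → ℂ) g = (χ.1 : G → ℂ) g) ∧
          (Cfsg.detOrder (χh : Γ → ℂ)).Coprime (Nat.card S) ∧ (ε = 1 ∨ ε = -1) ∧
          ∀ c : C, ∀ s : Γ, Subgroup.zpowers s = S →
            (χh : Γ → ℂ) ((c : Γ) * s) = (ε : ℂ) * (β : C → ℂ) c := by
      intro χ
      obtain ⟨d, hd0, hd, hdvd⟩ := irr_degree χ.1.2
      have hx : XInv G (χ.1 : G → ℂ) := (xinv_iff G S htop χ.1).2 χ.2
      obtain ⟨χ0, ⟨h1, h2, h3⟩, -⟩ := exists_ext_coprime G hG χ.1.2 hx hd (by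
        apply Nat.Coprime.symm
        exact Nat.Coprime.mul_left
          (Nat.Coprime.coprime_dvd_left (detOrder_dvd_card (isCharacter_of_isIrr χ.1.2)) h.cop')
          (Nat.Coprime.coprime_dvd_left hdvd h.cop'))
      have hdet : (detOrder χ0).Coprime (Nat.card S) := by
        rw [h3]
        exact Nat.Coprime.coprime_dvd_left (detOrder_dvd_card (isCharacter_of_isIrr χ.1.2)) hcop
      obtain ⟨β, ε, hε, hv⟩ := K1 G S C h h1 (hres χ.1 ⟨χ0, h1⟩ h2) hdet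
      exact ⟨⟨χ0, h1⟩, β, ε, h2, hdet, hε, hv⟩
    choose X B E hX1 hX2 hX3 hX4 using hex
    have hBinj : Function.Injective B := by
      intro χ χ' e
      apply Subtype.ext
      apply hinj χ.1 χ'.1 (X χ) (X χ') (hX1 χ) (hX1 χ') (B χ) (E χ) (E χ') (hX3 χ) (hX3 χ') (hX4 χ)
      rw [e]; exact hX4 χ'
    haveI hsolv : Group.IsSolvable S := by
      apply Group.isSolvable_of_comm
      exact h.S_comm
    have hcard : Nat.card {χ : IrrCharacter G // Inv (conjHom G S hnorm) (χ : G → ℂ)} =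
        Nat.card (IrrCharacter C) := by
      rw [count2 G S (conjHom G S hnorm) hcop]
      exact (Nat.card_congr (mapIrr (fixEquivC G S C hnorm hC hCG))).symm
    have hbij := hBinj.bijective_of_nat_card_le hcard.symm.le
    intro β
    obtain ⟨χ, rfl⟩ := hbij.2 β
    exact ⟨χ.1, X χ, E χ, (inv_iff G S hnorm _).2 χ.2, hX1 χ, hX2 χ, hX3 χ, hX4 χ⟩

end Cfsg.Agent.Lib.GlaubCyc2
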