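import Mathlib
import Cfsg.Prelude.Def_Blocks
import Cfsg.Agent.Lib.BlockPC2
import Cfsg.Agent.Lib.Helper2_BlockSection
import Cfsg.Agent.Lib.helper8_DefectZero

set_option autoImplicit false

namespace Cfsg.Agent.Lib.GreenSylow

open Cfsg Cfsg.Agent.Lib.Helper2_BlockLocal Cfsg.Agent.Lib.Helper2_BlockOm
  Cfsg.Agent.Lib.Helper2_BlockBasic
  Cfsg.Agent.Lib.Helper2_BlockDefect
  Cfsg.Agent.Lib.Helper2_BlockPCore
  Cfsg.Agent.Lib.Helper2_BlockFMT
  Cfsg.Agent.Lib.Helper2_BlockDefOrder
  Cfsg.Agent.Lib.CharBasic Cfsg.Agent.Lib.CharOrtho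
  Cfsg.Agent.Lib.CharComplete Cfsg.Agent.Lib.CharIntegral Cfsg.Agent.Lib.CharMore
  Cfsg.Agent.Lib.CharQuot Cfsg.Agent.Lib.helper8_Defect
open scoped ComplexConjugate Classical

universe u

/-- Orbit counting with divisibility bookkeeping. -/
theorem orb {Q W : Type*} [Group Q] [Finite Q] [Fintype W] (act : Q → W → W)
    (h1 : ∀ w, act 1 w = w) (hmul : ∀ q q' w, act (q * q') w = act q (act q' w))
    (f : W → ℂ) (hf : ∀ q w, f (act q w) = f w) (P : ℂ → Prop) (P0 : P 0)
    (Padd : ∀ a b, P a → P b → P (a + b))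
    (h : ∀ w, ∀ E : Subgroup Q, (∀ q, q ∈ E ↔ act q w = w) →
      ∃ r, P r ∧ f w = (Nat.card E : ℂ) * r) :
    ∃ r, P r ∧ ∑ w, f w = (Nat.card Q : ℂ) * r := by
  letI : MulAction Q W := { smul := act, one_smul := h1, mul_smul := hmul }
  haveI : Fintype Q := Fintype.ofFinite Q
  have key : ∀ ω : MulAction.orbitRel.Quotient Q W, ∃ r, P r ∧
      ∑ w ∈ Finset.univ.filter
        (fun w => (Quotient.mk'' w : MulAction.orbitRel.Quotient Q W) = ω), f w =
        (Nat.card Q : ℂ) * r := by
    intro ω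
    induction ω using Quotient.inductionOn' with
    | h w0 =>
    obtain ⟨r, hr, e⟩ := h w0 (MulAction.stabilizer Q w0) (fun q => MulAction.mem_stabilizer_iff)
    refine ⟨r, hr, ?_⟩
    have hmem : ∀ w, (Quotient.mk'' w : MulAction.orbitRel.Quotient Q W) = Quotient.mk'' w0 ↔
        w ∈ MulAction.orbit Q w0 := by
      intro w
      rw [Quotient.eq'']
      exact MulAction.orbitRel_apply
    have h2 : ∀ w ∈ Finset.univ.filter
        (fun w => (Quotient.mk'' w : MulAction.orbitRel.Quotient Q W) = Quotient.mk'' w0),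
        f w = f w0 := by
      intro w hw
      obtain ⟨q, rfl⟩ := (hmem w).mp (Finset.mem_filter.mp hw).2
      exact hf q w0
    rw [Finset.sum_congr rfl h2, Finset.sum_const, nsmul_eq_mul, e]
    have h3 : (Finset.univ.filter
        (fun w => (Quotient.mk'' w : MulAction.orbitRel.Quotient Q W) = Quotient.mk'' w0)).card *
        Nat.card (MulAction.stabilizer Q w0) = Nat.card Q := by
      have := MulAction.card_orbit_mul_card_stabilizer_eq_card_group Q w0
      rw [Nat.card_eq_fintype_card, Nat.card_eq_fintype_card, ← this]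
      congr 1
      rw [Fintype.card_subtype]
      congr 1
      ext w
      simp only [Finset.mem_filter, Finset.mem_univ, true_and]
      exact hmem w
    rw [← h3]
    push_cast
    ring
  choose r hr e using key
  refine ⟨∑ ω, r ω, ?_, ?_⟩
  · have : ∀ s : Finset (MulAction.orbitRel.Quotient Q W), P (∑ ω ∈ s, r ω) := by
      intro s
      induction s using Finset.induction_on with
      | empty => simpa using P0
      | insert a s ha ih =>
        rw [Finset.sum_insert ha]
        exact Padd _ _ (hr a) ih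
    exact this _
  · rw [Finset.mul_sum, ← Finset.sum_fiberwise (s := Finset.univ)
      (g := fun w => (Quotient.mk'' w : MulAction.orbitRel.Quotient Q W))]
    exact Finset.sum_congr rfl fun ω _ => e ω

theorem normalizer_grows {p : ℕ} [Fact p.Prime] {G : Type*} [Group G] [Finite G]
    {R T : Subgroup G} (hR : IsPGroup p R) (hT : T < R) :
    ∃ x ∈ R, x ∈ Subgroup.normalizer (T : Set G) ∧ x ∉ T := by
  haveI : Group.IsNilpotent R := hR.isNilpotent
  have hnc := Group.normalizerCondition_of_isNilpotent (G := R)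
  have h1 : T.subgroupOf R < ⊤ := by
    rw [lt_top_iff_ne_top, Ne, Subgroup.subgroupOf_eq_top]
    exact not_le_of_gt hT
  have h2 := hnc _ h1
  rw [← Subgroup.subgroupOf_normalizer_eq hT.le] at h2
  obtain ⟨x, hx1, hx2⟩ := SetLike.exists_of_lt h2
  exact ⟨x, x.2, hx1, hx2⟩

variable {X : Type u} [Group X] [Finite X] {M : Ideal AlgInt} {p : ℕ} [Fact p.Prime]

theorem dvd_orderOf_of_pGroup {E : Subgroup X} (hE : IsPGroup p E) {u : X} (hu : u ∈ E)
    (hu1 : u ≠ 1) : ∃ j, j ≠ 0 ∧ orderOf u = p ^ j := by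
  have hp : p.Prime := Fact.out
  obtain ⟨k, hk⟩ := hE ⟨u, hu⟩
  have hk' : u ^ (p ^ k) = 1 := by
    have := congrArg Subtype.val hk
    simpa using this
  obtain ⟨j, -, hj⟩ := (Nat.dvd_prime_pow hp).mp (orderOf_dvd_of_pow_eq_one hk')
  refine ⟨j, ?_, hj⟩
  rintro rfl
  rw [pow_zero, orderOf_eq_one_iff] at hj
  exact hu1 hj

/-- A defect zero character value is divisible by the order of any centralizing `p`-subgroup. -/
theorem div_centralizer (hM : IsPModular p M) (χ : IrrCharacter X)
    (hχ : ¬ p ∣ Nat.card X / charDegree (χ : X → ℂ)) (z : X) (E : Subgroup X)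
    (hE : IsPGroup p E) (hEz : E ≤ Subgroup.centralizer ({z} : Set X)) :
    ∃ r, MemLocalRing M r ∧ (χ : X → ℂ) z = (Nat.card E : ℂ) * r := by
  have hp : p.Prime := Fact.out
  have hPr := isPrime_of_modular hM
  by_cases hz : p ∣ orderOf z
  · refine ⟨0, ring_zero hPr, ?_⟩
    rw [Cfsg.Agent.Lib.helper8_DefectZero.vanish_of_defect_zero hp χ hχ hz, mul_zero]
  · haveI : Fintype E := Fintype.ofFinite E
    obtain ⟨r, hr, e⟩ := avg_centralized_integral E z hEz (isCharacter_of_isIrr χ.2)
    refine ⟨r, ring_of_isIntegral hPr hr, ?_⟩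
    rw [← e, Finset.sum_eq_single (1 : E)]
    · simp
    · intro u _ hu1
      apply Cfsg.Agent.Lib.helper8_DefectZero.vanish_of_defect_zero hp χ hχ
      have hu1' : (u : X) ≠ 1 := fun h => hu1 (Subtype.ext h)
      obtain ⟨j, hj0, hj⟩ := dvd_orderOf_of_pGroup hE u.2 hu1'
      have hc : Commute (u : X) z := Subgroup.mem_centralizer_singleton_iff.mp (hEz u.2)
      have hcop : Nat.Coprime (orderOf (u : X)) (orderOf z) := by
        rw [hj]
        exact Nat.Coprime.pow_left _ ((Nat.Prime.coprime_iff_not_dvd hp).mpr hz)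
      rw [hc.orderOf_mul_eq_mul_orderOf_of_coprime hcop, hj]
      exact Dvd.dvd.mul_right (dvd_pow_self p hj0) _
    · intro h; exact absurd (Finset.mem_univ _) h

theorem irr_conj_inv (χ : IrrCharacter X) (q z : X) : (χ : X → ℂ) (q * z * q⁻¹) = (χ : X → ℂ) z :=
  isClassFunction_of_isCharacter (isCharacter_of_isIrr χ.2) z q

/-- Coset sums are divisible by the order of the Sylow intersection. -/
theorem coset_sum_div [Fintype X] (hM : IsPModular p M) (S : Sylow p X) (χ : IrrCharacter X)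
    (hχ : ¬ p ∣ Nat.card X / charDegree (χ : X → ℂ)) (y : X) :
    ∃ r, MemLocalRing M r ∧ ∑ u : (S : Subgroup X), (χ : X → ℂ) (y * u) =
      (Nat.card ((S : Subgroup X) ⊓ (S : Subgroup X).map (MulAut.conj y).toMonoidHom :
        Subgroup X) : ℂ) * r := by
  have hPr := isPrime_of_modular hM
  set Q : Subgroup X := (S : Subgroup X) ⊓ (S : Subgroup X).map (MulAut.conj y).toMonoidHom with hQ
  have hQS : ∀ q : Q, (q : X) ∈ (S : Subgroup X) := fun q => (Subgroup.mem_inf.mp q.2).1
  have hQy : ∀ q : Q, y⁻¹ * (q : X) * y ∈ (S : Subgroup X) := by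
    intro q
    obtain ⟨s, hs, e⟩ := (Subgroup.mem_inf.mp q.2).2
    rw [← e]
    simp only [MulEquiv.coe_toMonoidHom, MulAut.conj_apply]
    have : y⁻¹ * (y * s * y⁻¹) * y = s := by group
    rw [this]
    exact hs
  refine orb (Q := Q) (W := (S : Subgroup X))
    (fun q u => ⟨y⁻¹ * (q : X) * y * u * (q : X)⁻¹,
      mul_mem (mul_mem (hQy q) u.2) (inv_mem (hQS q))⟩) ?_ ?_
    (fun u => (χ : X → ℂ) (y * u)) ?_ (MemLocalRing M) (ring_zero hPr)
    (fun a b => ring_add hPr) ?_
  · intro w
    apply Subtype.ext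
    simp
  · intro q q' w
    apply Subtype.ext
    simp only [Subgroup.coe_mul]
    group
  · intro q w
    simp only
    have : y * (y⁻¹ * (q : X) * y * w * (q : X)⁻¹) = (q : X) * (y * w) * (q : X)⁻¹ := by group
    rw [this, irr_conj_inv]
  · intro w E hE
    have h1 : IsPGroup p (E.map Q.subtype) :=
      IsPGroup.map (IsPGroup.to_subgroup (IsPGroup.to_le S.2 inf_le_left) E) _
    have h2 : E.map Q.subtype ≤ Subgroup.centralizer ({y * (w : X)} : Set X) := by
      rintro _ ⟨q, hq, rfl⟩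
      have h3 := congrArg Subtype.val ((hE q).mp hq)
      simp only at h3
      rw [Subgroup.mem_centralizer_singleton_iff]
      simp only [Subgroup.coe_subtype]
      calc (q : X) * (y * w) = y * (y⁻¹ * (q : X) * y * w * (q : X)⁻¹) * q := by group
        _ = y * w * q := by rw [h3]
    obtain ⟨r, hr, e⟩ := div_centralizer hM χ hχ (y * w) _ h1 h2
    refine ⟨r, hr, ?_⟩
    rw [e, Subgroup.card_map_of_injective (Subgroup.subtype_injective _)]

/-- Defect zero characters detect trivial Sylow intersections. -/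
theorem exists_trivial_inter (hM : IsPModular p M) (S : Sylow p X) (χ : IrrCharacter X)
    (hχ : ¬ p ∣ Nat.card X / charDegree (χ : X → ℂ)) (g : X)
    (hg : ¬ MemLocalIdeal M ((χ : X → ℂ) g)) :
    ∃ x : X, (S : Subgroup X) ⊓
      (S : Subgroup X).map (MulAut.conj (x * g * x⁻¹)).toMonoidHom = ⊥ := by
  have hp : p.Prime := Fact.out
  have hPr := isPrime_of_modular hM
  haveI : Fintype X := Fintype.ofFinite X
  by_contra hcon
  push Not at hcon
  set F : X → ℂ := fun x => ∑ u : (S : Subgroup X), (χ : X → ℂ) (x * g * x⁻¹ * u) with hF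
  have hFp : ∀ x, ∃ r, MemLocalRing M r ∧ F x = (p : ℂ) * r := by
    intro x
    obtain ⟨r, hr, e⟩ := coset_sum_div hM S χ hχ (x * g * x⁻¹)
    have hQp : IsPGroup p ((S : Subgroup X) ⊓
        (S : Subgroup X).map (MulAut.conj (x * g * x⁻¹)).toMonoidHom : Subgroup X) :=
      IsPGroup.to_le S.2 inf_le_left
    obtain ⟨k, hk⟩ := IsPGroup.iff_card.mp hQp
    have hk0 : k ≠ 0 := by
      rintro rfl
      rw [pow_zero, Subgroup.card_eq_one] at hk
      exact hcon x hk
    obtain ⟨k', rfl⟩ := Nat.exists_eq_succ_of_ne_zero hk0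
    refine ⟨(p : ℂ) ^ k' * r, ring_mul hPr (ring_pow hPr (ring_natCast hPr p) _) hr, ?_⟩
    rw [hF]
    simp only
    rw [e, hk, Nat.succ_eq_add_one]
    push_cast
    ring
  obtain ⟨r, ⟨r', hr', rfl⟩, e⟩ := orb (Q := (S : Subgroup X)) (W := X)
    (fun s x => (s : X) * x) (fun w => by simp) (fun q q' w => by simp [mul_assoc]) F
    (by
      intro s x
      rw [hF]
      simp only
      rw [← Equiv.sum_comp (MulAut.conj s).toEquiv]
      refine Finset.sum_congr rfl fun u _ => ?_
      have : (s : X) * x * g * ((s : X) * x)⁻¹ * (((MulAut.conj s).toEquiv u : (S : Subgroup X)) : X)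
          = (s : X) * (x * g * x⁻¹ * u) * (s : X)⁻¹ := by
        simp only [MulEquiv.toEquiv_eq_coe, MulEquiv.coe_toEquiv, MulAut.conj_apply,
          Subgroup.coe_mul, Subgroup.coe_inv]
        group
      rw [this, irr_conj_inv])
    (fun r => ∃ r', MemLocalRing M r' ∧ r = (p : ℂ) * r')
    ⟨0, ring_zero hPr, by simp⟩
    (by
      rintro _ _ ⟨a, ha, rfl⟩ ⟨b, hb, rfl⟩
      exact ⟨a + b, ring_add hPr ha hb, by ring⟩)
    (by
      intro x E hE
      have hE1 : E = ⊥ := by
        rw [eq_bot_iff]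
        intro q hq
        have := (hE q).mp hq
        rw [Subgroup.mem_bot]
        apply Subtype.ext
        simpa using this
      obtain ⟨r, hr, e⟩ := hFp x
      refine ⟨(p : ℂ) * r, ⟨r, hr, rfl⟩, ?_⟩
      rw [hE1, e]
      simp)
  -- the other evaluation
  obtain ⟨hd0, hd1, -⟩ := irr_charDegree χ.2
  have hχ1 : (χ : X → ℂ) 1 ≠ 0 := by
    rw [hd1]; exact_mod_cast hd0.ne'
  have hsumS : ∑ u : (S : Subgroup X), (χ : X → ℂ) u = (χ : X → ℂ) 1 := by
    rw [Finset.sum_eq_single (1 : (S : Subgroup X))]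
    · simp
    · intro u _ hu1
      apply Cfsg.Agent.Lib.helper8_DefectZero.vanish_of_defect_zero hp χ hχ
      have hu1' : (u : X) ≠ 1 := fun h => hu1 (Subtype.ext h)
      obtain ⟨j, hj0, hj⟩ := dvd_orderOf_of_pGroup S.2 u.2 hu1'
      rw [hj]
      exact dvd_pow_self p hj0
    · intro h; exact absurd (Finset.mem_univ _) h
  have e2 : (χ : X → ℂ) 1 * ∑ x, F x = (χ : X → ℂ) 1 * ((Nat.card X : ℂ) * (χ : X → ℂ) g) := by
    rw [hF]
    simp only
    rw [Finset.sum_comm, Finset.mul_sum]
    have : ∀ u : (S : Subgroup X), (χ : X → ℂ) 1 * ∑ x : X, (χ : X → ℂ) (x * g * x⁻¹ * u) =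
        (Nat.card X : ℂ) * (χ : X → ℂ) g * (χ : X → ℂ) u := fun u => irr_sum_conj_mul χ g u
    rw [Finset.sum_congr rfl fun u _ => this u, ← Finset.mul_sum, hsumS]
    ring
  have e3 := mul_left_cancel₀ hχ1 e2
  rw [e] at e3
  have hidx := (S : Subgroup X).card_mul_index
  have hS0 : (Nat.card (S : Subgroup X) : ℂ) ≠ 0 := by exact_mod_cast Nat.card_pos.ne'
  have e4 : (p : ℂ) * r' = ((S : Subgroup X).index : ℂ) * (χ : X → ℂ) g := by
    apply mul_left_cancel₀ hS0
    rw [e3, ← hidx]
    push_cast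
    ring
  have h5 : MemLocalIdeal M (((S : Subgroup X).index : ℂ) * (χ : X → ℂ) g) := by
    rw [← e4]
    exact ideal_mul_right hPr ((ideal_natCast_iff hM p).mpr dvd_rfl) hr'
  rcases ideal_mul_mem hPr (ring_natCast hPr _)
    (ring_of_isIntegral hPr (isIntegral_of_isCharacter (isCharacter_of_isIrr χ.2) g)) h5 with h6 | h6
  · exact S.not_dvd_index ((ideal_natCast_iff hM _).mp h6)
  · exact hg h6

/-- Green's theorem for a block with normal defect group. -/
theorem normal_defect_inter (hM : IsPModular p M)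
    {b : Set (IrrCharacter X)} (hb : IsPBlock M b) (Δ : Subgroup X) [hn : Δ.Normal]
    (hΔ : IsDefectGroup p M b Δ) (S : Sylow p X) :
    ∃ x : X, ¬ p ∣ orderOf x ∧ Δ ≤ Subgroup.centralizer ({x} : Set X) ∧
      Nat.card Δ = p ^ (Nat.card (Subgroup.centralizer ({x} : Set X))).factorization p ∧
      (S : Subgroup X) ⊓ (S : Subgroup X).map (MulAut.conj x).toMonoidHom = Δ := by
  have hp : p.Prime := Fact.out
  have hPr := isPrime_of_modular hM
  haveI : Fintype X := Fintype.ofFinite X
  have hΔp := isPGroup_of_defect hΔ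
  obtain ⟨l0, hl0, hle, hcard⟩ := isDefectGroup_iff.mp hΔ
  have hreg : ¬ p ∣ orderOf l0 := regular_of_coeff hM hb hl0.2.1
  obtain ⟨χ, hχb, hker⟩ := exists_ker_of_normal_pGroup hM hb Δ inferInstance hΔp
  have hval := Cfsg.Agent.Lib.BlockPC2.degree_val_of_ker Δ hM hΔ χ hχb hker
  obtain ⟨χ', hχ', e⟩ := exists_deflate_irr Δ χ.2 hker
  obtain ⟨d0, d1, d2⟩ := irr_charDegree hχ'
  obtain ⟨c0, c1, -⟩ := irr_charDegree χ.2
  have h3 : charDegree (χ : X → ℂ) = charDegree χ' := by
    apply charDegree_of_eq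
    rw [e, ← d1]
    rfl
  have hdz : ¬ p ∣ Nat.card (X ⧸ Δ) / charDegree χ' := by
    apply Cfsg.Agent.Lib.BlockPC2.not_dvd_div_of_val hp d2 Nat.card_pos.ne'
    rw [← h3, hval, Subgroup.index_eq_card]
  have hidx : (Subgroup.centralizer ({l0} : Set X)).index.factorization p =
      Δ.index.factorization p := by
    have h1 := (Subgroup.centralizer ({l0} : Set X)).card_mul_index
    have h2 := Δ.card_mul_index
    have h3 : (Nat.card (Subgroup.centralizer ({l0} : Set X)) *
        (Subgroup.centralizer ({l0} : Set X)).index).factorization p =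
        (Nat.card X).factorization p := by rw [h1]
    have h4 : (Nat.card Δ * Δ.index).factorization p = (Nat.card X).factorization p := by rw [h2]
    rw [Nat.factorization_mul Nat.card_pos.ne' Subgroup.index_ne_zero_of_finite,
      Finsupp.add_apply] at h3 h4
    rw [hcard, Nat.Prime.factorization_pow hp, Finsupp.single_eq_same] at h4
    omega
  have hv : ¬ MemLocalIdeal M (χ' (QuotientGroup.mk l0)) := by
    intro hcon
    apply hl0.2.2 χ hχb
    have e1 : centralChar (χ : X → ℂ) l0 =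
        (((Subgroup.centralizer ({l0} : Set X)).index : ℂ) / (charDegree (χ : X → ℂ) : ℂ)) *
          χ' (QuotientGroup.mk l0) := by
      unfold centralChar
      rw [c1]
      have : (χ : X → ℂ) l0 = χ' (QuotientGroup.mk l0) := by rw [e]
      rw [this]
      ring
    rw [e1]
    exact ideal_mul_left hPr (Cfsg.Agent.Lib.Helper2_BlockSection.ring_of_ratio hM
      Subgroup.index_ne_zero_of_finite c0.ne' (by rw [hval, hidx])) hcon
  obtain ⟨xb, hxb⟩ := exists_trivial_inter hM
    (S.mapSurjective (QuotientGroup.mk'_surjective Δ)) ⟨χ', hχ'⟩ hdz (QuotientGroup.mk l0) hv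
  obtain ⟨n, rfl⟩ := QuotientGroup.mk_surjective xb
  rw [Sylow.coe_mapSurjective] at hxb
  have hΔS : Δ ≤ (S : Subgroup X) := hΔp.le_sylow_of_normal S
  refine ⟨n * l0 * n⁻¹, ?_, ?_, ?_, ?_⟩
  · have : orderOf (n * l0 * n⁻¹) = orderOf l0 := by
      have := orderOf_injective (MulAut.conj n).toMonoidHom (MulAut.conj n).injective l0
      simpa using this
    rw [this]
    exact hreg
  · intro d hd
    have h1 : n⁻¹ * d * n ∈ Δ := by
      have := hn.conj_mem d hd n⁻¹
      simpa using this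
    have h2 := Subgroup.mem_centralizer_singleton_iff.mp (hle h1)
    rw [Subgroup.mem_centralizer_singleton_iff]
    calc d * (n * l0 * n⁻¹) = n * ((n⁻¹ * d * n) * l0) * n⁻¹ := by group
      _ = n * (l0 * (n⁻¹ * d * n)) * n⁻¹ := by rw [h2]
      _ = _ := by group
  · rw [card_centralizer_conj, hcard]
  · apply le_antisymm
    · intro s hs
      obtain ⟨hs1, s', hs', e'⟩ := Subgroup.mem_inf.mp hs
      have h1 : (QuotientGroup.mk s : X ⧸ Δ) ∈ ((S : Subgroup X).map (QuotientGroup.mk' Δ)) ⊓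
          ((S : Subgroup X).map (QuotientGroup.mk' Δ)).map (MulAut.conj
            ((QuotientGroup.mk n : X ⧸ Δ) * QuotientGroup.mk l0 *
              (QuotientGroup.mk n : X ⧸ Δ)⁻¹)).toMonoidHom := by
        refine Subgroup.mem_inf.mpr ⟨⟨s, hs1, rfl⟩, ⟨QuotientGroup.mk s', ⟨s', hs', rfl⟩, ?_⟩⟩
        rw [← e']
        simp
      rw [hxb, Subgroup.mem_bot] at h1
      exact (QuotientGroup.eq_one_iff s).mp h1
    · apply le_inf hΔS
      intro d hd
      refine ⟨(n * l0 * n⁻¹)⁻¹ * d * (n * l0 * n⁻¹), hΔS ?_, ?_⟩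
      · have := hn.conj_mem d hd (n * l0 * n⁻¹)⁻¹
        simpa using this
      · simp only [MulEquiv.coe_toMonoidHom, MulAut.conj_apply]
        group

/-- Green's theorem, strong form. -/
theorem main (hM : IsPModular p M) {B : Set (IrrCharacter X)} (hB : IsPBlock M B)
    (D : Subgroup X) (hD : IsDefectGroup p M B D) (P : Sylow p X) (hDP : D ≤ P) :
    ∃ x : X, ¬ p ∣ orderOf x ∧
      (∃ S : Sylow p (Subgroup.centralizer ({x} : Set X)),
        (S : Subgroup (Subgroup.centralizer ({x} : Set X))).map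
          (Subgroup.centralizer ({x} : Set X)).subtype = D) ∧
      (P : Subgroup X) ⊓ (P : Subgroup X).map (MulAut.conj x).toMonoidHom = D := by
  have hDp := isPGroup_of_defect hD
  have hDN : D ≤ Subgroup.normalizer (D : Set X) := Subgroup.le_normalizer
  obtain ⟨b, hb, hbD, -⟩ := fmt_exists hM hB hD
  haveI : (D.subgroupOf (Subgroup.normalizer (D : Set X))).Normal :=
    (Subgroup.normal_subgroupOf_iff_le_normalizer hDN).mpr le_rfl
  have hPN : IsPGroup p ((P : Subgroup X).subgroupOf (Subgroup.normalizer (D : Set X))) :=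
    P.2.comap_subtype
  obtain ⟨S, hS⟩ := hPN.exists_le_sylow
  obtain ⟨x, hx1, hx2, hx3, hx4⟩ := normal_defect_inter hM hb
    (D.subgroupOf (Subgroup.normalizer (D : Set X))) hbD S
  have hle' : D ≤ Subgroup.centralizer ({(x : X)} : Set X) := by
    intro a ha
    have := hx2 (show (⟨a, hDN ha⟩ : Subgroup.normalizer (D : Set X)) ∈ D.subgroupOf _ from by
      rw [Subgroup.mem_subgroupOf]; exact ha)
    rw [centralizer_sub_eq, Subgroup.mem_subgroupOf] at this
    exact this
  refine ⟨x, ?_, ?_, ?_⟩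
  · rwa [Subgroup.orderOf_coe]
  · have hc : Nat.card D =
        p ^ (Nat.card (Subgroup.centralizer ({(x : X)} : Set X))).factorization p := by
      apply sylow_of_sylow_normalizer hDp hle'
      rw [← card_centralizer_sub, ← hx3]
      exact (Nat.card_congr (Subgroup.subgroupOfEquivOfLe hDN).toEquiv).symm
    obtain ⟨S', hS'⟩ := (exists_sylow_map_iff _ _).mpr ⟨hle', hc⟩
    exact ⟨S', hS'.symm⟩
  · have hDR : D ≤ (P : Subgroup X) ⊓ (P : Subgroup X).map (MulAut.conj (x : X)).toMonoidHom := by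
      apply le_inf hDP
      intro d hd
      refine ⟨d, hDP hd, ?_⟩
      have h2 := Subgroup.mem_centralizer_singleton_iff.mp (hle' hd)
      simp only [MulEquiv.coe_toMonoidHom, MulAut.conj_apply]
      rw [← h2]
      group
    by_contra hne
    have hlt : D < (P : Subgroup X) ⊓ (P : Subgroup X).map (MulAut.conj (x : X)).toMonoidHom :=
      lt_of_le_of_ne hDR (Ne.symm hne)
    obtain ⟨r, hrR, hrN, hrD⟩ := normalizer_grows (IsPGroup.to_le P.2 inf_le_left) hlt
    obtain ⟨hr1, r', hr', e'⟩ := Subgroup.mem_inf.mp hrR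
    simp only [MulEquiv.coe_toMonoidHom, MulAut.conj_apply] at e'
    have hr'N : r' ∈ Subgroup.normalizer (D : Set X) := by
      have : r' = (x : X)⁻¹ * r * x := by rw [← e']; group
      rw [this]
      exact mul_mem (mul_mem (inv_mem x.2) hrN) x.2
    have h1 : (⟨r, hrN⟩ : Subgroup.normalizer (D : Set X)) ∈
        (S : Subgroup (Subgroup.normalizer (D : Set X))) ⊓
          (S : Subgroup (Subgroup.normalizer (D : Set X))).map (MulAut.conj x).toMonoidHom := by
      refine Subgroup.mem_inf.mpr ⟨hS (by rw [Subgroup.mem_subgroupOf]; exact hr1),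
        ⟨⟨r', hr'N⟩, hS (by rw [Subgroup.mem_subgroupOf]; exact hr'), Subtype.ext ?_⟩⟩
      simpa using e'
    rw [hx4, Subgroup.mem_subgroupOf] at h1
    exact hrD h1

end Cfsg.Agent.Lib.GreenSylow
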