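import Mathlib
import Cfsg.Agent.Lib.Helper9_PResidual2
import Cfsg.Agent.S0074
import Cfsg.Agent.S0090

set_option autoImplicit false

namespace Cfsg.Agent.Lib.Helper1_AbSylow

open Subgroup Cfsg Cfsg.Agent.Lib.Helper9_PResidual Cfsg.Agent.Lib.Helper9_PResidual2

theorem coprime_of_mem_pResidual {p : ℕ} {A : Type*} [CommGroup A] {a : A}
    (ha : a ∈ pResidual p A) : Nat.Coprime (orderOf a) p := by
  unfold pResidual at ha
  induction ha using Subgroup.closure_induction with
  | mem x hx => exact hx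
  | one => simp
  | mul x y _ _ hx hy =>
    exact Nat.Coprime.coprime_dvd_left
      (((Commute.all x y).orderOf_mul_dvd_lcm).trans (Nat.lcm_dvd_mul _ _))
      (Nat.Coprime.mul_left hx hy)
  | inv x _ hx => rwa [orderOf_inv]

variable {G : Type*} [Group G] [Finite G] {p : ℕ} [Fact p.Prime]

/-- a `p`-subgroup meets `O^p(G)` inside `G'` -/
theorem inf_pResidual_le_commutator {U : Subgroup G} (hU : IsPGroup p U) :
    U ⊓ pResidual p G ≤ commutator G := by
  intro x hx
  obtain ⟨hxU, hxR⟩ := Subgroup.mem_inf.1 hx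
  rw [← Abelianization.ker_of, MonoidHom.mem_ker]
  have h1 := coprime_of_mem_pResidual (hom_mem_pResidual (Abelianization.of (G := G)) hxR)
  obtain ⟨k, hk⟩ := hU ⟨x, hxU⟩
  have h2 : (Abelianization.of x) ^ p ^ k = 1 := by
    rw [← map_pow]
    have : x ^ p ^ k = 1 := congrArg (fun t : U => (t : G)) hk
    rw [this, map_one]
  have h3 := orderOf_dvd_of_pow_eq_one h2
  exact orderOf_eq_one_iff.1 (Nat.Coprime.eq_one_of_dvd (Nat.Coprime.pow_right k h1) h3)

theorem commutator_le_pResidual (T : Sylow p G) (hT : IsMulCommutative T) :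
    commutator G ≤ pResidual p G := by
  haveI := pResidual_normal p G
  exact Subgroup.Normal.commutator_le_of_self_sup_commutative_eq_top (pResidual_sup_sylow T) hT

theorem inf_pResidual_eq (T : Sylow p G) (hT : IsMulCommutative T) :
    (T : Subgroup G) ⊓ pResidual p G = (T : Subgroup G) ⊓ commutator G :=
  le_antisymm (le_inf inf_le_left (inf_pResidual_le_commutator T.isPGroup'))
    (inf_le_inf_left _ (commutator_le_pResidual T hT))

/-- `N_G(T)' ∩ T = [T, N_G(T)]` for an abelian Sylow subgroup `T` -/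
theorem commutator_normalizer_inf (T : Sylow p G) (hT : IsMulCommutative T) :
    ⁅normalizer (T : Set G), normalizer (T : Set G)⁆ ⊓ (T : Subgroup G) =
      ⁅(T : Subgroup G), normalizer (T : Set G)⁆ := by
  set N := normalizer ((T : Subgroup G) : Set G) with hN
  have hTN : (T : Subgroup G) ≤ N := le_normalizer
  haveI : ((T : Subgroup G).subgroupOf N).Normal := normal_in_normalizer
  haveI : IsMulCommutative (T : Subgroup G) := hT
  have hc : IsMulCommutative ((T : Subgroup G).subgroupOf N) := inferInstance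
  have hHall : Nat.Coprime (Nat.card ((T : Subgroup G).subgroupOf N))
      ((T : Subgroup G).subgroupOf N).index := by
    obtain ⟨k, hk⟩ := IsPGroup.iff_card.1 T.isPGroup'
    rw [Nat.card_congr (subgroupOfEquivOfLe hTN).toEquiv, hk]
    apply Nat.Coprime.pow_left
    rw [Nat.Prime.coprime_iff_not_dvd Fact.out]
    intro hd
    apply T.not_dvd_index
    exact hd.trans (relIndex_dvd_index_of_le hTN)
  obtain ⟨h1, -, -⟩ := Cfsg.Agent.S0090.result ((T : Subgroup G).subgroupOf N) hc hHall
  have h2 := congrArg (Subgroup.map N.subtype) h1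
  rw [Subgroup.map_commutator, Subgroup.map_inf _ _ _ N.subtype_injective,
    Subgroup.map_subtype_commutator, Subgroup.map_subgroupOf_eq_of_le hTN,
    ← MonoidHom.range_eq_map, Subgroup.range_subtype] at h2
  exact h2.symm

theorem inf_pResidual_eq_commutator (T : Sylow p G) (hT : IsMulCommutative T) :
    (T : Subgroup G) ⊓ pResidual p G = ⁅(T : Subgroup G), normalizer (T : Set G)⁆ := by
  rw [inf_pResidual_eq T hT, inf_comm, Cfsg.Agent.S0074.result T hT, commutator_normalizer_inf T hT]

theorem map_center_inf {T N : Subgroup G} (hTN : T ≤ N) :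
    (center N ⊓ T.subgroupOf N).map N.subtype = T ⊓ centralizer (N : Set G) := by
  ext x
  constructor
  · rintro ⟨y, hy, rfl⟩
    obtain ⟨h1, h2⟩ := Subgroup.mem_inf.1 hy
    refine Subgroup.mem_inf.2 ⟨h2, ?_⟩
    rw [mem_centralizer_iff]
    intro n hn
    exact congrArg Subtype.val (mem_center_iff.1 h1 ⟨n, hn⟩)
  · intro hx
    obtain ⟨h1, h2⟩ := Subgroup.mem_inf.1 hx
    refine ⟨⟨x, hTN h1⟩, Subgroup.mem_inf.2 ⟨?_, h1⟩, rfl⟩
    rw [mem_center_iff]
    intro g
    apply Subtype.ext
    exact (mem_centralizer_iff.1 h2) g.1 g.2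

/-- `T = [T, N_G(T)] × C_T(N_G(T))` for an abelian Sylow subgroup `T` -/
theorem decomposition (T : Sylow p G) (hT : IsMulCommutative T) :
    ⁅(T : Subgroup G), normalizer (T : Set G)⁆ ⊓
        ((T : Subgroup G) ⊓ centralizer (normalizer (T : Set G) : Set G)) = ⊥ ∧
      ⁅(T : Subgroup G), normalizer (T : Set G)⁆ ⊔
        ((T : Subgroup G) ⊓ centralizer (normalizer (T : Set G) : Set G)) = T := by
  rw [← commutator_normalizer_inf T hT]
  set N := normalizer ((T : Subgroup G) : Set G) with hN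
  have hTN : (T : Subgroup G) ≤ N := le_normalizer
  haveI : ((T : Subgroup G).subgroupOf N).Normal := normal_in_normalizer
  haveI : IsMulCommutative (T : Subgroup G) := hT
  have hc : IsMulCommutative ((T : Subgroup G).subgroupOf N) := inferInstance
  have hHall : Nat.Coprime (Nat.card ((T : Subgroup G).subgroupOf N))
      ((T : Subgroup G).subgroupOf N).index := by
    obtain ⟨k, hk⟩ := IsPGroup.iff_card.1 T.isPGroup'
    rw [Nat.card_congr (subgroupOfEquivOfLe hTN).toEquiv, hk]
    apply Nat.Coprime.pow_left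
    rw [Nat.Prime.coprime_iff_not_dvd Fact.out]
    intro hd
    apply T.not_dvd_index
    exact hd.trans (relIndex_dvd_index_of_le hTN)
  obtain ⟨-, h1, h2⟩ := Cfsg.Agent.S0090.result ((T : Subgroup G).subgroupOf N) hc hHall
  have h1' := congrArg (Subgroup.map N.subtype) h1
  have h2' := congrArg (Subgroup.map N.subtype) h2
  rw [Subgroup.map_inf _ _ _ N.subtype_injective, Subgroup.map_inf _ _ _ N.subtype_injective,
    Subgroup.map_subtype_commutator, Subgroup.map_subgroupOf_eq_of_le hTN, map_center_inf hTN,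
    Subgroup.map_bot] at h1'
  rw [Subgroup.map_sup, Subgroup.map_inf _ _ _ N.subtype_injective,
    Subgroup.map_subtype_commutator, Subgroup.map_subgroupOf_eq_of_le hTN, map_center_inf hTN] at h2'
  exact ⟨h1', h2'⟩

omit [Finite G] [Fact p.Prime] in
theorem mem_zpowers_of_isCyclic {P : Type*} [Group P] [Finite P] [IsCyclic P] {p : ℕ}
    (hp : 0 < p) {x y : P} (hx : x ^ p = 1) (hy : orderOf y = p) : x ∈ zpowers y := by
  classical
  have := Fintype.ofFinite P
  have h1 : (Finset.univ.filter (fun a : P => a ^ p = 1)).card ≤ p := IsCyclic.card_pow_eq_one_le hp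
  have h2 : ((zpowers y : Set P).toFinset) ⊆ Finset.univ.filter (fun a : P => a ^ p = 1) := by
    intro a ha
    rw [Set.mem_toFinset] at ha
    obtain ⟨k, rfl⟩ := ha
    simp only [Finset.mem_filter, Finset.mem_univ, true_and]
    rw [← zpow_natCast, ← zpow_mul, mul_comm, zpow_mul, zpow_natCast, ← hy, pow_orderOf_eq_one,
      one_zpow]
  have h3 : ((zpowers y : Set P).toFinset).card = p := by
    rw [Set.toFinset_card, ← Nat.card_eq_fintype_card]
    exact (Nat.card_zpowers y).trans hy
  have h4 := Finset.eq_of_subset_of_card_le h2 (by rw [h3]; exact h1)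
  have h5 : x ∈ Finset.univ.filter (fun a : P => a ^ p = 1) := by simp [hx]
  rw [← h4, Set.mem_toFinset] at h5
  exact h5

/-- in a cyclic `p`-group two subgroups with trivial intersection: one is trivial -/
theorem eq_bot_or_eq_bot_of_isCyclic {P X Y : Subgroup G} (hP : IsCyclic P) (hPp : IsPGroup p P)
    (hX : X ≤ P) (hY : Y ≤ P) (h : X ⊓ Y = ⊥) : X = ⊥ ∨ Y = ⊥ := by
  by_contra hcon
  push Not at hcon
  obtain ⟨hX0, hY0⟩ := hcon
  have hp : p.Prime := Fact.out
  have key : ∀ Z : Subgroup G, Z ≤ P → Z ≠ ⊥ → ∃ z ∈ Z, orderOf z = p := by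
    intro Z hZ hZ0
    obtain ⟨k, hk⟩ := IsPGroup.iff_card.1 (hPp.to_le hZ)
    have hk0 : k ≠ 0 := by
      rintro rfl
      rw [pow_zero] at hk
      exact hZ0 (Subgroup.card_eq_one.1 hk)
    obtain ⟨z, hz⟩ := exists_prime_orderOf_dvd_card' (G := Z) p (by rw [hk]; exact dvd_pow_self p hk0)
    exact ⟨z.1, z.2, by rw [Subgroup.orderOf_coe]; exact hz⟩
  obtain ⟨x, hx, hxo⟩ := key X hX hX0
  obtain ⟨y, hy, hyo⟩ := key Y hY hY0
  have h1 : (⟨x, hX hx⟩ : P) ∈ zpowers (⟨y, hY hy⟩ : P) := by
    apply mem_zpowers_of_isCyclic hp.pos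
    · apply Subtype.ext
      simp only [SubmonoidClass.mk_pow, OneMemClass.coe_one]
      rw [← hxo]; exact pow_orderOf_eq_one x
    · rw [← hyo, ← Subgroup.orderOf_coe]
  obtain ⟨k, hk⟩ := h1
  have h2 : x = y ^ k := by
    have := congrArg Subtype.val hk
    simpa using this.symm
  have h3 : x ∈ X ⊓ Y := Subgroup.mem_inf.2 ⟨hx, by rw [h2]; exact zpow_mem hy k⟩
  rw [h, mem_bot] at h3
  rw [h3, orderOf_one] at hxo
  exact hp.one_lt.ne hxo

end Cfsg.Agent.Lib.Helper1_AbSylow
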