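import Mathlib
import Cfsg.Agent.Lib.Helper1_Invol2
import Cfsg.Agent.S0238

namespace Cfsg.Agent.Lib.Helper1_BF

open Subgroup Cfsg.Agent.Lib.Helper1_Invol Cfsg.Agent.Lib.Helper1_Invol2

variable {G : Type*} [Group G]

/-- number of ways of writing `x` as a product of two involutions -/
noncomputable def beta (x : G) : ℕ :=
  Nat.card {p : G × G // orderOf p.1 = 2 ∧ orderOf p.2 = 2 ∧ p.1 * p.2 = x}

/-- number of involutions -/
noncomputable def numInv (G : Type*) [Group G] : ℕ := Nat.card {t : G // orderOf t = 2}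

theorem sum_beta [Fintype G] : ∑ x : G, beta x = numInv G ^ 2 := by
  classical
  let I : Finset G := Finset.univ.filter (fun t : G => orderOf t = 2)
  have hI : I.card = numInv G := by
    rw [numInv, Nat.card_eq_fintype_card, Fintype.card_subtype]
  have h1 := Finset.card_eq_sum_card_fiberwise (s := I ×ˢ I) (t := (Finset.univ : Finset G))
    (f := fun p : G × G => p.1 * p.2) (fun _ _ => Finset.mem_coe.2 (Finset.mem_univ _))
  rw [Finset.card_product, hI] at h1
  rw [pow_two, h1]
  apply Finset.sum_congr rfl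
  intro x _
  rw [beta, Nat.card_eq_fintype_card, Fintype.card_subtype]
  congr 1
  ext p
  simp [I, and_assoc]

theorem beta_one : beta (1 : G) = numInv G := by
  rw [beta, Nat.card_congr (pairsEquiv 1), numInv]
  refine Nat.card_congr (Equiv.subtypeEquivRight fun t => ?_)
  constructor
  · rintro ⟨h, _⟩; exact h
  · intro h; exact ⟨h, by simp, ne_one_of_order h⟩

/-- extended centralizer -/
def cstar (x : G) : Subgroup G where
  carrier := {g | g * x * g⁻¹ = x ∨ g * x * g⁻¹ = x⁻¹}
  one_mem' := Or.inl (by simp)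
  mul_mem' := by
    intro a b ha hb
    have e : a * b * x * (a * b)⁻¹ = a * (b * x * b⁻¹) * a⁻¹ := by group
    have e2 : a * x⁻¹ * a⁻¹ = (a * x * a⁻¹)⁻¹ := by group
    show a * b * x * (a * b)⁻¹ = x ∨ a * b * x * (a * b)⁻¹ = x⁻¹
    rw [e]
    rcases ha with ha | ha <;> rcases hb with hb | hb
    · left; rw [hb, ha]
    · right; rw [hb, e2, ha]
    · right; rw [hb, ha]
    · left; rw [hb, e2, ha, inv_inv]
  inv_mem' := by
    intro a ha
    show a⁻¹ * x * a⁻¹⁻¹ = x ∨ a⁻¹ * x * a⁻¹⁻¹ = x⁻¹
    rcases ha with ha | ha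
    · left
      conv_lhs => rw [← ha]
      group
    · right
      have : x = a * x⁻¹ * a⁻¹ := by
        have e2 : a * x⁻¹ * a⁻¹ = (a * x * a⁻¹)⁻¹ := by group
        rw [e2, ha, inv_inv]
      conv_lhs => rw [this]
      group

theorem card_cstar [Finite G] {x g : G} (hg : g * x * g⁻¹ = x⁻¹) (hx : x ^ 2 ≠ 1) :
    Nat.card (cstar x) = 2 * Nat.card (centralizer ({x} : Set G)) := by
  classical
  have hne : x ≠ x⁻¹ := by
    intro h
    apply hx
    rw [pow_two]
    calc x * x = x⁻¹ * x := by rw [← h]
      _ = 1 := inv_mul_cancel x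
  have e : cstar x ≃ {h : G // h * x * h⁻¹ = x} ⊕ {h : G // h * x * h⁻¹ = x⁻¹} :=
    subtypeOrEquiv (fun h : G => h * x * h⁻¹ = x) (fun h : G => h * x * h⁻¹ = x⁻¹) (by
      rw [Pi.disjoint_iff]
      intro h
      rw [Prop.disjoint_iff]
      intro ⟨h1, h2⟩
      exact hne (h1.symm.trans h2))
  rw [Nat.card_congr e, Nat.card_sum, card_inverting hg, two_mul]
  congr 1
  refine Nat.card_congr (Equiv.subtypeEquivRight fun h => ?_)
  rw [mem_centralizer_singleton_iff, mul_inv_eq_iff_eq_mul]

theorem centralizer_le_cstar (x : G) : centralizer ({x} : Set G) ≤ cstar x := by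
  intro h hh
  left
  rw [mem_centralizer_singleton_iff] at hh
  rw [mul_inv_eq_iff_eq_mul, hh]

/-- Brauer–Fowler -/
theorem brauer_fowler [Finite G] (heven : Even (Nat.card G))
    (hZ : Odd (Nat.card (Subgroup.center G))) :
    ∃ H : Subgroup G, H ≠ ⊤ ∧ (H.index = 2 ∨
      2 * H.index * (numInv G) ^ 2 < Nat.card G * (Nat.card G + numInv G)) := by
  classical
  haveI := Fintype.ofFinite G
  by_contra hcon
  push Not at hcon
  set m := numInv G with hm
  set K := Nat.card G + m with hK
  have hbound : ∀ H : Subgroup G, H ≠ ⊤ → Nat.card H * K ≤ 2 * m ^ 2 := by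
    intro H hH
    have h1 := (hcon H hH).2
    rw [← H.card_mul_index] at h1
    have hpos : 0 < H.index := Nat.pos_of_ne_zero H.index_ne_zero_of_finite
    have h2 : H.index * (Nat.card H * K) ≤ H.index * (2 * m ^ 2) := by
      calc H.index * (Nat.card H * K) = Nat.card H * H.index * K := by ring
        _ ≤ 2 * H.index * m ^ 2 := h1
        _ = H.index * (2 * m ^ 2) := by ring
    exact Nat.le_of_mul_le_mul_left h2 hpos
  have hmpos : 0 < m := by
    haveI : Fact (Nat.Prime 2) := ⟨Nat.prime_two⟩
    obtain ⟨t, ht⟩ := exists_prime_orderOf_dvd_card' (G := G) 2 heven.two_dvd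
    haveI : Nonempty {t : G // orderOf t = 2} := ⟨⟨t, ht⟩⟩
    exact Nat.card_pos
  let i : G → ℕ := fun x => if orderOf x = 2 then 1 else 0
  let j : G → ℕ := fun x => if x = 1 then 1 else 0
  have hpt : ∀ x : G, beta x * K + 2 * i x * K ≤ m ^ 2 + i x * m ^ 2 + j x * (m * K) := by
    intro x
    by_cases hx1 : x = 1
    · subst hx1
      have hi : i 1 = 0 := by simp [i]
      have hj : j 1 = 1 := by simp [j]
      rw [hi, hj, beta_one]
      nlinarith
    have hj : j x = 0 := by simp [j, hx1]
    by_cases hx2 : orderOf x = 2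
    · have hi : i x = 1 := by simp [i, hx2]
      rw [hi, hj]
      have h1 := (Cfsg.Agent.S0238.result x).2.2 hx2
      have hprop : centralizer ({x} : Set G) ≠ ⊤ := by
        intro htop
        have hxc : x ∈ center G := centralizer_eq_top_iff_subset.1 htop (Set.mem_singleton x)
        apply hx1
        apply eq_one_of_two_pow_of_odd hZ hxc (k := 1)
        rw [pow_one, pow_two]
        exact mul_self_of_order hx2
      have h2 := hbound _ hprop
      have h3 : (beta x + 2) * K ≤ 2 * m ^ 2 := le_trans (Nat.mul_le_mul_right _ h1) h2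
      nlinarith
    · have hi : i x = 0 := by simp [i, hx2]
      rw [hi, hj]
      have hxsq : x ^ 2 ≠ 1 := by
        intro h
        exact hx2 (orderOf_eq_two hx1 (by rwa [← pow_two]))
      by_cases hreal : IsConj x x⁻¹
      · obtain ⟨g, hg⟩ := isConj_iff.1 hreal
        have hc := card_cstar hg hxsq
        have hprop : cstar x ≠ ⊤ := by
          intro htop
          have h1 : Nat.card G = 2 * Nat.card (centralizer ({x} : Set G)) := by
            rw [← hc, htop, Subgroup.card_top]
          have h2 := (centralizer ({x} : Set G)).card_mul_index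
          have hpos : 0 < Nat.card (centralizer ({x} : Set G)) := Nat.card_pos
          have h3 : (centralizer ({x} : Set G)).index = 2 := by
            rw [h1, mul_comm 2] at h2
            exact Nat.eq_of_mul_eq_mul_left hpos h2
          have h4 : centralizer ({x} : Set G) ≠ ⊤ := by
            intro h
            rw [h, Subgroup.index_top] at h3
            omega
          exact (hcon _ h4).1 h3
        have h2 := hbound _ hprop
        rw [hc] at h2
        have h1 := (Cfsg.Agent.S0238.result x).1
        have h3 : beta x * K ≤ Nat.card (centralizer ({x} : Set G)) * K := Nat.mul_le_mul_right _ h1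
        nlinarith
      · have h1 := (Cfsg.Agent.S0238.result x).2.1 hreal
        have : beta x = 0 := h1
        rw [this]
        nlinarith
  have hsum := Finset.sum_le_sum (fun x (_ : x ∈ (Finset.univ : Finset G)) => hpt x)
  have hsi : ∑ x : G, i x = m := by
    rw [hm, numInv, Nat.card_eq_fintype_card, Fintype.card_subtype, Finset.card_filter]
  have hsj : ∑ x : G, j x = 1 := by
    simp [j]
  have hL : ∑ x : G, (beta x * K + 2 * i x * K) = m ^ 2 * K + 2 * m * K := by
    rw [Finset.sum_add_distrib, ← Finset.sum_mul, sum_beta, ← Finset.sum_mul, ← Finset.mul_sum, hsi]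
  have hR : ∑ x : G, (m ^ 2 + i x * m ^ 2 + j x * (m * K)) =
      Nat.card G * m ^ 2 + m * m ^ 2 + m * K := by
    rw [Finset.sum_add_distrib, Finset.sum_add_distrib, ← Finset.sum_mul, ← Finset.sum_mul, hsi, hsj,
      Finset.sum_const, Finset.card_univ, Nat.card_eq_fintype_card, smul_eq_mul, one_mul]
  rw [hL, hR] at hsum
  have hKpos : 0 < K := by omega
  have : m * K > 0 := Nat.mul_pos hmpos hKpos
  have hexp : Nat.card G * m ^ 2 + m * m ^ 2 = m ^ 2 * K := by rw [hK]; ring
  nlinarith

end Cfsg.Agent.Lib.Helper1_BF
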