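import Mathlib
import Cfsg.Prelude.Def_LieExceptional

namespace Cfsg.Agent.Lib.Helper1_BN

open Cfsg

variable {G : Type*} [Group G] (P : BNPair G)

/-- the double coset `B n B` -/
def C (n : G) : Set G := DoubleCoset.doubleCoset n (P.B : Set G) P.B

variable {P}

theorem mem_C {n g : G} : g ∈ C P n ↔ ∃ b ∈ P.B, ∃ b' ∈ P.B, g = b * n * b' :=
  DoubleCoset.mem_doubleCoset

theorem self_mem (n : G) : n ∈ C P n := DoubleCoset.mem_doubleCoset_self _ _ n

theorem C_eq_of_mem {n g : G} (h : g ∈ C P n) : C P g = C P n :=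
  DoubleCoset.doubleCoset_eq_of_mem h

theorem mul_mem_C {n g b b' : G} (hb : b ∈ P.B) (hb' : b' ∈ P.B) (h : g ∈ C P n) :
    b * g * b' ∈ C P n := by
  obtain ⟨c, hc, c', hc', rfl⟩ := mem_C.1 h
  exact mem_C.2 ⟨b * c, mul_mem hb hc, c' * b', mul_mem hc' hb', by group⟩

theorem mul_left_mem_C {n g b : G} (hb : b ∈ P.B) (h : g ∈ C P n) : b * g ∈ C P n := by
  have := mul_mem_C hb (one_mem _) h
  rwa [mul_one] at this

theorem mul_right_mem_C {n g b : G} (hb : b ∈ P.B) (h : g ∈ C P n) : g * b ∈ C P n := by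
  have := mul_mem_C (one_mem _) hb h
  rwa [one_mul] at this

theorem inv_mem_C {n g : G} (h : g ∈ C P n) : g⁻¹ ∈ C P n⁻¹ := by
  obtain ⟨c, hc, c', hc', rfl⟩ := mem_C.1 h
  exact mem_C.2 ⟨c'⁻¹, inv_mem hc', c⁻¹, inv_mem hc, by group⟩

theorem mem_C_of_mem_B {n g : G} (hn : n ∈ P.B) : g ∈ C P n ↔ g ∈ P.B := by
  constructor
  · intro h
    obtain ⟨c, hc, c', hc', rfl⟩ := mem_C.1 h
    exact mul_mem (mul_mem hc hn) hc'
  · intro h
    exact mem_C.2 ⟨g, h, n⁻¹, inv_mem hn, by group⟩

/-- `n` and `n'` have the same image in `W` -/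
def R (P : BNPair G) (n n' : G) : Prop := n⁻¹ * n' ∈ P.B

theorem R.refl (n : G) : R P n n := by simp [R, one_mem]

theorem R.symm {n n' : G} (h : R P n n') : R P n' n := by
  have := inv_mem h
  simpa [R] using this

theorem R.trans {a b c : G} (h1 : R P a b) (h2 : R P b c) : R P a c := by
  have := mul_mem h1 h2
  simpa [R, mul_assoc] using this

theorem R.mul_left {a b : G} (h : R P a b) (g : G) : R P (g * a) (g * b) := by
  simpa [R, mul_assoc] using h

theorem R.of_mul_left {a b g : G} (h : R P (g * a) (g * b)) : R P a b := by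
  simpa [R, mul_assoc] using h

theorem R.mul_right {a b : G} (h : R P a b) (ha : a ∈ P.N) (hb : b ∈ P.N) {m : G} (hm : m ∈ P.N) :
    R P (a * m) (b * m) := by
  have h1 := P.conj_mem m⁻¹ (inv_mem hm) (a⁻¹ * b) (Subgroup.mem_inf.2 ⟨h, mul_mem (inv_mem ha) hb⟩)
  have e : (a * m)⁻¹ * (b * m) = m⁻¹ * (a⁻¹ * b) * m⁻¹⁻¹ := by group
  rw [R, e]; exact h1

theorem R.C_eq {n n' : G} (h : R P n n') : C P n' = C P n := by
  apply C_eq_of_mem
  exact mem_C.2 ⟨1, one_mem _, n⁻¹ * n', h, by group⟩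

theorem R.mul_B {n b : G} (hb : b ∈ P.B) : R P n (n * b) := by simpa [R] using hb

/-- conjugates of elements of `T` by elements of `N` -/
theorem conj_mem' {n t : G} (hn : n ∈ P.N) (htB : t ∈ P.B) (htN : t ∈ P.N) : n⁻¹ * t * n ∈ P.B := by
  have := P.conj_mem n⁻¹ (inv_mem hn) t (Subgroup.mem_inf.2 ⟨htB, htN⟩)
  rwa [inv_inv] at this

theorem S_mem_N {s : G} (hs : s ∈ P.S) : s ∈ P.N := P.subset hs

theorem R_ss_mul {s n : G} (hs : s ∈ P.S) (hn : n ∈ P.N) : R P (s * (s * n)) n := by
  have h := conj_mem' hn (inv_mem (P.sq_mem s hs)) (inv_mem (mul_mem (S_mem_N hs) (S_mem_N hs)))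
  have e : (s * (s * n))⁻¹ * n = n⁻¹ * (s * s)⁻¹ * n := by group
  rw [R, e]; exact h

theorem R_mul_ss {s n : G} (hs : s ∈ P.S) : R P (n * s * s) n := by
  have e : (n * s * s)⁻¹ * n = (s * s)⁻¹ := by group
  rw [R, e]; exact inv_mem (P.sq_mem s hs)

theorem R_inv {s : G} (hs : s ∈ P.S) : R P s s⁻¹ := by
  have e : s⁻¹ * s⁻¹ = (s * s)⁻¹ := by group
  rw [R, e]; exact inv_mem (P.sq_mem s hs)

theorem inv_mem_C_S {s : G} (hs : s ∈ P.S) : s⁻¹ ∈ C P s := by
  rw [← (R_inv hs).C_eq]; exact self_mem _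

theorem S_not_mem_B {s : G} (hs : s ∈ P.S) : s ∉ P.B := by
  intro h
  apply P.conj_ne s hs
  ext g
  constructor
  · rintro ⟨b, hb, rfl⟩
    exact mul_mem (mul_mem h hb) h
  · intro hg
    exact ⟨s⁻¹ * g * s⁻¹, mul_mem (mul_mem (inv_mem h) hg) (inv_mem h), by group⟩

/-- general form of the double coset axiom -/
theorem mul_mem_union {s n g h : G} (hs : s ∈ P.S) (hn : n ∈ P.N) (hg : g ∈ C P s)
    (hh : h ∈ C P n) : g * h ∈ C P (s * n) ∪ C P n := by
  obtain ⟨b1, hb1, b2, hb2, rfl⟩ := mem_C.1 hg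
  obtain ⟨b3, hb3, b4, hb4, rfl⟩ := mem_C.1 hh
  have e : b1 * s * b2 * (b3 * n * b4) = b1 * (s * (b2 * b3) * n) * b4 := by group
  rw [e]
  rcases P.mul_mem_union s hs n hn (b2 * b3) (mul_mem hb2 hb3) with h | h
  · exact Or.inl (mul_mem_C hb1 hb4 h)
  · exact Or.inr (mul_mem_C hb1 hb4 h)

/-- right-handed version -/
theorem mul_mem_union' {s n g h : G} (hs : s ∈ P.S) (hn : n ∈ P.N) (hg : g ∈ C P s)
    (hh : h ∈ C P n) : h * g ∈ C P (n * s) ∪ C P n := by
  have hg' : g⁻¹ ∈ C P s := by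
    have := inv_mem_C hg
    rwa [(R_inv hs).C_eq] at this
  have h1 := mul_mem_union hs (inv_mem hn) hg' (inv_mem_C hh)
  have e : h * g = (g⁻¹ * h⁻¹)⁻¹ := by group
  rw [e]
  rcases h1 with h1 | h1
  · left
    have h2 := inv_mem_C h1
    have h3 : R P (n * s) (s * n⁻¹)⁻¹ := by
      have e2 : (s * n⁻¹)⁻¹ = n * s⁻¹ := by group
      rw [e2]; exact (R_inv hs).mul_left n
    rwa [h3.C_eq] at h2
  · right
    have h2 := inv_mem_C h1
    rwa [inv_inv] at h2

/-- there is `b ∈ B` with `s b s ∈ B s B` -/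
theorem exists_sbs {s : G} (hs : s ∈ P.S) : ∃ b ∈ P.B, s * b * s ∈ C P s := by
  have hss := P.sq_mem s hs
  have h1 : ∃ b ∈ P.B, s * b * s ∉ P.B := by
    by_contra hcon
    push Not at hcon
    apply P.conj_ne s hs
    ext g
    constructor
    · rintro ⟨b, hb, rfl⟩
      exact hcon b hb
    · intro hg
      refine ⟨s⁻¹ * g * s⁻¹, ?_, by group⟩
      have e : s⁻¹ * g * s⁻¹ = (s * s)⁻¹ * (s * g * s) * (s * s)⁻¹ := by group
      rw [e]
      exact mul_mem (mul_mem (inv_mem hss) (hcon g hg)) (inv_mem hss)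
  obtain ⟨b, hb, hnb⟩ := h1
  refine ⟨b, hb, ?_⟩
  rcases P.mul_mem_union s hs s (S_mem_N hs) b hb with h | h
  · exact absurd ((mem_C_of_mem_B hss).1 h) hnb
  · exact h

theorem prod_mem_N {l : List G} (h : ∀ x ∈ l, x ∈ P.S) : l.prod ∈ P.N :=
  list_prod_mem (fun x hx => S_mem_N (h x hx))

/-- moving an element of `T` across -/
theorem R_T_mul {a y t : G} (ha : a ∈ P.N) (htB : t ∈ P.B) (htN : t ∈ P.N) (h : R P a y) :
    R P a (t * y) := by
  have h1 := conj_mem' ha htB htN
  have e : a⁻¹ * (t * y) = (a⁻¹ * t * a) * (a⁻¹ * y) := by group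
  rw [R, e]; exact mul_mem h1 h

theorem exists_word {K : Set G} (hK : K ⊆ P.S) {y : G}
    (hy : y ∈ Subgroup.closure K ⊔ (P.B ⊓ P.N)) :
    ∃ l : List G, (∀ x ∈ l, x ∈ K) ∧ R P l.prod y := by
  have e : Subgroup.closure K ⊔ (P.B ⊓ P.N) = Subgroup.closure (K ∪ ((P.B ⊓ P.N : Subgroup G) : Set G)) := by
    rw [Subgroup.closure_union, Subgroup.closure_eq]
  rw [e] at hy
  induction hy using Subgroup.closure_induction_left with
  | one => exact ⟨[], by simp, by simp [R.refl]⟩
  | mul_left x hx y _ ih =>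
    obtain ⟨l, hl, hR⟩ := ih
    rcases hx with hx | hx
    · exact ⟨x :: l, by
        intro z hz
        rcases List.mem_cons.1 hz with rfl | hz
        · exact hx
        · exact hl z hz, by rw [List.prod_cons]; exact hR.mul_left x⟩
    · obtain ⟨h1, h2⟩ := Subgroup.mem_inf.1 hx
      exact ⟨l, hl, R_T_mul (prod_mem_N fun z hz => hK (hl z hz)) h1 h2 hR⟩
  | inv_mul_cancel x hx y _ ih =>
    obtain ⟨l, hl, hR⟩ := ih
    have hlN : l.prod ∈ P.N := prod_mem_N fun z hz => hK (hl z hz)
    rcases hx with hx | hx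
    · refine ⟨x :: l, ?_, ?_⟩
      · intro z hz
        rcases List.mem_cons.1 hz with rfl | hz
        · exact hx
        · exact hl z hz
      · rw [List.prod_cons]
        have hxS := hK hx
        have h1 : R P l.prod ((x * x)⁻¹ * y) :=
          R_T_mul hlN (inv_mem (P.sq_mem x hxS)) (inv_mem (mul_mem (S_mem_N hxS) (S_mem_N hxS))) hR
        have h2 := h1.mul_left x
        have e2 : x * ((x * x)⁻¹ * y) = x⁻¹ * y := by group
        rwa [e2] at h2
    · obtain ⟨h1, h2⟩ := Subgroup.mem_inf.1 hx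
      exact ⟨l, hl, R_T_mul hlN (inv_mem h1) (inv_mem h2) hR⟩

theorem exists_word_N {n : G} (hn : n ∈ P.N) : ∃ l : List G, (∀ x ∈ l, x ∈ P.S) ∧ R P l.prod n :=
  exists_word (le_refl _) (by rw [P.closure_sup]; exact hn)

/-- the length of (the image in `W` of) `n` -/
noncomputable def len (P : BNPair G) (n : G) : ℕ :=
  sInf {k | ∃ l : List G, (∀ x ∈ l, x ∈ P.S) ∧ l.length = k ∧ R P l.prod n}

theorem exists_reduced {n : G} (hn : n ∈ P.N) :
    ∃ l : List G, (∀ x ∈ l, x ∈ P.S) ∧ l.length = len P n ∧ R P l.prod n := by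
  obtain ⟨l, hl, hR⟩ := exists_word_N hn
  exact Nat.sInf_mem (s := {k | ∃ l : List G, (∀ x ∈ l, x ∈ P.S) ∧ l.length = k ∧ R P l.prod n})
    ⟨l.length, l, hl, rfl, hR⟩

theorem len_le {l : List G} {n : G} (hl : ∀ x ∈ l, x ∈ P.S) (h : R P l.prod n) :
    len P n ≤ l.length := Nat.sInf_le ⟨l, hl, rfl, h⟩

theorem len_congr {n n' : G} (h : R P n n') : len P n = len P n' := by
  unfold len
  congr 1
  ext k
  constructor
  · rintro ⟨l, hl, hk, hR⟩; exact ⟨l, hl, hk, hR.trans h⟩
  · rintro ⟨l, hl, hk, hR⟩; exact ⟨l, hl, hk, hR.trans h.symm⟩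

theorem len_mul_left_le {s n : G} (hs : s ∈ P.S) (hn : n ∈ P.N) : len P (s * n) ≤ len P n + 1 := by
  obtain ⟨l, hl, hk, hR⟩ := exists_reduced hn
  rw [← hk]
  refine len_le (l := s :: l) ?_ (by rw [List.prod_cons]; exact hR.mul_left s)
  intro z hz
  rcases List.mem_cons.1 hz with rfl | hz
  · exact hs
  · exact hl z hz

theorem len_le_mul_left {s n : G} (hs : s ∈ P.S) (hn : n ∈ P.N) : len P n ≤ len P (s * n) + 1 := by
  have h := len_mul_left_le hs (mul_mem (S_mem_N hs) hn)
  rwa [len_congr (R_ss_mul hs hn)] at h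

theorem len_mul_right_le {s n : G} (hs : s ∈ P.S) (hn : n ∈ P.N) : len P (n * s) ≤ len P n + 1 := by
  obtain ⟨l, hl, hk, hR⟩ := exists_reduced hn
  rw [← hk]
  have : (l ++ [s]).length = l.length + 1 := by simp
  rw [← this]
  refine len_le (l := l ++ [s]) ?_ ?_
  · intro z hz
    rcases List.mem_append.1 hz with hz | hz
    · exact hl z hz
    · rw [List.mem_singleton] at hz; rw [hz]; exact hs
  · rw [List.prod_append, List.prod_singleton]
    exact hR.mul_right (prod_mem_N hl) hn (S_mem_N hs)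

theorem len_le_mul_right {s n : G} (hs : s ∈ P.S) (hn : n ∈ P.N) : len P n ≤ len P (n * s) + 1 := by
  have h := len_mul_right_le hs (mul_mem hn (S_mem_N hs))
  rwa [len_congr (R_mul_ss hs)] at h

theorem len_eq_zero {n : G} (hn : n ∈ P.N) : len P n = 0 ↔ n ∈ P.B := by
  constructor
  · intro h
    obtain ⟨l, hl, hk, hR⟩ := exists_reduced hn
    rw [h, List.length_eq_zero_iff] at hk
    subst hk
    simpa [R] using hR
  · intro h
    have := len_le (P := P) (l := []) (n := n) (by simp) (by simpa [R] using h)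
    simpa using this

theorem exists_left_descent {n : G} (hn : n ∈ P.N) {q : ℕ} (h : len P n = q + 1) :
    ∃ s ∈ P.S, len P (s * n) = q := by
  obtain ⟨l, hl, hk, hR⟩ := exists_reduced hn
  rw [h] at hk
  cases l with
  | nil => simp at hk
  | cons s l =>
    have hs : s ∈ P.S := hl s (by simp)
    have hl' : ∀ x ∈ l, x ∈ P.S := fun x hx => hl x (by simp [hx])
    refine ⟨s, hs, ?_⟩
    have h1 : len P (s * n) ≤ q := by
      have hlen : l.length = q := by simpa using hk
      rw [← hlen]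
      apply len_le hl'
      rw [List.prod_cons] at hR
      exact (R_ss_mul hs (prod_mem_N hl')).symm.trans (hR.mul_left s)
    have h2 := len_le_mul_left hs hn
    omega

theorem exists_right_descent {n : G} (hn : n ∈ P.N) {q : ℕ} (h : len P n = q + 1) :
    ∃ s ∈ P.S, len P (n * s) = q := by
  obtain ⟨l, hl, hk, hR⟩ := exists_reduced hn
  rw [h] at hk
  rcases List.eq_nil_or_concat l with rfl | ⟨l', s, rfl⟩
  · simp at hk
  · have hs : s ∈ P.S := hl s (by simp)
    have hl' : ∀ x ∈ l', x ∈ P.S := fun x hx => hl x (by simp [hx])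
    refine ⟨s, hs, ?_⟩
    have h1 : len P (n * s) ≤ q := by
      have hlen : l'.length = q := by simpa using hk
      rw [← hlen]
      apply len_le hl'
      rw [List.concat_eq_append, List.prod_append, List.prod_singleton] at hR
      exact (R_mul_ss hs).symm.trans
        (hR.mul_right (mul_mem (prod_mem_N hl') (S_mem_N hs)) hn (S_mem_N hs))
    have h2 := len_le_mul_right hs hn
    omega

theorem closure_le_N {J : Set G} (hJ : J ⊆ P.S) : Subgroup.closure J ≤ P.N :=
  (Subgroup.closure_le _).2 (fun _ hx => S_mem_N (hJ hx))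

/-- description of the standard parabolic subgroups -/
theorem mem_parabolic_iff {J : Set G} (hJ : J ⊆ P.S) (g : G) :
    g ∈ P.parabolic J ↔ ∃ n ∈ Subgroup.closure J, g ∈ C P n := by
  constructor
  · intro hg
    have e : P.parabolic J = Subgroup.closure ((P.B : Set G) ∪ J) := by
      rw [BNPair.parabolic, Subgroup.closure_union, Subgroup.closure_eq]
    rw [e] at hg
    induction hg using Subgroup.closure_induction_left with
    | one => exact ⟨1, one_mem _, self_mem 1⟩
    | mul_left x hx y _ ih =>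
      obtain ⟨n, hn, hy⟩ := ih
      rcases hx with hx | hx
      · exact ⟨n, hn, mul_left_mem_C hx hy⟩
      · rcases mul_mem_union (hJ hx) (closure_le_N hJ hn) (self_mem x) hy with h | h
        · exact ⟨x * n, mul_mem (Subgroup.subset_closure hx) hn, h⟩
        · exact ⟨n, hn, h⟩
    | inv_mul_cancel x hx y _ ih =>
      obtain ⟨n, hn, hy⟩ := ih
      rcases hx with hx | hx
      · exact ⟨n, hn, mul_left_mem_C (inv_mem hx) hy⟩
      · rcases mul_mem_union (hJ hx) (closure_le_N hJ hn) (inv_mem_C_S (hJ hx)) hy with h | h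
        · exact ⟨x * n, mul_mem (Subgroup.subset_closure hx) hn, h⟩
        · exact ⟨n, hn, h⟩
  · rintro ⟨n, hn, hg⟩
    obtain ⟨b, hb, b', hb', rfl⟩ := mem_C.1 hg
    have hB : P.B ≤ P.parabolic J := le_sup_left
    have hJ' : Subgroup.closure J ≤ P.parabolic J := le_sup_right
    exact mul_mem (mul_mem (hB hb) (hJ' hn)) (hB hb')

theorem parabolic_S : P.parabolic P.S = ⊤ := by
  rw [eq_top_iff, ← P.sup_eq_top, BNPair.parabolic]
  apply sup_le le_sup_left
  rw [← P.closure_sup]
  exact sup_le le_sup_right (inf_le_left.trans le_sup_left)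

/-- Bruhat decomposition: existence -/
theorem bruhat (g : G) : ∃ n ∈ P.N, g ∈ C P n := by
  have hg : g ∈ P.parabolic P.S := by rw [parabolic_S]; trivial
  obtain ⟨n, hn, h⟩ := (mem_parabolic_iff (le_refl _) g).1 hg
  exact ⟨n, closure_le_N (le_refl _) hn, h⟩

theorem C_eq_of_mem_of_mem {a b x : G} (ha : x ∈ C P a) (hb : x ∈ C P b) : C P a = C P b :=
  (C_eq_of_mem ha).symm.trans (C_eq_of_mem hb)

theorem bruhat_unique_aux : ∀ (q : ℕ) (n n' : G), n ∈ P.N → n' ∈ P.N → len P n = q →
    q ≤ len P n' → C P n = C P n' → R P n n' := by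
  intro q
  induction q with
  | zero =>
    intro n n' hn hn' hq _ hC
    have hnB := (len_eq_zero hn).1 hq
    have h1 : n' ∈ C P n := by rw [hC]; exact self_mem _
    exact mul_mem (inv_mem hnB) ((mem_C_of_mem_B hnB).1 h1)
  | succ q ih =>
    intro n n' hn hn' hq hle hC
    obtain ⟨s, hs, hsn⟩ := exists_left_descent hn hq
    have hsN := S_mem_N hs
    have h1 : n ∈ C P n' := by rw [← hC]; exact self_mem _
    rcases mul_mem_union hs hn' (self_mem s) h1 with h | h
    · have h2 := ih (s * n) (s * n') (mul_mem hsN hn) (mul_mem hsN hn') hsn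
        (by have := len_le_mul_left hs hn'; omega) (C_eq_of_mem h)
      exact h2.of_mul_left
    · have h2 := ih (s * n) n' (mul_mem hsN hn) hn' hsn (by omega) (C_eq_of_mem h)
      have := len_congr h2
      omega

/-- Bruhat decomposition: uniqueness -/
theorem bruhat_unique {n n' : G} (hn : n ∈ P.N) (hn' : n' ∈ P.N) (h : C P n = C P n') : R P n n' := by
  rcases le_total (len P n) (len P n') with hle | hle
  · exact bruhat_unique_aux _ n n' hn hn' rfl hle h
  · exact (bruhat_unique_aux _ n' n hn' hn rfl hle h.symm).symm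

theorem not_R_mul_left {s n : G} (hs : s ∈ P.S) (hn : n ∈ P.N) : ¬ R P (s * n) n := by
  intro h
  apply S_not_mem_B hs
  have hN : (s * n)⁻¹ * n ∈ P.N := mul_mem (inv_mem (mul_mem (S_mem_N hs) hn)) hn
  have h1 := P.conj_mem n hn _ (Subgroup.mem_inf.2 ⟨h, hN⟩)
  have e : n * ((s * n)⁻¹ * n) * n⁻¹ = s⁻¹ := by group
  rw [e] at h1
  simpa using inv_mem h1

theorem lemmaA : ∀ (q : ℕ) (n : G), n ∈ P.N → len P n = q → ∀ s ∈ P.S, len P n ≤ len P (s * n) →
    ∀ b ∈ P.B, s * b * n ∈ C P (s * n) := by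
  intro q
  induction q with
  | zero =>
    intro n hn hq s _ _ b hb
    have hnB := (len_eq_zero hn).1 hq
    exact mem_C.2 ⟨1, one_mem _, n⁻¹ * b * n, mul_mem (mul_mem (inv_mem hnB) hb) hnB, by group⟩
  | succ q ih =>
    intro n hn hq s hs hle b hb
    have hsN := S_mem_N hs
    obtain ⟨t, ht, htn⟩ := exists_right_descent hn hq
    have htN := S_mem_N ht
    have hn'N : n * t ∈ P.N := mul_mem hn htN
    by_contra hnot
    have h1 : s * b * n ∈ C P n := by
      rcases P.mul_mem_union s hs n hn b hb with h | h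
      · exact absurd h hnot
      · exact h
    have h2 := mul_mem_union' ht hn (self_mem t) h1
    have e : s * b * n * t = s * b * (n * t) := by group
    rw [e] at h2
    have hle' : len P (n * t) ≤ len P (s * (n * t)) := by
      by_contra hlt
      push Not at hlt
      have h3 : R P (s * (n * t) * t) (s * n) := by
        have := (R_mul_ss (P := P) (n := n) ht).mul_left s
        simpa [mul_assoc] using this
      have h4 := len_mul_right_le ht (mul_mem hsN hn'N)
      rw [len_congr h3] at h4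
      omega
    have h3 := ih (n * t) hn'N htn s hs hle' b hb
    rcases h2 with h2 | h2
    · exact not_R_mul_left hs hn'N
        (bruhat_unique (mul_mem hsN hn'N) hn'N (C_eq_of_mem_of_mem h3 h2))
    · have h4 := bruhat_unique (mul_mem hsN hn'N) hn (C_eq_of_mem_of_mem h3 h2)
      have h5 : R P (s * n) (n * t) := (h4.mul_left s).symm.trans (R_ss_mul hs hn'N)
      have := len_congr h5
      omega

theorem lemmaA' {n s b : G} (hn : n ∈ P.N) (hs : s ∈ P.S) (hle : len P n ≤ len P (s * n))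
    (hb : b ∈ P.B) : s * b * n ∈ C P (s * n) := lemmaA _ n hn rfl s hs hle b hb

theorem lemmaB {n s : G} (hn : n ∈ P.N) (hs : s ∈ P.S) (hle : len P (s * n) ≤ len P n) :
    ∃ b ∈ P.B, s * b * n ∈ C P n := by
  have hsN := S_mem_N hs
  have hmN : s * n ∈ P.N := mul_mem hsN hn
  have hR := R_ss_mul hs hn
  obtain ⟨b0, hb0, h0⟩ := exists_sbs hs
  obtain ⟨b1, hb1, b2, hb2, h0'⟩ := mem_C.1 h0
  refine ⟨b0, hb0, ?_⟩
  have h1 : s * b2 * (s * n) ∈ C P (s * (s * n)) :=
    lemmaA' hmN hs (by rw [len_congr hR]; exact hle) hb2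
  rw [hR.symm.C_eq] at h1
  have h2 : s * b0 * (s * (s * n)) ∈ C P n := by
    have e : s * b0 * (s * (s * n)) = b1 * (s * b2 * (s * n)) := by
      calc s * b0 * (s * (s * n)) = (s * b0 * s) * (s * n) := by group
        _ = (b1 * s * b2) * (s * n) := by rw [h0']
        _ = b1 * (s * b2 * (s * n)) := by group
    rw [e]; exact mul_left_mem_C hb1 h1
  have h3 := mul_right_mem_C hR h2
  have e : s * b0 * (s * (s * n)) * ((s * (s * n))⁻¹ * n) = s * b0 * n := by group
  rwa [e] at h3

/-- the key step towards the exchange condition -/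
theorem lemmaE {n s t : G} (hn : n ∈ P.N) (hs : s ∈ P.S) (ht : t ∈ P.S)
    (h1 : len P n ≤ len P (s * n)) (h2 : len P (s * (n * t)) ≤ len P (n * t)) :
    R P (s * n) (n * t) := by
  have hsN := S_mem_N hs
  have htN := S_mem_N ht
  have hntN : n * t ∈ P.N := mul_mem hn htN
  obtain ⟨b, hb, h3⟩ := lemmaB hntN hs h2
  have h4 := mul_mem_union' ht hntN (inv_mem_C_S ht) h3
  have e : s * b * (n * t) * t⁻¹ = s * b * n := by group
  rw [e, (R_mul_ss (P := P) (n := n) ht).symm.C_eq] at h4
  have h5 := lemmaA' hn hs h1 hb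
  rcases h4 with h4 | h4
  · exact absurd (bruhat_unique (mul_mem hsN hn) hn (C_eq_of_mem_of_mem h5 h4)) (not_R_mul_left hs hn)
  · exact bruhat_unique (mul_mem hsN hn) hntN (C_eq_of_mem_of_mem h5 h4)

/-- the exchange condition -/
theorem exchange (l : List G) : (∀ x ∈ l, x ∈ P.S) → len P l.prod = l.length → ∀ s ∈ P.S,
    len P (s * l.prod) ≤ l.length →
    ∃ l1 x l2, l = l1 ++ x :: l2 ∧ R P (l1 ++ l2).prod (s * l.prod) := by
  induction l using List.reverseRecOn with
  | nil =>
    intro _ _ s hs h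
    exfalso
    apply S_not_mem_B hs
    have h1 : len P (s * 1) = 0 := by simpa using h
    rw [mul_one] at h1
    exact (len_eq_zero (S_mem_N hs)).1 h1
  | append_singleton l' t ih =>
    intro hl hred s hs h
    have ht : t ∈ P.S := hl t (by simp)
    have hl' : ∀ x ∈ l', x ∈ P.S := fun x hx => hl x (by simp [hx])
    have hnN : l'.prod ∈ P.N := prod_mem_N hl'
    have hsN := S_mem_N hs
    have htN := S_mem_N ht
    rw [List.prod_append, List.prod_singleton] at hred h ⊢
    rw [List.length_append, List.length_singleton] at hred h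
    have hred' : len P l'.prod = l'.length := by
      have h1 := len_le hl' (R.refl l'.prod)
      have h2 := len_mul_right_le ht hnN
      omega
    by_cases hc : len P (s * l'.prod) ≤ l'.length
    · obtain ⟨l1, x, l2, he, hR⟩ := ih hl' hred' s hs hc
      refine ⟨l1, x, l2 ++ [t], by rw [he]; simp, ?_⟩
      have hl12 : ∀ z ∈ l1 ++ l2, z ∈ P.S := by
        intro z hz
        apply hl'
        rw [he]
        rcases List.mem_append.1 hz with hz | hz
        · simp [hz]
        · simp [hz]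
      have := hR.mul_right (prod_mem_N hl12) (mul_mem hsN hnN) htN
      simpa [mul_assoc] using this
    · push Not at hc
      have hE := lemmaE hnN hs ht (by omega) (by omega)
      refine ⟨l', t, [], rfl, ?_⟩
      rw [List.append_nil]
      exact (R_ss_mul hs hnN).symm.trans (hE.mul_left s)

theorem len_one : len P (1 : G) = 0 := (len_eq_zero (one_mem _)).2 (one_mem _)

/-- every word in `K` can be replaced by a reduced word in `K` -/
theorem exists_reduced_word {K : Set G} (hK : K ⊆ P.S) (l : List G) : (∀ x ∈ l, x ∈ K) →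
    ∃ l' : List G, (∀ x ∈ l', x ∈ K) ∧ R P l'.prod l.prod ∧ l'.length = len P l.prod := by
  induction l with
  | nil => intro _; exact ⟨[], by simp, R.refl _, by simp [len_one]⟩
  | cons k l0 ih =>
    intro hl
    have hk : k ∈ K := hl k (by simp)
    have hl0 : ∀ x ∈ l0, x ∈ K := fun x hx => hl x (by simp [hx])
    obtain ⟨l0', hl0', hR, hlen⟩ := ih hl0
    have hl0'S : ∀ x ∈ l0', x ∈ P.S := fun x hx => hK (hl0' x hx)
    have hn0N := prod_mem_N hl0'S
    have hkS := hK hk
    rw [List.prod_cons]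
    have hRk : R P (k * l0'.prod) (k * l0.prod) := hR.mul_left k
    have hred : len P l0'.prod = l0'.length := by rw [len_congr hR, hlen]
    rw [← len_congr hRk]
    by_cases h : len P (k * l0'.prod) ≤ l0'.length
    · obtain ⟨l1, x, l2, he, hR2⟩ := exchange l0' hl0'S hred k hkS h
      have hl12 : ∀ z ∈ l1 ++ l2, z ∈ K := by
        intro z hz
        apply hl0'
        rw [he]
        rcases List.mem_append.1 hz with hz | hz
        · simp [hz]
        · simp [hz]
      refine ⟨l1 ++ l2, hl12, hR2.trans hRk, ?_⟩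
      have h1 := len_le (fun z hz => hK (hl12 z hz)) hR2
      have h2 := len_le_mul_left hkS hn0N
      have h3 : l0'.length = (l1 ++ l2).length + 1 := by rw [he]; simp; omega
      omega
    · push Not at h
      refine ⟨k :: l0', ?_, by rw [List.prod_cons]; exact hRk, ?_⟩
      · intro z hz
        rcases List.mem_cons.1 hz with rfl | hz
        · exact hk
        · exact hl0' z hz
      · have h1 := len_mul_left_le hkS hn0N
        rw [List.length_cons]
        omega

theorem len_S {s : G} (hs : s ∈ P.S) : len P s = 1 := by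
  have h1 := len_le (P := P) (l := [s]) (n := s) (by simpa using hs) (by simp [R.refl])
  have h2 : len P s ≠ 0 := fun h => S_not_mem_B hs ((len_eq_zero (S_mem_N hs)).1 h)
  simp at h1
  omega

/-- an element of `S` lying in `W_K` lies in `K` -/
theorem mem_of_R {K : Set G} (hK : K ⊆ P.S) {s y : G} (hs : s ∈ P.S)
    (hy : y ∈ Subgroup.closure K ⊔ (P.B ⊓ P.N)) (h : R P s y) : s ∈ K := by
  obtain ⟨l, hl, hR⟩ := exists_word hK hy
  obtain ⟨l', hl', hR', hlen⟩ := exists_reduced_word hK l hl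
  rw [len_congr (hR.trans h.symm), len_S hs, List.length_eq_one_iff] at hlen
  obtain ⟨k, rfl⟩ := hlen
  have hk : k ∈ K := hl' k (by simp)
  rw [List.prod_singleton] at hR'
  have := P.inj k (hK hk) s hs ((hR'.trans hR).trans h.symm)
  rw [← this]; exact hk

theorem mem_of_mem_parabolic {K : Set G} (hK : K ⊆ P.S) {s : G} (hs : s ∈ P.S)
    (h : s ∈ P.parabolic K) : s ∈ K := by
  obtain ⟨n, hn, hC⟩ := (mem_parabolic_iff hK s).1 h
  exact mem_of_R hK hs (Subgroup.mem_sup_left hn)
    (bruhat_unique (S_mem_N hs) (closure_le_N hK hn) (C_eq_of_mem hC))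

/-- a subgroup containing `B` and `n` contains every left descent of `n` -/
theorem descent_mem {M : Subgroup G} (hM : P.B ≤ M) {n s : G} (hn : n ∈ P.N) (hnM : n ∈ M)
    (hs : s ∈ P.S) (hle : len P (s * n) ≤ len P n) : s ∈ M := by
  obtain ⟨b, hb, h⟩ := lemmaB hn hs hle
  obtain ⟨b1, hb1, b2, hb2, h'⟩ := mem_C.1 h
  have e : s = b1 * n * b2 * n⁻¹ * b⁻¹ := by rw [← h']; group
  rw [e]
  exact mul_mem (mul_mem (mul_mem (mul_mem (hM hb1) hnM) (hM hb2)) (inv_mem hnM)) (inv_mem (hM hb))

theorem mem_parabolic_of_mem {M : Subgroup G} (hM : P.B ≤ M) : ∀ (q : ℕ) (n : G), n ∈ P.N →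
    len P n = q → n ∈ M → n ∈ P.parabolic (P.S ∩ M) := by
  intro q
  induction q with
  | zero =>
    intro n hn hq _
    exact (le_sup_left : P.B ≤ P.parabolic _) ((len_eq_zero hn).1 hq)
  | succ q ih =>
    intro n hn hq hnM
    obtain ⟨s, hs, hsn⟩ := exists_left_descent hn hq
    have hsM := descent_mem hM hn hnM hs (by omega)
    have h1 := ih (s * n) (mul_mem (S_mem_N hs) hn) hsn (mul_mem hsM hnM)
    have h2 : s ∈ P.parabolic (P.S ∩ M) :=
      (le_sup_right : Subgroup.closure _ ≤ P.parabolic _) (Subgroup.subset_closure ⟨hs, hsM⟩)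
    have e : n = s⁻¹ * (s * n) := by group
    rw [e]; exact mul_mem (inv_mem h2) h1

/-- every subgroup containing `B` is a standard parabolic subgroup -/
theorem eq_parabolic {M : Subgroup G} (hM : P.B ≤ M) : M = P.parabolic (P.S ∩ M) := by
  apply le_antisymm
  · intro g hg
    obtain ⟨n, hn, hC⟩ := bruhat (P := P) g
    obtain ⟨b, hb, b', hb', rfl⟩ := mem_C.1 hC
    have hnM : n ∈ M := by
      have e : n = b⁻¹ * (b * n * b') * b'⁻¹ := by group
      rw [e]; exact mul_mem (mul_mem (inv_mem (hM hb)) hg) (inv_mem (hM hb'))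
    have h1 := mem_parabolic_of_mem hM _ n hn rfl hnM
    have hB : P.B ≤ P.parabolic (P.S ∩ M) := le_sup_left
    exact mul_mem (mul_mem (hB hb) h1) (hB hb')
  · apply sup_le hM
    rw [Subgroup.closure_le]
    exact fun x hx => hx.2

theorem S_inter_parabolic {K : Set G} (hK : K ⊆ P.S) : P.S ∩ (P.parabolic K : Set G) = K := by
  ext s
  constructor
  · rintro ⟨hs, h⟩; exact mem_of_mem_parabolic hK hs h
  · intro h
    exact ⟨hK h, (le_sup_right : Subgroup.closure _ ≤ P.parabolic _) (Subgroup.subset_closure h)⟩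

theorem parabolic_le_iff {J K : Set G} (hJ : J ⊆ P.S) (hK : K ⊆ P.S) :
    P.parabolic J ≤ P.parabolic K ↔ J ⊆ K := by
  constructor
  · intro h s hs
    exact mem_of_mem_parabolic hK (hJ hs)
      (h ((le_sup_right : Subgroup.closure _ ≤ P.parabolic _) (Subgroup.subset_closure hs)))
  · intro h
    exact sup_le_sup_left (Subgroup.closure_mono h) _

/-- `n` lies in the subgroup generated by `B` and `n B n⁻¹` -/
theorem mem_sup_conj : ∀ (q : ℕ) (n : G), n ∈ P.N → len P n = q →
    n ∈ P.B ⊔ P.B.map (MulAut.conj n).toMonoidHom := by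
  intro q
  induction q with
  | zero =>
    intro n hn hq
    exact Subgroup.mem_sup_left ((len_eq_zero hn).1 hq)
  | succ q ih =>
    intro n hn hq
    obtain ⟨s, hs, hsn⟩ := exists_left_descent hn hq
    set M := P.B ⊔ P.B.map (MulAut.conj n).toMonoidHom with hM
    have hBM : P.B ≤ M := le_sup_left
    have hcM : ∀ b ∈ P.B, n * b * n⁻¹ ∈ M := fun b hb =>
      (le_sup_right : P.B.map (MulAut.conj n).toMonoidHom ≤ M) ⟨b, hb, by simp [MulAut.conj_apply]⟩
    have hsM : s ∈ M := by
      obtain ⟨b, hb, h⟩ := lemmaB hn hs (by omega)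
      obtain ⟨b1, hb1, b2, hb2, h'⟩ := mem_C.1 h
      have e : s = b1 * (n * b2 * n⁻¹) * b⁻¹ := by
        calc s = (s * b * n) * n⁻¹ * b⁻¹ := by group
          _ = (b1 * n * b2) * n⁻¹ * b⁻¹ := by rw [h']
          _ = b1 * (n * b2 * n⁻¹) * b⁻¹ := by group
      rw [e]
      exact mul_mem (mul_mem (hBM hb1) (hcM b2 hb2)) (inv_mem (hBM hb))
    have h1 := ih (s * n) (mul_mem (S_mem_N hs) hn) hsn
    have h2 : P.B ⊔ P.B.map (MulAut.conj (s * n)).toMonoidHom ≤ M := by
      apply sup_le hBM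
      rintro _ ⟨b, hb, rfl⟩
      have e : (MulAut.conj (s * n)).toMonoidHom b = s * (n * b * n⁻¹) * s⁻¹ := by
        simp [MulAut.conj_apply, mul_assoc]
      rw [e]
      exact mul_mem (mul_mem hsM (hcM b hb)) (inv_mem hsM)
    have e : n = s⁻¹ * (s * n) := by group
    rw [e]; exact mul_mem (inv_mem hsM) (h2 h1)

end Cfsg.Agent.Lib.Helper1_BN
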