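import Cfsg.Agent.Lib.Helper1_BN

set_option autoImplicit false
open Cfsg

namespace Cfsg.Agent.Lib.Helper1_BN2

open Cfsg.Agent.Lib.Helper1_BN

variable {G : Type*} [Group G] {P : BNPair G}

theorem R_of_mem_closure_singleton {s : G} (hs : s ∈ P.S) {m : G}
    (hm : m ∈ Subgroup.closure ({s} : Set G)) : R P 1 m ∨ R P s m := by
  have hsN := S_mem_N hs
  have hcl : Subgroup.closure ({s} : Set G) ≤ P.N :=
    closure_le_N (P := P) (Set.singleton_subset_iff.2 hs)
  induction hm using Subgroup.closure_induction_left with
  | one => exact Or.inl (R.refl 1)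
  | mul_left x hx y hy ih =>
    rw [Set.mem_singleton_iff] at hx
    subst hx
    rcases ih with h | h
    · right; simpa using h.mul_left x
    · left
      have h1 := h.mul_left x
      have h2 : R P 1 (x * x) := by simpa [R] using P.sq_mem x hs
      exact h2.trans h1
  | inv_mul_cancel x hx y hy ih =>
    rw [Set.mem_singleton_iff] at hx
    subst hx
    rcases ih with h | h
    · right
      have h1 := h.mul_left x⁻¹
      rw [mul_one] at h1
      exact (R_inv hs).trans h1
    · left
      have h1 := h.mul_left x⁻¹
      rwa [inv_mul_cancel] at h1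

theorem C_one : C P (1 : G) = (P.B : Set G) := by
  ext g
  exact mem_C_of_mem_B (one_mem _)

theorem coe_parabolic_singleton {s : G} (hs : s ∈ P.S) :
    (P.parabolic {s} : Set G) = (P.B : Set G) ∪ C P s := by
  ext g
  rw [SetLike.mem_coe, mem_parabolic_iff (Set.singleton_subset_iff.2 hs)]
  constructor
  · rintro ⟨m, hm, hg⟩
    rcases R_of_mem_closure_singleton hs hm with h | h
    · left; rw [h.C_eq, C_one] at hg; exact hg
    · right; rw [h.C_eq] at hg; exact hg
  · rintro (h | h)
    · exact ⟨1, one_mem _, by rw [C_one]; exact h⟩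
    · exact ⟨s, Subgroup.subset_closure rfl, h⟩

theorem parabolic_empty : P.parabolic ∅ = P.B := by
  simp [BNPair.parabolic]

end Cfsg.Agent.Lib.Helper1_BN2
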