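import Mathlib
import Cfsg.Prelude.Def_Solvable
import Cfsg.Agent.Lib.Helper1_Frob

/-!
# Subgroups covered by the conjugates of a Frobenius complement
-/

set_option autoImplicit false

namespace Cfsg.Agent.Lib.Helper1_FrobConj

open Subgroup Cfsg Cfsg.Agent.Lib.Helper1_Basic Cfsg.Agent.Lib.Helper1_Frob
open scoped Pointwise

variable {G : Type*} [Group G]

/-- the trace on `L` of a conjugate of a malnormal subgroup is malnormal in `L` -/
theorem ti_subgroupOf {H : Subgroup G} (hTI : ∀ g : G, g ∉ H → H ⊓ (MulAut.conj g • H) = ⊥)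
    (L : Subgroup G) (a : G) :
    ∀ l : L, l ∉ (MulAut.conj a • H).subgroupOf L →
      (MulAut.conj a • H).subgroupOf L ⊓ (MulAut.conj l • (MulAut.conj a • H).subgroupOf L) = ⊥ := by
  intro l hl
  rw [eq_bot_iff]
  rintro z ⟨hz1, hz2⟩
  rw [mem_bot]
  by_contra hz
  apply hl
  have hz2' : z ∈ MulAut.conj l • (MulAut.conj a • H).subgroupOf L := hz2
  have hz1' : z ∈ (MulAut.conj a • H).subgroupOf L := hz1
  rw [mem_conj_smul, mem_subgroupOf, mem_conj_smul] at hz2'
  rw [mem_subgroupOf] at hz1'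
  have hb : (z : G) ∈ MulAut.conj ((l : G) * a) • H := by
    rw [mem_conj_smul]
    have : ((l : G) * a)⁻¹ * (z : G) * ((l : G) * a) = a⁻¹ * ((l⁻¹ * z * l : L) : G) * a := by
      simp only [Subgroup.coe_mul, Subgroup.coe_inv]; group
    rw [this]; exact hz2'
  have hz' : (z : G) ≠ 1 := fun h => hz (Subtype.ext h)
  have h3 := mem_of_conj_inter hTI hz' hz1' hb
  rw [mem_subgroupOf, mem_conj_smul]
  have : a⁻¹ * (l : G) * a = a⁻¹ * ((l : G) * a) := by group
  rw [this]; exact h3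

/-- A subgroup all of whose nonidentity elements lie in conjugates of a malnormal subgroup `H`
lies in a single conjugate. -/
theorem le_conj_of_covered [Finite G] {H : Subgroup G}
    (hTI : ∀ g : G, g ∉ H → H ⊓ (MulAut.conj g • H) = ⊥) (L : Subgroup G)
    (hL : ∀ x ∈ L, x ≠ 1 → ∃ g : G, x ∈ MulAut.conj g • H) :
    ∃ g : G, L ≤ MulAut.conj g • H := by
  by_contra hcon
  push Not at hcon
  have hLbot : L ≠ ⊥ := by
    intro h
    exact hcon 1 (h ▸ bot_le)
  obtain ⟨x₀, hx₀L, hx₀1⟩ : ∃ x : G, x ∈ L ∧ x ≠ 1 := by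
    obtain ⟨x, hx⟩ := Subgroup.ne_bot_iff_exists_ne_one.mp hLbot
    exact ⟨x.1, x.2, fun h => hx (Subtype.ext h)⟩
  have hfrob : ∀ (x : G) (hxL : x ∈ L) (_ : x ≠ 1) (a : G), x ∈ MulAut.conj a • H →
      IsFrobeniusComplement ((MulAut.conj a • H).subgroupOf L) := by
    intro x hxL hx1 a hxa
    refine ⟨?_, ?_, ti_subgroupOf hTI L a⟩
    · intro h
      have : (⟨x, hxL⟩ : L) ∈ (MulAut.conj a • H).subgroupOf L := by
        rw [mem_subgroupOf]; exact hxa
      rw [h, mem_bot] at this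
      exact hx1 (congrArg Subtype.val this)
    · intro h
      rw [subgroupOf_eq_top] at h
      exact hcon a h
  obtain ⟨a, ha⟩ := hL x₀ hx₀L hx₀1
  have hS := hfrob x₀ hx₀L hx₀1 a ha
  set S := (MulAut.conj a • H).subgroupOf L with hSdef
  -- a nonidentity element of the kernel of `S` in `L`
  have hker := ncard_kernel hS.2.2
  have hidx : 1 < S.index := by
    have h0 : S.index ≠ 0 := index_ne_zero_of_finite
    have h1 : S.index ≠ 1 := fun h => hS.2.1 (index_eq_one.mp h)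
    omega
  rw [← hker] at hidx
  obtain ⟨y, hy, hy1⟩ := Set.exists_ne_of_one_lt_ncard hidx 1
  have hyk : ∀ l : L, y ∉ MulAut.conj l • S := by
    rcases hy with h | h
    · exact absurd h hy1
    · exact h
  have hy1' : (y : G) ≠ 1 := fun h => hy1 (Subtype.ext h)
  obtain ⟨b, hb⟩ := hL y y.2 hy1'
  have hS' := hfrob y y.2 hy1' b hb
  obtain ⟨l, hl⟩ := exists_conj_inter_ne_bot hS hS'
  obtain ⟨z, hz1, hz2, hz⟩ : ∃ z : L, z ∈ (MulAut.conj a • H).subgroupOf L ∧
      z ∈ MulAut.conj l • (MulAut.conj b • H).subgroupOf L ∧ z ≠ 1 := by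
    obtain ⟨z, hz⟩ := Subgroup.ne_bot_iff_exists_ne_one.mp hl
    exact ⟨z.1, z.2.1, z.2.2, fun h => hz (Subtype.ext h)⟩
  rw [mem_subgroupOf] at hz1
  rw [mem_conj_smul, mem_subgroupOf, mem_conj_smul] at hz2
  have hzb : ((z : L) : G) ∈ MulAut.conj ((l : G) * b) • H := by
    rw [mem_conj_smul]
    have : ((l : G) * b)⁻¹ * ((z : L) : G) * ((l : G) * b)
        = b⁻¹ * ((l⁻¹ * (z : L) * l : L) : G) * b := by
      simp only [Subgroup.coe_mul, Subgroup.coe_inv]; group
    rw [this]; exact hz2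
  have hz' : ((z : L) : G) ≠ 1 := fun h => hz (Subtype.ext h)
  have h3 := mem_of_conj_inter hTI hz' hz1 hzb
  have h4 := conj_smul_eq_of_mul_mem h3
  apply hyk l⁻¹
  rw [mem_conj_smul, hSdef, mem_subgroupOf, h4, mem_conj_smul]
  rw [mem_conj_smul] at hb
  have : ((l : G) * b)⁻¹ * (((l⁻¹)⁻¹ * y * l⁻¹ : L) : G) * ((l : G) * b) = b⁻¹ * (y : G) * b := by
    simp only [Subgroup.coe_mul, Subgroup.coe_inv, inv_inv]; group
  rw [this]; exact hb

end Cfsg.Agent.Lib.Helper1_FrobConj
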