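import Mathlib
import Cfsg.Prelude.Def_Characters
import Cfsg.Prelude.Def_Solvable
import Cfsg.Agent.Lib.CharTI
import Cfsg.Agent.Lib.CharQuot
import Cfsg.Agent.Lib.Helper3_CharGen
import Cfsg.Agent.Lib.Helper1_Frob

/-!
# Frobenius' theorem on the existence of the Frobenius kernel
-/

set_option autoImplicit false

namespace Cfsg.Agent.Lib.Helper1_FrobThm

open Cfsg Cfsg.Agent.Lib.CharBasic Cfsg.Agent.Lib.CharOrtho Cfsg.Agent.Lib.CharComplete
  Cfsg.Agent.Lib.CharMore Cfsg.Agent.Lib.CharGen Cfsg.Agent.Lib.CharInd Cfsg.Agent.Lib.CharTI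
  Cfsg.Agent.Lib.CharQuot Cfsg.Agent.Lib.Helper3_CharGen Cfsg.Agent.Lib.Helper1_Basic
  Cfsg.Agent.Lib.Helper1_Frob
open scoped ComplexConjugate Pointwise

universe u

variable {G : Type u} [Group G]

theorem ti_elem {H : Subgroup G} (hTI : ∀ g : G, g ∉ H → H ⊓ (MulAut.conj g • H) = ⊥) :
    ∀ g : G, g ∉ H → ∀ t ∈ (H : Set G), g * t * g⁻¹ ∈ (H : Set G) → t = 1 := by
  intro g hg t ht hgt
  have hg' : g⁻¹ ∉ H := fun h => hg (by simpa using H.inv_mem h)
  have h1 := hTI g⁻¹ hg'
  have h2 : t ∈ H ⊓ (MulAut.conj g⁻¹ • H) := by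
    refine ⟨ht, ?_⟩
    show t ∈ MulAut.conj g⁻¹ • H
    rw [mem_conj_smul, inv_inv]
    exact hgt
  rw [h1, Subgroup.mem_bot] at h2
  exact h2

variable [Fintype G]

/-- the extension `φ*` of a class function of the complement -/
noncomputable def star (H : Subgroup G) (φ : H → ℂ) : G → ℂ :=
  indFun H (φ - (φ 1) • (1 : H → ℂ)) + (φ 1) • (1 : G → ℂ)

theorem star_restrict {H : Subgroup G} (hTI : ∀ g : G, g ∉ H → H ⊓ (MulAut.conj g • H) = ⊥)
    (φ : H → ℂ) (hφ : IsClassFunction H φ) (h : H) : star H φ h = φ h := by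
  unfold star
  by_cases h1 : h = 1
  · subst h1
    simp [indFun_one]
  · have hcl : IsClassFunction H (φ - (φ 1) • (1 : H → ℂ)) := by
      intro a b
      simp [hφ a b]
    have := indFun_eq_on_ti H (H : Set G) (ti_elem hTI) (φ - (φ 1) • (1 : H → ℂ)) hcl
      (fun x hx => absurd x.2 hx) h h.2 h1
    simp only [Pi.add_apply, this]
    simp

theorem star_of_not_mem (H : Subgroup G) (φ : H → ℂ) (x : G)
    (hx : ∀ g : G, x ∉ MulAut.conj g • H) : star H φ x = φ 1 := by
  unfold star
  have h0 : indFun H (φ - (φ 1) • (1 : H → ℂ)) x = 0 := by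
    unfold indFun
    rw [Finset.sum_eq_zero, mul_zero]
    intro y _
    apply extendByZero_not_mem
    intro hy
    exact hx y (mem_conj_smul.mpr hy)
  simp [h0]

theorem star_norm {H : Subgroup G} (hTI : ∀ g : G, g ∉ H → H ⊓ (MulAut.conj g • H) = ⊥)
    (φ : H → ℂ) (hφ : IsIrrCharacter H φ) (hne : φ ≠ 1) :
    classInner (star H φ) (star H φ) = 1 := by
  classical
  haveI : Fintype H := Fintype.ofFinite H
  obtain ⟨n, _, hn, _⟩ := irr_degree hφ
  have hd : conj (φ 1) = φ 1 := by rw [hn]; simp
  set d := φ 1 with hdd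
  set θ : H → ℂ := φ - d • (1 : H → ℂ) with hθ
  have hφcl : IsClassFunction H φ := isClassFunction_of_isCharacter (isCharacter_of_isIrr hφ)
  have hcl : IsClassFunction H θ := by
    intro a b
    simp [hθ, hφcl a b]
  have hθ1 : θ 1 = 0 := by simp [hθ, hdd]
  have e11H : classInner (1 : H → ℂ) (1 : H → ℂ) = 1 := classInner_irr_self isIrr_one
  have e11G : classInner (1 : G → ℂ) (1 : G → ℂ) = 1 := classInner_irr_self isIrr_one
  have eφ1 : classInner φ (1 : H → ℂ) = 0 := classInner_irr_ne hφ isIrr_one hne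
  have e1φ : classInner (1 : H → ℂ) φ = 0 := classInner_irr_ne isIrr_one hφ (Ne.symm hne)
  have eφφ : classInner φ φ = 1 := classInner_irr_self hφ
  have eθθ : classInner θ θ = 1 + d * d := by
    rw [hθ, classInner_sub_left, classInner_sub_right, classInner_sub_right,
      classInner_smul_left, classInner_smul_right, classInner_smul_right, classInner_smul_left,
      eφφ, eφ1, e1φ, e11H, hd]
    ring
  have eθ1 : classInner θ (1 : H → ℂ) = -d := by
    rw [hθ, classInner_sub_left, classInner_smul_left, eφ1, e11H]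
    ring
  have e1 : classInner (indFun H θ) (indFun H θ) = 1 + d * d := by
    rw [classInner_indFun_ti H (H : Set G) (ti_elem hTI) θ θ hcl
      (fun x hx => absurd x.2 hx) (fun x hx => absurd x.2 hx) hθ1, eθθ]
  have e2 : classInner (indFun H θ) (1 : G → ℂ) = -d := by
    rw [frobenius_reciprocity H θ 1 (isClassFunction_of_isCharacter isCharacter_one)]
    exact eθ1
  have e3 : classInner (1 : G → ℂ) (indFun H θ) = -d := by
    rw [← classInner_conj_symm, e2, map_neg, hd]
  unfold star
  rw [classInner_add_left, classInner_add_right, classInner_add_right, classInner_smul_left,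
    classInner_smul_right, classInner_smul_right, classInner_smul_left, e1, e2, e3, e11G, hd]
  ring

theorem star_isGen (H : Subgroup G) (φ : H → ℂ) (hφ : IsIrrCharacter H φ) :
    IsGeneralizedCharacter G (star H φ) := by
  obtain ⟨n, _, hn, _⟩ := irr_degree hφ
  unfold star
  rw [hn]
  exact isGen_add (isGen_indFun H (isGen_sub (isGen_of_isCharacter (isCharacter_of_isIrr hφ))
    (isGen_nsmul (isGen_of_isCharacter isCharacter_one) n)))
    (isGen_nsmul (isGen_of_isCharacter isCharacter_one) n)

theorem star_isCharacter {H : Subgroup G}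
    (hTI : ∀ g : G, g ∉ H → H ⊓ (MulAut.conj g • H) = ⊥)
    (φ : H → ℂ) (hφ : IsIrrCharacter H φ) : IsCharacter G (star H φ) := by
  by_cases hne : φ = 1
  · subst hne
    have : star H (1 : H → ℂ) = 1 := by
      unfold star
      simp [indFun_zero]
    rw [this]
    exact isCharacter_one
  · obtain ⟨α, h | h⟩ := pm_irr_of_norm_one (star_isGen H φ hφ) (star_norm hTI φ hφ hne)
    · rw [h]; exact isCharacter_of_isIrr α.2
    · exfalso
      obtain ⟨n, hn0, hn, _⟩ := irr_degree hφ
      obtain ⟨m, hm0, hm, _⟩ := irr_degree α.2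
      have h1 := star_restrict hTI φ (isClassFunction_of_isCharacter (isCharacter_of_isIrr hφ)) 1
      rw [h] at h1
      simp only [Subgroup.coe_one, Pi.neg_apply, hm, hn] at h1
      have h2 : ((n + m : ℕ) : ℂ) = 0 := by
        push_cast
        rw [← h1]; ring
      have h3 : n + m = 0 := by exact_mod_cast h2
      omega

end Cfsg.Agent.Lib.Helper1_FrobThm

namespace Cfsg.Agent.Lib.Helper1_FrobThm

open Cfsg Cfsg.Agent.Lib.CharBasic Cfsg.Agent.Lib.CharComplete
  Cfsg.Agent.Lib.CharQuot Cfsg.Agent.Lib.Helper1_Basic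
  Cfsg.Agent.Lib.Helper1_Frob
open scoped Pointwise

universe u

/-- **Frobenius' theorem.** -/
theorem exists_kernel {G : Type u} [Group G] [Finite G] (H : Subgroup G)
    (hTI : ∀ g : G, g ∉ H → H ⊓ (MulAut.conj g • H) = ⊥) :
    ∃ N : Subgroup G, (N : Set G) = frobeniusKernel H ∧ N.Normal ∧
      Subgroup.IsComplement' N H := by
  classical
  haveI : Fintype G := Fintype.ofFinite G
  haveI : Fintype H := Fintype.ofFinite H
  have hch : ∀ φ : IrrCharacter H, IsCharacter G (star H (φ : H → ℂ)) :=
    fun φ => star_isCharacter hTI φ φ.2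
  let N : Subgroup G := ⨅ φ : IrrCharacter H, charKer (star H (φ : H → ℂ)) (hch φ)
  haveI hNn : N.Normal := Subgroup.normal_iInf_normal fun φ => inferInstance
  have hmem : ∀ x : G, x ∈ N ↔ ∀ φ : IrrCharacter H,
      star H (φ : H → ℂ) x = star H (φ : H → ℂ) 1 := by
    intro x
    simp only [N, Subgroup.mem_iInf, mem_charKer]
  have hstar1 : ∀ φ : IrrCharacter H, star H (φ : H → ℂ) 1 = (φ : H → ℂ) 1 := fun φ =>
    star_restrict hTI φ (isClassFunction_of_isCharacter (isCharacter_of_isIrr φ.2)) 1
  have hNH : ∀ x ∈ N, x ∈ H → x = 1 := by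
    intro x hxN hxH
    have h1 : IsConj (⟨x, hxH⟩ : H) 1 := by
      rw [isConj_iff_forall_irr]
      intro φ
      have h2 := (hmem x).mp hxN φ
      rw [hstar1] at h2
      rw [← h2]
      exact (star_restrict hTI φ (isClassFunction_of_isCharacter (isCharacter_of_isIrr φ.2))
        ⟨x, hxH⟩).symm
    have h3 : (⟨x, hxH⟩ : H) = 1 := by
      rw [isConj_comm, isConj_one_right] at h1
      exact h1
    exact congrArg Subtype.val h3
  have hset : (N : Set G) = frobeniusKernel H := by
    ext x
    constructor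
    · intro hx
      by_cases hx1 : x = 1
      · exact Or.inl hx1
      · right
        intro g hg
        rw [mem_conj_smul] at hg
        have h1 : g⁻¹ * x * g ∈ N := by
          have := hNn.conj_mem x hx g⁻¹
          rwa [inv_inv] at this
        have h2 := hNH _ h1 hg
        apply hx1
        have : x = g * (g⁻¹ * x * g) * g⁻¹ := by group
        rw [this, h2]; group
    · rintro (rfl | hx)
      · exact N.one_mem
      · show x ∈ N
        rw [hmem]
        intro φ
        rw [hstar1, star_of_not_mem H _ x hx]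
  refine ⟨N, hset, hNn, ?_⟩
  apply Subgroup.isComplement'_of_card_mul_and_disjoint
  · have h1 : Nat.card N = H.index := by
      have := ncard_kernel hTI
      rw [← hset] at this
      rw [← this]
      exact (Nat.card_coe_set_eq _)
    rw [h1, mul_comm]
    exact H.card_mul_index
  · rw [disjoint_iff, eq_bot_iff]
    intro x hx
    rw [Subgroup.mem_bot]
    exact hNH x hx.1 hx.2

end Cfsg.Agent.Lib.Helper1_FrobThm
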