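import Mathlib
import Cfsg.Agent.Lib.Helper1_FrobAct
import Cfsg.Agent.Lib.Helper1_FrobThm
import Cfsg.Agent.S0037
import Cfsg.Agent.S0039

/-!
# A Frobenius complement normalises a nontrivial abelian subgroup of the kernel
-/

set_option autoImplicit false

namespace Cfsg.Agent.Lib.Helper1_FrobInv

open Subgroup Cfsg Cfsg.Agent.Lib.Helper1_Basic Cfsg.Agent.Lib.Helper1_FrobAct
open scoped Pointwise

variable {G : Type*} [Group G] [Finite G]

/-- any subgroup of order `|H|` is conjugate to the complement `H` -/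
theorem exists_conj_eq_of_card (K H : Subgroup G) [K.Normal]
    (hc : IsComplement' K H) (hK : K ≠ ⊥) (hH : H ≠ ⊥)
    (hfpf : ∀ h ∈ H, h ≠ 1 → K ⊓ centralizer {h} = ⊥) (L : Subgroup G)
    (hL : Nat.card L = Nat.card H) : ∃ g : G, L = MulAut.conj g • H := by
  have hF := Cfsg.Agent.S0039.frob_of_fpf K H hc hK hH hfpf
  have hHK : H ≤ normalizer (K : Set G) := by
    rw [normalizer_eq_top]; exact le_top
  have hcop : (Nat.card H).Coprime (Nat.card K) := coprime_of_fpf H K hHK hfpf
  obtain ⟨N, hN, hNn, hNc⟩ := Cfsg.Agent.Lib.Helper1_FrobThm.exists_kernel H hF.2.2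
  have hNK : Nat.card N = Nat.card K := by
    have h1 := hNc.card_mul_card
    have h2 := hc.card_mul_card
    have hpos : 0 < Nat.card H := Nat.card_pos
    exact Nat.eq_of_mul_eq_mul_right hpos (h1.trans h2.symm)
  obtain ⟨g, hg⟩ := Cfsg.Agent.S0037.conj_le_of_disjoint H hF.2.2 L (by
    intro x hx hxk
    rw [← hN] at hxk
    have h1 : orderOf x ∣ Nat.card H := hL ▸ Subgroup.orderOf_dvd_natCard L hx
    have h2 : orderOf x ∣ Nat.card K := hNK ▸ Subgroup.orderOf_dvd_natCard N hxk
    have h3 := Nat.dvd_gcd h1 h2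
    rw [hcop] at h3
    exact orderOf_eq_one_iff.mp (Nat.dvd_one.mp h3))
  exact ⟨g, Subgroup.eq_of_le_of_card_ge hg (by rw [card_conj_smul, hL])⟩

theorem exists_invariant_abelian (K H : Subgroup G) [K.Normal]
    (hc : IsComplement' K H) (hK : K ≠ ⊥)
    (hfpf : ∀ h ∈ H, h ≠ 1 → K ⊓ centralizer {h} = ⊥) :
    ∃ V : Subgroup G, V ≤ K ∧ V ≠ ⊥ ∧ IsMulCommutative V ∧ H ≤ normalizer (V : Set G) := by
  classical
  by_cases hH : H = ⊥
  · obtain ⟨k, hk⟩ := Subgroup.ne_bot_iff_exists_ne_one.mp hK
    refine ⟨zpowers (k : G), zpowers_le.mpr k.2, ?_, inferInstance, hH ▸ bot_le⟩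
    intro h
    have : (k : G) ∈ zpowers (k : G) := mem_zpowers _
    rw [h, mem_bot] at this
    exact hk (Subtype.ext this)
  have hHK : H ≤ normalizer (K : Set G) := by
    rw [normalizer_eq_top]; exact le_top
  have hcop : (Nat.card H).Coprime (Nat.card K) := coprime_of_fpf H K hHK hfpf
  have hK1 : Nat.card K ≠ 1 := fun h => hK (Subgroup.card_eq_one.mp h)
  obtain ⟨r, hr, hrK⟩ := Nat.exists_prime_and_dvd hK1
  haveI : Fact r.Prime := ⟨hr⟩
  obtain ⟨R⟩ : Nonempty (Sylow r K) := inferInstance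
  set R' : Subgroup G := (R : Subgroup K).map K.subtype with hR'
  have hfrat : normalizer (R' : Set G) ⊔ K = ⊤ := Sylow.normalizer_sup_eq_top R
  set M : Subgroup G := normalizer (R' : Set G) with hM
  have hidx : (K.subgroupOf M).index = Nat.card H := by
    have h1 : K.relIndex M = K.relIndex (M ⊔ K) := (relIndex_sup_right M K).symm
    rw [hfrat, relIndex_top_right] at h1
    have h2 : (K.subgroupOf M).index = K.relIndex M := rfl
    rw [h2, h1]
    exact (card_eq_index_of_isComplement' hc).symm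
  have hcop' : (Nat.card (K.subgroupOf M)).Coprime (K.subgroupOf M).index := by
    rw [hidx]
    exact (hcop.symm).coprime_dvd_left
      (card_comap_dvd_of_injective K M.subtype M.subtype_injective)
  obtain ⟨H', hH'⟩ := exists_right_complement'_of_coprime hcop'
  have hH'card : Nat.card H' = Nat.card H := by
    rw [card_eq_index_of_isComplement' hH', hidx]
  set L : Subgroup G := H'.map M.subtype with hL
  have hLcard : Nat.card L = Nat.card H := by
    rw [hL, Subgroup.card_map_of_injective M.subtype_injective, hH'card]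
  have hLM : L ≤ M := by
    rw [hL]; exact map_subtype_le H'
  obtain ⟨g, hg⟩ := exists_conj_eq_of_card K H hc hK hH hfpf L hLcard
  -- the centre of `R'`
  set V₀ : Subgroup G := R' ⊓ centralizer (R' : Set G) with hV₀
  have hMV : ∀ m ∈ M, ∀ v ∈ V₀, m * v * m⁻¹ ∈ V₀ := by
    intro m hm v hv
    have hm' := fun x => (mem_normalizer_iff.mp hm) x
    refine ⟨((hm' v).mp hv.1), ?_⟩
    show m * v * m⁻¹ ∈ centralizer (R' : Set G)
    rw [mem_centralizer_iff]
    intro x hx
    have hx' : m⁻¹ * x * m ∈ R' := by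
      rw [hm' (m⁻¹ * x * m)]
      have : m * (m⁻¹ * x * m) * m⁻¹ = x := by group
      rw [this]; exact hx
    have h1 := (mem_centralizer_iff.mp hv.2) _ hx'
    calc x * (m * v * m⁻¹) = m * ((m⁻¹ * x * m) * v) * m⁻¹ := by group
      _ = m * (v * (m⁻¹ * x * m)) * m⁻¹ := by rw [h1]
      _ = m * v * m⁻¹ * x := by group
  have hR'K : R' ≤ K := by rw [hR']; exact map_subtype_le _
  have hV₀bot : V₀ ≠ ⊥ := by
    have hRp : IsPGroup r R := R.isPGroup'
    have hRnt : Nontrivial R := by
      rw [← Finite.one_lt_card_iff_nontrivial]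
      have h1 : r ∣ Nat.card R := by
        have := R.card_eq_multiplicity
        rw [this]
        have hpos : (Nat.card K).factorization r ≠ 0 := by
          have := (hr.factorization_pos_of_dvd Nat.card_pos.ne' hrK)
          omega
        exact dvd_pow_self r hpos
      have := Nat.le_of_dvd Nat.card_pos h1
      have := hr.two_le
      omega
    haveI := hRnt
    haveI := hRp.center_nontrivial
    obtain ⟨z, hz⟩ := exists_ne (1 : center R)
    intro hbot
    have hzmem : (((z : R) : K) : G) ∈ V₀ := by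
      refine ⟨⟨((z : R) : K), (z : R).2, rfl⟩, ?_⟩
      show _ ∈ centralizer (R' : Set G)
      rw [mem_centralizer_iff]
      rintro _ ⟨y, hy, rfl⟩
      have h1 := (mem_center_iff.mp z.2) ⟨y, hy⟩
      have h2 := congrArg (fun t : R => ((t : K) : G)) h1
      simpa using h2
    rw [hbot, mem_bot] at hzmem
    apply hz
    apply Subtype.ext
    apply Subtype.ext
    apply Subtype.ext
    exact hzmem
  refine ⟨MulAut.conj g⁻¹ • V₀, ?_, ?_, ?_, ?_⟩
  · intro x hx
    rw [mem_conj_smul, inv_inv] at hx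
    have h1 : g * x * g⁻¹ ∈ K := hR'K hx.1
    have h2 := ‹K.Normal›.conj_mem _ h1 g⁻¹
    have h3 : g⁻¹ * (g * x * g⁻¹) * g⁻¹⁻¹ = x := by group
    rwa [h3] at h2
  · intro h
    apply hV₀bot
    have h1 := card_conj_smul g⁻¹ V₀
    rw [h, Subgroup.card_bot] at h1
    exact Subgroup.card_eq_one.mp h1.symm
  · constructor
    constructor
    intro a b
    apply Subtype.ext
    have ha := a.2
    have hb := b.2
    rw [mem_conj_smul, inv_inv] at ha hb
    have h1 := (mem_centralizer_iff.mp ha.2) _ hb.1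
    have h2 : g * ((b : G) * a) * g⁻¹ = g * ((a : G) * b) * g⁻¹ := by
      calc g * ((b : G) * a) * g⁻¹ = (g * b * g⁻¹) * (g * a * g⁻¹) := by group
        _ = (g * a * g⁻¹) * (g * b * g⁻¹) := h1
        _ = g * ((a : G) * b) * g⁻¹ := by group
    have h3 := mul_left_cancel (mul_right_cancel h2)
    exact h3.symm
  · have key : ∀ h ∈ H, ∀ x ∈ MulAut.conj g⁻¹ • V₀, h * x * h⁻¹ ∈ MulAut.conj g⁻¹ • V₀ := by
      intro h hh x hx
      rw [mem_conj_smul, inv_inv] at hx ⊢
      have h1 : g * h * g⁻¹ ∈ M := by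
        apply hLM
        rw [hg]
        exact conj_mem_conj_smul hh
      have h2 := hMV _ h1 _ hx
      have h3 : g * h * g⁻¹ * (g * x * g⁻¹) * (g * h * g⁻¹)⁻¹ = g * (h * x * h⁻¹) * g⁻¹ := by group
      rwa [h3] at h2
    intro h hh
    rw [mem_normalizer_iff]
    intro x
    constructor
    · exact key h hh x
    · intro hx
      have := key h⁻¹ (H.inv_mem hh) _ hx
      have h3 : h⁻¹ * (h * x * h⁻¹) * h⁻¹⁻¹ = x := by group
      rwa [h3] at this

end Cfsg.Agent.Lib.Helper1_FrobInv
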