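import Mathlib
import Cfsg.Agent.Lib.Helper1_FrobAct

/-!
# Subgroups of order `pq` of a fixed-point-free group are abelian
-/

set_option autoImplicit false

namespace Cfsg.Agent.Lib.Helper1_FrobPQ

open Subgroup Cfsg.Agent.Lib.Helper1_FrobAct

variable {G : Type*} [Group G] [Finite G]

theorem mem_normalizer_of_conj_mem (g : G) (S : Subgroup G) (h : ∀ s ∈ S, g * s * g⁻¹ ∈ S) :
    g ∈ normalizer (S : Set G) := by
  rw [mem_normalizer_iff]
  intro x
  refine ⟨h x, ?_⟩
  intro hx
  let f : S → S := fun s => ⟨g * s * g⁻¹, h s s.2⟩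
  have hf : Function.Injective f := by
    intro a b hab
    have h1 : g * (a : G) * g⁻¹ = g * (b : G) * g⁻¹ := congrArg Subtype.val hab
    exact Subtype.ext (mul_left_cancel (mul_right_cancel h1))
  obtain ⟨s, hs⟩ := (Finite.injective_iff_surjective.mp hf) ⟨_, hx⟩
  have h1 : g * (s : G) * g⁻¹ = g * x * g⁻¹ := congrArg Subtype.val hs
  have h2 : (s : G) = x := mul_left_cancel (mul_right_cancel h1)
  rw [← h2]; exact s.2

theorem mem_normalizer_zpowers (g b : G) (h : g * b * g⁻¹ ∈ zpowers b) :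
    g ∈ normalizer (zpowers b : Set G) := by
  apply mem_normalizer_of_conj_mem
  intro s hs
  obtain ⟨k, rfl⟩ := mem_zpowers_iff.mp hs
  rw [← conj_zpow]
  exact zpow_mem h k

theorem mem_zpowers_of_prime {a c : G} {p : ℕ} (hp : p.Prime) (ha : orderOf a = p)
    (hc : c ∈ zpowers a) (hc1 : c ≠ 1) : a ∈ zpowers c := by
  have h1 : orderOf c ∣ p := by
    rw [← ha]; exact orderOf_dvd_of_mem_zpowers hc
  have ho : orderOf c = p := by
    rcases (Nat.dvd_prime hp).mp h1 with h | h
    · exact absurd (orderOf_eq_one_iff.mp h) hc1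
    · exact h
  have h2 : zpowers c = zpowers a := by
    apply Subgroup.eq_of_le_of_card_ge (zpowers_le.mpr hc)
    rw [Nat.card_zpowers, Nat.card_zpowers, ho, ha]
  rw [h2]; exact mem_zpowers a

/-- elements of distinct prime orders, one normalising the other, commute -/
theorem commute_of_prime_orders (H V : Subgroup G) [IsMulCommutative V] (hV : V ≠ ⊥)
    (hHV : H ≤ normalizer (V : Set G)) (hfpf : ∀ a ∈ H, a ≠ 1 → V ⊓ centralizer {a} = ⊥)
    {a b : G} (ha : a ∈ H) (hb : b ∈ H) {p q : ℕ} (hp : p.Prime) (hq : q.Prime)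
    (hao : orderOf a = p) (hbo : orderOf b = q) (hab : a * b * a⁻¹ ∈ zpowers b) :
    a * b = b * a := by
  classical
  by_contra hne
  set A : Subgroup G := zpowers b ⊔ zpowers a with hA
  have hAH : A ≤ H := sup_le (zpowers_le.mpr hb) (zpowers_le.mpr ha)
  have hbA : zpowers b ≤ A := le_sup_left
  have haA : zpowers a ≤ A := le_sup_right
  have hAn : A ≤ normalizer (zpowers b : Set G) :=
    sup_le le_normalizer (zpowers_le.mpr (mem_normalizer_zpowers a b hab))
  haveI : ((zpowers b).subgroupOf A).Normal :=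
    (normal_subgroupOf_iff_le_normalizer hbA).mpr hAn
  have ha1 : a ≠ 1 := by
    intro h; rw [h, orderOf_one] at hao; exact hp.one_lt.ne hao
  have hb1 : b ≠ 1 := by
    intro h; rw [h, orderOf_one] at hbo; exact hq.one_lt.ne hbo
  apply hV
  apply eq_bot_of_frob_act A V (hAH.trans hHV) (fun x hx hx1 => hfpf x (hAH hx) hx1)
    ((zpowers b).subgroupOf A) ((zpowers a).subgroupOf A)
  · intro h
    have : (⟨b, hbA (mem_zpowers b)⟩ : A) ∈ (zpowers b).subgroupOf A := by
      rw [mem_subgroupOf]; exact mem_zpowers b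
    rw [h, mem_bot] at this
    exact hb1 (congrArg Subtype.val this)
  · intro h
    have : (⟨a, haA (mem_zpowers a)⟩ : A) ∈ (zpowers a).subgroupOf A := by
      rw [mem_subgroupOf]; exact mem_zpowers a
    rw [h, mem_bot] at this
    exact ha1 (congrArg Subtype.val this)
  · intro c hc hc1 k hk hcomm
    by_contra hk1
    rw [mem_subgroupOf] at hc hk
    have hc1' : (c : G) ≠ 1 := fun h => hc1 (Subtype.ext h)
    have hk1' : (k : G) ≠ 1 := fun h => hk1 (Subtype.ext h)
    have h1 := mem_zpowers_of_prime hp hao hc hc1'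
    have h2 := mem_zpowers_of_prime hq hbo hk hk1'
    obtain ⟨i, hi⟩ := mem_zpowers_iff.mp h1
    obtain ⟨j, hj⟩ := mem_zpowers_iff.mp h2
    have hcm : Commute (k : G) (c : G) := congrArg Subtype.val hcomm
    apply hne
    rw [← hi, ← hj]
    exact (hcm.zpow_zpow j i).symm

end Cfsg.Agent.Lib.Helper1_FrobPQ
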