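import Mathlib

set_option autoImplicit false

namespace Cfsg.Agent.Lib.Helper1_GLCard

open Matrix Matrix.SpecialLinearGroup

variable {F : Type*} [Field F] {ι : Type*} [Fintype ι] [DecidableEq ι]

theorem det_surjective [Nonempty ι] :
    Function.Surjective (Matrix.GeneralLinearGroup.det : GL ι F →* Fˣ) := by
  intro u
  obtain ⟨i⟩ := ‹Nonempty ι›
  have hdet : (diagonal (Function.update (fun _ => (1 : F)) i (u : F))).det = u := by
    rw [det_diagonal, Finset.prod_update_of_mem (Finset.mem_univ i)]
    simp
  refine ⟨Matrix.GeneralLinearGroup.mkOfDetNeZero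
    (diagonal (Function.update (fun _ => (1 : F)) i (u : F))) (by rw [hdet]; exact u.ne_zero), ?_⟩
  apply Units.ext
  simpa [Matrix.GeneralLinearGroup.mkOfDetNeZero] using hdet

theorem range_toGL : (toGL : SpecialLinearGroup ι F →* GL ι F).range =
    (Matrix.GeneralLinearGroup.det : GL ι F →* Fˣ).ker := by
  ext g
  rw [MonoidHom.mem_ker, MonoidHom.mem_range]
  constructor
  · rintro ⟨A, rfl⟩
    apply Units.ext
    simp
  · intro hg
    have hdet : (g : Matrix ι ι F).det = 1 := by
      have := congrArg Units.val hg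
      simpa using this
    exact ⟨⟨g, hdet⟩, Units.ext rfl⟩

theorem card_ker_det : Nat.card (Matrix.GeneralLinearGroup.det : GL ι F →* Fˣ).ker =
    Nat.card (SpecialLinearGroup ι F) := by
  rw [← range_toGL]
  exact (Nat.card_congr (MonoidHom.ofInjective toGL_injective).toEquiv).symm

theorem card_GL_eq [Nonempty ι] :
    Nat.card (GL ι F) = Nat.card Fˣ * Nat.card (SpecialLinearGroup ι F) := by
  rw [← Subgroup.card_mul_index (Matrix.GeneralLinearGroup.det : GL ι F →* Fˣ).ker,
    Subgroup.index_ker, card_ker_det, MonoidHom.range_eq_top_of_surjective _ det_surjective,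
    Subgroup.card_top, mul_comm]

theorem card_units [Fintype F] : Nat.card Fˣ = Fintype.card F - 1 := by
  classical
  rw [Nat.card_eq_fintype_card, Fintype.card_units]

theorem scalar_injective [Nonempty ι] :
    Function.Injective (Matrix.GeneralLinearGroup.scalar ι : Fˣ →* GL ι F) := by
  intro u v h
  obtain ⟨i⟩ := ‹Nonempty ι›
  have h1 := congrArg (fun g : GL ι F => (g : Matrix ι ι F) i i) h
  simp only [Matrix.GeneralLinearGroup.coe_scalar, scalar_apply, diagonal_apply_eq] at h1
  exact Units.ext h1

theorem card_center_GL [Nonempty ι] : Nat.card (Subgroup.center (GL ι F)) = Nat.card Fˣ := by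
  rw [Matrix.GeneralLinearGroup.center_eq_range_scalar]
  exact (Nat.card_congr (MonoidHom.ofInjective scalar_injective).toEquiv).symm

theorem card_center_SL [Finite F] [Nonempty ι] :
    Nat.card (Subgroup.center (SpecialLinearGroup ι F)) = Nat.gcd (Fintype.card ι) (Nat.card Fˣ) := by
  obtain ⟨i⟩ := ‹Nonempty ι›
  rw [Nat.card_congr (center_equiv_rootsOfUnity' (R := F) i).toEquiv, rootsOfUnity_eq_ker,
    IsCyclic.card_powMonoidHom_ker, Nat.gcd_comm]

theorem card_SL_eq [Finite F] [Nonempty ι] :
    Nat.card (SpecialLinearGroup ι F) = Nat.gcd (Fintype.card ι) (Nat.card Fˣ) *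
      Nat.card (Matrix.ProjectiveSpecialLinearGroup ι F) := by
  rw [← card_center_SL, mul_comm]
  exact Subgroup.card_eq_card_quotient_mul_card_subgroup _

theorem card_PGL [Finite F] : Nat.card (Matrix.ProjGenLinGroup ι F) =
    Nat.card (SpecialLinearGroup ι F) := by
  rcases isEmpty_or_nonempty ι with h | h
  · have h1 : Subsingleton (GL ι F) := ⟨fun a b => Units.ext (Subsingleton.elim _ _)⟩
    have h2 : Subsingleton (Matrix.ProjGenLinGroup ι F) :=
      (Matrix.ProjGenLinGroup.mk_surjective (n := ι) (R := F)).subsingleton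
    rw [Nat.card_of_subsingleton (1 : Matrix.ProjGenLinGroup ι F),
      Nat.card_of_subsingleton (1 : SpecialLinearGroup ι F)]
  · have h1 := Subgroup.card_eq_card_quotient_mul_card_subgroup (Subgroup.center (GL ι F))
    rw [card_center_GL, card_GL_eq, mul_comm] at h1
    have h2 : 0 < Nat.card Fˣ := Nat.card_pos
    exact (Nat.eq_of_mul_eq_mul_right h2 h1).symm

end Cfsg.Agent.Lib.Helper1_GLCard
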