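import Mathlib
import Cfsg.Prelude.Def_Perm

/-!
# Near-fields: basic arithmetic, the affine group, the additive group in the finite case
-/

set_option autoImplicit false

namespace Cfsg.Agent.Lib.Helper1_NearField

open Cfsg

variable {F : Type*} [NearField F]

theorem rd (a b c : F) : (a + b) * c = a * c + b * c := NearField.right_distrib a b c

theorem mz (a : F) : a * 0 = 0 := NearField.mul_zero a

theorem zm (c : F) : (0 : F) * c = 0 := by
  have h := rd 0 0 c
  rw [add_zero] at h
  exact left_eq_add.mp h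

theorem neg_mul' (a c : F) : (-a) * c = -(a * c) := by
  have h := rd (-a) a c
  rw [neg_add_cancel, zm] at h
  exact eq_neg_of_add_eq_zero_left h.symm

theorem sub_mul' (a b c : F) : (a - b) * c = a * c - b * c := by
  rw [sub_eq_add_neg, rd, neg_mul', ← sub_eq_add_neg]

theorem mul_ne_zero' {a b : F} (ha : a ≠ 0) (hb : b ≠ 0) : a * b ≠ 0 := by
  intro h
  obtain ⟨a', -, h2⟩ := NearField.exists_inv a ha
  apply hb
  calc b = (a' * a) * b := by rw [h2, one_mul]
    _ = a' * (a * b) := mul_assoc _ _ _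
    _ = 0 := by rw [h, mz]

theorem inv_ne_zero' {a a' : F} (h : a * a' = 1) : a' ≠ 0 := by
  rintro rfl
  rw [mz] at h
  exact NearField.zero_ne_one h

/-- the affine map `x ↦ x * a + b` -/
def aff (a a' b : F) (h1 : a * a' = 1) (h2 : a' * a = 1) : Equiv.Perm F where
  toFun x := x * a + b
  invFun y := (y - b) * a'
  left_inv x := by
    show (x * a + b - b) * a' = x
    rw [add_sub_cancel_right, mul_assoc, h1, mul_one]
  right_inv y := by
    show (y - b) * a' * a + b = y
    rw [mul_assoc, h2, mul_one, sub_add_cancel]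

theorem aff_apply (a a' b : F) (h1 : a * a' = 1) (h2 : a' * a = 1) (x : F) :
    aff a a' b h1 h2 x = x * a + b := rfl

/-- the affine group of a near-field -/
def affGroup (F : Type*) [NearField F] : Subgroup (Equiv.Perm F) where
  carrier := {σ | ∃ a b : F, a ≠ 0 ∧ ∀ x : F, σ x = x * a + b}
  one_mem' := ⟨1, 0, NearField.zero_ne_one.symm, fun x => by simp⟩
  mul_mem' := by
    rintro σ τ ⟨a, b, ha, hσ⟩ ⟨c, d, hc, hτ⟩
    refine ⟨c * a, d * a + b, mul_ne_zero' hc ha, fun x => ?_⟩
    rw [Equiv.Perm.mul_apply, hτ, hσ, rd, mul_assoc, add_assoc]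
  inv_mem' := by
    rintro σ ⟨a, b, ha, hσ⟩
    obtain ⟨a', h1, h2⟩ := NearField.exists_inv a ha
    refine ⟨a', (-b) * a', inv_ne_zero' h1, fun y => ?_⟩
    apply σ.injective
    rw [Equiv.Perm.inv_def, Equiv.apply_symm_apply, hσ, rd, mul_assoc, mul_assoc, h2, mul_one, mul_one,
      neg_add_cancel_right]

theorem mem_affGroup (σ : Equiv.Perm F) :
    σ ∈ affGroup F ↔ ∃ a b : F, a ≠ 0 ∧ ∀ x : F, σ x = x * a + b := Iff.rfl

theorem exists_aff {x y u v : F} (hxy : x ≠ y) (huv : u ≠ v) :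
    ∃ g : affGroup F, g • x = u ∧ g • y = v := by
  have hz : x - y ≠ 0 := sub_ne_zero.mpr hxy
  have hw : u - v ≠ 0 := sub_ne_zero.mpr huv
  obtain ⟨z', hz1, hz2⟩ := NearField.exists_inv _ hz
  have ha : z' * (u - v) ≠ 0 := mul_ne_zero' (inv_ne_zero' hz1) hw
  obtain ⟨a', h1, h2⟩ := NearField.exists_inv _ ha
  set a := z' * (u - v) with hadef
  refine ⟨⟨aff a a' (-(x * a) + u) h1 h2, ⟨a, _, ha, fun t => rfl⟩⟩, ?_, ?_⟩
  · show x * a + (-(x * a) + u) = u
    rw [add_neg_cancel_left]
  · show y * a + (-(x * a) + u) = v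
    have h3 : (x - y) * a = u - v := by
      rw [hadef, ← mul_assoc, hz1, one_mul]
    rw [sub_mul'] at h3
    rw [← add_assoc, ← sub_eq_add_neg]
    have h4 : y * a - x * a = v - u := by
      rw [← neg_sub (x * a), h3, neg_sub]
    rw [h4, sub_add_cancel]

theorem eq_one_of_fix {σ : Equiv.Perm F} (hσ : σ ∈ affGroup F) {x y : F} (hxy : x ≠ y)
    (hx : σ x = x) (hy : σ y = y) : σ = 1 := by
  obtain ⟨a, b, ha, h⟩ := hσ
  have hz : x - y ≠ 0 := sub_ne_zero.mpr hxy
  obtain ⟨z', hz1, hz2⟩ := NearField.exists_inv _ hz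
  have h1 : (x - y) * a = x - y := by
    rw [sub_mul']
    have e1 := h x
    have e2 := h y
    rw [hx] at e1
    rw [hy] at e2
    calc x * a - y * a = (x * a + b) - (y * a + b) := by rw [add_sub_add_right_eq_sub]
      _ = x - y := by rw [← e1, ← e2]
  have ha1 : a = 1 := by
    calc a = (z' * (x - y)) * a := by rw [hz2, one_mul]
      _ = z' * ((x - y) * a) := mul_assoc _ _ _
      _ = 1 := by rw [h1, hz2]
  have hb : b = 0 := by
    have e1 := h x
    rw [hx, ha1, mul_one] at e1
    exact (left_eq_add.mp e1)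
  ext t
  rw [h t, ha1, hb, mul_one, add_zero, Equiv.Perm.one_apply]

/-- right multiplication by a nonzero element as an additive automorphism -/
def mulRightEquiv (a a' : F) (h1 : a * a' = 1) (h2 : a' * a = 1) : F ≃+ F where
  toFun x := x * a
  invFun y := y * a'
  left_inv x := by show x * a * a' = x; rw [mul_assoc, h1, mul_one]
  right_inv y := by show y * a' * a = y; rw [mul_assoc, h2, mul_one]
  map_add' x y := rd x y a

/-- A finite group whose automorphisms permute the nonidentity elements transitively is elementary abelian. -/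
theorem elementary_of_aut {A : Type*} [Group A] [Finite A] [Nontrivial A]
    (hconj : ∀ n m : A, n ≠ 1 → m ≠ 1 → ∃ φ : A ≃* A, φ n = m) :
    (∀ a b : A, a * b = b * a) ∧ ∃ p : ℕ, p.Prime ∧ (∀ n : A, n ^ p = 1) ∧ IsPGroup p A := by
  classical
  have hcard : Nat.card A ≠ 1 := by
    intro h
    have := (Nat.card_eq_one_iff_unique.mp h).1
    exact absurd ‹Nontrivial A› (not_nontrivial_iff_subsingleton.mpr this)
  obtain ⟨p, hp, hpd⟩ := Nat.exists_prime_and_dvd hcard
  haveI : Fact p.Prime := ⟨hp⟩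
  obtain ⟨z, hz⟩ := exists_prime_orderOf_dvd_card' (G := A) p hpd
  have hz1 : z ≠ 1 := by
    rintro rfl
    rw [orderOf_one] at hz
    exact hp.one_lt.ne hz
  have hzp : z ^ p = 1 := by
    have := pow_orderOf_eq_one z
    rwa [hz] at this
  have hpow : ∀ n : A, n ^ p = 1 := by
    intro n
    by_cases hn1 : n = 1
    · rw [hn1, one_pow]
    obtain ⟨φ, hφ⟩ := hconj z n hz1 hn1
    rw [← hφ, ← map_pow, hzp, map_one]
  have hPG : IsPGroup p A := fun n => ⟨1, by rw [pow_one]; exact hpow n⟩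
  haveI : Nontrivial (Subgroup.center A) := hPG.center_nontrivial
  obtain ⟨c, hc⟩ := exists_ne (1 : Subgroup.center A)
  have hc1 : (c : A) ≠ 1 := fun h => hc (Subtype.ext h)
  refine ⟨fun a b => ?_, p, hp, hpow, hPG⟩
  by_cases ha : a = 1
  · rw [ha, one_mul, mul_one]
  obtain ⟨φ, hφ⟩ := hconj c a hc1 ha
  have h1 := Subgroup.mem_center_iff.mp c.2 (φ.symm b)
  have h2 := congrArg φ h1
  rw [map_mul, map_mul, MulEquiv.apply_symm_apply, hφ] at h2
  exact h2.symm

theorem finite_main [Finite F] : ∃ p j : ℕ, p.Prime ∧ 1 ≤ j ∧ Nat.card F = p ^ j ∧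
    (∀ x y : F, x + y = y + x) ∧ ∀ x : F, p • x = 0 := by
  haveI : Nontrivial (Multiplicative F) := ⟨⟨Multiplicative.ofAdd 0, Multiplicative.ofAdd 1, fun h =>
    NearField.zero_ne_one (Multiplicative.ofAdd.injective h)⟩⟩
  haveI : Finite (Multiplicative F) := inferInstanceAs (Finite F)
  obtain ⟨hcomm, p, hp, hpow, hPG⟩ := elementary_of_aut (A := Multiplicative F) (by
    intro n m hn hm
    have hn0 : Multiplicative.toAdd n ≠ 0 := fun h => hn (Multiplicative.toAdd.injective h)
    have hm0 : Multiplicative.toAdd m ≠ 0 := fun h => hm (Multiplicative.toAdd.injective h)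
    obtain ⟨n', hn1, hn2⟩ := NearField.exists_inv _ hn0
    have ha : n' * Multiplicative.toAdd m ≠ 0 := mul_ne_zero' (inv_ne_zero' hn1) hm0
    obtain ⟨a', h1, h2⟩ := NearField.exists_inv _ ha
    refine ⟨AddEquiv.toMultiplicative (mulRightEquiv _ a' h1 h2), ?_⟩
    show Multiplicative.ofAdd (Multiplicative.toAdd n * (n' * Multiplicative.toAdd m)) = m
    rw [← mul_assoc, hn1, one_mul]; rfl)
  haveI : Fact p.Prime := ⟨hp⟩
  obtain ⟨j, hj⟩ := IsPGroup.iff_card.mp hPG
  have hj' : Nat.card F = p ^ j := hj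
  refine ⟨p, j, hp, ?_, hj', fun x y => hcomm (Multiplicative.ofAdd x) (Multiplicative.ofAdd y), fun x => hpow (Multiplicative.ofAdd x)⟩
  rcases Nat.eq_zero_or_pos j with h0 | h0
  · rw [h0, pow_zero] at hj
    have := (Nat.card_eq_one_iff_unique.mp hj).1
    exact absurd ‹Nontrivial (Multiplicative F)› (not_nontrivial_iff_subsingleton.mpr this)
  · exact h0

end Cfsg.Agent.Lib.Helper1_NearField
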