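import Mathlib

set_option autoImplicit false

namespace Cfsg.Agent.Lib.Helper1_Prod

open Subgroup

variable {G : Type*} [Group G]

/-- If `W ≤ P` and `|P : P ∩ Z| ≤ |W : W ∩ Z|` then `P = W (P ∩ Z)` as a set. -/
theorem exists_mul_of_relIndex_le [Finite G] {Z W P : Subgroup G} (hWP : W ≤ P)
    (h : Z.relIndex P ≤ Z.relIndex W) : ∀ x ∈ P, ∃ w ∈ W, ∃ c ∈ Z, x = w * c := by
  have hb := (Subgroup.quotientSubgroupOfEmbeddingOfLE Z hWP).injective.bijective_of_nat_card_le h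
  intro x hx
  obtain ⟨q, hq⟩ := hb.2 (QuotientGroup.mk (⟨x, hx⟩ : P))
  induction q using QuotientGroup.induction_on with | H w => ?_
  rw [Subgroup.quotientSubgroupOfEmbeddingOfLE_apply_mk, QuotientGroup.eq, mem_subgroupOf] at hq
  refine ⟨w.1, w.2, _, hq, ?_⟩
  simp

theorem relIndex_eq_of_exists_mul {Z W P : Subgroup G} (hWP : W ≤ P)
    (h : ∀ x ∈ P, ∃ w ∈ W, ∃ c ∈ Z, x = w * c) : Z.relIndex W = Z.relIndex P := by
  apply Nat.card_congr
  refine Equiv.ofBijective _ ⟨(Subgroup.quotientSubgroupOfEmbeddingOfLE Z hWP).injective, ?_⟩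
  intro q
  induction q using QuotientGroup.induction_on with | H x => ?_
  obtain ⟨w, hw, c, hc, hx⟩ := h x.1 x.2
  refine ⟨QuotientGroup.mk (⟨w, hw⟩ : W), ?_⟩
  rw [Subgroup.quotientSubgroupOfEmbeddingOfLE_apply_mk, QuotientGroup.eq, mem_subgroupOf]
  simp [hx, hc]

theorem relIndex_le_of_le [Finite G] (Z : Subgroup G) {W P : Subgroup G} (hWP : W ≤ P) :
    Z.relIndex W ≤ Z.relIndex P :=
  Nat.card_le_card_of_injective _ (Subgroup.quotientSubgroupOfEmbeddingOfLE Z hWP).injective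

end Cfsg.Agent.Lib.Helper1_Prod
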