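import Mathlib
import Cfsg.Agent.Lib.Helper1_Prod
import Cfsg.Agent.Lib.Helper1_SZ

set_option autoImplicit false

namespace Cfsg.Agent.Lib.Helper1_Perm

open Subgroup Cfsg.Agent.Lib.Helper1_Prod
open scoped Pointwise

variable {G : Type*} [Group G]

/-- The join of two permuting subgroups is their set product. -/
theorem coe_sup_of_perm {A B : Subgroup G} (h : (A : Set G) * B = B * A) :
    ((A ⊔ B : Subgroup G) : Set G) = A * B := by
  let C : Subgroup G :=
    { carrier := (A : Set G) * B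
      one_mem' := ⟨1, A.one_mem, 1, B.one_mem, one_mul 1⟩
      mul_mem' := by
        rintro _ _ ⟨a, ha, b, hb, rfl⟩ ⟨a', ha', b', hb', rfl⟩
        have h1 : b * a' ∈ (A : Set G) * B := by rw [h]; exact ⟨b, hb, a', ha', rfl⟩
        obtain ⟨a'', ha'', b'', hb'', h2⟩ := h1
        refine ⟨a * a'', A.mul_mem ha ha'', b'' * b', B.mul_mem hb'' hb', ?_⟩
        simp only at h2 ⊢
        calc a * a'' * (b'' * b') = a * (a'' * b'') * b' := by group
          _ = a * b * (a' * b') := by rw [h2]; group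
      inv_mem' := by
        rintro _ ⟨a, ha, b, hb, rfl⟩
        rw [h]
        exact ⟨b⁻¹, B.inv_mem hb, a⁻¹, A.inv_mem ha, by simp⟩ }
  apply Set.Subset.antisymm
  · have : A ⊔ B ≤ C := by
      apply sup_le
      · intro a ha; exact ⟨a, ha, 1, B.one_mem, mul_one a⟩
      · intro b hb; exact ⟨1, A.one_mem, b, hb, one_mul b⟩
    exact this
  · rintro _ ⟨a, ha, b, hb, rfl⟩
    exact (A ⊔ B).mul_mem (mem_sup_left ha) (mem_sup_right hb)

theorem card_sup_of_perm {A B : Subgroup G} (h : (A : Set G) * B = B * A) :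
    Nat.card (A ⊔ B : Subgroup G) = B.relIndex A * Nat.card B := by
  have h1 : B.relIndex A = B.relIndex (A ⊔ B) := by
    apply relIndex_eq_of_exists_mul le_sup_left
    intro x hx
    have : x ∈ ((A ⊔ B : Subgroup G) : Set G) := hx
    rw [coe_sup_of_perm h] at this
    obtain ⟨a, ha, b, hb, rfl⟩ := this
    exact ⟨a, ha, b, hb, rfl⟩
  rw [h1, mul_comm, Cfsg.Agent.Lib.Helper1_SZ.card_mul_relIndex le_sup_right]

theorem card_sup_dvd_of_perm {A B : Subgroup G} (h : (A : Set G) * B = B * A) :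
    Nat.card (A ⊔ B : Subgroup G) ∣ Nat.card A * Nat.card B := by
  rw [card_sup_of_perm h]
  exact Nat.mul_dvd_mul_right (relIndex_dvd_card B A) _

theorem perm_sup {A B C : Subgroup G} (hAB : (A : Set G) * B = B * A)
    (hCA : (C : Set G) * A = A * C) (hCB : (C : Set G) * B = B * C) :
    (C : Set G) * ((A ⊔ B : Subgroup G) : Set G) = ((A ⊔ B : Subgroup G) : Set G) * C := by
  rw [coe_sup_of_perm hAB, ← mul_assoc, hCA, mul_assoc, hCB, mul_assoc]

end Cfsg.Agent.Lib.Helper1_Perm
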