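import Mathlib
import Cfsg.Agent.Lib.Helper1_MinNormal

/-!
# Primitive solvable groups: a minimal normal subgroup is regular and complemented by a point stabilizer
-/

set_option autoImplicit false

namespace Cfsg.Agent.Lib.Helper1_PrimSolv

open Subgroup

variable {G : Type*} [Group G] {Ω : Type*} [MulAction G Ω]

theorem eq_bot_of_normal_le_stabilizer [FaithfulSMul G Ω] [MulAction.IsPretransitive G Ω]
    (D : Subgroup G) (hD : D.Normal) (ω : Ω) (h : D ≤ MulAction.stabilizer G ω) : D = ⊥ := by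
  rw [eq_bot_iff]
  intro d hd
  rw [mem_bot]
  apply FaithfulSMul.eq_of_smul_eq_smul (α := Ω)
  intro b
  obtain ⟨g, rfl⟩ := MulAction.exists_smul_eq G ω b
  have h1 : (g⁻¹ * d * g) • ω = ω := h (by simpa using hD.conj_mem d hd g⁻¹)
  rw [one_smul]
  calc d • g • ω = g • (g⁻¹ * d * g) • ω := by simp only [← mul_smul]; congr 1; group
    _ = g • ω := by rw [h1]

theorem normal_of_le_normalizer {M H D : Subgroup G} (hsup : M ⊔ H = ⊤)
    (h1 : M ≤ normalizer (D : Set G)) (h2 : H ≤ normalizer (D : Set G)) : D.Normal := by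
  rw [← normalizer_eq_top_iff, eq_top_iff, ← hsup]
  exact sup_le h1 h2

theorem le_normalizer_of_comm {M K : Subgroup G} (hM : IsMulCommutative M) (hK : K ≤ M) :
    M ≤ normalizer (K : Set G) := by
  intro m hm
  rw [mem_normalizer_iff]
  intro k
  constructor
  · intro hk
    have : m * k = k * m := congrArg Subtype.val (mul_comm' (⟨m, hm⟩ : M) ⟨k, hK hk⟩)
    rw [this]; simpa using hk
  · intro hk
    have h1 : m * (m * k * m⁻¹) = (m * k * m⁻¹) * m :=
      congrArg Subtype.val (mul_comm' (⟨m, hm⟩ : M) ⟨m * k * m⁻¹, hK hk⟩)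
    have : m * k * m⁻¹ = k := by
      have h2 : m * (m * k * m⁻¹) = m * k := by rw [h1]; group
      exact mul_left_cancel h2
    rwa [this] at hk

theorem main [Finite G] [Group.IsSolvable G] [FaithfulSMul G Ω] (hprim : MulAction.IsPreprimitive G Ω)
    (M : Subgroup G) [hMn : M.Normal] (hM : M ≠ ⊥)
    (hmin : ∀ K : Subgroup G, K.Normal → K ≤ M → K = ⊥ ∨ K = M) (ω : Ω) :
    IsMulCommutative M ∧ (∃ p : ℕ, p.Prime ∧ ∀ x ∈ M, x ^ p = 1) ∧
      M ⊔ MulAction.stabilizer G ω = ⊤ ∧ M ⊓ MulAction.stabilizer G ω = ⊥ := by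
  haveI : MulAction.IsPretransitive G Ω := hprim.toIsPretransitive
  obtain ⟨hab, hp⟩ := Cfsg.Agent.Lib.Helper1_MinNormal.minimal_normal_elementary_abelian M hM hmin
  have hnle : ¬ M ≤ MulAction.stabilizer G ω := fun h =>
    hM (eq_bot_of_normal_le_stabilizer M hMn ω h)
  haveI : Nontrivial Ω := by
    by_contra hnt
    rw [not_nontrivial_iff_subsingleton] at hnt
    apply hnle
    intro m _
    exact Subsingleton.elim _ _
  have hco : IsCoatom (MulAction.stabilizer G ω) :=
    MulAction.IsPreprimitive.isCoatom_stabilizer_of_isPreprimitive G ω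
  have hsup : M ⊔ MulAction.stabilizer G ω = ⊤ := by
    apply hco.2
    exact lt_of_le_of_ne le_sup_right (fun h => hnle (h ▸ le_sup_left))
  refine ⟨hab, hp, hsup, ?_⟩
  have hn : (M ⊓ MulAction.stabilizer G ω).Normal := by
    apply normal_of_le_normalizer hsup (le_normalizer_of_comm hab inf_le_left)
    intro h hh
    rw [mem_normalizer_iff]
    intro k
    constructor
    · rintro ⟨hk1, hk2⟩
      replace hk2 : k ∈ MulAction.stabilizer G ω := hk2
      have h3 : h * k * h⁻¹ ∈ MulAction.stabilizer G ω := mul_mem (mul_mem hh hk2) (inv_mem hh)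
      exact ⟨hMn.conj_mem k hk1 h, h3⟩
    · rintro ⟨hk1, hk2⟩
      replace hk2 : h * k * h⁻¹ ∈ MulAction.stabilizer G ω := hk2
      refine ⟨?_, ?_⟩
      · have := hMn.conj_mem _ hk1 h⁻¹
        simpa [mul_assoc] using this
      · have := mul_mem (mul_mem (inv_mem hh) hk2) hh
        simpa [mul_assoc] using this
  exact eq_bot_of_normal_le_stabilizer _ hn ω inf_le_right

end Cfsg.Agent.Lib.Helper1_PrimSolv
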