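import Mathlib

set_option autoImplicit false

namespace Cfsg.Agent.Lib.Helper1_Quadric

open Finset

variable {F : Type*} [Field F] [Fintype F] [DecidableEq F]

/-- an affine hyperplane in `F^m` has `q^(m-1)` points -/
theorem card_hyperplane {m : ℕ} {x : Fin m → F} (hx : x ≠ 0) (c : F) :
    (univ.filter (fun y : Fin m → F => ∑ i, x i * y i = c)).card = Fintype.card F ^ (m - 1) := by
  obtain ⟨i, hi⟩ : ∃ i, x i ≠ 0 := by
    by_contra hcon
    push Not at hcon
    exact hx (funext hcon)
  let φ : (Fin m → F) →+ F :=
    { toFun := fun y => ∑ i, x i * y i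
      map_zero' := by simp
      map_add' := by intro y z; simp [mul_add, Finset.sum_add_distrib] }
  have hsurj : Function.Surjective φ := by
    intro d
    refine ⟨Pi.single i (d / x i), ?_⟩
    show ∑ j, x j * (Pi.single i (d / x i) : Fin m → F) j = d
    rw [Finset.sum_eq_single i]
    · simp; field_simp
    · intro j _ hj; simp [hj]
    · simp
  have hfib : ∀ d : F, (univ.filter (fun y : Fin m → F => φ y = d)).card =
      (univ.filter (fun y : Fin m → F => φ y = c)).card := by
    intro d
    exact AddMonoidHom.card_fiber_eq_of_mem_range φ (hsurj d) (hsurj c)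
  have htot : Fintype.card (Fin m → F) =
      ∑ d : F, (univ.filter (fun y : Fin m → F => φ y = d)).card := by
    rw [← Finset.card_univ]
    exact Finset.card_eq_sum_card_fiberwise (fun y _ => Finset.mem_univ (φ y))
  rw [Finset.sum_congr rfl (fun d _ => hfib d), Finset.sum_const, Finset.card_univ,
    Fintype.card_fun, Fintype.card_fin, smul_eq_mul] at htot
  have hm : Fintype.card F ^ m = Fintype.card F * Fintype.card F ^ (m - 1) := by
    have := i.2
    rw [← pow_succ']
    congr 1
    omega
  rw [hm] at htot
  have hq : 0 < Fintype.card F := Fintype.card_pos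
  exact (Nat.eq_of_mul_eq_mul_left hq htot).symm

theorem card_fiber {m : ℕ} (x : Fin m → F) (c : F) :
    (univ.filter (fun y : Fin m → F => ∑ i, x i * y i + c = 0)).card =
      if x = 0 then (if c = 0 then Fintype.card F ^ m else 0) else Fintype.card F ^ (m - 1) := by
  split_ifs with hx hc
  · subst hx; subst hc
    simp
  · subst hx
    simp [hc]
  · rw [← card_hyperplane hx (-c)]
    congr 1
    ext y
    simp only [mem_filter, mem_univ, true_and]
    constructor
    · intro h; linear_combination h
    · intro h; linear_combination h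

/-- the general count -/
theorem card_quadric {A : Type*} [Fintype A] (m : ℕ) (c : A → F) :
    Nat.card {p : A × (Fin m → F) × (Fin m → F) // ∑ i, p.2.1 i * p.2.2 i + c p.1 = 0} =
      Fintype.card A * ((Fintype.card F ^ m - 1) * Fintype.card F ^ (m - 1)) +
        (univ.filter (fun a => c a = 0)).card * Fintype.card F ^ m := by
  classical
  rw [Nat.card_eq_fintype_card, Fintype.card_subtype, Finset.card_filter, Fintype.sum_prod_type]
  have h1 : ∀ a : A, ∑ y : (Fin m → F) × (Fin m → F),
      (if ∑ i, (a, y).2.1 i * (a, y).2.2 i + c (a, y).1 = 0 then 1 else 0) =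
      (Fintype.card F ^ m - 1) * Fintype.card F ^ (m - 1) +
        (if c a = 0 then Fintype.card F ^ m else 0) := by
    intro a
    rw [Fintype.sum_prod_type]
    have h2 : ∀ x : Fin m → F, ∑ y : Fin m → F,
        (if ∑ i, (a, x, y).2.1 i * (a, x, y).2.2 i + c (a, x, y).1 = 0 then 1 else 0) =
        if x = 0 then (if c a = 0 then Fintype.card F ^ m else 0) else Fintype.card F ^ (m - 1) := by
      intro x
      rw [← card_fiber x (c a), Finset.card_filter]
    rw [Finset.sum_congr rfl (fun x _ => h2 x), Finset.sum_ite, Finset.sum_const, Finset.sum_const]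
    have h3 : (univ.filter (fun x : Fin m → F => x = 0)).card = 1 := by
      rw [Finset.filter_eq' univ (0 : Fin m → F)]; simp
    have h4 : (univ.filter (fun x : Fin m → F => ¬ x = 0)).card = Fintype.card F ^ m - 1 := by
      rw [Finset.filter_not, Finset.card_sdiff_of_subset (Finset.filter_subset _ _), h3,
        Finset.card_univ, Fintype.card_fun, Fintype.card_fin]
    rw [h3, h4]
    simp only [smul_eq_mul, one_mul]
    ring
  rw [Finset.sum_congr rfl (fun a _ => h1 a), Finset.sum_add_distrib, Finset.sum_const,
    Finset.card_univ, smul_eq_mul, ← Finset.sum_filter, Finset.sum_const, smul_eq_mul]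

end Cfsg.Agent.Lib.Helper1_Quadric
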