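import Mathlib

/-!
# Regular normal subgroups of 2-transitive groups
-/

set_option autoImplicit false

namespace Cfsg.Agent.Lib.Helper1_RegNormal

open Subgroup

variable {G : Type*} [Group G] {X : Type*} [MulAction G X]

theorem eq_one_of_fix (N : Subgroup G) (hreg : ∀ x : X, MulAction.stabilizer N x = ⊥) {n : G}
    (hn : n ∈ N) {x : X} (hx : n • x = x) : n = 1 := by
  have h1 : (⟨n, hn⟩ : N) ∈ MulAction.stabilizer N x := hx
  rw [hreg x, mem_bot] at h1
  exact congrArg Subtype.val h1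

/-- The point stabilizer acts transitively by conjugation on the nonidentity elements of a regular normal subgroup
as soon as it is transitive on the remaining points. -/
theorem exists_conj (N : Subgroup G) [hN : N.Normal] (hreg : ∀ x : X, MulAction.stabilizer N x = ⊥)
    (x₀ : X) {n m g : G} (hn : n ∈ N) (hm : m ∈ N) (hg : g • x₀ = x₀) (hgn : g • n • x₀ = m • x₀) :
    g * n * g⁻¹ = m := by
  have h1 : (m⁻¹ * (g * n * g⁻¹)) • x₀ = x₀ := by
    have hg' : g⁻¹ • x₀ = x₀ := by rw [inv_smul_eq_iff, hg]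
    rw [mul_smul, mul_smul, mul_smul, hg', hgn, inv_smul_smul]
  have h2 := eq_one_of_fix N hreg (mul_mem (inv_mem hm) (hN.conj_mem n hn g)) h1
  exact (inv_mul_eq_one.mp h2).symm

theorem exists_conj_of_two (h2 : MulAction.IsMultiplyPretransitive G X 2)
    (N : Subgroup G) [hN : N.Normal] (hreg : ∀ x : X, MulAction.stabilizer N x = ⊥)
    (x₀ : X) {n m : G} (hn : n ∈ N) (hm : m ∈ N) (hn1 : n ≠ 1) (hm1 : m ≠ 1) :
    ∃ g : G, g • x₀ = x₀ ∧ g * n * g⁻¹ = m := by
  have h1 : x₀ ≠ n • x₀ := fun h => hn1 (eq_one_of_fix N hreg hn h.symm)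
  have h3 : x₀ ≠ m • x₀ := fun h => hm1 (eq_one_of_fix N hreg hm h.symm)
  obtain ⟨g, hg, hgn⟩ := (MulAction.is_two_pretransitive_iff.mp h2) h1 h3
  exact ⟨g, hg, exists_conj N hreg x₀ hn hm hg hgn⟩

/-- If all nonidentity elements of a finite normal subgroup are conjugate in the big group, it is elementary abelian. -/
theorem elementary_of_conj [Finite G] (N : Subgroup G) [hN : N.Normal]
    (hconj : ∀ n ∈ N, ∀ m ∈ N, n ≠ 1 → m ≠ 1 → ∃ g : G, g * n * g⁻¹ = m) :
    IsMulCommutative N ∧ ∃ p : ℕ, p.Prime ∧ (∀ n ∈ N, n ^ p = 1) ∧ IsPGroup p N := by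
  classical
  by_cases hbot : N = ⊥
  · subst hbot
    refine ⟨⟨⟨fun a b => ?_⟩⟩, 2, Nat.prime_two, ?_, ?_⟩
    · have ha : a = 1 := Subtype.ext (mem_bot.mp a.2)
      rw [ha, one_mul, mul_one]
    · intro n hn; rw [mem_bot.mp hn, one_pow]
    · exact IsPGroup.of_bot
  have hcard : Nat.card N ≠ 1 := by
    intro h; exact hbot (Subgroup.card_eq_one.mp h)
  obtain ⟨p, hp, hpd⟩ := Nat.exists_prime_and_dvd hcard
  haveI : Fact p.Prime := ⟨hp⟩
  obtain ⟨z, hz⟩ := exists_prime_orderOf_dvd_card' (G := N) p hpd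
  have hz1 : (z : G) ≠ 1 := by
    intro h
    have : z = 1 := Subtype.ext h
    rw [this, orderOf_one] at hz
    exact hp.one_lt.ne hz
  have hzp : (z : G) ^ p = 1 := by
    have := pow_orderOf_eq_one z
    rw [hz] at this
    exact congrArg Subtype.val this
  have hpow : ∀ n ∈ N, n ^ p = 1 := by
    intro n hn
    by_cases hn1 : n = 1
    · rw [hn1, one_pow]
    obtain ⟨g, hg⟩ := hconj z z.2 n hn hz1 hn1
    rw [← hg, conj_pow, hzp]; group
  have hPG : IsPGroup p N := by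
    intro n
    exact ⟨1, by rw [pow_one]; exact Subtype.ext (hpow n n.2)⟩
  haveI : Nontrivial N := (Subgroup.nontrivial_iff_ne_bot N).mpr hbot
  haveI : Finite N := inferInstance
  haveI : Nontrivial (center N) := hPG.center_nontrivial
  obtain ⟨c, hc⟩ := exists_ne (1 : center N)
  have hc1 : ((c : N) : G) ≠ 1 := by
    intro h
    exact hc (Subtype.ext (Subtype.ext h))
  have hcc : ∀ m ∈ N, m * ((c : N) : G) = ((c : N) : G) * m := by
    intro m hm
    have := mem_center_iff.mp c.2 ⟨m, hm⟩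
    exact congrArg Subtype.val this
  refine ⟨⟨⟨fun a b => ?_⟩⟩, p, hp, hpow, hPG⟩
  by_cases ha : (a : G) = 1
  · have : a = 1 := Subtype.ext ha
    rw [this, one_mul, mul_one]
  obtain ⟨g, hg⟩ := hconj _ (c : N).2 a a.2 hc1 ha
  apply Subtype.ext
  show (a : G) * b = b * a
  have h1 := hcc (g⁻¹ * b * g) (by simpa using hN.conj_mem b b.2 g⁻¹)
  rw [← hg]
  calc g * ((c : N) : G) * g⁻¹ * b = g * (((c : N) : G) * (g⁻¹ * b * g)) * g⁻¹ := by group
    _ = g * ((g⁻¹ * b * g) * ((c : N) : G)) * g⁻¹ := by rw [h1]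
    _ = b * (g * ((c : N) : G) * g⁻¹) := by group

theorem elementary_of_two [Finite G] [Nonempty X] (h2 : MulAction.IsMultiplyPretransitive G X 2)
    (N : Subgroup G) [hN : N.Normal] (hreg : ∀ x : X, MulAction.stabilizer N x = ⊥) :
    IsMulCommutative N ∧ ∃ p : ℕ, p.Prime ∧ (∀ n ∈ N, n ^ p = 1) ∧ IsPGroup p N := by
  obtain ⟨x₀⟩ := ‹Nonempty X›
  apply elementary_of_conj N
  intro n hn m hm hn1 hm1
  obtain ⟨g, -, hg⟩ := exists_conj_of_two h2 N hreg x₀ hn hm hn1 hm1
  exact ⟨g, hg⟩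

end Cfsg.Agent.Lib.Helper1_RegNormal
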