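import Mathlib

set_option autoImplicit false

namespace Cfsg.Agent.Lib.Helper1_SL

open Matrix Matrix.SpecialLinearGroup
open scoped commutatorElement

variable {F : Type*} [Field F] {ι : Type*} [Fintype ι] [DecidableEq ι]

theorem diag2n_coe' {i j : ι} (hij : i ≠ j) (a : F) (ha : a ≠ 0) :
    (diag2n hij a ha).1 = 1 + single i i (a - 1) + single j j (a⁻¹ - 1) := by
  rw [diag2n_coe]
  ext k l
  simp only [diagonal_apply, Matrix.add_apply, one_apply, single_apply]
  by_cases hkl : k = l
  · subst hkl
    by_cases h1 : k = i
    · subst h1; simp [hij.symm]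
    · by_cases h2 : k = j
      · subst h2; simp [hij, h1]
      · simp [h1, h2, Ne.symm h1, Ne.symm h2]
  · simp only [hkl, if_false]
    by_cases h1 : i = k
    · subst h1; simp [hkl, hij.symm]
    · by_cases h2 : j = k
      · subst h2; simp [hkl, h1]
      · simp [h1, h2]

omit [Fintype ι] in
theorem single_neg' (i j : ι) (a : F) : single i j (-a) = - single i j a := by
  ext k l
  simp only [single_apply, Matrix.neg_apply]
  split_ifs <;> simp

theorem w_eq {i j : ι} (hij : i ≠ j) (a b : F) (hab : a * b = 1) :
    ((1 : Matrix ι ι F) + single i j a) * (1 + single j i (-b)) * (1 + single i j a) =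
      1 + single i j a + single j i (-b) + single i i (-1) + single j j (-1) := by
  have hba : b * a = 1 := by rw [mul_comm]; exact hab
  simp only [mul_add, add_mul, mul_one, one_mul, single_mul_single_same,
    single_mul_single_of_ne _ _ _ _ hij.symm, add_zero,
    mul_neg, neg_mul, hab, hba]
  rw [single_neg' i j a]
  abel

theorem diag2n_decompose {i j : ι} (hij : i ≠ j) (a : F) (ha : a ≠ 0) :
    diag2n hij a ha = transvection hij a * transvection hij.symm (- a⁻¹) * transvection hij a *
      (transvection hij (-1) * transvection hij.symm 1 * transvection hij (-1)) := by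
  apply Subtype.ext
  rw [diag2n_coe']
  simp only [coe_mul, transvection_coe]
  have h1 := w_eq hij a a⁻¹ (mul_inv_cancel₀ ha)
  have h2 := w_eq hij (-1 : F) (-1) (by ring)
  rw [neg_neg] at h2
  rw [h1, h2]
  simp only [mul_add, add_mul, mul_one, one_mul, single_mul_single_same,
    single_mul_single_of_ne _ _ _ _ hij, single_mul_single_of_ne _ _ _ _ hij.symm, add_zero,
    mul_neg, neg_neg]
  ext k l
  simp only [Matrix.add_apply, single_apply]
  split_ifs <;> ring

/-- `SL` is generated by transvections -/
theorem transvection_induction [Nontrivial ι] (P : SpecialLinearGroup ι F → Prop)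
    (htransvec : ∀ (i j : ι) (h : i ≠ j) (c : F), P (transvection h c))
    (hmul : ∀ A B, P A → P B → P (A * B)) (A : SpecialLinearGroup ι F) : P A := by
  refine diagonal_transvection_induction' P _ (fun i j hij c hc ↦ ?_) htransvec hmul
  rw [diag2n_decompose hij c hc]
  refine hmul _ _ (hmul _ _ (hmul _ _ ?_ ?_) ?_) (hmul _ _ (hmul _ _ ?_ ?_) ?_)
  all_goals exact htransvec _ _ _ _

theorem commutator_transvection {i j k : ι} (hik : i ≠ k) (hkj : k ≠ j) (hij : i ≠ j) (a b : F) :
    ⁅transvection hik a, transvection hkj b⁆ = transvection hij (a * b) := by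
  rw [commutatorElement_def, transvection_inv, transvection_inv]
  apply Subtype.ext
  simp only [coe_mul, transvection_coe]
  simp only [mul_add, add_mul, mul_one, one_mul, single_mul_single_same,
    single_mul_single_of_ne _ _ _ _ hik, single_mul_single_of_ne _ _ _ _ hik.symm,
    single_mul_single_of_ne _ _ _ _ hkj, single_mul_single_of_ne _ _ _ _ hkj.symm,
    single_mul_single_of_ne _ _ _ _ hij, single_mul_single_of_ne _ _ _ _ hij.symm, add_zero,
    zero_add, mul_neg, neg_neg, neg_mul, single_neg']
  abel

theorem commutator_eq_top (h3 : 3 ≤ Fintype.card ι) : commutator (SpecialLinearGroup ι F) = ⊤ := by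
  have : Nontrivial ι := Fintype.one_lt_card_iff_nontrivial.1 (by omega)
  rw [eq_top_iff]
  intro A _
  refine transvection_induction (fun A => A ∈ commutator (SpecialLinearGroup ι F)) ?_
    (fun _ _ => mul_mem) A
  intro i j hij c
  obtain ⟨k, hk⟩ : ∃ k, k ∉ ({i, j} : Finset ι) := by
    by_contra hcon
    push Not at hcon
    have h1 : Finset.univ ⊆ ({i, j} : Finset ι) := fun x _ => hcon x
    have h2 := Finset.card_le_card h1
    have h3' : ({i, j} : Finset ι).card ≤ 2 := Finset.card_le_two
    rw [Finset.card_univ] at h2
    omega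
  simp only [Finset.mem_insert, Finset.mem_singleton, not_or] at hk
  have := commutator_transvection (F := F) (Ne.symm hk.1) hk.2 hij c 1
  rw [mul_one] at this
  rw [← this]
  exact Subgroup.commutator_mem_commutator (Subgroup.mem_top _) (Subgroup.mem_top _)

end Cfsg.Agent.Lib.Helper1_SL
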