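import Mathlib
import Cfsg.Agent.Lib.Helper1_FpfAct

/-!
# `p'`-subgroups of `SL₂(q)` act fixed-point-freely on the natural module
-/

set_option autoImplicit false

namespace Cfsg.Agent.Lib.Helper1_SL2Fpf

open Subgroup Matrix Cfsg.Agent.Lib.Helper1_FpfAct

variable {F : Type*} [Field F]

/-- an element of `SL₂` fixing a nonzero vector is unipotent -/
theorem pow_char_eq_one (p : ℕ) [Fact p.Prime] [CharP F p]
    (g : SpecialLinearGroup (Fin 2) F) (v : Fin 2 → F) (hv0 : v ≠ 0)
    (hv : (g : Matrix (Fin 2) (Fin 2) F) *ᵥ v = v) : g ^ p = 1 := by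
  have hp : p.Prime := Fact.out
  set M : Matrix (Fin 2) (Fin 2) F := (g : Matrix (Fin 2) (Fin 2) F) with hM
  have hdet : M 0 0 * M 1 1 - M 0 1 * M 1 0 = 1 := by
    have := g.2
    rw [Matrix.det_fin_two] at this
    exact this
  have hN0 : (M - 1).det = 0 := by
    apply Matrix.exists_mulVec_eq_zero_iff.mp
    refine ⟨v, hv0, ?_⟩
    rw [Matrix.sub_mulVec, hv, Matrix.one_mulVec, sub_self]
  have htr : M 0 0 + M 1 1 = 2 := by
    rw [Matrix.det_fin_two] at hN0
    simp only [Matrix.sub_apply, Matrix.one_apply_eq, Matrix.one_apply_ne, ne_eq,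
      Fin.zero_eq_one_iff, Nat.succ_ne_self, not_false_eq_true, Fin.one_eq_zero_iff, sub_zero] at hN0
    linear_combination hdet - hN0
  have hNN : (M - 1) * (M - 1) = 0 := by
    ext i j
    fin_cases i <;> fin_cases j <;>
      simp only [Matrix.mul_apply, Fin.sum_univ_two, Matrix.sub_apply, Matrix.one_apply_eq,
        Matrix.zero_apply, Fin.zero_eta, Fin.mk_one, Fin.isValue, ne_eq, zero_ne_one,
        one_ne_zero, not_false_eq_true, Matrix.one_apply_ne, sub_zero]
    · linear_combination (M 0 0) * htr - hdet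
    · linear_combination (M 0 1) * htr
    · linear_combination (M 1 0) * htr
    · linear_combination (M 1 1) * htr - hdet
  have hNp : (M - 1) ^ p = 0 := by
    obtain ⟨k, hk⟩ : ∃ k, p = 2 + k := ⟨p - 2, by have := hp.two_le; omega⟩
    rw [hk, pow_add, sq, hNN, zero_mul]
  have hMp : M ^ p = 1 := by
    have h1 : M = 1 + (M - 1) := by abel
    have h2 : Commute (1 : Matrix (Fin 2) (Fin 2) F) (M - 1) := Commute.one_left _
    rw [h1, add_pow_char_of_commute _ h2, hNp, one_pow, add_zero]
  have h3 : ((g ^ p : SpecialLinearGroup (Fin 2) F) : Matrix (Fin 2) (Fin 2) F)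
      = ((1 : SpecialLinearGroup (Fin 2) F) : Matrix (Fin 2) (Fin 2) F) :=
    (Matrix.SpecialLinearGroup.coe_pow g p).trans (hMp.trans Matrix.SpecialLinearGroup.coe_one.symm)
  exact Subtype.ext h3

/-- the action of `SL₂(F)` on the (multiplicative) natural module -/
noncomputable def act : SpecialLinearGroup (Fin 2) F →* MulAut (Multiplicative (Fin 2 → F)) where
  toFun g := AddEquiv.toMultiplicative (Matrix.SpecialLinearGroup.toLin' g).toAddEquiv
  map_one' := by
    ext v
    simp
  map_mul' := by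
    intro a b
    ext v
    simp

theorem act_apply (g : SpecialLinearGroup (Fin 2) F) (v : Multiplicative (Fin 2 → F)) :
    act g v = Multiplicative.ofAdd ((g : Matrix (Fin 2) (Fin 2) F) *ᵥ (Multiplicative.toAdd v)) :=
  rfl

variable [Finite F]

/-- `r`-subgroups of `SL₂(q)`, `r` not the characteristic, are cyclic or generalized
quaternion -/
theorem rgroup_cases (p : ℕ) [Fact p.Prime] [CharP F p] {r : ℕ} [Fact r.Prime] (hrp : r ≠ p)
    (R : Subgroup (SpecialLinearGroup (Fin 2) F)) (hR : IsPGroup r R) :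
    IsCyclic R ∨ (r = 2 ∧ ∃ n : ℕ, Nonempty (R ≃* QuaternionGroup (2 ^ n))) := by
  classical
  have hp : p.Prime := Fact.out
  have hr : r.Prime := Fact.out
  haveI : Finite (SpecialLinearGroup (Fin 2) F) := by
    haveI := Fintype.ofFinite F
    infer_instance
  let φ : R →* MulAut (Multiplicative (Fin 2 → F)) := act.comp R.subtype
  have hfpf : ∀ l : R, l ≠ 1 → ∀ w : Multiplicative (Fin 2 → F), φ l w = w → w = 1 := by
    intro l hl w hw
    by_contra hw1
    apply hl
    have h1 : (l : SpecialLinearGroup (Fin 2) F) ^ p = 1 := by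
      apply pow_char_eq_one p _ (Multiplicative.toAdd w)
      · intro h
        apply hw1
        exact Multiplicative.toAdd.injective h
      · have : act (l : SpecialLinearGroup (Fin 2) F) w = w := hw
        rw [act_apply] at this
        exact Multiplicative.ofAdd.injective this
    obtain ⟨k, hk⟩ := hR l
    have h2 : orderOf l ∣ r ^ k := orderOf_dvd_of_pow_eq_one hk
    have h3 : orderOf l ∣ p := by
      apply orderOf_dvd_of_pow_eq_one
      apply Subtype.ext
      exact h1
    have hcop : Nat.Coprime (r ^ k) p :=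
      Nat.Coprime.pow_left k ((Nat.coprime_primes hr hp).mpr hrp)
    have h4 := Nat.dvd_gcd h2 h3
    rw [hcop] at h4
    exact orderOf_eq_one_iff.mp (Nat.dvd_one.mp h4)
  have hR' : IsPGroup r (⊤ : Subgroup R) := hR.to_subgroup ⊤
  rcases pgroup_of_fpf φ hfpf (⊤ : Subgroup R) hR' with h | ⟨h2, n, ⟨e⟩⟩
  · left
    exact (Subgroup.topEquiv (G := R)).isCyclic.mp h
  · right
    exact ⟨h2, n, ⟨(Subgroup.topEquiv (G := R)).symm.trans e⟩⟩

end Cfsg.Agent.Lib.Helper1_SL2Fpf
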