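import Mathlib
import Cfsg.Prelude.Def_BrauerPairs
import Cfsg.Prelude.Def_BlockFusion
import Cfsg.Agent.Lib.Helper2_AbDef2
import Cfsg.Agent.S4687

set_option autoImplicit false

namespace Cfsg.Agent.Lib.Helper2_AbDef3

open Cfsg Cfsg.Agent.Lib.Helper2_BlockLocal Cfsg.Agent.Lib.Helper2_BlockOm
  Cfsg.Agent.Lib.Helper2_BlockOsima Cfsg.Agent.Lib.Helper2_BlockBasic
  Cfsg.Agent.Lib.Helper2_BlockOrtho Cfsg.Agent.Lib.Helper2_BlockMinMax
  Cfsg.Agent.Lib.Helper2_BlockInd Cfsg.Agent.Lib.Helper2_BlockDefect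
  Cfsg.Agent.Lib.Helper2_BlockPCore Cfsg.Agent.Lib.Helper2_BlockNormal
  Cfsg.Agent.Lib.Helper2_BlockBrauer Cfsg.Agent.Lib.Helper2_BlockFMT
  Cfsg.Agent.Lib.Helper2_BrauerPairs Cfsg.Agent.Lib.Helper2_SecondMain
  Cfsg.Agent.Lib.Helper2_BP1 Cfsg.Agent.Lib.Helper2_BP2 Cfsg.Agent.Lib.Helper2_BP3
  Cfsg.Agent.Lib.Helper2_BP4 Cfsg.Agent.Lib.Helper2_BP5 Cfsg.Agent.Lib.Helper2_BP6
  Cfsg.Agent.Lib.Helper2_BP7 Cfsg.Agent.Lib.Helper2_BP8 Cfsg.Agent.Lib.Helper2_BP9
  Cfsg.Agent.Lib.Helper2_BP10 Cfsg.Agent.Lib.Helper2_BP11 Cfsg.Agent.Lib.Helper2_BP12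
  Cfsg.Agent.Lib.Helper2_BP13 Cfsg.Agent.Lib.Helper2_BP14 Cfsg.Agent.Lib.Helper2_BP15
  Cfsg.Agent.Lib.Helper2_ExtFMT
  Cfsg.Agent.Lib.Helper2_Fong Cfsg.Agent.Lib.Helper2_EA Cfsg.Agent.Lib.Helper2_MaxPair
  Cfsg.Agent.Lib.Helper2_MaxPair2 Cfsg.Agent.Lib.Helper2_Down Cfsg.Agent.Lib.Helper2_RelConj
  Cfsg.Agent.Lib.Helper2_BlockSection
  Cfsg.Agent.Lib.Helper2_BlockCover2 Cfsg.Agent.Lib.Helper2_Basic
  Cfsg.Agent.Lib.CharBasic Cfsg.Agent.Lib.CharOrtho
  Cfsg.Agent.Lib.CharComplete Cfsg.Agent.Lib.CharIntegral Cfsg.Agent.Lib.CharMore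
  Cfsg.Agent.Lib.CharPerm Cfsg.Agent.Lib.CharInd
open scoped ComplexConjugate Classical
open Relation
open Cfsg.Agent.Lib.Helper2_AbDef Cfsg.FusionSystem Cfsg.Agent.Lib.Helper2_BFS1
  Cfsg.Agent.Lib.Helper2_BP17 Cfsg.Agent.Lib.Helper2_BlockDefOrder Cfsg.Agent.Lib.Helper2_BFS2
  Cfsg.Agent.Lib.Helper2_BFS3 Cfsg.Agent.Lib.Helper2_PPart Cfsg.Agent.Lib.Helper2_Nilp
open Cfsg.Agent.Lib.Helper2_AbDef2

universe u

variable {M : Ideal AlgInt} {p : ℕ} {G : Type u} [Group G]

theorem inducedIn_eq [Finite G] {X K : Subgroup G} {K' : Subgroup X} (E : K ≃* K')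
    (hE : ∀ k, ((E k : X) : G) = k) (ξ : IrrCharacter K) (h : X) :
    inducedCentralChar K' ((mapIrr E ξ : IrrCharacter K') : K' → ℂ) h =
      inducedCentralCharIn X K (ξ : K → ℂ) (h : G) := by
  unfold inducedCentralChar inducedCentralCharIn
  symm
  apply finsum_mem_eq_of_bijOn E
  · refine ⟨?_, E.injective.injOn, ?_⟩
    · rintro k ⟨x, hx⟩
      show IsConj h (E k : X)
      rw [_root_.isConj_iff]
      refine ⟨x⁻¹, Subtype.ext ?_⟩
      show ((x : G))⁻¹ * (h : G) * ((x : G))⁻¹⁻¹ = ((E k : X) : G)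
      rw [hE, ← hx]
      group
    · rintro k' hk'
      obtain ⟨c, hc⟩ := _root_.isConj_iff.mp hk'
      refine ⟨E.symm k', ⟨c⁻¹, ?_⟩, by simp⟩
      have h1 : ((E.symm k' : K) : G) = ((k' : X) : G) := by
        rw [← hE (E.symm k')]; simp
      rw [h1, ← hc]
      show ((c : G))⁻¹ * ((c : G) * (h : G) * (c : G)⁻¹) * ((c : G))⁻¹⁻¹ = h
      group
  · intro k _
    rw [mapIrr_apply]
    have : ((mapIrr E ξ : IrrCharacter K') : K' → ℂ) 1 = (ξ : K → ℂ) 1 := by
      conv_lhs => rw [← map_one E, mapIrr_apply]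
    rw [this]

theorem induced_of_in [Finite G] {X K : Subgroup G} {K' : Subgroup X} (E : K ≃* K')
    (hE : ∀ k, ((E k : X) : G) = k) {e : Set (IrrCharacter K)} {f : Set (IrrCharacter X)}
    (h : IsInducedBlockIn M X K e f) : IsInducedBlock M K' (mapBlock E e) f := by
  refine ⟨isPBlock_mapBlock _ h.1, h.2.1, ?_⟩
  rintro _ ⟨ξ, hξ, rfl⟩ χ hχ x
  rw [inducedIn_eq E hE]
  exact h.2.2 ξ hξ χ hχ x

theorem in_of_induced [Finite G] {X K : Subgroup G} {K' : Subgroup X} (E : K ≃* K')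
    (hE : ∀ k, ((E k : X) : G) = k) {e : Set (IrrCharacter K)} (he : IsPBlock M e)
    {f : Set (IrrCharacter X)}
    (h : IsInducedBlock M K' (mapBlock E e) f) : IsInducedBlockIn M X K e f := by
  refine ⟨he, h.2.1, ?_⟩
  intro ξ hξ χ hχ x
  rw [← inducedIn_eq E hE]
  exact h.2.2 _ ((mem_mapBlock E e ξ).mpr hξ) χ hχ x

variable [Fintype G]

theorem adm_of_abelian {P Q : Subgroup G} (hQP : Q ≤ P) (hab : ∀ x ∈ P, ∀ y ∈ P, x * y = y * x) :
    Adm (Subgroup.centralizer (Q : Set G)) P := by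
  refine ⟨?_, centralizer_anti hQP⟩
  intro u hu
  rw [Subgroup.mem_centralizer_iff]
  intro r hr
  exact hab r (hQP hr) u hu

/-- the block induced by `c` inside `C_G(Q)` gives a normal subpair -/
theorem normalSubpair_of_in (hM : IsPModular p M) {P Q : Subgroup G} (hP : IsPGroup p P)
    (hQP : Q ≤ P) (hab : ∀ x ∈ P, ∀ y ∈ P, x * y = y * x)
    {c : Set (IrrCharacter (Subgroup.centralizer (P : Set G)))}
    {f : Set (IrrCharacter (Subgroup.centralizer (Q : Set G)))}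
    (h : IsInducedBlockIn M (Subgroup.centralizer (Q : Set G)) (Subgroup.centralizer (P : Set G))
      c f) : IsNormalSubpair p M Q f P c := by
  have hPr := isPrime_of_modular hM
  have hA := adm_of_abelian hQP hab
  haveI : Fintype (Subgroup.centralizer (Q : Set G)) := Fintype.ofFinite _
  haveI : Fintype (Subgroup.centralizer ((P.subgroupOf (Subgroup.centralizer (Q : Set G)) :
    Subgroup (Subgroup.centralizer (Q : Set G))) : Set (Subgroup.centralizer (Q : Set G)))) :=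
    Fintype.ofFinite _
  have hind := induced_of_in (dEquiv hA) (fun _ => rfl) h
  have hPN : P ≤ Subgroup.normalizer (Q : Set G) := hA.1.trans (centralizer_le_normalizer' Q)
  refine ⟨⟨hP.to_le hQP, h.2.1⟩, ⟨hP, h.1⟩, hQP, hPN, ?_, ?_⟩
  · intro x hx
    rw [stabilizes_iff_inv]
    exact ⟨normalizer_le_normalizer_centralizer Q (hPN hx), sbc_inv _ f x (hA.1 hx)⟩
  · intro ξ hξ
    obtain ⟨χ, hχ⟩ := block_nonempty hPr h.2.1
    have h1 := Om_restrict_congr_induced hPr hind ((mem_mapBlock (dEquiv hA) c ξ).mpr hξ) hχ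
      (blockCoeff_classFunction f) (osima_block hPr h.2.1)
    rw [Om_blockCoeff, if_pos hχ, ← bo_eq] at h1
    have e1 : blockCoeff f = fun x : Subgroup.centralizer (Q : Set G) =>
        subgroupBlockCoeff (Subgroup.centralizer (Q : Set G)) f (x : G) :=
      funext fun x => (sbc_coe _ f x).symm
    rw [e1, bo_down hA] at h1
    exact h1

/-- the induced block inside `C_G(Q)` exists -/
theorem exists_in (hM : IsPModular p M) {P Q : Subgroup G} (hP : IsPGroup p P)
    (hQP : Q ≤ P) (hab : ∀ x ∈ P, ∀ y ∈ P, x * y = y * x)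
    {c : Set (IrrCharacter (Subgroup.centralizer (P : Set G)))} (hc : IsPBlock M c) :
    ∃ f : Set (IrrCharacter (Subgroup.centralizer (Q : Set G))),
      IsInducedBlockIn M (Subgroup.centralizer (Q : Set G)) (Subgroup.centralizer (P : Set G))
        c f := by
  have hA := adm_of_abelian hQP hab
  have hP' : IsPGroup p (P.subgroupOf (Subgroup.centralizer (Q : Set G))) := hP.comap_subtype
  have hPC : P.subgroupOf (Subgroup.centralizer (Q : Set G)) ≤
      Subgroup.centralizer ((P.subgroupOf (Subgroup.centralizer (Q : Set G)) :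
        Subgroup (Subgroup.centralizer (Q : Set G))) : Set (Subgroup.centralizer (Q : Set G))) := by
    intro u hu
    rw [Helper2_Down.mem_centralizer_subgroupOf hA.1, Subgroup.mem_centralizer_iff]
    intro r hr
    exact hab r hr u (Subgroup.mem_subgroupOf.mp hu)
  obtain ⟨f, hf⟩ := inducedBlockDefined hM hP' hPC le_rfl (centralizer_le_normalizer' _)
    (isPBlock_mapBlock (M := M) (dEquiv hA) hc)
  exact ⟨f, in_of_induced (dEquiv hA) (fun _ => rfl) hc hf⟩

/-- nilpotency of the local block in terms of the inertial group -/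
theorem local_nilpotent_iff [Fact p.Prime] (hM : IsPModular p M) {B : Set (IrrCharacter G)}
    {P Q : Subgroup G} {c : Set (IrrCharacter (Subgroup.centralizer (P : Set G)))}
    (hBe : IsBrauerPairOf p M B P c) (hno : NoExt p M P c)
    (hab : ∀ x ∈ P, ∀ y ∈ P, x * y = y * x)
    {f : Set (IrrCharacter (Subgroup.centralizer (Q : Set G)))}
    (hns : IsNormalSubpair p M Q f P c) :
    IsNilpotentBlock p M f ↔ ∀ x ∈ Subgroup.centralizer (Q : Set G),
      x ∈ Subgroup.normalizer (P : Set G) → StabilizesBlock (Subgroup.centralizer (P : Set G)) c x →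
        x ∈ Subgroup.centralizer (P : Set G) := by
  have hPr := isPrime_of_modular hM
  have hQP := hns.2.2.1
  have hA := adm_of_abelian hQP hab
  haveI : Fintype (Subgroup.centralizer (Q : Set G)) := Fintype.ofFinite _
  have hle : SubpairLE p M Q f P c :=
    ReflTransGen.single (show NormalSubpairRel p M ⟨Q, f⟩ ⟨P, c⟩ from hns)
  have hdef := defect_of_abelian hM hBe hno hle hab
  have hpairX : IsBrauerPairOf p M f (down (Subgroup.centralizer (Q : Set G)) ⟨P, c⟩).1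
      (down (Subgroup.centralizer (Q : Set G)) ⟨P, c⟩).2 := by
    refine ⟨isBrauerPair_down (a := ⟨P, c⟩) hA hBe.1, hns.1.2, ?_⟩
    intro ξ' hξ'
    rw [down_snd (a := ⟨P, c⟩) hA] at hξ'
    obtain ⟨ξ, hξ, rfl⟩ := hξ'
    have e1 : blockCoeff f = fun x : Subgroup.centralizer (Q : Set G) =>
        subgroupBlockCoeff (Subgroup.centralizer (Q : Set G)) f (x : G) :=
      funext fun x => (sbc_coe _ f x).symm
    rw [e1]
    have := bo_down hA (subgroupBlockCoeff (Subgroup.centralizer (Q : Set G)) f) ξ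
    show MemLocalIdeal M (brauerOmega (P.subgroupOf (Subgroup.centralizer (Q : Set G))) _ _ - 1)
    rw [this]
    exact hns.2.2.2.2.2 ξ hξ
  have hnoX := Helper2_AbDef2.noExt_of_defect hM hpairX hdef
  have hmax := maximal_of_noExt hPr hpairX hnoX
  have hab' : ∀ x ∈ (down (Subgroup.centralizer (Q : Set G)) ⟨P, c⟩).1,
      ∀ y ∈ (down (Subgroup.centralizer (Q : Set G)) ⟨P, c⟩).1, x * y = y * x := by
    intro x hx y hy
    exact Subtype.ext (hab x (Subgroup.mem_subgroupOf.mp hx) y (Subgroup.mem_subgroupOf.mp hy))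
  rw [Cfsg.Agent.S4687.result p M hM f _ _ hmax hab']
  have key : ∀ x : Subgroup.centralizer (Q : Set G),
      (x ∈ Subgroup.normalizer ((down (Subgroup.centralizer (Q : Set G)) ⟨P, c⟩).1 :
          Set (Subgroup.centralizer (Q : Set G))) ∧
        StabilizesBlock _ (down (Subgroup.centralizer (Q : Set G)) ⟨P, c⟩).2 x) ↔
      ((x : G) ∈ Subgroup.normalizer (P : Set G) ∧
        StabilizesBlock (Subgroup.centralizer (P : Set G)) c (x : G)) := by
    intro x
    rw [← cjPair_eq_self_iff, ← down_cjPair x (a := ⟨P, c⟩) hA,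
      ← cjPair_eq_self_iff (a := ⟨P, c⟩)]
    constructor
    · intro h
      exact down_injective (adm_cj (R := P) hA x.2) hA h
    · intro h
      rw [h]
  constructor
  · intro h x hx hxN hxS
    have h1 := (key ⟨x, hx⟩).mpr ⟨hxN, hxS⟩
    exact (Helper2_Down.mem_centralizer_subgroupOf hA.1 _).mp (h ⟨x, hx⟩ h1.1 h1.2)
  · intro h x hxN hxS
    have h1 := (key x).mp ⟨hxN, hxS⟩
    exact (Helper2_Down.mem_centralizer_subgroupOf hA.1 _).mpr (h x x.2 h1.1 h1.2)

end Cfsg.Agent.Lib.Helper2_AbDef3
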