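import Mathlib
import Cfsg.Prelude.Def_BrauerPairs
import Cfsg.Prelude.Def_BlockFusion
import Cfsg.Agent.Lib.Helper2_BP15

set_option autoImplicit false

namespace Cfsg.Agent.Lib.Helper2_BP16

open Cfsg Cfsg.Agent.Lib.Helper2_BlockLocal Cfsg.Agent.Lib.Helper2_BlockOm
  Cfsg.Agent.Lib.Helper2_BlockOsima Cfsg.Agent.Lib.Helper2_BlockBasic
  Cfsg.Agent.Lib.Helper2_BlockOrtho Cfsg.Agent.Lib.Helper2_BlockMinMax
  Cfsg.Agent.Lib.Helper2_BlockInd Cfsg.Agent.Lib.Helper2_BlockDefect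
  Cfsg.Agent.Lib.Helper2_BlockPCore Cfsg.Agent.Lib.Helper2_BlockNormal
  Cfsg.Agent.Lib.Helper2_BlockBrauer Cfsg.Agent.Lib.Helper2_BlockFMT
  Cfsg.Agent.Lib.Helper2_BrauerPairs Cfsg.Agent.Lib.Helper2_SecondMain
  Cfsg.Agent.Lib.Helper2_BP1 Cfsg.Agent.Lib.Helper2_BP2 Cfsg.Agent.Lib.Helper2_BP3
  Cfsg.Agent.Lib.Helper2_BP4 Cfsg.Agent.Lib.Helper2_BP5 Cfsg.Agent.Lib.Helper2_BP6
  Cfsg.Agent.Lib.Helper2_BP7 Cfsg.Agent.Lib.Helper2_BP8 Cfsg.Agent.Lib.Helper2_BP9
  Cfsg.Agent.Lib.Helper2_BP10 Cfsg.Agent.Lib.Helper2_BP11 Cfsg.Agent.Lib.Helper2_BP12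
  Cfsg.Agent.Lib.Helper2_BP13 Cfsg.Agent.Lib.Helper2_BP14 Cfsg.Agent.Lib.Helper2_BP15
  Cfsg.Agent.Lib.Helper2_BlockSection
  Cfsg.Agent.Lib.Helper2_BlockCover2 Cfsg.Agent.Lib.Helper2_Basic
  Cfsg.Agent.Lib.CharBasic Cfsg.Agent.Lib.CharOrtho
  Cfsg.Agent.Lib.CharComplete Cfsg.Agent.Lib.CharIntegral Cfsg.Agent.Lib.CharMore
  Cfsg.Agent.Lib.CharPerm Cfsg.Agent.Lib.CharInd
open scoped ComplexConjugate Classical
open Relation

universe u

variable {M : Ideal AlgInt} {p : ℕ} {G : Type u} [Group G] [Fintype G]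

/-- the centre of `Q` lies in every defect group of a block of `C(Q)` -/
theorem center_le_defect [Fact p.Prime] (hM : IsPModular p M) {Q : Subgroup G}
    (hQ : IsPGroup p Q)
    {f : Set (IrrCharacter (Subgroup.centralizer (Q : Set G)))} (hf : IsPBlock M f)
    {D : Subgroup (Subgroup.centralizer (Q : Set G))} (hD : IsDefectGroup p M f D) :
    (Q ⊓ Subgroup.centralizer (Q : Set G)).subgroupOf (Subgroup.centralizer (Q : Set G)) ≤ D := by
  apply normal_pGroup_le_defect hM hf hD _ _ ((hQ.to_le inf_le_left).comap_subtype)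
  constructor
  intro z hz c
  rw [Subgroup.mem_comap] at hz ⊢
  have h1 : (c : G) * z * (c : G)⁻¹ = z := by
    have := Subgroup.mem_centralizer_iff.mp c.2 z hz.1
    rw [← this, mul_assoc, mul_inv_cancel, mul_one]
  show (c : G) * z * (c : G)⁻¹ ∈ _
  rw [h1]
  exact hz

omit [Fintype G] in
theorem card_center_conj [Finite G] (Q : Subgroup G) (x : G) :
    Nat.card ((Q.map (MulAut.conj x).toMonoidHom ⊓
      Subgroup.centralizer ((Q.map (MulAut.conj x).toMonoidHom : Subgroup G) : Set G) :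
        Subgroup G)) = Nat.card (Q ⊓ Subgroup.centralizer (Q : Set G) : Subgroup G) := by
  have : (Q.map (MulAut.conj x).toMonoidHom ⊓
      Subgroup.centralizer ((Q.map (MulAut.conj x).toMonoidHom : Subgroup G) : Set G) :
        Subgroup G) = (Q ⊓ Subgroup.centralizer (Q : Set G)).map (MulAut.conj x).toMonoidHom := by
    ext g
    rw [mem_cj, Subgroup.mem_inf, Subgroup.mem_inf, mem_cj, conj_mem_centralizer_map']
  rw [this, card_cj]

theorem centric_iff [Fact p.Prime] (hM : IsPModular p M) {B : Set (IrrCharacter G)}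
    {P Q : Subgroup G} {e : Set (IrrCharacter (Subgroup.centralizer (P : Set G)))}
    {f : Set (IrrCharacter (Subgroup.centralizer (Q : Set G)))} {F : FusionSystem P}
    (hF : IsBlockFusionSystemOn p M B P e F) (hle : SubpairLE p M Q f P e) :
    F.IsCentric Q ↔ IsDefectGroup p M f
      ((Q ⊓ Subgroup.centralizer (Q : Set G)).subgroupOf (Subgroup.centralizer (Q : Set G))) := by
  have hPr := isPrime_of_modular hM
  have hPe := hF.1.1.1
  have hQf : IsBrauerPair p M Q f := rtg_isBrauerPair' hle hPe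
  constructor
  · rintro ⟨-, h⟩
    obtain ⟨x, hx, hDx⟩ := exists_conj_centralizer_defect hM hF.1.1 (noExt_of_maximal hM hF.1) hle
    have h1 := h _ ((isConj_iff hM hF hle _).mpr ⟨x, rfl, hx⟩)
    obtain ⟨D, hD⟩ := exists_defectGroup (p := p) hPr hQf.2
    have h2 := card_defect_conjBlock hM x hQf.2 hD hDx
    rw [card_subgroupOf_inf] at h2
    have h3 : (P ⊓ Subgroup.centralizer
        ((Q.map (MulAut.conj x).toMonoidHom : Subgroup G) : Set G) : Subgroup G) ≤
        Q.map (MulAut.conj x).toMonoidHom ⊓ Subgroup.centralizer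
        ((Q.map (MulAut.conj x).toMonoidHom : Subgroup G) : Set G) := le_inf h1 inf_le_right
    have heq := Subgroup.eq_of_le_of_card_ge (center_le_defect hM hQf.1 hQf.2 hD) (by
      rw [card_subgroupOf_inf, ← h2, ← card_center_conj Q x]
      exact Nat.card_le_card_of_injective _ (Subgroup.inclusion_injective h3))
    rw [heq]
    exact hD
  · intro hD
    refine ⟨rtg_le hle, ?_⟩
    intro Q' hQ'
    obtain ⟨g, rfl, hg⟩ := (isConj_iff hM hF hle _).mp hQ'
    have hQf' : IsBrauerPair p M _ _ := rtg_isBrauerPair' hg hPe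
    obtain ⟨D', hD', hle2⟩ := centralizer_le_defect hM hPe hg
    have h2 := card_defect_conjBlock hM g hQf.2 hD hD'
    rw [card_subgroupOf_inf] at h2
    have heq := Subgroup.eq_of_le_of_card_ge (center_le_defect hM hQf'.1 hQf'.2 hD') (by
      rw [card_subgroupOf_inf, h2, card_center_conj Q g])
    rw [← heq] at hle2
    intro y hy
    have h3 := hle2 (show (⟨y, hy.2⟩ : Subgroup.centralizer
      ((Q.map (MulAut.conj g).toMonoidHom : Subgroup G) : Set G)) ∈ _ from by
        rw [Subgroup.mem_subgroupOf]; exact hy)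
    rw [Subgroup.mem_subgroupOf] at h3
    exact h3.1

end Cfsg.Agent.Lib.Helper2_BP16
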