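import Mathlib
import Cfsg.Prelude.Def_BrauerPairs
import Cfsg.Prelude.Def_BlockFusion
import Cfsg.Agent.Lib.Helper2_BP15
import Cfsg.Agent.Lib.Helper2_BlockThird

set_option autoImplicit false

namespace Cfsg.Agent.Lib.Helper2_BP18

open Cfsg Cfsg.Agent.Lib.Helper2_BlockLocal Cfsg.Agent.Lib.Helper2_BlockOm
  Cfsg.Agent.Lib.Helper2_BlockOsima Cfsg.Agent.Lib.Helper2_BlockBasic
  Cfsg.Agent.Lib.Helper2_BlockOrtho Cfsg.Agent.Lib.Helper2_BlockMinMax
  Cfsg.Agent.Lib.Helper2_BlockInd Cfsg.Agent.Lib.Helper2_BlockDefect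
  Cfsg.Agent.Lib.Helper2_BlockPCore Cfsg.Agent.Lib.Helper2_BlockNormal
  Cfsg.Agent.Lib.Helper2_BlockBrauer Cfsg.Agent.Lib.Helper2_BlockFMT
  Cfsg.Agent.Lib.Helper2_BrauerPairs Cfsg.Agent.Lib.Helper2_SecondMain
  Cfsg.Agent.Lib.Helper2_BP1 Cfsg.Agent.Lib.Helper2_BP2 Cfsg.Agent.Lib.Helper2_BP3
  Cfsg.Agent.Lib.Helper2_BP4 Cfsg.Agent.Lib.Helper2_BP5 Cfsg.Agent.Lib.Helper2_BP6
  Cfsg.Agent.Lib.Helper2_BP7 Cfsg.Agent.Lib.Helper2_BP8 Cfsg.Agent.Lib.Helper2_BP9
  Cfsg.Agent.Lib.Helper2_BP10 Cfsg.Agent.Lib.Helper2_BP11 Cfsg.Agent.Lib.Helper2_BP12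
  Cfsg.Agent.Lib.Helper2_BP13 Cfsg.Agent.Lib.Helper2_BP14 Cfsg.Agent.Lib.Helper2_BP15
  Cfsg.Agent.Lib.Helper2_BlockSection Cfsg.Agent.Lib.Helper2_BlockThird
  Cfsg.Agent.Lib.Helper2_BlockCover2 Cfsg.Agent.Lib.Helper2_Basic
  Cfsg.Agent.Lib.CharBasic Cfsg.Agent.Lib.CharOrtho
  Cfsg.Agent.Lib.CharComplete Cfsg.Agent.Lib.CharIntegral Cfsg.Agent.Lib.CharMore
  Cfsg.Agent.Lib.CharPerm Cfsg.Agent.Lib.CharInd
open scoped ComplexConjugate Classical
open Relation

universe u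

variable {M : Ideal AlgInt} {p : ℕ} {G : Type u} [Group G] [Fintype G]

theorem principal_maximal [Fact p.Prime] (hM : IsPModular p M) (S : Sylow p G) :
    IsMaximalBrauerPair p M (principalBlock M G) (S : Subgroup G)
      (principalBlock M (Subgroup.centralizer ((S : Subgroup G) : Set G))) := by
  refine ⟨(principal_pair_iff hM S.2 (principalBlock_isPBlock M _)).mpr rfl, ?_⟩
  intro R g hRg hle
  exact S.is_maximal' hRg.1.1 (rtg_le hle)

/-- below `(S, e₀)` every pair is principal -/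
theorem principal_subpair [Fact p.Prime] (hM : IsPModular p M) (S : Sylow p G) {Q : Subgroup G}
    (hQ : Q ≤ S) :
    SubpairLE p M Q (principalBlock M (Subgroup.centralizer (Q : Set G))) (S : Subgroup G)
      (principalBlock M (Subgroup.centralizer ((S : Subgroup G) : Set G))) := by
  have hmax := principal_maximal hM S
  obtain ⟨f, hf⟩ := subpair_exists hM _ hmax.1.1 hQ le_rfl
  have hQf : IsBrauerPair p M Q f := rtg_isBrauerPair' hf hmax.1.1
  have h1 := (brauerPairOf_iff_of_le hM hmax.1.1 hQf hf hmax.1.2.1).mp hmax.1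
  rw [(principal_pair_iff hM hQf.1 hQf.2).mp h1] at hf
  exact hf

theorem conjBlock_principal [Fact p.Prime] (hM : IsPModular p M) {Q : Subgroup G}
    (hQ : IsPGroup p Q) (g : G) :
    conjBlock Q g (principalBlock M (Subgroup.centralizer (Q : Set G))) =
      principalBlock M (Subgroup.centralizer
        ((Q.map (MulAut.conj g).toMonoidHom : Subgroup G) : Set G)) := by
  have h1 : IsBrauerPairOf p M (principalBlock M G) Q
      (principalBlock M (Subgroup.centralizer (Q : Set G))) :=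
    (principal_pair_iff hM hQ (principalBlock_isPBlock M _)).mpr rfl
  have h2 := brauerPairOf_cjPair g (a := ⟨Q, _⟩) h1
  exact (principal_pair_iff hM h2.1.1 h2.1.2).mp h2

theorem principal_fusion [Fact p.Prime] (hM : IsPModular p M) (S : Sylow p G)
    {F : FusionSystem (S : Subgroup G)}
    (hF : IsBlockFusionSystemOn p M (principalBlock M G) (S : Subgroup G)
      (principalBlock M (Subgroup.centralizer ((S : Subgroup G) : Set G))) F) (Q : Subgroup G) :
    F.Hom Q = (groupFusionSystem (S : Subgroup G)).Hom Q := by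
  ext φ
  rw [hF.2 Q φ]
  constructor
  · rintro ⟨hQ, g, hg, hQg, -⟩
    exact ⟨hQ, fun x => hQg ⟨x, x.2, (hg x).symm⟩, g, hg⟩
  · rintro ⟨hQ, hφ, g, hg⟩
    have hQg : Q.map (MulAut.conj g).toMonoidHom ≤ S := by
      rintro _ ⟨u, hu, rfl⟩
      have := hφ ⟨u, hu⟩
      rw [hg] at this
      exact this
    refine ⟨hQ, g, hg, hQg, _, principal_subpair hM S hQ, ?_⟩
    rw [conjBlock_principal hM (S.2.to_le hQ)]
    exact principal_subpair hM S hQg

end Cfsg.Agent.Lib.Helper2_BP18
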