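import Mathlib
import Cfsg.Prelude.Def_Blocks
import Cfsg.Agent.Lib.Helper2_BlockSection
import Cfsg.Agent.Lib.helper8_DefectZero

set_option autoImplicit false

namespace Cfsg.Agent.Lib.Helper2_VanishOrderP

open Cfsg Cfsg.Agent.Lib.Helper2_BlockLocal Cfsg.Agent.Lib.Helper2_BlockOm
  Cfsg.Agent.Lib.Helper2_BlockOsima Cfsg.Agent.Lib.Helper2_BlockBasic
  Cfsg.Agent.Lib.Helper2_BlockOrtho Cfsg.Agent.Lib.Helper2_BlockMinMax
  Cfsg.Agent.Lib.Helper2_BlockInd Cfsg.Agent.Lib.Helper2_BlockDefect
  Cfsg.Agent.Lib.Helper2_BlockPCore Cfsg.Agent.Lib.Helper2_BlockNormal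
  Cfsg.Agent.Lib.Helper2_BlockBrauer Cfsg.Agent.Lib.Helper2_BlockFMT
  Cfsg.Agent.Lib.Helper2_BlockDefOrder
  Cfsg.Agent.Lib.CharBasic Cfsg.Agent.Lib.CharOrtho
  Cfsg.Agent.Lib.CharComplete Cfsg.Agent.Lib.CharIntegral Cfsg.Agent.Lib.CharMore
  Cfsg.Agent.Lib.CharPerm Cfsg.Agent.Lib.CharInd Cfsg.Agent.Lib.helper8_Defect
  Cfsg.Agent.Lib.CharQuot
open scoped ComplexConjugate Classical

universe u

variable {G : Type u} [Group G] {M : Ideal AlgInt} {p : ℕ}

/-- indicator of the solutions of `g ^ p = 1` -/
noncomputable def tor (p : ℕ) (G : Type u) [Group G] : G → ℂ := fun g => if g ^ p = 1 then 1 else 0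

theorem tor_classFunction : IsClassFunction G (tor p G) := by
  intro g h
  unfold tor
  have : (h * g * h⁻¹) ^ p = 1 ↔ g ^ p = 1 := by
    rw [conj_pow]
    constructor
    · intro e
      have : g ^ p = h⁻¹ * (h * g ^ p * h⁻¹) * h := by group
      rw [this, e]; group
    · intro e
      rw [e]; group
  simp only [this]

theorem tor_ring (hM : M.IsPrime) (g : G) : MemLocalRing M (tor p G g) := by
  unfold tor
  split_ifs
  · exact ring_one hM
  · exact ring_zero hM

theorem exists_central_order_p [Finite G] [Fact p.Prime] {P : Subgroup G} (hP : IsPGroup p P)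
    (hP1 : P ≠ ⊥) : ∃ z ∈ P, orderOf z = p ∧ ∀ w ∈ P, w * z = z * w := by
  haveI : Nontrivial P := (Subgroup.nontrivial_iff_ne_bot P).mpr hP1
  haveI := hP.center_nontrivial
  have hc : IsPGroup p (Subgroup.center P) := hP.to_subgroup _
  obtain ⟨n, hn⟩ := IsPGroup.iff_card.mp hc
  have hn0 : n ≠ 0 := by
    rintro rfl
    have := Finite.one_lt_card (α := Subgroup.center P)
    rw [hn] at this
    simp at this
  obtain ⟨z, hz⟩ := exists_prime_orderOf_dvd_card' (G := Subgroup.center P) p
    (by rw [hn]; exact dvd_pow_self p hn0)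
  refine ⟨((z : P) : G), (z : P).2, ?_, ?_⟩
  · rw [Subgroup.orderOf_coe, Subgroup.orderOf_coe, hz]
  · intro w hw
    have := Subgroup.mem_center_iff.mp z.2 ⟨w, hw⟩
    exact congrArg Subtype.val this

theorem Om_tor_ideal [Fintype G] [Fact p.Prime] (hM : IsPModular p M) (P : Subgroup G)
    (hPn : P.Normal) (hP : IsPGroup p P) (hP1 : P ≠ ⊥) (ξ : IrrCharacter G) :
    MemLocalIdeal M (Om (tor p G) (ξ : G → ℂ)) := by
  have hPr := isPrime_of_modular hM
  haveI := hPn
  haveI : Fintype (G ⧸ P) := Fintype.ofFinite _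
  obtain ⟨χ0, hχ0, hker⟩ := exists_ker_of_normal_pGroup hM (B := blockOf M (ξ : G → ℂ)) ⟨ξ, rfl⟩
    P hPn hP
  have hs : SameBlock M (ξ : G → ℂ) (χ0 : G → ℂ) := hχ0
  have h1 := Om_congr hPr tor_classFunction (tor_ring (p := p) hPr) (irr_classFunction ξ)
    (irr_classFunction χ0) hs
  have h0 : MemLocalIdeal M (Om (tor p G) (χ0 : G → ℂ)) := by
    obtain ⟨χ', hχ', e⟩ := exists_deflate_irr P χ0.2 hker
    rw [e, Om_push]
    apply Om_ideal hPr (push_classFunction P tor_classFunction) _ ⟨χ', hχ'⟩
    intro q
    unfold push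
    rw [Finset.sum_filter]
    have h1 := sum_conj_fixed hM P hP
      (fun g => if (QuotientGroup.mk g : G ⧸ P) = q then tor p G g else 0) ?_ ?_
    · have h2 : MemLocalIdeal M (∑ w ∈ Finset.univ.filter
          (fun w => w ∈ Subgroup.centralizer (P : Set G)),
          (if (QuotientGroup.mk w : G ⧸ P) = q then tor p G w else 0)) := by
        rw [Finset.sum_filter]
        obtain ⟨z, hzP, hzo, hzc⟩ := exists_central_order_p hP hP1
        have hQ : IsPGroup p (Subgroup.zpowers z) :=
          Cfsg.Agent.Lib.Helper2_SecondMain2.isPGroup_zpowers ⟨1, by rw [hzo, pow_one]⟩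
        have h3 := sum_fixed hM (Q := Subgroup.zpowers z) (W := G) hQ
          (fun w => if w ∈ Subgroup.centralizer (P : Set G) then
            (if (QuotientGroup.mk w : G ⧸ P) = q then tor p G w else 0) else 0) ?_ ?_
        · have h4 : ∀ w : G, ¬ (∀ q : Subgroup.zpowers z, q • w = w) := by
            intro w hw
            have h4 : z * w = w := hw ⟨z, Subgroup.mem_zpowers z⟩
            have h5 : z = 1 := by simpa using h4
            rw [h5, orderOf_one] at hzo
            exact (Fact.out : p.Prime).one_lt.ne hzo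
          convert h3 using 1
          rw [eq_comm, sub_eq_self]
          apply Finset.sum_eq_zero
          intro w hw
          simp only [Finset.mem_filter] at hw
          exact absurd hw.2 (h4 w)
        · rintro ⟨c, hc⟩ w
          have hcP : c ∈ P := (Subgroup.zpowers_le.mpr hzP) hc
          have hcp : c ^ p = 1 := by
            obtain ⟨j, rfl⟩ := Subgroup.mem_zpowers_iff.mp hc
            rw [← zpow_natCast, ← zpow_mul, mul_comm, zpow_mul, zpow_natCast, ← hzo,
              pow_orderOf_eq_one, one_zpow]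
          have hcC : c ∈ Subgroup.centralizer (P : Set G) := by
            obtain ⟨j, rfl⟩ := Subgroup.mem_zpowers_iff.mp hc
            apply Subgroup.zpow_mem
            rw [Subgroup.mem_centralizer_iff]
            intro w hw
            exact hzc w hw
          show (if c * w ∈ Subgroup.centralizer (P : Set G) then
            (if (QuotientGroup.mk (c * w) : G ⧸ P) = q then tor p G (c * w) else 0) else 0) = _
          have e1 : c * w ∈ Subgroup.centralizer (P : Set G) ↔
              w ∈ Subgroup.centralizer (P : Set G) :=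
            Subgroup.mul_mem_cancel_left _ hcC
          have e2 : (QuotientGroup.mk (c * w) : G ⧸ P) = QuotientGroup.mk w := by
            have : (QuotientGroup.mk c : G ⧸ P) = 1 := (QuotientGroup.eq_one_iff c).mpr hcP
            simp [this]
          simp only [e1, e2]
          split_ifs with hw hq
          · unfold tor
            have hcw : Commute c w := (Subgroup.mem_centralizer_iff.mp hw c hcP)
            rw [hcw.mul_pow, hcp, one_mul]
          · rfl
          · rfl
        · intro w
          split_ifs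
          · exact tor_ring hPr w
          · exact ring_zero hPr
          · exact ring_zero hPr
      have := ideal_add hPr h1 h2
      simpa using this
    · intro u hu g
      have e1 : (QuotientGroup.mk (u * g * u⁻¹) : G ⧸ P) = QuotientGroup.mk g := by
        have : (QuotientGroup.mk u : G ⧸ P) = 1 := (QuotientGroup.eq_one_iff u).mpr hu
        simp [this]
      simp only [e1, tor_classFunction g u]
    · intro w
      split_ifs
      · exact tor_ring hPr w
      · exact ring_zero hPr
  have := ideal_add hPr h1 h0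
  simpa using this


theorem Om_tor_of_vanish [Fintype G] (hp : p.Prime) (χ : IrrCharacter G)
    (hvan : ∀ g : G, orderOf g = p → (χ : G → ℂ) g = 0) : Om (tor p G) (χ : G → ℂ) = 1 := by
  unfold Om
  rw [Finset.sum_eq_single 1]
  · unfold tor
    rw [one_pow, if_pos rfl, one_mul, div_self (irr_degree_ne_zero χ.2)]
  · intro g _ hg
    unfold tor
    split_ifs with h
    · have h1 := orderOf_dvd_of_pow_eq_one h
      rcases (Nat.dvd_prime hp).mp h1 with h2 | h2
      · exact absurd (orderOf_eq_one_iff.mp h2) hg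
      · rw [hvan g h2, mul_zero]
    · rw [zero_mul]
  · intro h; exact absurd (Finset.mem_univ _) h

theorem defect_trivial_of_vanish [Finite G] [Fact p.Prime] (hM : IsPModular p M)
    (χ : IrrCharacter G)
    (hvan : ∀ g : G, orderOf g = p → (χ : G → ℂ) g = 0) {D : Subgroup G}
    (hD : IsDefectGroup p M (blockOf M (χ : G → ℂ)) D) : D = ⊥ := by
  haveI : Fintype G := Fintype.ofFinite G
  haveI : Fintype (Subgroup.normalizer (D : Set G)) := Fintype.ofFinite _
  have hPr := isPrime_of_modular hM
  have hp := hM.1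
  by_contra hne
  have hB : IsPBlock M (blockOf M (χ : G → ℂ)) := ⟨χ, rfl⟩
  obtain ⟨b, hb, -, hind⟩ := fmt_exists hM hB hD
  obtain ⟨ξ, hξ⟩ := block_nonempty hPr hb
  have h1 := Om_restrict_congr_induced hPr hind hξ (self_mem_blockOf hPr χ)
    (tor_classFunction (p := p)) (tor_ring hPr)
  rw [Om_tor_of_vanish hp χ hvan] at h1
  have e : (fun h : Subgroup.normalizer (D : Set G) => tor p G h) =
      tor p (Subgroup.normalizer (D : Set G)) := by
    funext h
    unfold tor
    have : (h : G) ^ p = 1 ↔ h ^ p = 1 := by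
      rw [← Subgroup.coe_pow, OneMemClass.coe_eq_one]
    by_cases hh : h ^ p = 1
    · rw [if_pos hh, if_pos (this.mpr hh)]
    · rw [if_neg hh, if_neg (fun h' => hh (this.mp h'))]
  rw [e] at h1
  have hDp : IsPGroup p D := isPGroup_of_defect hD
  have h2 := Om_tor_ideal hM (D.subgroupOf (Subgroup.normalizer (D : Set G)))
    Subgroup.normal_in_normalizer hDp.comap_subtype (by
      intro h0
      apply hne
      rw [eq_bot_iff]
      intro d hd
      have h3 : (⟨d, Subgroup.le_normalizer hd⟩ : Subgroup.normalizer (D : Set G)) ∈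
          D.subgroupOf (Subgroup.normalizer (D : Set G)) := by
        rw [Subgroup.mem_subgroupOf]; exact hd
      rw [h0, Subgroup.mem_bot] at h3
      rw [Subgroup.mem_bot]
      exact congrArg Subtype.val h3) ξ
  apply not_ideal_one hPr
  have := ideal_sub hPr h2 h1
  simpa using this

theorem degree_val_of_vanish [Finite G] [Fact p.Prime] (χ : IrrCharacter G)
    (hvan : ∀ g : G, orderOf g = p → (χ : G → ℂ) g = 0) :
    (charDegree (χ : G → ℂ)).factorization p = (Nat.card G).factorization p := by
  have hp : p.Prime := Fact.out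
  obtain ⟨M, hM⟩ := Cfsg.Agent.Lib.helper8_DefectZero.exists_modular hp
  have hPr := isPrime_of_modular hM
  have hB : IsPBlock M (blockOf M (χ : G → ℂ)) := ⟨χ, rfl⟩
  obtain ⟨D, hD⟩ := exists_defectGroup (p := p) hPr hB
  have h1 := defect_trivial_of_vanish hM χ hvan hD
  have h2 := card_defectGroup hM hB hD
  rw [h1, Subgroup.card_bot] at h2
  have h3 : blockDefect p (blockOf M (χ : G → ℂ)) = 0 := by
    by_contra h
    have := Nat.one_lt_pow h hp.one_lt
    omega
  unfold blockDefect at h3
  have h4 : sInf ((fun χ : IrrCharacter G => (charDegree (χ : G → ℂ)).factorization p) ''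
      (blockOf M (χ : G → ℂ))) ≤ (charDegree (χ : G → ℂ)).factorization p :=
    Nat.sInf_le ⟨χ, self_mem_blockOf hPr χ, rfl⟩
  obtain ⟨hd0, -, hd2⟩ := irr_charDegree χ.2
  have h5 : (charDegree (χ : G → ℂ)).factorization p ≤ (Nat.card G).factorization p :=
    (Nat.factorization_le_iff_dvd hd0.ne' Nat.card_pos.ne').mpr hd2 p
  omega

end Cfsg.Agent.Lib.Helper2_VanishOrderP
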