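import Mathlib
import Cfsg.Prelude.Def_Blocks
import Cfsg.Agent.Lib.Helper2_BlockSection
import Cfsg.Agent.Lib.helper8_DefectZero
import Cfsg.Agent.Lib.Helper2_VanishOrderP

set_option autoImplicit false

namespace Cfsg.Agent.Lib.Helper2_BlockCenter

open Cfsg Cfsg.Agent.Lib.Helper2_BlockLocal Cfsg.Agent.Lib.Helper2_BlockOm
  Cfsg.Agent.Lib.Helper2_BlockOsima Cfsg.Agent.Lib.Helper2_BlockBasic
  Cfsg.Agent.Lib.Helper2_BlockOrtho Cfsg.Agent.Lib.Helper2_BlockMinMax
  Cfsg.Agent.Lib.Helper2_BlockInd Cfsg.Agent.Lib.Helper2_BlockDefect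
  Cfsg.Agent.Lib.Helper2_BlockPCore Cfsg.Agent.Lib.Helper2_BlockNormal
  Cfsg.Agent.Lib.Helper2_BlockBrauer Cfsg.Agent.Lib.Helper2_BlockFMT
  Cfsg.Agent.Lib.Helper2_BlockDefOrder Cfsg.Agent.Lib.Helper2_BlockSection
  Cfsg.Agent.Lib.Helper2_PPart
  Cfsg.Agent.Lib.CharBasic Cfsg.Agent.Lib.CharOrtho
  Cfsg.Agent.Lib.CharComplete Cfsg.Agent.Lib.CharIntegral Cfsg.Agent.Lib.CharMore
  Cfsg.Agent.Lib.CharPerm Cfsg.Agent.Lib.CharInd Cfsg.Agent.Lib.helper8_Defect
  Cfsg.Agent.Lib.CharQuot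
open scoped ComplexConjugate Classical

universe u

variable {G : Type u} [Group G] {M : Ideal AlgInt} {p : ℕ}

/-- If `b^G = B` and `ω_χ(g)` is a unit, some `h ∈ H` conjugate to `g` has `ω_ξ(h)` a unit. -/
theorem exists_unit_class [Finite G] (hM : M.IsPrime) {H : Subgroup G}
    {b : Set (IrrCharacter H)} {B : Set (IrrCharacter G)} (hind : IsInducedBlock M H b B)
    {ξ : IrrCharacter H} (hξ : ξ ∈ b) {χ : IrrCharacter G} (hχ : χ ∈ B) {g : G}
    (hg : ¬ MemLocalIdeal M (centralChar (χ : G → ℂ) g)) :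
    ∃ h : H, IsConj g (h : G) ∧ ¬ MemLocalIdeal M (centralChar (ξ : H → ℂ) h) := by
  haveI : Fintype G := Fintype.ofFinite G
  haveI : Fintype H := Fintype.ofFinite H
  have h1 := not_ideal_of_sub hM (hind.2.2 ξ hξ χ hχ g) hg
  rw [inducedCentralChar_eq_Om, Om_eq_sum_classes
    (restrict_classFunction H (classInd_classFunction g)) (irr_classFunction ξ)] at h1
  by_contra hcon
  push Not at hcon
  apply h1
  apply ideal_sum hM
  intro C _
  by_cases hc : IsConj g ((rep C : H) : G)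
  · exact ideal_mul_left hM (classInd_ring hM _ _) (hcon _ hc)
  · have : classInd g ((rep C : H) : G) = 0 := by
      unfold classInd; rw [if_neg hc]
    rw [this, zero_mul]
    exact ideal_zero hM

/-- In a block with normal defect group `P`, classes with unit central character value lie in
`C(P)` and have their `p`-part in `P`. -/
theorem normal_defect_unit [Finite G] [Fact p.Prime] (hM : IsPModular p M)
    {b : Set (IrrCharacter G)} (hb : IsPBlock M b) {P : Subgroup G} (hPn : P.Normal)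
    (hP : IsDefectGroup p M b P) {ξ : IrrCharacter G} (hξ : ξ ∈ b) {x : G}
    (hx : ¬ MemLocalIdeal M (centralChar (ξ : G → ℂ) x)) :
    x ∈ Subgroup.centralizer (P : Set G) ∧ ∀ z, IsPPart p x z → z ∈ P := by
  haveI : Fintype G := Fintype.ofFinite G
  have hPr := isPrime_of_modular hM
  have hp := hM.1
  have hPp := isPGroup_of_defect hP
  haveI := hPn
  refine ⟨?_, ?_⟩
  · by_contra h
    exact hx (centralChar_ideal_of_not_centralizing hM P hPn hPp x h ξ)
  · intro z hz
    obtain ⟨ξ0, hξ0, hker⟩ := exists_ker_of_normal_pGroup hM hb P hPn hPp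
    have h1 : ¬ MemLocalIdeal M (centralChar (ξ0 : G → ℂ) x) :=
      not_ideal_of_sub hPr (sameBlock_of_mem hPr hb hξ0 hξ x) hx
    have h2 : (ξ0 : G → ℂ) x ≠ 0 := by
      intro h0
      apply h1
      unfold centralChar
      rw [h0, mul_zero, zero_div]
      exact ideal_zero hPr
    obtain ⟨χ', hχ', e⟩ := exists_deflate_irr P ξ0.2 hker
    obtain ⟨hd0, hd1, hd2⟩ := irr_charDegree ξ0.2
    obtain ⟨hd0', hd1', hd2'⟩ := irr_charDegree hχ'
    have hdeg : charDegree χ' = charDegree (ξ0 : G → ℂ) := by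
      have : χ' 1 = (ξ0 : G → ℂ) 1 := by
        rw [e]; rfl
      unfold charDegree
      rw [this]
    have hcard := card_defectGroup hM hb hP
    have hdef : blockDefect p b = (Nat.card G).factorization p -
      sInf ((fun χ : IrrCharacter G => (charDegree (χ : G → ℂ)).factorization p) '' b) := rfl
    have h4 : sInf ((fun χ : IrrCharacter G => (charDegree (χ : G → ℂ)).factorization p) '' b) ≤
        (charDegree (ξ0 : G → ℂ)).factorization p := Nat.sInf_le ⟨ξ0, hξ0, rfl⟩
    have h5 := P.card_mul_index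
    have h6 : (Nat.card G).factorization p = blockDefect p b + P.index.factorization p := by
      rw [← h5, Nat.factorization_mul Nat.card_pos.ne' Subgroup.index_ne_zero_of_finite,
        Finsupp.add_apply, hcard, Nat.Prime.factorization_pow hp, Finsupp.single_eq_same]
    have h7 : ¬ p ∣ Nat.card (G ⧸ P) / charDegree χ' := by
      rw [hdeg] at hd2' ⊢
      rw [← Subgroup.index_eq_card] at hd2' ⊢
      intro hdiv
      obtain ⟨q, hq⟩ := hd2'
      have hq0 : q ≠ 0 := by
        rintro rfl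
        rw [mul_zero] at hq
        exact Subgroup.index_ne_zero_of_finite hq
      rw [hq, Nat.mul_div_cancel_left _ hd0] at hdiv
      have h8 : P.index.factorization p =
          (charDegree (ξ0 : G → ℂ)).factorization p + q.factorization p := by
        rw [hq, Nat.factorization_mul hd0.ne' hq0, Finsupp.add_apply]
      have h9 : 1 ≤ q.factorization p :=
        (Nat.Prime.dvd_iff_one_le_factorization hp hq0).mp hdiv
      omega
    have h8 : ¬ p ∣ orderOf (QuotientGroup.mk x : G ⧸ P) := by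
      intro hdiv
      apply h2
      rw [e]
      exact Cfsg.Agent.Lib.helper8_DefectZero.vanish_of_defect_zero hp ⟨χ', hχ'⟩ h7 hdiv
    obtain ⟨y, hxy, hc, hzo, hy⟩ := hz
    obtain ⟨a, -, ha, -⟩ := isPPart_eq_pow hp hxy hc hzo hy
    obtain ⟨k, hk⟩ := hzo
    rw [← QuotientGroup.eq_one_iff]
    have e1 : orderOf (QuotientGroup.mk z : G ⧸ P) ∣ orderOf (QuotientGroup.mk x : G ⧸ P) := by
      rw [ha, QuotientGroup.mk_pow]
      exact orderOf_pow_dvd a
    have e2 : orderOf (QuotientGroup.mk z : G ⧸ P) ∣ p ^ k := by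
      rw [← hk]
      exact orderOf_map_dvd (QuotientGroup.mk' P) z
    have hcop : Nat.Coprime (p ^ k) (orderOf (QuotientGroup.mk x : G ⧸ P)) :=
      Nat.Coprime.pow_left k ((Nat.Prime.coprime_iff_not_dvd hp).mpr h8)
    have e3 : orderOf (QuotientGroup.mk z : G ⧸ P) ∣ 1 := by
      rw [← hcop.gcd_eq_one]
      exact Nat.dvd_gcd e2 e1
    exact orderOf_eq_one_iff.mp (Nat.dvd_one.mp e3)


theorem unit_class_center [Finite G] [Fact p.Prime] (hM : IsPModular p M)
    {B : Set (IrrCharacter G)} (hB : IsPBlock M B) {P : Subgroup G}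
    (hP : IsDefectGroup p M B P) {g : G}
    (hg : ∃ χ ∈ B, ¬ MemLocalIdeal M (centralChar (χ : G → ℂ) g)) :
    ∃ x : G, IsConj g x ∧ x ∈ Subgroup.centralizer (P : Set G) ∧
      ∀ z : G, IsPPart p x z → z ∈ P ∧ ∀ w ∈ P, z * w = w * z := by
  have hPr := isPrime_of_modular hM
  have hp := hM.1
  obtain ⟨χ, hχ, hg⟩ := hg
  obtain ⟨b, hb, hbD, hind⟩ := fmt_exists hM hB hP
  obtain ⟨ξ, hξ⟩ := block_nonempty hPr hb
  obtain ⟨h, hgh, hh⟩ := exists_unit_class hPr hind hξ hχ hg
  obtain ⟨h1, h2⟩ := normal_defect_unit hM hb Subgroup.normal_in_normalizer hbD hξ hh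
  have hhC : (h : G) ∈ Subgroup.centralizer (P : Set G) :=
    (mem_centralizer_subgroupOf Subgroup.le_normalizer h).mp h1
  refine ⟨h, hgh, hhC, ?_⟩
  intro z hz
  obtain ⟨y, hxy, hc, hzo, hy⟩ := hz
  obtain ⟨a, c, ha, hc'⟩ := isPPart_eq_pow hp hxy hc hzo hy
  have h3 : IsPPart p h (h ^ a) := by
    refine ⟨h ^ c, ?_, (Commute.refl h).pow_pow a c, ?_, ?_⟩
    · apply Subtype.ext
      push_cast
      rw [← ha, ← hc', hxy]
    · rw [← Subgroup.orderOf_coe]
      push_cast
      rw [← ha]; exact hzo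
    · rw [← Subgroup.orderOf_coe]
      push_cast
      rw [← hc']; exact hy
  have h4 := h2 _ h3
  rw [Subgroup.mem_subgroupOf] at h4
  push_cast at h4
  rw [← ha] at h4
  refine ⟨h4, ?_⟩
  intro w hw
  have h5 : z ∈ Subgroup.centralizer (P : Set G) := by
    rw [ha]; exact Subgroup.pow_mem _ hhC a
  exact ((Subgroup.mem_centralizer_iff.mp h5) w hw).symm

/-- `Z(P)` is fused into `Z(D)` when `b^G = B`. -/
theorem center_fusion [Finite G] [Fact p.Prime] (hM : IsPModular p M) {H : Subgroup G}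
    {b : Set (IrrCharacter H)} {B : Set (IrrCharacter G)} (hind : IsInducedBlock M H b B)
    {D : Subgroup H} (hD : IsDefectGroup p M b D) {P : Subgroup G} (hP : IsDefectGroup p M B P)
    {x : G} (hx : x ∈ P) (hxc : ∀ w ∈ P, x * w = w * x) :
    ∃ g : G, g * x * g⁻¹ ∈ D.map H.subtype ∧
      ∀ w ∈ D.map H.subtype, (g * x * g⁻¹) * w = w * (g * x * g⁻¹) := by
  haveI : Fintype G := Fintype.ofFinite G
  have hPr := isPrime_of_modular hM
  have hp := hM.1
  obtain ⟨hb, hB, -⟩ := id hind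
  obtain ⟨χ, hχ⟩ := block_nonempty hPr hB
  obtain ⟨ξ, hξ⟩ := block_nonempty hPr hb
  obtain ⟨y, hy, S, rfl⟩ := hP
  obtain ⟨x', hx', rfl⟩ := hx
  have h1 := centralChar_mul_not_ideal hM hB hy S x' hx' (by
    intro w hw
    apply Subtype.ext
    exact hxc w ⟨w, hw, rfl⟩) hχ
  obtain ⟨h, hgh, hh⟩ := exists_unit_class hPr hind hξ hχ h1
  obtain ⟨h', hhh', hh'C, hz⟩ := unit_class_center hM hb hD ⟨ξ, hξ, hh⟩
  -- the p-part of x' * y is x'
  have hxo : ∃ k : ℕ, orderOf (x' : G) = p ^ k := by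
    obtain ⟨k, hk⟩ := (IsPGroup.iff_orderOf.mp S.2) ⟨x', hx'⟩
    refine ⟨k, ?_⟩
    rw [Subgroup.orderOf_coe, ← hk]
    exact Subgroup.orderOf_coe (⟨x', hx'⟩ : (S : Subgroup (Subgroup.centralizer ({y} : Set G))))
  have hpp : IsPPart p ((x' : G) * y) (x' : G) :=
    ⟨y, rfl, Subgroup.mem_centralizer_singleton_iff.mp x'.2, hxo, regular_of_coeff hM hB hy.2.1⟩
  obtain ⟨t, ht⟩ := isConj_iff.mp hgh
  obtain ⟨s, hs⟩ := isConj_iff.mp hhh'
  have hs' : (s : G) * h * (s : G)⁻¹ = h' := by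
    have := congrArg Subtype.val hs
    simpa using this
  have hpp2 : IsPPart p (h' : G) ((s : G) * t * (x' : G) * ((s : G) * t)⁻¹) := by
    have := isPPart_conj hpp ((s : G) * t)
    convert this using 1
    rw [← hs', ← ht]
    group
  -- transfer to H
  obtain ⟨a, ha⟩ := exists_isPPart hp h'
  have hpp3 : IsPPart p (h' : G) ((h' ^ a : H) : G) := by
    obtain ⟨y2, e1, e2, e3, e4⟩ := ha
    refine ⟨y2, ?_, ?_, ?_, ?_⟩
    · rw [← Subgroup.coe_mul, e1]
    · have := congrArg Subtype.val e2.eq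
      exact this
    · rw [Subgroup.orderOf_coe]; exact e3
    · rw [Subgroup.orderOf_coe]; exact e4
  have heq := isPPart_unique hp hpp2 hpp3
  obtain ⟨hzD, hzc⟩ := hz _ ha
  refine ⟨(s : G) * t, ?_, ?_⟩
  · show (s : G) * t * (x' : G) * ((s : G) * t)⁻¹ ∈ _
    rw [heq]
    exact ⟨_, hzD, rfl⟩
  · rintro _ ⟨w, hw, rfl⟩
    show (s : G) * t * (x' : G) * ((s : G) * t)⁻¹ * (w : G) = w * ((s : G) * t * (x' : G) * ((s : G) * t)⁻¹)
    rw [heq]
    exact congrArg Subtype.val (hzc w hw)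

theorem defect_zero_iff_of_induced [Finite G] [Fact p.Prime] (hM : IsPModular p M)
    {H : Subgroup G} {b : Set (IrrCharacter H)} {B : Set (IrrCharacter G)}
    (hind : IsInducedBlock M H b B) : blockDefect p b = 0 ↔ blockDefect p B = 0 := by
  have hPr := isPrime_of_modular hM
  have hp := hM.1
  obtain ⟨hb, hB, -⟩ := id hind
  obtain ⟨D, hD⟩ := exists_defectGroup (p := p) hPr hb
  obtain ⟨E, hE, hDE⟩ := defect_le_of_induced hM hind hD
  have hcD := card_defectGroup hM hb hD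
  have hcE := card_defectGroup hM hB hE
  constructor
  · intro h0
    rw [h0, pow_zero] at hcD
    have hDbot : D = ⊥ := Subgroup.card_eq_one.mp hcD
    by_contra hne
    have hEne : E ≠ ⊥ := by
      intro h
      rw [h, Subgroup.card_bot] at hcE
      have := Nat.one_lt_pow hne hp.one_lt
      omega
    obtain ⟨z, hzE, hzo, hzc⟩ :=
      Cfsg.Agent.Lib.Helper2_VanishOrderP.exists_central_order_p (isPGroup_of_defect hE) hEne
    obtain ⟨g, hg, -⟩ := center_fusion hM hind hD hE hzE (fun w hw => (hzc w hw).symm)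
    rw [hDbot, Subgroup.map_bot, Subgroup.mem_bot] at hg
    have hz1 : z = 1 := by
      have : z = g⁻¹ * (g * z * g⁻¹) * g := by group
      rw [this, hg]; group
    rw [hz1, orderOf_one] at hzo
    exact hp.one_lt.ne hzo
  · intro h0
    rw [h0, pow_zero] at hcE
    have hEbot : E = ⊥ := Subgroup.card_eq_one.mp hcE
    rw [hEbot, le_bot_iff, Subgroup.map_eq_bot_iff_of_injective _ (Subgroup.subtype_injective H)] at hDE
    rw [hDE, Subgroup.card_bot] at hcD
    by_contra hne
    have := Nat.one_lt_pow hne hp.one_lt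
    omega

end Cfsg.Agent.Lib.Helper2_BlockCenter
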