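import Mathlib
import Cfsg.Prelude.Def_BrauerPairs
import Cfsg.Prelude.Def_BlockFusion
import Cfsg.Agent.Lib.Helper2_Up
import Cfsg.Agent.Lib.Helper2_BP16

set_option autoImplicit false

namespace Cfsg.Agent.Lib.Helper2_Centric

open Cfsg Cfsg.Agent.Lib.Helper2_BlockLocal Cfsg.Agent.Lib.Helper2_BlockOm
  Cfsg.Agent.Lib.Helper2_BlockOsima Cfsg.Agent.Lib.Helper2_BlockBasic
  Cfsg.Agent.Lib.Helper2_BlockOrtho Cfsg.Agent.Lib.Helper2_BlockMinMax
  Cfsg.Agent.Lib.Helper2_BlockInd Cfsg.Agent.Lib.Helper2_BlockDefect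
  Cfsg.Agent.Lib.Helper2_BlockPCore Cfsg.Agent.Lib.Helper2_BlockNormal
  Cfsg.Agent.Lib.Helper2_BlockBrauer Cfsg.Agent.Lib.Helper2_BlockFMT
  Cfsg.Agent.Lib.Helper2_BrauerPairs Cfsg.Agent.Lib.Helper2_SecondMain
  Cfsg.Agent.Lib.Helper2_BP1 Cfsg.Agent.Lib.Helper2_BP2 Cfsg.Agent.Lib.Helper2_BP3
  Cfsg.Agent.Lib.Helper2_BP4 Cfsg.Agent.Lib.Helper2_BP5 Cfsg.Agent.Lib.Helper2_BP6
  Cfsg.Agent.Lib.Helper2_BP7 Cfsg.Agent.Lib.Helper2_BP8 Cfsg.Agent.Lib.Helper2_BP9
  Cfsg.Agent.Lib.Helper2_BP10 Cfsg.Agent.Lib.Helper2_BP11 Cfsg.Agent.Lib.Helper2_BP12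
  Cfsg.Agent.Lib.Helper2_BP13 Cfsg.Agent.Lib.Helper2_BP14 Cfsg.Agent.Lib.Helper2_BP15
  Cfsg.Agent.Lib.Helper2_ExtFMT
  Cfsg.Agent.Lib.Helper2_Fong Cfsg.Agent.Lib.Helper2_EA Cfsg.Agent.Lib.Helper2_MaxPair
  Cfsg.Agent.Lib.Helper2_MaxPair2 Cfsg.Agent.Lib.Helper2_Down Cfsg.Agent.Lib.Helper2_RelConj
  Cfsg.Agent.Lib.Helper2_BlockSection
  Cfsg.Agent.Lib.Helper2_BlockCover2 Cfsg.Agent.Lib.Helper2_Basic
  Cfsg.Agent.Lib.CharBasic Cfsg.Agent.Lib.CharOrtho
  Cfsg.Agent.Lib.CharComplete Cfsg.Agent.Lib.CharIntegral Cfsg.Agent.Lib.CharMore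
  Cfsg.Agent.Lib.CharPerm Cfsg.Agent.Lib.CharInd
open scoped ComplexConjugate Classical
open Relation
open Cfsg.Agent.Lib.Helper2_AbDef Cfsg.FusionSystem Cfsg.Agent.Lib.Helper2_BFS1
  Cfsg.Agent.Lib.Helper2_BP17 Cfsg.Agent.Lib.Helper2_BlockDefOrder Cfsg.Agent.Lib.Helper2_BFS2
  Cfsg.Agent.Lib.Helper2_BFS3 Cfsg.Agent.Lib.Helper2_PPart Cfsg.Agent.Lib.Helper2_Nilp
  Cfsg.Agent.Lib.Helper2_BP16

universe u

variable {M : Ideal AlgInt} {p : ℕ} {G : Type u} [Group G]

theorem card_le_of_inf_le [Finite G] {Q R C : Subgroup G} (hQR : Q ≤ R) (hRL : R ≤ Q ⊔ C)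
    (hRN : R ≤ Subgroup.normalizer (C : Set G))
    (h : Nat.card (R ⊓ C : Subgroup G) ≤ Nat.card (Q ⊓ C : Subgroup G)) :
    Nat.card R ≤ Nat.card Q := by
  have hsup : R ⊔ C = Q ⊔ C := le_antisymm (sup_le hRL le_sup_right) (sup_le_sup_right hQR _)
  have c1 := card_sup_mul_card_inf R C hRN
  have c2 := card_sup_mul_card_inf Q C (hQR.trans hRN)
  rw [hsup] at c1
  have c3 : Nat.card R * Nat.card C ≤ Nat.card Q * Nat.card C := by
    rw [← c1, ← c2]
    exact Nat.mul_le_mul_left _ h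
  exact Nat.le_of_mul_le_mul_right c3 Nat.card_pos

/-- `p`-regular elements of `Q C(Q)` lie in `C(Q)` -/
theorem regular_mem_centralizer [Finite G] (hp : p.Prime) {Q : Subgroup G} (hQ : IsPGroup p Q)
    {x : G} (hx : x ∈ Q ⊔ Subgroup.centralizer (Q : Set G)) (hxr : ¬ p ∣ orderOf x) :
    x ∈ Subgroup.centralizer (Q : Set G) := by
  have hnorm : Q ≤ Subgroup.normalizer
      ((Subgroup.centralizer (Q : Set G) : Subgroup G) : Set G) :=
    Subgroup.le_normalizer.trans (normalizer_le_normalizer_centralizer Q)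
  have hx' : x ∈ ((Q ⊔ Subgroup.centralizer (Q : Set G) : Subgroup G) : Set G) := hx
  rw [Subgroup.coe_mul_of_left_le_normalizer_right _ _ hnorm] at hx'
  obtain ⟨q, hq, c, hc, rfl⟩ := hx'
  have hx2 : ¬ p ∣ orderOf (q * c) := hxr
  have hcomm : Commute q c := Subgroup.mem_centralizer_iff.mp hc q hq
  have h1 : q ^ orderOf (q * c) * c ^ orderOf (q * c) = 1 := by
    rw [← hcomm.mul_pow, pow_orderOf_eq_one]
  have h2 : q ^ orderOf (q * c) ∈ Subgroup.centralizer (Q : Set G) := by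
    rw [eq_inv_of_mul_eq_one_left h1]
    exact Subgroup.inv_mem _ (Subgroup.pow_mem _ hc _)
  obtain ⟨k, hk⟩ := hQ ⟨q, hq⟩
  have hk' : q ^ (p ^ k) = 1 := by
    have := congrArg Subtype.val hk
    simpa using this
  obtain ⟨j, hj⟩ := orderOf_eq_pow_of_pow_eq_one hp hk'
  have hcop : Nat.Coprime (orderOf (q * c)) (orderOf q) := by
    rw [hj]
    exact (Nat.Coprime.pow_left j ((Nat.Prime.coprime_iff_not_dvd hp).mpr hx2)).symm
  obtain ⟨m, hm⟩ := exists_pow_eq_self_of_coprime hcop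
  have h3 : q ∈ Subgroup.centralizer (Q : Set G) := by
    rw [← hm]
    exact Subgroup.pow_mem _ h2 _
  exact Subgroup.mul_mem _ h3 hc

variable [Fintype G]

theorem pair_le_defect [Fact p.Prime] (hM : IsPModular p M) {B : Set (IrrCharacter G)}
    {R : Subgroup G} {g : Set (IrrCharacter (Subgroup.centralizer (R : Set G)))}
    (h : IsBrauerPairOf p M B R g) : ∃ D, IsDefectGroup p M B D ∧ R ≤ D := by
  have hPr := isPrime_of_modular hM
  obtain ⟨ξ, hξ⟩ := block_nonempty hPr h.1.2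
  have h5 : ∃ y0 ∈ Subgroup.centralizer (R : Set G), ¬ MemLocalIdeal M (blockCoeff B y0) := by
    by_contra hcon
    push Not at hcon
    apply not_ideal_one hPr
    have h6 := bo_ideal R hPr (inv_of_classFunction (blockCoeff_classFunction B) _) hcon ξ
    have := ideal_sub hPr h6 (h.2.2 ξ hξ)
    simpa using this
  obtain ⟨y0, hy0C, hy0⟩ := h5
  exact le_defect_of_unit hM h.2.1 hy0 h.1.1 (le_centralizer_singleton_of_mem hy0C)

/-- the block of `Q C(Q)` over a block of `C(Q)` with defect group `Z(Q)` has defect group `Q` -/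
theorem defect_QC [Fact p.Prime] (hM : IsPModular p M) {Q L : Subgroup G}
    {f : Set (IrrCharacter (Subgroup.centralizer (Q : Set G)))} (hQf : IsBrauerPair p M Q f)
    (hZ : IsDefectGroup p M f
      ((Q ⊓ Subgroup.centralizer (Q : Set G)).subgroupOf (Subgroup.centralizer (Q : Set G))))
    (hL : L = Q ⊔ Subgroup.centralizer (Q : Set G))
    {F' : Set (IrrCharacter L)} (hF' : IsPBlock M F')
    (hFc : ∀ t : L, blockCoeff F' t =
      subgroupBlockCoeff (Subgroup.centralizer (Q : Set G)) f (t : G))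
    {D : Subgroup L} (hD : IsDefectGroup p M F' D) : D = Q.subgroupOf L := by
  have hPr := isPrime_of_modular hM
  have hQL : Q ≤ L := hL ▸ le_sup_left
  have hLN : L ≤ Subgroup.normalizer (Q : Set G) :=
    hL ▸ sup_le Subgroup.le_normalizer (centralizer_le_normalizer' Q)
  have h1 : Q.subgroupOf L ≤ D := normal_pGroup_le_defect hM hF' hD _
    ((Subgroup.normal_subgroupOf_iff_le_normalizer hQL).mpr hLN) hQf.1.comap_subtype
  obtain ⟨g0, hg0, hDle, -⟩ := isDefectGroup_iff.mp hD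
  have hDp := isPGroup_of_defect hD
  have hu : ¬ MemLocalIdeal M (subgroupBlockCoeff (Subgroup.centralizer (Q : Set G)) f (g0 : G)) := by
    rw [← hFc]; exact hg0.2.1
  have hg0C : (g0 : G) ∈ Subgroup.centralizer (Q : Set G) := by
    by_contra hcon
    apply hu
    rw [sbc_not_mem _ _ hcon]
    exact ideal_zero hPr
  have h2 := sbc_coe _ f ⟨(g0 : G), hg0C⟩
  simp only at h2
  rw [h2] at hu
  set DG := D.map L.subtype with hDG
  have hDGL : DG ≤ L := by rintro _ ⟨a, -, rfl⟩; exact a.2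
  have hQDG : Q ≤ DG := fun q hq => ⟨⟨q, hQL hq⟩, h1 (Subgroup.mem_subgroupOf.mpr hq), rfl⟩
  obtain ⟨Df, hDf, hle⟩ := le_defect_of_unit hM hQf.2 hu
    (A := DG.subgroupOf (Subgroup.centralizer (Q : Set G))) ((hDp.map _).comap_subtype) (by
      intro a ha
      rw [Subgroup.mem_subgroupOf] at ha
      obtain ⟨d, hd, hda⟩ := ha
      rw [Subgroup.mem_centralizer_singleton_iff]
      apply Subtype.ext
      have k := Subgroup.mem_centralizer_singleton_iff.mp (hDle hd)
      have k2 := congrArg (fun t : L => (t : G)) k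
      have hda' : (d : G) = a := hda
      show (a : G) * g0 = g0 * a
      rw [← hda']
      exact k2)
  have h3 : Nat.card (DG ⊓ Subgroup.centralizer (Q : Set G) : Subgroup G) ≤
      Nat.card (Q ⊓ Subgroup.centralizer (Q : Set G) : Subgroup G) := by
    calc Nat.card (DG ⊓ Subgroup.centralizer (Q : Set G) : Subgroup G)
        = Nat.card (DG.subgroupOf (Subgroup.centralizer (Q : Set G))) := by
          rw [← Subgroup.inf_subgroupOf_right]
          exact (Nat.card_congr (Subgroup.subgroupOfEquivOfLe inf_le_right).toEquiv).symm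
      _ ≤ Nat.card Df := Nat.card_le_card_of_injective _ (Subgroup.inclusion_injective hle)
      _ = _ := card_defect_eq hM hQf.2 hDf hZ
      _ = _ := card_subgroupOf_inf _ _
  have h4 := card_le_of_inf_le hQDG (hL ▸ hDGL)
    ((hDGL.trans hLN).trans (normalizer_le_normalizer_centralizer Q)) h3
  refine (Subgroup.eq_of_le_of_card_ge h1 ?_).symm
  rw [Nat.card_congr (Subgroup.subgroupOfEquivOfLe hQL).toEquiv]
  rw [hDG, Subgroup.card_map_of_injective (Subgroup.subtype_injective _)] at h4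
  exact h4

theorem nilpotent_QC [Fact p.Prime] (hM : IsPModular p M) {Q L : Subgroup G}
    {f : Set (IrrCharacter (Subgroup.centralizer (Q : Set G)))} (hQf : IsBrauerPair p M Q f)
    (hZ : IsDefectGroup p M f
      ((Q ⊓ Subgroup.centralizer (Q : Set G)).subgroupOf (Subgroup.centralizer (Q : Set G))))
    (hL : L = Q ⊔ Subgroup.centralizer (Q : Set G))
    {F' : Set (IrrCharacter L)} (hF' : IsPBlock M F')
    (hFc : ∀ t : L, blockCoeff F' t =
      subgroupBlockCoeff (Subgroup.centralizer (Q : Set G)) f (t : G)) :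
    IsNilpotentBlock p M F' := by
  have hp : p.Prime := Fact.out
  haveI : Fintype L := Fintype.ofFinite L
  refine ⟨hF', ?_⟩
  intro R' g' hR' x _ _ hxr
  obtain ⟨D, hD, hRD⟩ := pair_le_defect hM hR'
  rw [defect_QC hM hQf hZ hL hF' hFc hD] at hRD
  have hxC : (x : G) ∈ Subgroup.centralizer (Q : Set G) := by
    apply regular_mem_centralizer hp hQf.1 (hL ▸ x.2)
    unfold IsPRegular at hxr
    rwa [Subgroup.orderOf_coe]
  rw [Subgroup.mem_centralizer_iff]
  intro a ha
  apply Subtype.ext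
  exact Subgroup.mem_centralizer_iff.mp hxC a (Subgroup.mem_subgroupOf.mp (hRD ha))

/-- a block of `G` with the idempotent of a `G`-stable pair -/
theorem block_eq_of_stable [Fact p.Prime] (hM : IsPModular p M) {B : Set (IrrCharacter G)}
    {Q : Subgroup G} {f : Set (IrrCharacter (Subgroup.centralizer (Q : Set G)))}
    (hBf : IsBrauerPairOf p M B Q f)
    (hG : ∀ x : G, x ∈ Subgroup.normalizer (Q : Set G) ∧
      StabilizesBlock (Subgroup.centralizer (Q : Set G)) f x) (g : G) :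
    blockCoeff B g = subgroupBlockCoeff (Subgroup.centralizer (Q : Set G)) f g := by
  have hPr := isPrime_of_modular hM
  have hQf := hBf.1
  obtain ⟨F0, hF0, hF0c⟩ := stab_block hM hQf.1 hQf.2 (T := ⊤) le_top le_top
    (fun x _ => (hG x).1) (fun x _ => (stabilizes_iff_inv.mp (hG x).2).2)
  set FG := mapBlock (Subgroup.topEquiv (G := G)) F0 with hFG
  have hFGb : IsPBlock M FG := isPBlock_mapBlock _ hF0
  have hFGc : ∀ g : G, blockCoeff FG g =
      subgroupBlockCoeff (Subgroup.centralizer (Q : Set G)) f g := by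
    intro g
    rw [hFG, blockCoeff_mapBlock', hF0c]
    rfl
  have hpair : IsBrauerPairOf p M FG Q f := by
    refine ⟨hQf, hFGb, fun ξ hξ => ?_⟩
    have e1 : blockCoeff FG = subgroupBlockCoeff (Subgroup.centralizer (Q : Set G)) f :=
      funext hFGc
    rw [e1, bo_sbc, if_pos hξ, sub_self]
    exact ideal_zero hPr
  have := (existsUnique_block_of_pair hM hQf).unique hBf hpair
  rw [this]
  exact hFGc g

end Cfsg.Agent.Lib.Helper2_Centric
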