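import Mathlib

set_option autoImplicit false

namespace Cfsg.Agent.Lib.Helper2_CycAut

universe u

variable {G : Type u} [Group G] [Finite G] {p : ℕ}

theorem isPGroup_ker_unitsMap (hp : p.Prime) {N n : ℕ} (hN : N = p ^ n) (hn : 0 < n)
    (hdvd : p ∣ N) : IsPGroup p (ZMod.unitsMap hdvd).ker := by
  haveI : Fact p.Prime := ⟨hp⟩
  haveI : NeZero N := ⟨by rw [hN]; exact (pow_pos hp.pos n).ne'⟩
  have hs := ZMod.unitsMap_surjective hdvd
  have h1 : Nat.card (ZMod.unitsMap hdvd).ker * Nat.card (ZMod p)ˣ = Nat.card (ZMod N)ˣ := by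
    rw [← (ZMod.unitsMap hdvd).ker.card_mul_index, Subgroup.index_ker,
      MonoidHom.range_eq_top.mpr hs, Subgroup.card_top]
  rw [Nat.card_eq_fintype_card (α := (ZMod p)ˣ), ZMod.card_units,
    Nat.card_eq_fintype_card (α := (ZMod N)ˣ), ZMod.card_units_eq_totient] at h1
  have h0 : N.totient = p ^ (n - 1) * (p - 1) := by rw [hN, Nat.totient_prime_pow hp hn]
  rw [h0] at h1
  have h2 : 0 < p - 1 := by have := hp.two_le; omega
  exact IsPGroup.of_card (Nat.eq_of_mul_eq_mul_right h2 h1)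

theorem mem_of_pow_mem {C T : Subgroup G} (hp : p.Prime) [hn : (C.subgroupOf T).Normal]
    (hm : ¬ p ∣ C.relIndex T) {g : G} (hg : g ∈ T) {j : ℕ} (hj : g ^ (p ^ j) ∈ C) : g ∈ C := by
  have h1 : (⟨g, hg⟩ : T) ^ (C.subgroupOf T).index ∈ C.subgroupOf T :=
    Subgroup.pow_index_mem _ _
  have h2 : g ^ C.relIndex T ∈ C := h1
  have hco : (p ^ j).Coprime (C.relIndex T) :=
    Nat.Coprime.pow_left j ((Nat.Prime.coprime_iff_not_dvd hp).mpr hm)
  have h3 : ((1 : ℕ) : ℤ) = (p ^ j : ℕ) * Nat.gcdA (p ^ j) (C.relIndex T) +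
      (C.relIndex T : ℕ) * Nat.gcdB (p ^ j) (C.relIndex T) := by
    rw [← Nat.gcd_eq_gcd_ab, hco]
  have h4 : g = (g ^ (p ^ j)) ^ (Nat.gcdA (p ^ j) (C.relIndex T)) *
      (g ^ (C.relIndex T)) ^ (Nat.gcdB (p ^ j) (C.relIndex T)) := by
    rw [← zpow_natCast, ← zpow_natCast, ← zpow_mul, ← zpow_mul, ← zpow_add, ← h3]
    simp
  rw [h4]
  exact C.mul_mem (C.zpow_mem hj _) (C.zpow_mem h2 _)

theorem cyc_aut [Fact p.Prime] {P T : Subgroup G} (hP : IsPGroup p P) (hP1 : P ≠ ⊥)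
    (hcyc : IsCyclic P)
    (hTN : T ≤ Subgroup.normalizer (P : Set G))
    [hn : ((Subgroup.centralizer (P : Set G)).subgroupOf T).Normal]
    (hm : ¬ p ∣ (Subgroup.centralizer (P : Set G)).relIndex T) :
    IsCyclic (T ⧸ (Subgroup.centralizer (P : Set G)).subgroupOf T) ∧
      (Subgroup.centralizer (P : Set G)).relIndex T ∣ p - 1 := by
  have hp : p.Prime := Fact.out
  obtain ⟨n, hn'⟩ := IsPGroup.iff_card.mp hP
  have hn0 : 0 < n := by
    rcases Nat.eq_zero_or_pos n with h | h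
    · exfalso
      rw [h, pow_zero] at hn'
      exact hP1 (Subgroup.card_eq_one.mp hn')
    · exact h
  have hdvd : p ∣ Nat.card P := by rw [hn']; exact dvd_pow_self p hn0.ne'
  have hker := isPGroup_ker_unitsMap hp hn' hn0 hdvd
  set φ : T →* MulAut P := P.normalizerMonoidHom.comp (Subgroup.inclusion hTN) with hφ
  set f : T →* (ZMod p)ˣ :=
    (ZMod.unitsMap hdvd).comp ((IsCyclic.mulAutMulEquiv P).toMonoidHom.comp φ) with hf
  have hφker : ∀ t : T, φ t = 1 ↔ t ∈ (Subgroup.centralizer (P : Set G)).subgroupOf T := by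
    intro t
    have h1 : φ t = 1 ↔ Subgroup.inclusion hTN t ∈ P.normalizerMonoidHom.ker := by
      rw [MonoidHom.mem_ker]; rfl
    rw [h1, Subgroup.normalizerMonoidHom_ker, Subgroup.mem_subgroupOf, Subgroup.mem_subgroupOf]
    rfl
  have hfker : ∀ t : T, f t = 1 ↔ t ∈ (Subgroup.centralizer (P : Set G)).subgroupOf T := by
    intro t
    constructor
    · intro h
      have hu : (IsCyclic.mulAutMulEquiv P) (φ t) ∈ (ZMod.unitsMap hdvd).ker := h
      obtain ⟨j, hj⟩ := hker ⟨_, hu⟩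
      have hj' : ((IsCyclic.mulAutMulEquiv P) (φ t)) ^ (p ^ j) = 1 := congrArg Subtype.val hj
      rw [← map_pow, ← map_pow, map_eq_one_iff _ (IsCyclic.mulAutMulEquiv P).injective, hφker,
        Subgroup.mem_subgroupOf] at hj'
      rw [Subgroup.mem_subgroupOf]
      exact mem_of_pow_mem hp hm t.2 hj'
    · intro h
      have := (hφker t).mpr h
      simp only [hf, MonoidHom.comp_apply, this, map_one]
  set fbar : T ⧸ (Subgroup.centralizer (P : Set G)).subgroupOf T →* (ZMod p)ˣ :=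
    QuotientGroup.lift _ f (fun t ht => (hfker t).mpr ht) with hfbar
  have hinj : Function.Injective fbar := by
    rw [injective_iff_map_eq_one]
    intro a
    induction a using QuotientGroup.induction_on with
    | H t =>
      intro h
      have h1 : f t = 1 := h
      exact (QuotientGroup.eq_one_iff t).mpr ((hfker t).mp h1)
  refine ⟨isCyclic_of_injective fbar hinj, ?_⟩
  have h1 := Subgroup.card_dvd_of_injective fbar hinj
  rw [Nat.card_eq_fintype_card (α := (ZMod p)ˣ), ZMod.card_units] at h1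
  exact h1

theorem cyc_free [Fact p.Prime] {P T : Subgroup G} (hP : IsPGroup p P) (hcyc : IsCyclic P)
    (hTN : T ≤ Subgroup.normalizer (P : Set G))
    [hn : ((Subgroup.centralizer (P : Set G)).subgroupOf T).Normal]
    (hm : ¬ p ∣ (Subgroup.centralizer (P : Set G)).relIndex T)
    {g : G} (hg : g ∈ T) {x : G} (hx : x ∈ P) (hx1 : x ≠ 1) (hgx : g * x * g⁻¹ = x) :
    g ∈ Subgroup.centralizer (P : Set G) := by
  have hp : p.Prime := Fact.out
  obtain ⟨n, hn'⟩ := IsPGroup.iff_card.mp hP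
  obtain ⟨z, hz⟩ := hcyc.exists_generator
  have hgen : ∀ y ∈ P, ∃ i : ℕ, y = (z : G) ^ i := by
    intro y hy
    have h1 := hz ⟨y, hy⟩
    rw [← (isOfFinOrder_of_finite z).mem_powers_iff_mem_zpowers] at h1
    obtain ⟨i, hi⟩ := h1
    have hi' : z ^ i = ⟨y, hy⟩ := hi
    exact ⟨i, by rw [← Subgroup.coe_pow, hi']⟩
  have hgz : g * z * g⁻¹ ∈ P := (Subgroup.mem_normalizer_iff.mp (hTN hg) z).mp z.2
  obtain ⟨k, hk⟩ := hgen _ hgz
  have hk' : ∀ y ∈ P, g * y * g⁻¹ = y ^ k := by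
    intro y hy
    obtain ⟨i, rfl⟩ := hgen y hy
    rw [← conj_pow, hk, ← pow_mul, ← pow_mul, mul_comm]
  have hkj : ∀ j : ℕ, ∀ y ∈ P, g ^ j * y * (g ^ j)⁻¹ = y ^ (k ^ j) := by
    intro j
    induction j with
    | zero => intro y _; simp
    | succ j ih =>
      intro y hy
      have e1 : g ^ (j + 1) * y * (g ^ (j + 1))⁻¹ = g * (g ^ j * y * (g ^ j)⁻¹) * g⁻¹ := by
        rw [pow_succ']; group
      rw [e1, ih y hy, hk' _ (P.pow_mem hy _), ← pow_mul, pow_succ]
  have h1 : x ^ k = x ^ 1 := by rw [← hk' x hx, hgx, pow_one]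
  have h2 : k ≡ 1 [MOD orderOf x] := pow_eq_pow_iff_modEq.mp h1
  have h3 : p ∣ orderOf x := by
    obtain ⟨i, hi⟩ := hP ⟨x, hx⟩
    have hi' : x ^ (p ^ i) = 1 := congrArg Subtype.val hi
    obtain ⟨l, -, hl⟩ := (Nat.dvd_prime_pow hp).mp (orderOf_dvd_of_pow_eq_one hi')
    rw [hl]
    apply dvd_pow_self
    rintro rfl
    rw [pow_zero, orderOf_eq_one_iff] at hl
    exact hx1 hl
  have h4 : k ≡ 1 [MOD p] := h2.of_dvd h3
  have h5 : (p : ℤ) ∣ (k : ℤ) - 1 := by
    have := (Nat.modEq_iff_dvd.mp h4.symm)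
    simpa using this
  have h6 := dvd_sub_pow_of_dvd_sub h5 n
  rw [one_pow] at h6
  have h7 : k ^ (p ^ n) ≡ 1 [MOD p ^ n] := by
    apply Nat.ModEq.symm
    rw [Nat.modEq_iff_dvd]
    push_cast
    exact (pow_dvd_pow (p : ℤ) (Nat.le_succ n)).trans h6
  apply mem_of_pow_mem hp hm hg (j := n)
  rw [Subgroup.mem_centralizer_iff]
  intro y hy
  have h8 := hkj (p ^ n) y hy
  have h9 : y ^ (k ^ (p ^ n)) = y ^ 1 := by
    rw [pow_eq_pow_iff_modEq]
    apply h7.of_dvd
    rw [← hn']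
    have : orderOf (⟨y, hy⟩ : P) ∣ Nat.card P := orderOf_dvd_natCard _
    rwa [← Subgroup.orderOf_coe] at this
  rw [h9, pow_one] at h8
  calc y * g ^ (p ^ n) = (g ^ (p ^ n) * y * (g ^ (p ^ n))⁻¹) * g ^ (p ^ n) := by rw [h8]
    _ = g ^ (p ^ n) * y := by group

end Cfsg.Agent.Lib.Helper2_CycAut
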