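import Mathlib
import Cfsg.Prelude.Def_BrauerPairs
import Cfsg.Agent.Lib.Helper2_Fong
import Cfsg.Agent.Lib.Helper2_BlockDefOrder

set_option autoImplicit false

namespace Cfsg.Agent.Lib.Helper2_Fong2

open Cfsg Cfsg.Agent.Lib.Helper2_BlockLocal Cfsg.Agent.Lib.Helper2_BlockOm
  Cfsg.Agent.Lib.Helper2_BlockOsima Cfsg.Agent.Lib.Helper2_BlockBasic
  Cfsg.Agent.Lib.Helper2_BlockOrtho Cfsg.Agent.Lib.Helper2_BlockMinMax
  Cfsg.Agent.Lib.Helper2_BlockInd Cfsg.Agent.Lib.Helper2_BlockDefect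
  Cfsg.Agent.Lib.Helper2_BlockPCore Cfsg.Agent.Lib.Helper2_BlockNormal
  Cfsg.Agent.Lib.Helper2_BlockBrauer Cfsg.Agent.Lib.Helper2_BlockFMT
  Cfsg.Agent.Lib.Helper2_BrauerPairs Cfsg.Agent.Lib.Helper2_SecondMain
  Cfsg.Agent.Lib.Helper2_BP1 Cfsg.Agent.Lib.Helper2_BP2 Cfsg.Agent.Lib.Helper2_BP3
  Cfsg.Agent.Lib.Helper2_BP4 Cfsg.Agent.Lib.Helper2_BP5 Cfsg.Agent.Lib.Helper2_BP6
  Cfsg.Agent.Lib.Helper2_BP7 Cfsg.Agent.Lib.Helper2_BP8 Cfsg.Agent.Lib.Helper2_BP9
  Cfsg.Agent.Lib.Helper2_BP10 Cfsg.Agent.Lib.Helper2_BP11 Cfsg.Agent.Lib.Helper2_BP12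
  Cfsg.Agent.Lib.Helper2_BP13 Cfsg.Agent.Lib.Helper2_BP14 Cfsg.Agent.Lib.Helper2_Fong
  Cfsg.Agent.Lib.Helper2_BlockSection Cfsg.Agent.Lib.Helper2_EA
  Cfsg.Agent.Lib.Helper2_BlockDefOrder
  Cfsg.Agent.Lib.Helper2_BlockCover2 Cfsg.Agent.Lib.Helper2_Basic
  Cfsg.Agent.Lib.CharBasic Cfsg.Agent.Lib.CharOrtho
  Cfsg.Agent.Lib.CharComplete Cfsg.Agent.Lib.CharIntegral Cfsg.Agent.Lib.CharMore
  Cfsg.Agent.Lib.CharPerm Cfsg.Agent.Lib.CharInd
open scoped ComplexConjugate Classical
open Relation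

universe u

variable {M : Ideal AlgInt} {p : ℕ} {G : Type u} [Group G] [Fintype G]

omit [Fintype G] in
theorem card_subgroupOf_inf' (A C : Subgroup G) :
    Nat.card ((A ⊓ C).subgroupOf C) = Nat.card (A ⊓ C : Subgroup G) :=
  Nat.card_congr (Subgroup.subgroupOfEquivOfLe inf_le_right).toEquiv

theorem Om_idem {c : G → ℂ} (hc : IsClassFunction G c) (hi : conv c c = c)
    (χ : IrrCharacter G) : Om c (χ : G → ℂ) = 0 ∨ Om c (χ : G → ℂ) = 1 := by
  have h := Om_conv (c := c) hc χ.2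
  rw [hi] at h
  have h2 : Om c (χ : G → ℂ) * (Om c (χ : G → ℂ) - 1) = 0 := by linear_combination -h
  rcases mul_eq_zero.mp h2 with h3 | h3
  · exact Or.inl h3
  · exact Or.inr (sub_eq_zero.mp h3)

theorem Om_idem_block (hM : M.IsPrime) {c : G → ℂ} (hc : IsClassFunction G c)
    (hcR : ∀ g, MemLocalRing M (c g)) (hi : conv c c = c) {B : Set (IrrCharacter G)}
    (hB : IsPBlock M B) {χ ψ : IrrCharacter G} (hχ : χ ∈ B) (hψ : ψ ∈ B)
    (h : Om c (χ : G → ℂ) = 1) : Om c (ψ : G → ℂ) = 1 := by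
  have h1 := Om_congr hM hc hcR (irr_classFunction χ) (irr_classFunction ψ)
    (sameBlock_of_mem hM hB hχ hψ)
  rcases Om_idem hc hi ψ with h2 | h2
  · exfalso
    rw [h, h2, sub_zero] at h1
    exact not_ideal_one hM h1
  · exact h2

theorem exists_block_of_idem (hM : M.IsPrime) {c : G → ℂ} (hc : IsClassFunction G c)
    (hcR : ∀ g, MemLocalRing M (c g)) (hi : conv c c = c) {y : G}
    (hy : ¬ MemLocalIdeal M (c y)) :
    ∃ B' : Set (IrrCharacter G), IsPBlock M B' ∧ ¬ MemLocalIdeal M (blockCoeff B' y) ∧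
      ∀ χ ∈ B', Om c (χ : G → ℂ) = 1 := by
  have key : c = ∑ B' ∈ blocks M G,
      (if ∀ χ ∈ B', Om c (χ : G → ℂ) = 1 then blockCoeff B' else 0) := by
    apply eq_of_Om_eq hc
    · apply classFunction_sum
      intro B' _
      split_ifs
      · exact blockCoeff_classFunction B'
      · exact fun _ _ => rfl
    intro ψ
    rw [Om_sum, Finset.sum_eq_single (blockOf M (ψ : G → ℂ))]
    · have hBψ : IsPBlock M (blockOf M (ψ : G → ℂ)) := ⟨ψ, rfl⟩
      split_ifs with h
      · rw [Om_blockCoeff, if_pos (self_mem_blockOf hM ψ), h ψ (self_mem_blockOf hM ψ)]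
      · rw [Om_zero]
        rcases Om_idem hc hi ψ with h2 | h2
        · exact h2
        · exfalso
          apply h
          intro χ hχ
          exact Om_idem_block hM hc hcR hi hBψ (self_mem_blockOf hM ψ) hχ h2
    · intro B' hB' hne
      split_ifs
      · rw [Om_blockCoeff, if_neg]
        intro h
        exact hne (block_eq_blockOf hM (mem_blocks.mp hB') h)
      · exact Om_zero _
    · intro h
      exact absurd (mem_blocks.mpr ⟨ψ, rfl⟩) h
  by_contra hcon
  push Not at hcon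
  apply hy
  rw [key, Finset.sum_apply]
  apply ideal_sum hM
  intro B' hB'
  split_ifs with h
  · by_contra h2
    obtain ⟨χ, hχ, hne⟩ := hcon B' (mem_blocks.mp hB') h2
    exact hne (h χ hχ)
  · exact ideal_zero hM

theorem exists_unit_of_conv (hM : IsPModular p M) {Q : Subgroup G} (hQ : IsPGroup p Q)
    {a c : G → ℂ} (ha : Inv Q a) (hc : Inv Q c) (haR : ∀ g, MemLocalRing M (a g))
    (hcR : ∀ g, MemLocalRing M (c g)) (hac : conv a c = a) {y0 : G}
    (hy0 : y0 ∈ Subgroup.centralizer (Q : Set G)) (hy0' : ¬ MemLocalIdeal M (a y0)) :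
    ∃ z ∈ Subgroup.centralizer (Q : Set G), ¬ MemLocalIdeal M (c z) := by
  have hPr := isPrime_of_modular hM
  by_contra hcon
  push Not at hcon
  apply hy0'
  have h1 := brauer_mul hM hQ (H := Subgroup.centralizer (Q : Set G)) le_rfl ha hc haR hcR
    ⟨y0, hy0⟩
  rw [hac] at h1
  have h2 : trunc Q (Subgroup.centralizer (Q : Set G)) a ⟨y0, hy0⟩ = a y0 := by
    unfold trunc
    rw [if_pos hy0]
  rw [h2] at h1
  have h3 : MemLocalIdeal M (conv (trunc Q (Subgroup.centralizer (Q : Set G)) a)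
      (trunc Q (Subgroup.centralizer (Q : Set G)) c) ⟨y0, hy0⟩) := by
    unfold conv
    apply ideal_sum hPr
    intro x _
    apply ideal_mul_left hPr (trunc_ring hPr _ _ haR _)
    unfold trunc
    rw [if_pos (Subtype.property _)]
    exact hcon _ (Subtype.property _)
  have := ideal_add hPr h1 h3
  simpa using this

theorem fong [Fact p.Prime] (hM : IsPModular p M) (N : Subgroup G) (hN : N.Normal) [Fintype N]
    {b : Set (IrrCharacter N)} (hb : IsPBlock M b) (hA : Stable N hN b)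
    {B : Set (IrrCharacter G)} (hB : IsPBlock M B)
    (hcov : ∃ χ ∈ B, ∃ θ ∈ b, classInner (fun n : N => (χ : G → ℂ) n) (θ : N → ℂ) ≠ 0)
    (hmax : ∀ B' : Set (IrrCharacter G), IsPBlock M B' →
      (∃ χ ∈ B', ∃ θ ∈ b, classInner (fun n : N => (χ : G → ℂ) n) (θ : N → ℂ) ≠ 0) →
      blockDefect p B' ≤ blockDefect p B) {P : Subgroup G} (hP : IsDefectGroup p M B P) :
    ¬ p ∣ (P ⊔ N).index ∧ IsDefectGroup p M b ((P ⊓ N).subgroupOf N) ∧
      blockDefect p B = blockDefect p b + N.index.factorization p := by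
  have hp : p.Prime := Fact.out
  have hPr := isPrime_of_modular hM
  set ε := extCoeff N b with hε
  have hεc : IsClassFunction G ε := extCoeff_classFunction N hN hA
  have hεR : ∀ g, MemLocalRing M (ε g) := ext_ring N hPr (osima_block hPr hb)
  have hεi : conv ε ε = ε := by
    rw [hε]; unfold extCoeff; rw [conv_ext, conv_blockCoeff_self]
  have hsbc : subgroupBlockCoeff N b = ε := sbc_eq_ext N b
  have hNtop : (⊤ : Subgroup G) ≤ Subgroup.normalizer (N : Set G) := by
    rw [Subgroup.normalizer_eq_top]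
  obtain ⟨y, hy, hcard⟩ := fong_card hM (K := N) (T := ⊤) le_top hNtop hb
    (by rw [hsbc]; exact inv_of_classFunction hεc ⊤)
  rw [Subgroup.card_top, inf_top_eq] at hcard
  have hεy : ¬ MemLocalIdeal M (ε y) := by
    rw [hε]; unfold extCoeff; rw [extendByZero_coe]; exact hy.2.1
  obtain ⟨B', hB', hB'y, hB'1⟩ := exists_block_of_idem hPr hεc hεR hεi hεy
  have hcov' : ∃ χ ∈ B', ∃ θ ∈ b,
      classInner (fun n : N => (χ : G → ℂ) n) (θ : N → ℂ) ≠ 0 := by
    obtain ⟨χ, hχ⟩ := block_nonempty hPr hB'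
    obtain ⟨θ, hθ⟩ := exists_under N χ
    refine ⟨χ, hχ, θ, ?_, hθ⟩
    have h1 := Om_extCoeff N hN hA χ θ hθ
    rw [← hε, hB'1 χ hχ] at h1
    by_contra hc
    rw [if_neg hc] at h1
    exact one_ne_zero h1
  have h1 := hmax B' hB' hcov'
  -- `d(B') ≥ ν |C(y)|`
  have h2 : (Nat.card (Subgroup.centralizer ({(y : G)} : Set G))).factorization p ≤
      blockDefect p B' := by
    obtain ⟨S⟩ : Nonempty (Sylow p (Subgroup.centralizer ({(y : G)} : Set G))) := inferInstance
    obtain ⟨D1, hD1, hle⟩ := le_defect_of_unit hM hB' hB'y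
      (A := (S : Subgroup (Subgroup.centralizer ({(y : G)} : Set G))).map
        (Subgroup.centralizer ({(y : G)} : Set G)).subtype) (S.2.map _)
      (by rintro _ ⟨a, -, rfl⟩; exact a.2)
    have h3 := Nat.card_le_card_of_injective _ (Subgroup.inclusion_injective hle)
    rw [Subgroup.card_map_of_injective (Subgroup.subtype_injective _),
      Sylow.card_eq_multiplicity, card_defectGroup hM hB' hD1] at h3
    exact (Nat.pow_le_pow_iff_right hp.one_lt).mp h3
  have hdb : blockDefect p b =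
      (Nat.card (Subgroup.centralizer ({(y : G)} : Set G) ⊓ N : Subgroup G)).factorization p := by
    rw [blockDefect_eq hM hb hy, card_centralizer_sub]
  -- `B` lies over `b`
  have hBX : ∀ χ ∈ B, Om ε (χ : G → ℂ) = 1 := by
    obtain ⟨χ0, hχ0, θ0, hθ0, h0⟩ := hcov
    have h3 := Om_extCoeff N hN hA χ0 θ0 h0
    rw [if_pos hθ0, ← hε] at h3
    intro χ hχ
    exact Om_idem_block hPr hεc hεR hεi hB hχ0 hχ h3
  have hconv : conv (blockCoeff B) ε = blockCoeff B := by
    apply eq_of_Om_eq (conv_classFunction (blockCoeff_classFunction B) hεc)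
      (blockCoeff_classFunction B)
    intro χ
    rw [Om_conv hεc χ.2, Om_blockCoeff]
    by_cases hχ : χ ∈ B
    · rw [if_pos hχ, hBX χ hχ, mul_one]
    · rw [if_neg hχ, zero_mul]
  obtain ⟨g0, hg0, hPle, -⟩ := isDefectGroup_iff.mp hP
  have hPp := isPGroup_of_defect hP
  have hg0C : g0 ∈ Subgroup.centralizer ((P ⊓ N : Subgroup G) : Set G) :=
    centralizer_anti inf_le_left (mem_centralizer_of_le hPle)
  obtain ⟨z, hz, hz0⟩ := exists_unit_of_conv hM (Q := P ⊓ N) (hPp.to_le inf_le_left)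
    (inv_of_classFunction (blockCoeff_classFunction B) _) (inv_of_classFunction hεc _)
    (osima_block hPr hB) hεR hconv hg0C hg0.2.1
  have hzN : z ∈ N := by
    by_contra h
    apply hz0
    rw [hε]; unfold extCoeff; rw [extendByZero_not_mem N _ h]
    exact ideal_zero hPr
  have hz1 : ¬ MemLocalIdeal M (blockCoeff b ⟨z, hzN⟩) := by
    rw [hε] at hz0; unfold extCoeff at hz0; rw [extendByZero_mem N _ hzN] at hz0
    exact hz0
  obtain ⟨D', hD', hle⟩ := le_defect_of_unit hM hb hz1 (A := (P ⊓ N).subgroupOf N)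
    ((hPp.to_le inf_le_left).comap_subtype) (by
      intro a ha
      rw [Subgroup.mem_subgroupOf] at ha
      rw [Subgroup.mem_centralizer_singleton_iff]
      apply Subtype.ext
      exact Subgroup.mem_centralizer_iff.mp hz a ha)
  -- cardinalities
  obtain ⟨k, hk⟩ := IsPGroup.iff_card.mp (hPp.to_le (inf_le_left : P ⊓ N ≤ P))
  have hcP := card_defectGroup hM hB hP
  have hcD' := card_defectGroup hM hb hD'
  have hcs : Nat.card ((P ⊓ N).subgroupOf N) = Nat.card (P ⊓ N : Subgroup G) :=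
    card_subgroupOf_inf' P N
  have hk1 : k ≤ blockDefect p b := by
    have h3 := Nat.card_le_card_of_injective _ (Subgroup.inclusion_injective hle)
    rw [hcs, hk, hcD'] at h3
    exact (Nat.pow_le_pow_iff_right hp.one_lt).mp h3
  have h4 := card_sup_mul_card_inf P N (le_top.trans hNtop)
  have h5 := congrArg (fun n => n.factorization p) h4
  beta_reduce at h5
  rw [Nat.factorization_mul Nat.card_pos.ne' Nat.card_pos.ne',
    Nat.factorization_mul Nat.card_pos.ne' Nat.card_pos.ne', Finsupp.add_apply,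
    Finsupp.add_apply, hk, hcP, hp.factorization_pow, hp.factorization_pow,
    Finsupp.single_eq_same, Finsupp.single_eq_same] at h5
  have h6 := (P ⊔ N).card_mul_index
  have h7 := congrArg (fun n => n.factorization p) h6
  beta_reduce at h7
  rw [Nat.factorization_mul Nat.card_pos.ne' Subgroup.index_ne_zero_of_finite,
    Finsupp.add_apply] at h7
  have h8 := N.card_mul_index
  have h9 := congrArg (fun n => n.factorization p) h8
  beta_reduce at h9
  rw [Nat.factorization_mul Nat.card_pos.ne' Subgroup.index_ne_zero_of_finite,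
    Finsupp.add_apply] at h9
  rw [← hdb] at hcard
  refine ⟨?_, ?_, by omega⟩
  · intro hdvd
    have := (hp.dvd_iff_one_le_factorization Subgroup.index_ne_zero_of_finite).mp hdvd
    omega
  · have hkd : k = blockDefect p b := by omega
    have heq := Subgroup.eq_of_le_of_card_ge hle (by rw [hcs, hk, hcD', hkd])
    rw [heq]
    exact hD'

end Cfsg.Agent.Lib.Helper2_Fong2
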