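import Mathlib
import Cfsg.Agent.Lib.helper8_Height2

set_option autoImplicit false

namespace Cfsg.Agent.Lib.Helper2_HtRes

open Cfsg Cfsg.Agent.Lib.CharBasic Cfsg.Agent.Lib.CharOrtho
  Cfsg.Agent.Lib.CharComplete Cfsg.Agent.Lib.CharIntegral Cfsg.Agent.Lib.CharMore
  Cfsg.Agent.Lib.CharInd Cfsg.Agent.Lib.CharGen
  Cfsg.Agent.Lib.helper8_BlockRank Cfsg.Agent.Lib.helper8_RegularPart
  Cfsg.Agent.Lib.helper8_BlockSum Cfsg.Agent.Lib.helper8_Defect
  Cfsg.Agent.Lib.Helper2_BlockLocal Cfsg.Agent.Lib.Helper2_BlockOm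
  Cfsg.Agent.Lib.Helper2_Necklace2 Cfsg.Agent.Lib.helper8_Height Cfsg.Agent.Lib.Helper2_BlockInd
  Cfsg.Agent.Lib.helper8_Height2
open scoped ComplexConjugate Classical

universe u

variable {G : Type u} [Group G] [Fintype G] {p : ℕ} {M : Ideal AlgInt}

/-- `QH` expanded along the constituents of the restriction. -/
theorem QH_expand (H : Subgroup G) [Fintype H] (ψ : IrrCharacter H) (χ : IrrCharacter G)
    (m : IrrCharacter H → ℕ)
    (hm : ∀ ξ : IrrCharacter H, classInner (fun h : H => (χ : G → ℂ) h) (ξ : H → ℂ) = (m ξ : ℂ)) :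
    QH p H ψ χ = ∑ ξ : IrrCharacter H, (m ξ : ℂ) * Q p ψ ξ := by
  have hexp : ∀ h : H, (χ : G → ℂ) h = ∑ ξ : IrrCharacter H, (m ξ : ℂ) * (ξ : H → ℂ) h := by
    intro h
    have := congrFun (char_expansion (isCharacter_restrict H (isCharacter_of_isIrr χ.2))) h
    rw [Finset.sum_apply] at this
    rw [this]
    refine Finset.sum_congr rfl fun ξ _ => ?_
    rw [Pi.smul_apply, smul_eq_mul, hm]
  have hc : ∀ h : H, pRegularPart p (fun g => conj ((χ : G → ℂ) g)) (h : G) =
      ∑ ξ : IrrCharacter H, (m ξ : ℂ) * pRegularPart p (fun g => conj ((ξ : H → ℂ) g)) h := by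
    intro h
    by_cases hh : p ∣ orderOf h
    · rw [pRegularPart_singular _ (by rw [Subgroup.orderOf_coe]; exact hh)]
      symm
      apply Finset.sum_eq_zero
      intro ξ _
      rw [pRegularPart_singular _ hh, mul_zero]
    · rw [pRegularPart_regular _ (by rw [Subgroup.orderOf_coe]; exact hh), hexp, map_sum]
      refine Finset.sum_congr rfl fun ξ _ => ?_
      rw [pRegularPart_regular _ hh, map_mul, Complex.conj_natCast]
  unfold QH Q Om
  simp only [hc, Finset.sum_mul]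
  rw [Finset.sum_comm, Finset.sum_div]
  refine Finset.sum_congr rfl fun ξ _ => ?_
  rw [mul_div_assoc', Finset.mul_sum]
  congr 1
  refine Finset.sum_congr rfl fun h _ => ?_
  ring

/-- `Q` vanishes across blocks. -/
theorem Q_eq_zero (hM : IsPModular p M) {B : Set (IrrCharacter G)} (hB : IsPBlock M B)
    {χ ψ : IrrCharacter G} (hχ : χ ∈ B) (hψ : ψ ∉ B) : Q p χ ψ = 0 := by
  have h3 := Q_eq hM.1 χ ψ
  rw [nn_eq_zero hM hB hχ hψ] at h3
  obtain ⟨hd0, -, -⟩ := irr_charDegree χ.2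
  have hd0' : (charDegree (χ : G → ℂ) : ℂ) ≠ 0 := by exact_mod_cast hd0.ne'
  simpa [hd0'] using h3

/-- If `b` induces `B` and `χ ∈ B` has height zero, some height zero `ξ ∈ b` has multiplicity
prime to `p` in the restriction of `χ`. -/
theorem exists_height_zero_under (hM : IsPModular p M) {H : Subgroup G} [Fintype H]
    {b : Set (IrrCharacter H)} {B : Set (IrrCharacter G)} (hind : IsInducedBlock M H b B)
    {χ : IrrCharacter G} (hχ : χ ∈ B) (h0 : blockHeight p B (χ : G → ℂ) = 0) :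
    ∃ ξ ∈ b, blockHeight p b (ξ : H → ℂ) = 0 ∧ ∃ n : ℕ,
      classInner (fun h : H => (χ : G → ℂ) h) (ξ : H → ℂ) = (n : ℂ) ∧ ¬ p ∣ n := by
  have hP := isPrime_of_modular hM
  have hb := hind.1
  choose m hm using fun ξ : IrrCharacter H =>
    classInner_char_nat (isCharacter_restrict H (isCharacter_of_isIrr χ.2))
      (isCharacter_of_isIrr ξ.2)
  obtain ⟨ψ, hψ, hψmin⟩ := exists_min hP p hb
  have hunit := QH_unit hM hind hψ hχ h0
  by_contra hcon
  push Not at hcon
  apply hunit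
  rw [QH_expand H ψ χ m hm]
  apply ideal_sum hP
  intro ξ _
  by_cases hξ : ξ ∈ b
  · by_cases hh : blockHeight p b (ξ : H → ℂ) = 0
    · exact ideal_mul_right hP ((ideal_natCast_iff hM _).mpr (hcon ξ hξ hh (m ξ) (hm ξ)))
        (Q_ring hP p ψ ξ)
    · apply ideal_mul_left hP (ring_natCast hP _)
      by_contra hn
      apply (unit_iff hM ψ ξ).mp hn
      refine (pow_dvd_pow (p : ℤ) ?_).trans (dvd_nn' hM.1 ψ ξ)
      rw [blockHeight_eq] at hh
      omega
  · rw [Q_eq_zero hM hb hψ hξ, mul_zero]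
    exact ideal_zero hP

/-- If `χ` restricts irreducibly to a height zero character `ψ` of `H` whose block induces a
block of `G`, that block contains `χ`. -/
theorem mem_of_irr_restrict (hM : IsPModular p M) {H : Subgroup G} [Fintype H]
    {b : Set (IrrCharacter H)} {B : Set (IrrCharacter G)} (hind : IsInducedBlock M H b B)
    {χ : IrrCharacter G} {ψ : IrrCharacter H} (hψ : ψ ∈ b)
    (hres : ∀ h : H, (ψ : H → ℂ) h = (χ : G → ℂ) h)
    (h0 : blockHeight p b (ψ : H → ℂ) = 0) : χ ∈ B := by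
  have hP := isPrime_of_modular hM
  have hb := hind.1
  by_contra hχ
  have h1 := QH_ideal hM hind hψ hχ
  have hfun : (fun h : H => (χ : G → ℂ) h) = (ψ : H → ℂ) := funext fun h => (hres h).symm
  rw [QH_expand H ψ χ (fun ξ => if ξ = ψ then 1 else 0) (by
    intro ξ
    rw [hfun]
    by_cases hξ : ξ = ψ
    · rw [if_pos hξ, hξ, classInner_irr_self ψ.2]; simp
    · rw [if_neg hξ, classInner_irr_ne ψ.2 ξ.2 (fun h => hξ (Subtype.ext h).symm)]; simp)] at h1
  rw [Finset.sum_eq_single ψ (by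
    intro ξ _ hξ
    rw [if_neg hξ]; simp) (by intro h; exact absurd (Finset.mem_univ _) h)] at h1
  rw [if_pos rfl, Nat.cast_one, one_mul] at h1
  refine (unit_iff hM ψ ψ).mpr ?_ h1
  apply height_zero_val hM hb hψ hψ
  intro φ hφ
  rw [blockHeight_eq] at h0
  have := mu_le p hφ
  omega

end Cfsg.Agent.Lib.Helper2_HtRes
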