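import Mathlib
import Cfsg.Prelude.Def_OddOrderLocal

set_option autoImplicit false

namespace Cfsg.Agent.Lib.Helper2_PiCore

open Cfsg
open scoped Classical

universe u

variable {G : Type u} [Group G]

/-- all prime divisors of the order lie in `σ` -/
def PiG (σ : Set ℕ) (K : Subgroup G) : Prop := ∀ q : ℕ, q.Prime → q ∣ Nat.card K → q ∈ σ

theorem piG_mono {σ : Set ℕ} {H K : Subgroup G} (h : H ≤ K) (hK : PiG σ K) : PiG σ H :=
  fun q hq hd => hK q hq (hd.trans (Subgroup.card_dvd_of_le h))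

theorem piG_sup {σ : Set ℕ} {H K : Subgroup G} (hK : K.Normal) (h1 : PiG σ H)
    (h2 : PiG σ K) : PiG σ (H ⊔ K) := by
  intro q hq hdv
  have e1 : Nat.card (H ⊔ K : Subgroup G) = Nat.card K * K.relIndex (H ⊔ K) := by
    have := (K.subgroupOf (H ⊔ K)).card_mul_index
    rw [Nat.card_congr (Subgroup.subgroupOfEquivOfLe (le_sup_right : K ≤ H ⊔ K)).toEquiv] at this
    exact this.symm
  rw [e1, Subgroup.relIndex_sup_right] at hdv
  rcases (Nat.Prime.dvd_mul hq).mp hdv with h | h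
  · exact h2 q hq h
  · exact h1 q hq (h.trans (Subgroup.relIndex_dvd_card _ _))

theorem piG_bot (σ : Set ℕ) : PiG σ (⊥ : Subgroup G) := by
  intro q hq hd
  rw [Subgroup.card_bot] at hd
  exact absurd (Nat.dvd_one.mp hd) hq.one_lt.ne'

theorem piCore_piG [Finite G] (σ : Set ℕ) : PiG σ (piCore σ G) := by
  set S : Set (Subgroup G) := {N : Subgroup G | N.Normal ∧ ∀ p : ℕ, p.Prime → p ∣ Nat.card N → p ∈ σ}
    with hS
  have e : piCore σ G = (Set.toFinite S).toFinset.sup id := by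
    rw [Finset.sup_id_eq_sSup]
    simp only [Set.Finite.coe_toFinset]
    rfl
  have key : ((Set.toFinite S).toFinset.sup id).Normal ∧ PiG σ ((Set.toFinite S).toFinset.sup id) := by
    refine Finset.sup_induction (p := fun N : Subgroup G => N.Normal ∧ PiG σ N) ?_ ?_ ?_
    · exact ⟨Subgroup.normal_bot, piG_bot σ⟩
    · rintro a ⟨ha1, ha2⟩ b ⟨hb1, hb2⟩
      exact ⟨Subgroup.sup_normal a b, piG_sup hb1 ha2 hb2⟩
    · intro b hb
      have hb' : b ∈ S := (Set.Finite.mem_toFinset _).mp hb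
      exact hb'
  rw [e]
  exact key.2

/-- `O_σ(X)` as a subgroup of `G` -/
def pc (σ : Set ℕ) (X : Subgroup G) : Subgroup G := (piCore σ X).map X.subtype

theorem pc_le (σ : Set ℕ) (X : Subgroup G) : pc σ X ≤ X := by
  rintro _ ⟨x, -, rfl⟩
  exact x.2

theorem mem_pc {σ : Set ℕ} {X : Subgroup G} (x : X) : (x : G) ∈ pc σ X ↔ x ∈ piCore σ X := by
  constructor
  · rintro ⟨y, hy, hyx⟩
    have : y = x := Subtype.ext hyx
    rwa [← this]
  · intro h
    exact ⟨x, h, rfl⟩

theorem pc_piG [Finite G] (σ : Set ℕ) (X : Subgroup G) : PiG σ (pc σ X) := by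
  intro q hq hd
  unfold pc at hd
  rw [Subgroup.card_map_of_injective (Subgroup.subtype_injective _)] at hd
  exact piCore_piG σ q hq hd

theorem le_pc {σ : Set ℕ} {K X : Subgroup G} (hKX : K ≤ X)
    (hN : X ≤ Subgroup.normalizer (K : Set G)) (hK : PiG σ K) : K ≤ pc σ X := by
  have h1 : (K.subgroupOf X).Normal := (Subgroup.normal_subgroupOf_iff_le_normalizer hKX).mpr hN
  have h2 : K.subgroupOf X ≤ piCore σ X := by
    apply le_sSup
    refine ⟨h1, ?_⟩
    intro q hq hd
    rw [Nat.card_congr (Subgroup.subgroupOfEquivOfLe hKX).toEquiv] at hd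
    exact hK q hq hd
  intro k hk
  exact (mem_pc (⟨k, hKX hk⟩ : X)).mpr (h2 (Subgroup.mem_subgroupOf.mpr hk))

theorem le_normalizer_pc (σ : Set ℕ) (X : Subgroup G) :
    X ≤ Subgroup.normalizer ((pc σ X : Subgroup G) : Set G) := by
  intro x hx
  rw [Subgroup.mem_normalizer_iff]
  intro k
  constructor
  · intro hk
    have hkX := pc_le σ X hk
    have h1 := (mem_pc (⟨k, hkX⟩ : X)).mp hk
    have h2 := (piCore_normal σ X).conj_mem _ h1 ⟨x, hx⟩
    exact (mem_pc _).mpr h2
  · intro hk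
    have hkX := pc_le σ X hk
    have h1 := (mem_pc (⟨x * k * x⁻¹, hkX⟩ : X)).mp hk
    have h2 := (piCore_normal σ X).conj_mem _ h1 ⟨x, hx⟩⁻¹
    have h3 := (mem_pc _).mpr h2
    have e : ((⟨x, hx⟩⁻¹ * (⟨x * k * x⁻¹, hkX⟩ : X) * (⟨x, hx⟩⁻¹ : X)⁻¹ : X) : G) = k := by
      simp only [Subgroup.coe_mul, Subgroup.coe_inv]
      group
    rwa [e] at h3

theorem map_conj_pc_le [Finite G] (σ : Set ℕ) (X : Subgroup G) (g : G) :
    (pc σ X).map (MulAut.conj g).toMonoidHom ≤ pc σ (X.map (MulAut.conj g).toMonoidHom) := by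
  apply le_pc
  · exact Subgroup.map_mono (pc_le σ X)
  · rintro _ ⟨x, hx, rfl⟩
    have hx' := le_normalizer_pc σ X hx
    rw [Subgroup.mem_normalizer_iff] at hx' ⊢
    intro k
    simp only [MulEquiv.coe_toMonoidHom, MulAut.conj_apply, Subgroup.mem_map]
    constructor
    · rintro ⟨y, hy, rfl⟩
      refine ⟨x * y * x⁻¹, (hx' y).mp hy, ?_⟩
      group
    · rintro ⟨y, hy, hyk⟩
      refine ⟨x⁻¹ * y * x, ?_, ?_⟩
      · apply (hx' _).mpr
        have e : x * (x⁻¹ * y * x) * x⁻¹ = y := by group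
        rw [e]; exact hy
      · have e : k = (g * x * g⁻¹)⁻¹ * (g * y * g⁻¹) * (g * x * g⁻¹) := by
          rw [hyk]; group
        rw [e]; group
  · intro q hq hd
    rw [Subgroup.card_map_of_injective (MulAut.conj g).injective] at hd
    exact pc_piG σ X q hq hd

theorem mem_pc_conj [Finite G] (σ : Set ℕ) (X : Subgroup G) (g k : G) :
    k ∈ pc σ (X.map (MulAut.conj g).toMonoidHom) ↔ g⁻¹ * k * g ∈ pc σ X := by
  constructor
  · intro hk
    have h1 := map_conj_pc_le σ (X.map (MulAut.conj g).toMonoidHom) g⁻¹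
    have e : (X.map (MulAut.conj g).toMonoidHom).map (MulAut.conj g⁻¹).toMonoidHom = X := by
      ext y
      simp only [Subgroup.mem_map, MulEquiv.coe_toMonoidHom, MulAut.conj_apply, exists_exists_and_eq_and]
      constructor
      · rintro ⟨a, ha, rfl⟩
        have : g⁻¹ * (g * a * g⁻¹) * g⁻¹⁻¹ = a := by group
        rwa [this]
      · intro hy
        exact ⟨y, hy, by group⟩
    rw [e] at h1
    apply h1
    exact ⟨k, hk, by simp⟩
  · intro hk
    apply map_conj_pc_le σ X g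
    exact ⟨g⁻¹ * k * g, hk, by simp only [MulEquiv.coe_toMonoidHom, MulAut.conj_apply]; group⟩

theorem normalizer_le_normalizer_pc [Finite G] (σ : Set ℕ) (X : Subgroup G) :
    Subgroup.normalizer (X : Set G) ≤ Subgroup.normalizer ((pc σ X : Subgroup G) : Set G) := by
  intro g hg
  have e : X.map (MulAut.conj g).toMonoidHom = X := by
    ext y
    simp only [Subgroup.mem_map, MulEquiv.coe_toMonoidHom, MulAut.conj_apply]
    rw [Subgroup.mem_normalizer_iff] at hg
    constructor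
    · rintro ⟨a, ha, rfl⟩
      exact (hg a).mp ha
    · intro hy
      refine ⟨g⁻¹ * y * g, ?_, by group⟩
      apply (hg _).mpr
      have : g * (g⁻¹ * y * g) * g⁻¹ = y := by group
      rw [this]; exact hy
  rw [Subgroup.mem_normalizer_iff]
  intro k
  have h1 := mem_pc_conj σ X g (g * k * g⁻¹)
  rw [e] at h1
  have e2 : g⁻¹ * (g * k * g⁻¹) * g = k := by group
  rw [e2] at h1
  exact h1.symm

theorem prime_of_mem {σ : Set ℕ} {K : Subgroup G} (hK : PiG σ K) {x : G} (hx : x ∈ K)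
    {q : ℕ} (hq : q.Prime) (hd : q ∣ orderOf x) : q ∈ σ := by
  apply hK q hq
  apply hd.trans
  have := orderOf_dvd_natCard (⟨x, hx⟩ : K)
  rwa [Subgroup.orderOf_mk] at this

theorem not_dvd_card {σ : Set ℕ} {K : Subgroup G} (hK : PiG σ K) {p : ℕ} (hp : p.Prime)
    (hpσ : p ∉ σ) : ¬ p ∣ Nat.card K := fun h => hpσ (hK p hp h)

end Cfsg.Agent.Lib.Helper2_PiCore
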