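import Mathlib
import Cfsg.Agent.Lib.Helper2_RealBlock
import Cfsg.Agent.Lib.Helper2_PiCore
import Cfsg.Agent.Lib.CharKer
import Cfsg.Agent.Lib.CharQuot

set_option autoImplicit false

namespace Cfsg.Agent.Lib.Helper2_KerPair1

open Cfsg Cfsg.Agent.Lib.Helper2_BlockLocal Cfsg.Agent.Lib.Helper2_BlockOm
  Cfsg.Agent.Lib.Helper2_BlockOsima Cfsg.Agent.Lib.Helper2_BlockBasic
  Cfsg.Agent.Lib.Helper2_BlockOrtho Cfsg.Agent.Lib.Helper2_BlockMinMax
  Cfsg.Agent.Lib.Helper2_BlockInd Cfsg.Agent.Lib.Helper2_BlockDefect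
  Cfsg.Agent.Lib.Helper2_BlockPCore Cfsg.Agent.Lib.Helper2_BlockNormal
  Cfsg.Agent.Lib.Helper2_BlockBrauer Cfsg.Agent.Lib.Helper2_BlockFMT
  Cfsg.Agent.Lib.Helper2_BrauerPairs Cfsg.Agent.Lib.Helper2_SecondMain
  Cfsg.Agent.Lib.Helper2_BP1 Cfsg.Agent.Lib.Helper2_BP2 Cfsg.Agent.Lib.Helper2_BP3
  Cfsg.Agent.Lib.Helper2_BP4 Cfsg.Agent.Lib.Helper2_BP5 Cfsg.Agent.Lib.Helper2_BP6
  Cfsg.Agent.Lib.Helper2_BP7 Cfsg.Agent.Lib.Helper2_BP8 Cfsg.Agent.Lib.Helper2_BP9
  Cfsg.Agent.Lib.Helper2_BP10 Cfsg.Agent.Lib.Helper2_BP11 Cfsg.Agent.Lib.Helper2_BP12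
  Cfsg.Agent.Lib.Helper2_BP13 Cfsg.Agent.Lib.Helper2_BP14 Cfsg.Agent.Lib.Helper2_BP15
  Cfsg.Agent.Lib.Helper2_ExtFMT
  Cfsg.Agent.Lib.Helper2_Fong Cfsg.Agent.Lib.Helper2_EA Cfsg.Agent.Lib.Helper2_MaxPair
  Cfsg.Agent.Lib.Helper2_MaxPair2 Cfsg.Agent.Lib.Helper2_Down Cfsg.Agent.Lib.Helper2_RelConj
  Cfsg.Agent.Lib.Helper2_BlockSection
  Cfsg.Agent.Lib.Helper2_BlockCover2 Cfsg.Agent.Lib.Helper2_Basic
  Cfsg.Agent.Lib.CharBasic Cfsg.Agent.Lib.CharOrtho
  Cfsg.Agent.Lib.CharComplete Cfsg.Agent.Lib.CharIntegral Cfsg.Agent.Lib.CharMore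
  Cfsg.Agent.Lib.CharPerm Cfsg.Agent.Lib.CharInd
open scoped ComplexConjugate Classical
open Relation
open Cfsg.Agent.Lib.Helper2_AbDef Cfsg.FusionSystem Cfsg.Agent.Lib.Helper2_BFS1
  Cfsg.Agent.Lib.Helper2_BP17 Cfsg.Agent.Lib.Helper2_BlockDefOrder Cfsg.Agent.Lib.Helper2_BFS2
  Cfsg.Agent.Lib.Helper2_BFS3 Cfsg.Agent.Lib.Helper2_PPart Cfsg.Agent.Lib.Helper2_Nilp
open Cfsg.Agent.Lib.Helper2_PExt1 Cfsg.Agent.Lib.Helper2_BlockQuot Cfsg.Agent.Lib.Helper2_BlockThird
open Cfsg.Agent.Lib.Helper2_PiCore Cfsg.Agent.Lib.CharKer Cfsg.Agent.Lib.CharQuot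

universe u

variable {M : Ideal AlgInt} {p : ℕ}

section abs

variable {H : Type u} [Group H] [Fintype H]

/-- indicator function of a subgroup -/
noncomputable def uK (K : Subgroup H) : H → ℂ := fun g => if g ∈ K then 1 else 0

/-- right invariance under a subgroup -/
def RInv (a : H → ℂ) (K : Subgroup H) : Prop := ∀ g, ∀ k ∈ K, a (g * k) = a g

theorem sum_uK (K : Subgroup H) : ∑ g, uK K g = (Nat.card K : ℂ) := by
  unfold uK
  rw [Finset.sum_boole, Nat.card_eq_fintype_card, Fintype.card_subtype]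

theorem conv_uK_of_rinv {a : H → ℂ} {K : Subgroup H} (h : RInv a K) :
    conv a (uK K) = (Nat.card K : ℂ) • a := by
  funext g
  unfold conv
  have h1 : ∀ x : H, a x * uK K (x⁻¹ * g) = a g * uK K (x⁻¹ * g) := by
    intro x
    by_cases hx : x⁻¹ * g ∈ K
    · have := h g (x⁻¹ * g)⁻¹ (K.inv_mem hx)
      have e : g * (x⁻¹ * g)⁻¹ = x := by group
      rw [e] at this
      rw [this]
    · unfold uK
      rw [if_neg hx, mul_zero, mul_zero]
  rw [Finset.sum_congr rfl fun x _ => h1 x, ← Finset.mul_sum]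
  have h2 : ∑ x, uK K (x⁻¹ * g) = ∑ y, uK K y :=
    Equiv.sum_comp ((Equiv.inv H).trans (Equiv.mulRight g)) (uK K)
  rw [h2, sum_uK, Pi.smul_apply, smul_eq_mul, mul_comm]

theorem rinv_uK (K : Subgroup H) : RInv (uK K) K := by
  intro g k hk
  unfold uK
  have : g * k ∈ K ↔ g ∈ K := Subgroup.mul_mem_cancel_right K hk
  simp only [this]

theorem uK_classFunction (K : Subgroup H) (hK : K.Normal) : IsClassFunction H (uK K) := by
  intro g y
  unfold uK
  have : y * g * y⁻¹ ∈ K ↔ g ∈ K := hK.mem_comm_iff.trans (by rw [inv_mul_cancel_left])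
  simp only [this]

theorem uK_ring (hPr : M.IsPrime) (K : Subgroup H) (g : H) : MemLocalRing M (uK K g) := by
  unfold uK
  split_ifs
  · exact ring_one hPr
  · exact ring_zero hPr

theorem Om_uK (K : Subgroup H) (hK : K.Normal) (ξ : IrrCharacter H) :
    Om (uK K) (ξ : H → ℂ) = if (∀ k ∈ K, (ξ : H → ℂ) k = (ξ : H → ℂ) 1) then (Nat.card K : ℂ)
      else 0 := by
  have hξ1 := irr_degree_ne_zero ξ.2
  have hξc := isCharacter_of_isIrr ξ.2
  split_ifs with hker
  · unfold Om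
    have h1 : ∀ g, uK K g * (ξ : H → ℂ) g = uK K g * (ξ : H → ℂ) 1 := by
      intro g
      by_cases hg : g ∈ K
      · rw [hker g hg]
      · unfold uK; rw [if_neg hg, zero_mul, zero_mul]
    rw [Finset.sum_congr rfl fun g _ => h1 g, ← Finset.sum_mul, sum_uK]
    field_simp
  · have h1 := Om_conv (c := uK K) (uK_classFunction K hK) ξ.2
    rw [conv_uK_of_rinv (rinv_uK K), Om_smul] at h1
    have h2 : Om (uK K) (ξ : H → ℂ) = 0 ∨ Om (uK K) (ξ : H → ℂ) = (Nat.card K : ℂ) := by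
      by_cases h0 : Om (uK K) (ξ : H → ℂ) = 0
      · exact Or.inl h0
      · exact Or.inr (mul_right_cancel₀ h0 h1).symm
    rcases h2 with h2 | h2
    · exact h2
    · exfalso
      apply hker
      unfold Om at h2
      rw [div_eq_iff hξ1] at h2
      have h3 : ∑ g, uK K g * ((ξ : H → ℂ) 1 - (ξ : H → ℂ) g) = 0 := by
        simp only [mul_sub]
        rw [Finset.sum_sub_distrib, h2, ← Finset.sum_mul, sum_uK, sub_self]
      have h4 := congrArg Complex.re h3
      rw [Complex.re_sum, Complex.zero_re] at h4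
      have h5 : ∀ g ∈ Finset.univ, 0 ≤ (uK K g * ((ξ : H → ℂ) 1 - (ξ : H → ℂ) g)).re := by
        intro g _
        unfold uK
        split_ifs
        · rw [one_mul, Complex.sub_re]
          have := re_le_degree hξc g
          linarith
        · rw [zero_mul, Complex.zero_re]
      have h6 := (Finset.sum_eq_zero_iff_of_nonneg h5).mp h4
      intro k hk
      have h7 := h6 k (Finset.mem_univ k)
      unfold uK at h7
      rw [if_pos hk, one_mul, Complex.sub_re] at h7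
      exact eq_degree_of_re_eq hξc (by linarith)

theorem ker_dichotomy (hM : IsPModular p M) (K : Subgroup H) (hK : K.Normal)
    (hpK : ¬ p ∣ Nat.card K) {b : Set (IrrCharacter H)} (hb : IsPBlock M b)
    {ξ ξ' : IrrCharacter H} (hξ : ξ ∈ b) (hξ' : ξ' ∈ b)
    (h : ∀ k ∈ K, (ξ : H → ℂ) k = (ξ : H → ℂ) 1) :
    ∀ k ∈ K, (ξ' : H → ℂ) k = (ξ' : H → ℂ) 1 := by
  have hPr := isPrime_of_modular hM
  have h1 := Om_congr hPr (uK_classFunction K hK) (uK_ring hPr K) (irr_classFunction ξ)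
    (irr_classFunction ξ') (sameBlock_of_mem hPr hb hξ hξ')
  rw [Om_uK K hK, Om_uK K hK, if_pos h] at h1
  by_contra hcon
  rw [if_neg hcon, sub_zero] at h1
  exact hpK ((ideal_natCast_iff hM _).mp h1)

theorem rinv_blockCoeff {F : Set (IrrCharacter H)} {K : Subgroup H}
    (h : ∀ ξ ∈ F, ∀ k ∈ K, (ξ : H → ℂ) k = (ξ : H → ℂ) 1) : RInv (blockCoeff F) K := by
  intro g k hk
  rw [blockCoeff_eq, blockCoeff_eq]
  congr 1
  refine Finset.sum_congr rfl fun χ _ => ?_
  by_cases hχ : χ ∈ F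
  · rw [char_mul_right_of_ker (isCharacter_of_isIrr χ.2) (h χ hχ k hk)]
  · unfold ind
    rw [if_neg (by simpa using hχ), mul_zero, mul_zero]

theorem ker_of_rinv {F : Set (IrrCharacter H)} {K : Subgroup H} (hK : K.Normal)
    (h : RInv (blockCoeff F) K) : ∀ ξ ∈ F, ∀ k ∈ K, (ξ : H → ℂ) k = (ξ : H → ℂ) 1 := by
  intro ξ hξ
  have h1 := Om_conv (c := blockCoeff F) (uK_classFunction K hK) ξ.2
  rw [conv_uK_of_rinv h, Om_smul, Om_blockCoeff, if_pos hξ, mul_one, one_mul, Om_uK K hK] at h1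
  by_contra hcon
  rw [if_neg hcon] at h1
  have : (Nat.card K : ℂ) ≠ 0 := by exact_mod_cast Nat.card_pos.ne'
  exact this h1

theorem conv_eq_zero (hM : IsPModular p M) (K : Subgroup H) (hK : K.Normal)
    (hpK : ¬ p ∣ Nat.card K) {F : Set (IrrCharacter H)} (hF : IsPBlock M F)
    (h : ¬ ∀ ξ ∈ F, ∀ k ∈ K, (ξ : H → ℂ) k = (ξ : H → ℂ) 1) :
    conv (blockCoeff F) (uK K) = 0 := by
  funext g
  rw [Om_inversion (conv_classFunction (blockCoeff_classFunction F) (uK_classFunction K hK)) g]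
  have h1 : ∀ χ : IrrCharacter H, Om (conv (blockCoeff F) (uK K)) (χ : H → ℂ) = 0 := by
    intro χ
    rw [Om_conv (uK_classFunction K hK) χ.2, Om_blockCoeff, Om_uK K hK]
    by_cases hχ : χ ∈ F
    · have hn : ¬ ∀ k ∈ K, (χ : H → ℂ) k = (χ : H → ℂ) 1 := by
        intro hk
        exact h fun ξ hξ => ker_dichotomy hM K hK hpK hF hχ hξ hk
      rw [if_neg hn, mul_zero]
    · rw [if_neg hχ, zero_mul]
  simp only [h1, mul_zero, Finset.sum_const_zero, Pi.zero_apply]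

end abs

section sub

variable {G : Type u} [Group G] [Fintype G]

/-- the elements of `K` lying in `X` are in the kernel of `ξ` -/
def KerOn {X : Subgroup G} (K : Subgroup G) (ξ : X → ℂ) : Prop :=
  ∀ x : X, (x : G) ∈ K → ξ x = ξ 1

theorem uK_restrict (X K : Subgroup G) : (fun x : X => uK K (x : G)) = uK (K.subgroupOf X) := by
  funext x
  unfold uK
  simp only [Subgroup.mem_subgroupOf]

theorem card_subgroupOf_dvd (X K : Subgroup G) : Nat.card (K.subgroupOf X) ∣ Nat.card K := by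
  rw [← Subgroup.card_map_of_injective (Subgroup.subtype_injective X), Subgroup.subgroupOf_map_subtype]
  exact Subgroup.card_dvd_of_le inf_le_left

theorem Om_uK_sub {X K : Subgroup G} (hN : X ≤ Subgroup.normalizer (K : Set G))
    (ξ : IrrCharacter X) :
    Om (fun x : X => uK K (x : G)) (ξ : X → ℂ) =
      if KerOn K (ξ : X → ℂ) then (Nat.card (K.subgroupOf X) : ℂ) else 0 := by
  rw [uK_restrict, Om_uK _ (Subgroup.normal_subgroupOf_of_le_normalizer hN)]
  have : (∀ k ∈ K.subgroupOf X, (ξ : X → ℂ) k = (ξ : X → ℂ) 1) ↔ KerOn K (ξ : X → ℂ) := Iff.rfl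
  simp only [this]

theorem kerOn_dichotomy (hM : IsPModular p M) {X K : Subgroup G}
    (hN : X ≤ Subgroup.normalizer (K : Set G)) (hpK : ¬ p ∣ Nat.card K)
    {b : Set (IrrCharacter X)} (hb : IsPBlock M b) {ξ ξ' : IrrCharacter X} (hξ : ξ ∈ b)
    (hξ' : ξ' ∈ b) (h : KerOn K (ξ : X → ℂ)) : KerOn K (ξ' : X → ℂ) :=
  ker_dichotomy hM (K.subgroupOf X) (Subgroup.normal_subgroupOf_of_le_normalizer hN)
    (fun hd => hpK (hd.trans (card_subgroupOf_dvd X K))) hb hξ hξ' h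

theorem rinv_sbc {X K : Subgroup G} (hKX : K ≤ X) {F : Set (IrrCharacter X)}
    (h : ∀ ξ ∈ F, KerOn K (ξ : X → ℂ)) : RInv (subgroupBlockCoeff X F) K := by
  intro g k hk
  by_cases hg : g ∈ X
  · have h1 := rinv_blockCoeff (F := F) (K := K.subgroupOf X) h ⟨g, hg⟩ ⟨k, hKX hk⟩
      (Subgroup.mem_subgroupOf.mpr hk)
    have h2 := sbc_coe X F (⟨g, hg⟩ * ⟨k, hKX hk⟩)
    have h3 := sbc_coe X F ⟨g, hg⟩
    simp only [Subgroup.coe_mul] at h2 h3
    rw [h2, h3, h1]
  · have hgk : g * k ∉ X := fun h' => hg ((Subgroup.mul_mem_cancel_right X (hKX hk)).mp h')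
    rw [sbc_not_mem _ _ hg, sbc_not_mem _ _ hgk]

theorem kerOn_of_rinv {X K : Subgroup G} (hN : X ≤ Subgroup.normalizer (K : Set G))
    {F : Set (IrrCharacter X)} (h : RInv (subgroupBlockCoeff X F) K) :
    ∀ ξ ∈ F, KerOn K (ξ : X → ℂ) := by
  apply ker_of_rinv (K := K.subgroupOf X) (Subgroup.normal_subgroupOf_of_le_normalizer hN)
  intro g k hk
  have h1 := h (g : G) (k : G) (Subgroup.mem_subgroupOf.mp hk)
  have h2 := sbc_coe X F (g * k)
  have h3 := sbc_coe X F g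
  simp only [Subgroup.coe_mul] at h2
  rw [← h2, ← h3, h1]

theorem uK_eq_ext {X K : Subgroup G} (hKX : K ≤ X) :
    uK K = extendByZero X (uK (K.subgroupOf X)) := by
  funext g
  by_cases hg : g ∈ X
  · rw [extendByZero_mem X _ hg]
    unfold uK
    simp only [Subgroup.mem_subgroupOf]
  · rw [extendByZero_not_mem X _ hg]
    unfold uK
    rw [if_neg (fun h => hg (hKX h))]

theorem conv_sbc_zero (hM : IsPModular p M) {X K : Subgroup G} (hKX : K ≤ X)
    (hN : X ≤ Subgroup.normalizer (K : Set G)) (hpK : ¬ p ∣ Nat.card K)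
    {F : Set (IrrCharacter X)} (hF : IsPBlock M F) (h : ¬ ∀ ξ ∈ F, KerOn K (ξ : X → ℂ)) :
    conv (subgroupBlockCoeff X F) (uK K) = 0 := by
  rw [sbc_eq_ext, uK_eq_ext hKX, conv_ext,
    conv_eq_zero hM (K.subgroupOf X) (Subgroup.normal_subgroupOf_of_le_normalizer hN)
      (fun hd => hpK (hd.trans (card_subgroupOf_dvd X K))) hF h]
  funext g
  by_cases hg : g ∈ X
  · rw [extendByZero_mem X _ hg]; rfl
  · rw [extendByZero_not_mem X _ hg]; rfl

theorem inv_uK {L K : Subgroup G} (h : L ≤ Subgroup.normalizer (K : Set G)) : Inv L (uK K) := by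
  intro y hy x
  unfold uK
  have := (Subgroup.mem_normalizer_iff.mp (h hy) x)
  simp only [← this]

/-- The kernel condition passes through the Brauer map. -/
theorem ker_brauer (hM : IsPModular p M) {X K R : Subgroup G} (hKX : K ≤ X)
    (hN : X ≤ Subgroup.normalizer (K : Set G)) (hpK : ¬ p ∣ Nat.card K)
    {F : Set (IrrCharacter X)} (hF : IsPBlock M F) (hR : IsPGroup p R)
    (hCX : Subgroup.centralizer (R : Set G) ≤ X) (hRK : R ≤ Subgroup.normalizer (K : Set G))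
    (hRF : Inv R (subgroupBlockCoeff X F))
    (ζ : IrrCharacter (Subgroup.centralizer (R : Set G)))
    (hζ : MemLocalIdeal M (brauerOmega R (subgroupBlockCoeff X F) (ζ : _ → ℂ) - 1)) :
    (∀ ξ ∈ F, KerOn K (ξ : X → ℂ)) ↔ KerOn K (ζ : Subgroup.centralizer (R : Set G) → ℂ) := by
  have hPr := isPrime_of_modular hM
  have hCK : Subgroup.centralizer (R : Set G) ≤ Subgroup.normalizer (K : Set G) := hCX.trans hN
  have h1 := bo_mul hM hR hRF (inv_uK hRK) (inv_mono hCX (sbc_inv X F)) (inv_uK hCK)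
    (sbc_ring hPr hF) (uK_ring hPr K) ζ
  have h2 : brauerOmega R (uK K) (ζ : _ → ℂ) = if KerOn K (ζ : Subgroup.centralizer (R : Set G) → ℂ)
      then (Nat.card (K.subgroupOf (Subgroup.centralizer (R : Set G))) : ℂ) else 0 := by
    rw [bo_eq, Om_uK_sub hCK]
  have hunit : ¬ MemLocalIdeal M (brauerOmega R (subgroupBlockCoeff X F) (ζ : _ → ℂ)) :=
    not_ideal_of_sub hPr hζ (not_ideal_one hPr)
  have hring : MemLocalRing M (brauerOmega R (subgroupBlockCoeff X F) (ζ : _ → ℂ)) :=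
    bo_ring R hPr (inv_mono hCX (sbc_inv X F)) (sbc_ring hPr hF) ζ
  constructor
  · intro h
    by_contra hcon
    rw [conv_uK_of_rinv (rinv_sbc hKX h), bo_smul, h2, if_neg hcon, mul_zero, sub_zero] at h1
    rcases ideal_mul_mem hPr (ring_natCast hPr _) hring h1 with h3 | h3
    · exact hpK ((ideal_natCast_iff hM _).mp h3)
    · exact hunit h3
  · intro h
    by_contra hcon
    rw [conv_sbc_zero hM hKX hN hpK hF hcon, bo_zero, h2, if_pos h, zero_sub] at h1
    have h1' := ideal_neg h1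
    rw [neg_neg] at h1'
    rcases ideal_mul_mem hPr hring (ring_natCast hPr _) h1' with h3 | h3
    · exact hunit h3
    · exact hpK (((ideal_natCast_iff hM _).mp h3).trans (card_subgroupOf_dvd _ K))

end sub

end Cfsg.Agent.Lib.Helper2_KerPair1
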