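import Mathlib
import Cfsg.Agent.Lib.Helper2_KerPair1

set_option autoImplicit false

namespace Cfsg.Agent.Lib.Helper2_KerPair2

open Cfsg Cfsg.Agent.Lib.Helper2_BlockLocal Cfsg.Agent.Lib.Helper2_BlockOm
  Cfsg.Agent.Lib.Helper2_BlockOsima Cfsg.Agent.Lib.Helper2_BlockBasic
  Cfsg.Agent.Lib.Helper2_BlockOrtho Cfsg.Agent.Lib.Helper2_BlockMinMax
  Cfsg.Agent.Lib.Helper2_BlockInd Cfsg.Agent.Lib.Helper2_BlockDefect
  Cfsg.Agent.Lib.Helper2_BlockPCore Cfsg.Agent.Lib.Helper2_BlockNormal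
  Cfsg.Agent.Lib.Helper2_BlockBrauer Cfsg.Agent.Lib.Helper2_BlockFMT
  Cfsg.Agent.Lib.Helper2_BrauerPairs Cfsg.Agent.Lib.Helper2_SecondMain
  Cfsg.Agent.Lib.Helper2_BP1 Cfsg.Agent.Lib.Helper2_BP2 Cfsg.Agent.Lib.Helper2_BP3
  Cfsg.Agent.Lib.Helper2_BP4 Cfsg.Agent.Lib.Helper2_BP5 Cfsg.Agent.Lib.Helper2_BP6
  Cfsg.Agent.Lib.Helper2_BP7 Cfsg.Agent.Lib.Helper2_BP8 Cfsg.Agent.Lib.Helper2_BP9
  Cfsg.Agent.Lib.Helper2_BP10 Cfsg.Agent.Lib.Helper2_BP11 Cfsg.Agent.Lib.Helper2_BP12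
  Cfsg.Agent.Lib.Helper2_BP13 Cfsg.Agent.Lib.Helper2_BP14 Cfsg.Agent.Lib.Helper2_BP15
  Cfsg.Agent.Lib.Helper2_ExtFMT
  Cfsg.Agent.Lib.Helper2_Fong Cfsg.Agent.Lib.Helper2_EA Cfsg.Agent.Lib.Helper2_MaxPair
  Cfsg.Agent.Lib.Helper2_MaxPair2 Cfsg.Agent.Lib.Helper2_Down Cfsg.Agent.Lib.Helper2_RelConj
  Cfsg.Agent.Lib.Helper2_BlockSection
  Cfsg.Agent.Lib.Helper2_BlockCover2 Cfsg.Agent.Lib.Helper2_Basic
  Cfsg.Agent.Lib.CharBasic Cfsg.Agent.Lib.CharOrtho
  Cfsg.Agent.Lib.CharComplete Cfsg.Agent.Lib.CharIntegral Cfsg.Agent.Lib.CharMore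
  Cfsg.Agent.Lib.CharPerm Cfsg.Agent.Lib.CharInd
open scoped ComplexConjugate Classical
open Relation
open Cfsg.Agent.Lib.Helper2_AbDef Cfsg.FusionSystem Cfsg.Agent.Lib.Helper2_BFS1
  Cfsg.Agent.Lib.Helper2_BP17 Cfsg.Agent.Lib.Helper2_BlockDefOrder Cfsg.Agent.Lib.Helper2_BFS2
  Cfsg.Agent.Lib.Helper2_BFS3 Cfsg.Agent.Lib.Helper2_PPart Cfsg.Agent.Lib.Helper2_Nilp
open Cfsg.Agent.Lib.Helper2_PExt1 Cfsg.Agent.Lib.Helper2_BlockQuot Cfsg.Agent.Lib.Helper2_BlockThird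
open Cfsg.Agent.Lib.Helper2_PiCore Cfsg.Agent.Lib.CharKer Cfsg.Agent.Lib.CharQuot
  Cfsg.Agent.Lib.Helper2_KerPair1

universe u

variable {M : Ideal AlgInt} {p : ℕ} {G : Type u} [Group G] [Fintype G]

/-- the `σ`-core of the centralizer lies in the kernel of the block of the pair -/
def PD (σ : Set ℕ) (a : BrauerPairIdx G) : Prop :=
  RInv (eps a) (pc σ (Subgroup.centralizer (a.1 : Set G)))

/-- the centralizer has a normal Hall `σ`-subgroup, lying in the kernel of the block -/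
def PA (σ : Set ℕ) (a : BrauerPairIdx G) : Prop :=
  (∀ x ∈ Subgroup.centralizer (a.1 : Set G), (∀ q : ℕ, q.Prime → q ∣ orderOf x → q ∈ σ) →
    x ∈ pc σ (Subgroup.centralizer (a.1 : Set G))) ∧ PD σ a

theorem inf_le_pc (σ : Set ℕ) {X Y : Subgroup G} (hYX : Y ≤ X) : pc σ X ⊓ Y ≤ pc σ Y := by
  apply le_pc inf_le_right
  · intro y hy
    have h1 := le_normalizer_pc σ X (hYX hy)
    rw [Subgroup.mem_normalizer_iff] at h1 ⊢
    intro k
    constructor
    · rintro ⟨hk1, hk2⟩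
      exact ⟨(h1 k).mp hk1, Y.mul_mem (Y.mul_mem hy hk2) (Y.inv_mem hy)⟩
    · rintro ⟨hk1, hk2⟩
      refine ⟨(h1 k).mpr hk1, ?_⟩
      have := Y.mul_mem (Y.mul_mem (Y.inv_mem hy) hk2) hy
      have e : y⁻¹ * (y * k * y⁻¹) * y = k := by group
      rwa [e] at this
  · exact piG_mono inf_le_left (pc_piG σ X)

theorem step_data (hM : IsPModular p M) {σ : Set ℕ} (hpσ : p ∉ σ) {a b : BrauerPairIdx G}
    (h : NormalSubpairRel p M a b) (ζ : IrrCharacter (Subgroup.centralizer (b.1 : Set G)))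
    (hζ : ζ ∈ b.2) :
    (∀ ξ ∈ a.2, KerOn (pc σ (Subgroup.centralizer (a.1 : Set G)))
      (ξ : Subgroup.centralizer (a.1 : Set G) → ℂ)) ↔
      KerOn (pc σ (Subgroup.centralizer (a.1 : Set G)))
        (ζ : Subgroup.centralizer (b.1 : Set G) → ℂ) := by
  obtain ⟨hQf, hPe, hQP, hPN, hst, hbo⟩ := h
  apply ker_brauer hM (pc_le σ _) (le_normalizer_pc σ _)
    (not_dvd_card (pc_piG σ _) hM.1 hpσ) hQf.2 hPe.1 (Subgroup.centralizer_le hQP)
    ((hPN.trans (normalizer_le_normalizer_centralizer a.1)).trans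
      (normalizer_le_normalizer_pc σ _))
  · intro y hy x
    exact (stabilizes_iff_inv.mp (hst y hy)).2 x
  · exact hbo ζ hζ

theorem pd_desc (hM : IsPModular p M) {σ : Set ℕ} (hpσ : p ∉ σ) {a b : BrauerPairIdx G}
    (h : NormalSubpairRel p M a b) (hb : PD σ b) : PD σ a := by
  have hPr := isPrime_of_modular hM
  obtain ⟨ζ, hζ⟩ := block_nonempty hPr h.2.1.2
  apply rinv_sbc (pc_le σ _)
  apply (step_data hM hpσ h ζ hζ).mpr
  have h1 := kerOn_of_rinv (le_normalizer_pc σ _) hb ζ hζ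
  intro x hx
  exact h1 x (inf_le_pc σ (Subgroup.centralizer_le h.2.2.1) ⟨hx, x.2⟩)

theorem pa_asc (hM : IsPModular p M) {σ : Set ℕ} (hpσ : p ∉ σ) {a b : BrauerPairIdx G}
    (h : NormalSubpairRel p M a b) (ha : PA σ a) : PA σ b := by
  have hle : Subgroup.centralizer (b.1 : Set G) ≤ Subgroup.centralizer (a.1 : Set G) :=
    Subgroup.centralizer_le h.2.2.1
  refine ⟨fun x hx hq => inf_le_pc σ hle ⟨ha.1 x (hle hx) hq, hx⟩, ?_⟩
  apply rinv_sbc (pc_le σ _)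
  intro ζ hζ
  have h1 := (step_data hM hpσ h ζ hζ).mp (kerOn_of_rinv (le_normalizer_pc σ _) ha.2)
  intro x hx
  apply h1 x
  exact ha.1 x (hle x.2) (fun q hq hd => prime_of_mem (pc_piG σ _) hx hq hd)

theorem pd_rtg (hM : IsPModular p M) {σ : Set ℕ} (hpσ : p ∉ σ) {a b : BrauerPairIdx G}
    (h : ReflTransGen (NormalSubpairRel p M) a b) (hb : PD σ b) : PD σ a := by
  induction h using Relation.ReflTransGen.head_induction_on with
  | refl => exact hb
  | head h1 _ ih => exact pd_desc hM hpσ h1 ih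

theorem pa_rtg (hM : IsPModular p M) {σ : Set ℕ} (hpσ : p ∉ σ) {a b : BrauerPairIdx G}
    (h : ReflTransGen (NormalSubpairRel p M) a b) (ha : PA σ a) : PA σ b := by
  induction h with
  | refl => exact ha
  | tail _ h2 ih => exact pa_asc hM hpσ h2 ih

theorem centralizer_cj (Q : Subgroup G) (x : G) :
    Subgroup.centralizer ((Q.map (MulAut.conj x).toMonoidHom : Subgroup G) : Set G) =
      (Subgroup.centralizer (Q : Set G)).map (MulAut.conj x).toMonoidHom := by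
  ext g
  rw [conj_mem_centralizer_map', mem_cj]

theorem mem_pc_cj (σ : Set ℕ) (Q : Subgroup G) (x k : G) :
    k ∈ pc σ (Subgroup.centralizer ((Q.map (MulAut.conj x).toMonoidHom : Subgroup G) : Set G)) ↔
      x⁻¹ * k * x ∈ pc σ (Subgroup.centralizer (Q : Set G)) := by
  rw [centralizer_cj, mem_pc_conj]

theorem pd_of_cjPair {σ : Set ℕ} (x : G) {a : BrauerPairIdx G} (h : PD σ (cjPair x a)) :
    PD σ a := by
  intro g k hk
  have h1 := h (x * g * x⁻¹) (x * k * x⁻¹) (by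
    apply (mem_pc_cj σ a.1 x _).mpr
    have e : x⁻¹ * (x * k * x⁻¹) * x = k := by group
    rw [e]; exact hk)
  rw [eps_cjPair, eps_cjPair] at h1
  have e1 : x⁻¹ * (x * g * x⁻¹ * (x * k * x⁻¹)) * x = g * k := by group
  have e2 : x⁻¹ * (x * g * x⁻¹) * x = g := by group
  rwa [e1, e2] at h1

theorem pd_cjPair {σ : Set ℕ} (x : G) {a : BrauerPairIdx G} (h : PD σ a) :
    PD σ (cjPair x a) := by
  intro g k hk
  have hk' := (mem_pc_cj σ a.1 x k).mp hk
  rw [eps_cjPair, eps_cjPair]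
  have e1 : x⁻¹ * (g * k) * x = (x⁻¹ * g * x) * (x⁻¹ * k * x) := by group
  rw [e1]
  exact h _ _ hk'

theorem pa_cjPair {σ : Set ℕ} (x : G) {a : BrauerPairIdx G} (h : PA σ a) :
    PA σ (cjPair x a) := by
  refine ⟨?_, pd_cjPair x h.2⟩
  intro y hy hq
  apply (mem_pc_cj σ a.1 x y).mpr
  apply h.1 _ (conj_mem_centralizer_map'.mp hy)
  intro q hq1 hq2
  apply hq q hq1
  have e : orderOf (x⁻¹ * y * x) = orderOf y := by
    have := orderOf_injective (MulAut.conj x⁻¹).toMonoidHom (MulAut.conj x⁻¹).injective y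
    simpa using this
  rwa [e] at hq2

/-- congruence attached to a Brauer pair of a block -/
theorem bo_congr_pairOf (hM : IsPModular p M) {B : Set (IrrCharacter G)} {P : Subgroup G}
    {e : Set (IrrCharacter (Subgroup.centralizer (P : Set G)))} (h : IsBrauerPairOf p M B P e)
    {ξ : IrrCharacter (Subgroup.centralizer (P : Set G))} (hξ : ξ ∈ e) {χ : IrrCharacter G}
    (hχ : χ ∈ B) {c : G → ℂ} (hc : IsClassFunction G c) (hcR : ∀ g, MemLocalRing M (c g)) :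
    MemLocalIdeal M (brauerOmega P c (ξ : _ → ℂ) - Om c (χ : G → ℂ)) := by
  have hPr := isPrime_of_modular hM
  obtain ⟨B', hB', hBc⟩ := exists_block_of_pair hM h.1
  obtain ⟨χ', hχ'⟩ := block_nonempty hPr hB'
  have h1 := hBc ξ hξ χ' hχ' (blockCoeff B) (blockCoeff_classFunction B) (osima_block hPr h.2.1)
  rw [Om_blockCoeff] at h1
  have hmem : χ' ∈ B := by
    by_contra hn
    rw [if_neg hn, sub_zero] at h1
    apply not_ideal_one hPr
    have := ideal_sub hPr h1 (h.2.2 ξ hξ)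
    simpa using this
  have hBB : B' = B := block_eq_of_mem hPr hB' h.2.1 hχ' hmem
  subst hBB
  exact hBc ξ hξ χ hχ c hc hcR

/-- A block of a subgroup between `P C(P)` and `N(P)` inducing `B` yields a `B`-pair, with
control of kernels. -/
theorem exists_pair_of_induced (hM : IsPModular p M) {P L : Subgroup G} (hP : IsPGroup p P)
    (hPL : P ≤ L) (hCL : Subgroup.centralizer (P : Set G) ≤ L)
    (hLN : L ≤ Subgroup.normalizer (P : Set G))
    {b : Set (IrrCharacter L)} {B : Set (IrrCharacter G)} (hind : IsInducedBlock M L b B) :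
    ∃ (e : Set (IrrCharacter (Subgroup.centralizer (P : Set G)))) (ξ : IrrCharacter L)
      (ζ : IrrCharacter (Subgroup.centralizer (P : Set G))), ξ ∈ b ∧ ζ ∈ e ∧
      IsBrauerPairOf p M B P e ∧ ∀ K : Subgroup G, K ≤ Subgroup.centralizer (P : Set G) →
        L ≤ Subgroup.normalizer (K : Set G) →
        (KerOn K (ξ : L → ℂ) ↔ KerOn K (ζ : Subgroup.centralizer (P : Set G) → ℂ)) := by
  have hPr := isPrime_of_modular hM
  obtain ⟨ξ, hξ⟩ := block_nonempty hPr hind.1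
  obtain ⟨ζ, hζ⟩ := exists_under_Om hCL (hLN.trans (normalizer_le_normalizer_centralizer P)) ξ
  refine ⟨blockOf M (ζ : Subgroup.centralizer (P : Set G) → ℂ), ξ, ζ, hξ, self_mem_blockOf hPr ζ,
    pairOf_of_induced hM hP hPL hLN hind ⟨ζ, rfl⟩ hξ (self_mem_blockOf hPr ζ) hζ, ?_⟩
  intro K hKC hLK
  have h1 := hζ (uK K) (inv_uK hLK) (fun g hg => by
    unfold uK
    rw [if_neg (fun h => hg (hKC h))])
  rw [Om_uK_sub hLK, Om_uK_sub (hCL.trans hLK)] at h1
  have n1 : (Nat.card (K.subgroupOf L) : ℂ) ≠ 0 := by exact_mod_cast Nat.card_pos.ne'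
  have n2 : (Nat.card (K.subgroupOf (Subgroup.centralizer (P : Set G))) : ℂ) ≠ 0 := by
    exact_mod_cast Nat.card_pos.ne'
  constructor
  · intro h
    by_contra hcon
    rw [if_pos h, if_neg hcon] at h1
    exact n1 h1
  · intro h
    by_contra hcon
    rw [if_pos h, if_neg hcon] at h1
    exact n2 h1.symm

end Cfsg.Agent.Lib.Helper2_KerPair2
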