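import Mathlib
import Cfsg.Agent.Lib.Helper2_KerPair2

set_option autoImplicit false

namespace Cfsg.Agent.Lib.Helper2_KerPair3

open Cfsg Cfsg.Agent.Lib.Helper2_BlockLocal Cfsg.Agent.Lib.Helper2_BlockOm
  Cfsg.Agent.Lib.Helper2_BlockOsima Cfsg.Agent.Lib.Helper2_BlockBasic
  Cfsg.Agent.Lib.Helper2_BlockOrtho Cfsg.Agent.Lib.Helper2_BlockMinMax
  Cfsg.Agent.Lib.Helper2_BlockInd Cfsg.Agent.Lib.Helper2_BlockDefect
  Cfsg.Agent.Lib.Helper2_BlockPCore Cfsg.Agent.Lib.Helper2_BlockNormal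
  Cfsg.Agent.Lib.Helper2_BlockBrauer Cfsg.Agent.Lib.Helper2_BlockFMT
  Cfsg.Agent.Lib.Helper2_BrauerPairs Cfsg.Agent.Lib.Helper2_SecondMain
  Cfsg.Agent.Lib.Helper2_BP1 Cfsg.Agent.Lib.Helper2_BP2 Cfsg.Agent.Lib.Helper2_BP3
  Cfsg.Agent.Lib.Helper2_BP4 Cfsg.Agent.Lib.Helper2_BP5 Cfsg.Agent.Lib.Helper2_BP6
  Cfsg.Agent.Lib.Helper2_BP7 Cfsg.Agent.Lib.Helper2_BP8 Cfsg.Agent.Lib.Helper2_BP9
  Cfsg.Agent.Lib.Helper2_BP10 Cfsg.Agent.Lib.Helper2_BP11 Cfsg.Agent.Lib.Helper2_BP12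
  Cfsg.Agent.Lib.Helper2_BP13 Cfsg.Agent.Lib.Helper2_BP14 Cfsg.Agent.Lib.Helper2_BP15
  Cfsg.Agent.Lib.Helper2_ExtFMT
  Cfsg.Agent.Lib.Helper2_Fong Cfsg.Agent.Lib.Helper2_EA Cfsg.Agent.Lib.Helper2_MaxPair
  Cfsg.Agent.Lib.Helper2_MaxPair2 Cfsg.Agent.Lib.Helper2_Down Cfsg.Agent.Lib.Helper2_RelConj
  Cfsg.Agent.Lib.Helper2_BlockSection
  Cfsg.Agent.Lib.Helper2_BlockCover2 Cfsg.Agent.Lib.Helper2_Basic
  Cfsg.Agent.Lib.CharBasic Cfsg.Agent.Lib.CharOrtho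
  Cfsg.Agent.Lib.CharComplete Cfsg.Agent.Lib.CharIntegral Cfsg.Agent.Lib.CharMore
  Cfsg.Agent.Lib.CharPerm Cfsg.Agent.Lib.CharInd
open scoped ComplexConjugate Classical
open Relation
open Cfsg.Agent.Lib.Helper2_AbDef Cfsg.FusionSystem Cfsg.Agent.Lib.Helper2_BFS1
  Cfsg.Agent.Lib.Helper2_BP17 Cfsg.Agent.Lib.Helper2_BlockDefOrder Cfsg.Agent.Lib.Helper2_BFS2
  Cfsg.Agent.Lib.Helper2_BFS3 Cfsg.Agent.Lib.Helper2_PPart Cfsg.Agent.Lib.Helper2_Nilp
open Cfsg.Agent.Lib.Helper2_PExt1 Cfsg.Agent.Lib.Helper2_BlockQuot Cfsg.Agent.Lib.Helper2_BlockThird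
open Cfsg.Agent.Lib.Helper2_PiCore Cfsg.Agent.Lib.CharKer Cfsg.Agent.Lib.CharQuot
  Cfsg.Agent.Lib.Helper2_KerPair1 Cfsg.Agent.Lib.Helper2_KerPair2

universe u

variable {M : Ideal AlgInt} {p : ℕ} {G : Type u} [Group G] [Fintype G]

/-- A block of a subgroup `X` inducing `B`, whose defect group `R` has its centralizer in `X`,
yields a `B`-pair at `R`. -/
theorem exists_pair_sub [Fact p.Prime] (hM : IsPModular p M) {X R : Subgroup G} (hAdm : Adm X R)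
    {B₀ : Set (IrrCharacter X)} {B : Set (IrrCharacter G)} (hind : IsInducedBlock M X B₀ B)
    (hD : IsDefectGroup p M B₀ (R.subgroupOf X)) :
    ∃ ζ₀ : IrrCharacter (Subgroup.centralizer (R : Set G)),
      IsBrauerPairOf p M B R (blockOf M (ζ₀ : Subgroup.centralizer (R : Set G) → ℂ)) ∧
      MemLocalIdeal M (brauerOmega R (subgroupBlockCoeff X B₀) (ζ₀ : _ → ℂ) - 1) := by
  have hPr := isPrime_of_modular hM
  obtain ⟨hB₀, hB, -⟩ := id hind
  have hpD : IsPGroup p (R.subgroupOf X) := Cfsg.Agent.Lib.Helper2_BlockFMT.isPGroup_of_defect hD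
  obtain ⟨b, -, hindb⟩ := ext_fmt_exists hM (D := R.subgroupOf X)
    (L := Subgroup.normalizer ((R.subgroupOf X : Subgroup X) : Set X)) Subgroup.le_normalizer
    (centralizer_le_normalizer' _) le_rfl hB₀ hD
  obtain ⟨β₀, ξ, ξ', hξ, hξ', hβ, -⟩ := exists_pair_of_induced hM hpD Subgroup.le_normalizer
    (centralizer_le_normalizer' _) le_rfl hindb
  set ζ₀ := (mapIrr (dEquiv hAdm)).symm ξ' with hζ₀
  have hmap : mapIrr (dEquiv hAdm) ζ₀ = ξ' := Equiv.apply_symm_apply _ _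
  obtain ⟨ξ₀, hξ₀⟩ := block_nonempty hPr hB₀
  obtain ⟨χ, hχ⟩ := block_nonempty hPr hB
  have hR : IsPGroup p R := hpD.of_equiv (Subgroup.subgroupOfEquivOfLe hAdm.1)
  have h1 := bo_down hAdm (subgroupBlockCoeff X B₀) ζ₀
  have e1 : (fun x : X => subgroupBlockCoeff X B₀ (x : G)) = blockCoeff B₀ :=
    funext (sbc_coe X B₀)
  rw [hmap, e1] at h1
  have h2 := bo_down hAdm (blockCoeff B) ζ₀
  rw [hmap] at h2
  have h3 := bo_congr_pairOf hM hβ hξ' hξ₀ (c := fun x : X => blockCoeff B (x : G))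
    (restrict_classFunction X (blockCoeff_classFunction B)) (fun x => osima_block hPr hB _)
  have h4 := Om_restrict_congr_induced hPr hind hξ₀ hχ (blockCoeff_classFunction B)
    (osima_block hPr hB)
  rw [Om_blockCoeff, if_pos hχ] at h4
  rw [h2] at h3
  have h5 := ideal_sub_trans hPr h3 h4
  refine ⟨ζ₀, ⟨⟨hR, ⟨ζ₀, rfl⟩⟩, hB, ?_⟩, ?_⟩
  · intro ζ' hζ'
    have h6 := bo_sameBlock R hPr (inv_of_classFunction (blockCoeff_classFunction B) _)
      (osima_block hPr hB) ⟨ζ₀, rfl⟩ hζ' (self_mem_blockOf hPr ζ₀)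
    exact ideal_sub_trans hPr h6 h5
  · rw [← h1]
    exact hβ.2.2 ξ' hξ'

/-- the top pair attached to the Brauer correspondent -/
theorem pd_top [Fact p.Prime] (hM : IsPModular p M) {σ : Set ℕ} (hpσ : p ∉ σ)
    {B : Set (IrrCharacter G)} {D : Subgroup G} (hBD : IsDefectGroup p M B D)
    {B₁ : Set (IrrCharacter (Subgroup.normalizer (D : Set G)))}
    (hB₁ : IsInducedBlock M (Subgroup.normalizer (D : Set G)) B₁ B)
    (hker : ∀ ξ ∈ B₁, KerOn (pc σ (Subgroup.normalizer (D : Set G)))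
      (ξ : Subgroup.normalizer (D : Set G) → ℂ)) :
    ∃ e : Set (IrrCharacter (Subgroup.centralizer (D : Set G))), IsBrauerPairOf p M B D e ∧
      NoExt p M D e ∧ PD σ ⟨D, e⟩ := by
  have hPr := isPrime_of_modular hM
  have hD : IsPGroup p D := Cfsg.Agent.Lib.Helper2_BlockFMT.isPGroup_of_defect hBD
  obtain ⟨e, ξ, ζ, hξ, hζ, hBe, hK⟩ := exists_pair_of_induced hM hD Subgroup.le_normalizer
    (centralizer_le_normalizer' D) le_rfl hB₁
  refine ⟨e, hBe, Cfsg.Agent.Lib.Helper2_ExtFMT.noExt_of_defect hM hBe hBD, ?_⟩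
  have hN : Subgroup.normalizer (D : Set G) ≤ Subgroup.normalizer
      ((pc σ (Subgroup.centralizer (D : Set G)) : Subgroup G) : Set G) :=
    (normalizer_le_normalizer_centralizer D).trans (normalizer_le_normalizer_pc σ _)
  have h1 : KerOn (pc σ (Subgroup.centralizer (D : Set G)))
      (ξ : Subgroup.normalizer (D : Set G) → ℂ) := by
    intro x hx
    apply hker ξ hξ x
    exact le_pc ((pc_le σ _).trans (centralizer_le_normalizer' D)) hN (pc_piG σ _) hx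
  have h2 := (hK _ (pc_le σ _) hN).mp h1
  apply rinv_sbc (pc_le σ _)
  intro ζ' hζ'
  exact kerOn_dichotomy hM (le_normalizer_pc σ _) (not_dvd_card (pc_piG σ _) hM.1 hpσ) hBe.1.2
    hζ hζ' h2

/-- descent of the kernel condition -/
theorem ker_desc [Fact p.Prime] (hM : IsPModular p M) {σ : Set ℕ} (hpσ : p ∉ σ)
    {B : Set (IrrCharacter G)} {D : Subgroup G} (hBD : IsDefectGroup p M B D)
    {B₁ : Set (IrrCharacter (Subgroup.normalizer (D : Set G)))}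
    (hB₁ : IsInducedBlock M (Subgroup.normalizer (D : Set G)) B₁ B)
    (hker : ∀ ξ ∈ B₁, KerOn (pc σ (Subgroup.normalizer (D : Set G)))
      (ξ : Subgroup.normalizer (D : Set G) → ℂ))
    {X R : Subgroup G} (hAdm : Adm X R)
    {B₀ : Set (IrrCharacter X)} (hind : IsInducedBlock M X B₀ B)
    (hD₀ : IsDefectGroup p M B₀ (R.subgroupOf X)) :
    ∀ ξ ∈ B₀, KerOn (pc σ X) (ξ : X → ℂ) := by
  have hPr := isPrime_of_modular hM
  obtain ⟨e, hBe, hno, hpd⟩ := pd_top hM hpσ hBD hB₁ hker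
  obtain ⟨ζ₀, hpair, hbo⟩ := exists_pair_sub hM hAdm hind hD₀
  obtain ⟨x, hx⟩ := conj_into_noExt hM hBe hno
    (a := ⟨R, blockOf M (ζ₀ : Subgroup.centralizer (R : Set G) → ℂ)⟩) hpair
  have h1 := pd_of_cjPair x (pd_rtg hM hpσ hx hpd)
  have h2 := kerOn_of_rinv (le_normalizer_pc σ _) h1 ζ₀ (self_mem_blockOf hPr ζ₀)
  apply (ker_brauer hM (pc_le σ X) (le_normalizer_pc σ X)
    (not_dvd_card (pc_piG σ _) hM.1 hpσ) hind.1 hpair.1.1 hAdm.2
    (hAdm.1.trans (le_normalizer_pc σ X)) (inv_mono hAdm.1 (sbc_inv X B₀)) ζ₀ hbo).mpr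
  intro y hy
  exact h2 y (inf_le_pc σ hAdm.2 ⟨hy, y.2⟩)

/-- a normal `p'`-subgroup of `N(D)` centralizes the `p`-group `D` -/
theorem le_centralizer_of_coprime {D L : Subgroup G} (hD : IsPGroup p D) (hp : p.Prime)
    (hL : ¬ p ∣ Nat.card L) (hLN : L ≤ Subgroup.normalizer (D : Set G))
    (hDL : D ≤ Subgroup.normalizer (L : Set G)) : L ≤ Subgroup.centralizer (D : Set G) := by
  intro l hl
  rw [Subgroup.mem_centralizer_iff]
  intro d hd
  have h1 : l * d * l⁻¹ ∈ D := (Subgroup.mem_normalizer_iff.mp (hLN hl) d).mp hd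
  have h2 : d * l⁻¹ * d⁻¹ ∈ L := (Subgroup.mem_normalizer_iff.mp (hDL hd) l⁻¹).mp (L.inv_mem hl)
  set c := l * d * l⁻¹ * d⁻¹ with hc
  have hcD : c ∈ D := D.mul_mem h1 (D.inv_mem hd)
  have hcL : c ∈ L := by
    have e : c = l * (d * l⁻¹ * d⁻¹) := by rw [hc]; group
    rw [e]; exact L.mul_mem hl h2
  have hc1 : c = 1 := by
    obtain ⟨k, hk⟩ := hD ⟨c, hcD⟩
    have hk' : c ^ (p ^ k) = 1 := by
      have := congrArg Subtype.val hk
      simpa using this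
    have ho1 : orderOf c ∣ p ^ k := orderOf_dvd_of_pow_eq_one hk'
    have ho2 : orderOf c ∣ Nat.card L := by
      have := orderOf_dvd_natCard (⟨c, hcL⟩ : L)
      rwa [Subgroup.orderOf_mk] at this
    have hcop : Nat.Coprime (p ^ k) (Nat.card L) :=
      Nat.Coprime.pow_left _ ((Nat.Prime.coprime_iff_not_dvd hp).mpr hL)
    have := Nat.eq_one_of_dvd_coprimes hcop ho1 ho2
    exact orderOf_eq_one_iff.mp this
  calc d * l = c⁻¹ * (c * (d * l)) := by group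
    _ = c⁻¹ * (l * d) := by rw [hc]; group
    _ = l * d := by rw [hc1]; simp

/-- ascent of the kernel condition -/
theorem ker_asc [Fact p.Prime] (hM : IsPModular p M) {σ : Set ℕ} (hpσ : p ∉ σ)
    {B : Set (IrrCharacter G)} {D : Subgroup G} (hBD : IsDefectGroup p M B D)
    {B₁ : Set (IrrCharacter (Subgroup.normalizer (D : Set G)))}
    (hB₁ : IsInducedBlock M (Subgroup.normalizer (D : Set G)) B₁ B)
    {D₀ L : Subgroup G} (hD₀ : IsPGroup p D₀) (hPL : D₀ ≤ L)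
    (hCL : Subgroup.centralizer (D₀ : Set G) ≤ L) (hLN : L ≤ Subgroup.normalizer (D₀ : Set G))
    {b : Set (IrrCharacter L)} (hb : IsInducedBlock M L b B)
    (hcompl : ∀ x ∈ Subgroup.centralizer (D₀ : Set G),
      (∀ q : ℕ, q.Prime → q ∣ orderOf x → q ∈ σ) → x ∈ pc σ (Subgroup.centralizer (D₀ : Set G)))
    (hkerb : ∀ ξ ∈ b, KerOn (pc σ (Subgroup.centralizer (D₀ : Set G))) (ξ : L → ℂ)) :
    ∀ ξ ∈ B₁, KerOn (pc σ (Subgroup.normalizer (D : Set G)))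
      (ξ : Subgroup.normalizer (D : Set G) → ℂ) := by
  have hPr := isPrime_of_modular hM
  have hD : IsPGroup p D := Cfsg.Agent.Lib.Helper2_BlockFMT.isPGroup_of_defect hBD
  -- the bottom pair
  obtain ⟨e₀, ξ₀, ζ₀, hξ₀, hζ₀, hBe₀, hK₀⟩ := exists_pair_of_induced hM hD₀ hPL hCL hLN hb
  have hN₀ : L ≤ Subgroup.normalizer
      ((pc σ (Subgroup.centralizer (D₀ : Set G)) : Subgroup G) : Set G) :=
    (hLN.trans (normalizer_le_normalizer_centralizer D₀)).trans (normalizer_le_normalizer_pc σ _)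
  have h1 := (hK₀ _ (pc_le σ _) hN₀).mp (hkerb ξ₀ hξ₀)
  have hpa₀ : PA σ ⟨D₀, e₀⟩ := by
    refine ⟨hcompl, ?_⟩
    apply rinv_sbc (pc_le σ _)
    intro ζ' hζ'
    exact kerOn_dichotomy hM (le_normalizer_pc σ _) (not_dvd_card (pc_piG σ _) hM.1 hpσ)
      hBe₀.1.2 hζ₀ hζ' h1
  -- the top pair
  obtain ⟨e, ξ, ζ, hξ, hζ, hBe, hK⟩ := exists_pair_of_induced hM hD Subgroup.le_normalizer
    (centralizer_le_normalizer' D) le_rfl hB₁
  have hno := Cfsg.Agent.Lib.Helper2_ExtFMT.noExt_of_defect hM hBe hBD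
  obtain ⟨x, hx⟩ := conj_into_noExt hM hBe hno (a := ⟨D₀, e₀⟩) hBe₀
  have hpa := pa_rtg hM hpσ hx (pa_cjPair x hpa₀)
  have h2 := kerOn_of_rinv (le_normalizer_pc σ _) hpa.2 ζ hζ
  set Lc := pc σ (Subgroup.normalizer (D : Set G)) with hLc
  have hpL : ¬ p ∣ Nat.card Lc := not_dvd_card (pc_piG σ _) hM.1 hpσ
  have hLcC : Lc ≤ Subgroup.centralizer (D : Set G) :=
    le_centralizer_of_coprime hD hM.1 hpL (pc_le σ _)
      (Subgroup.le_normalizer.trans (le_normalizer_pc σ _))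
  have hLcpc : Lc ≤ pc σ (Subgroup.centralizer (D : Set G)) :=
    le_pc hLcC ((centralizer_le_normalizer' D).trans (le_normalizer_pc σ _)) (pc_piG σ _)
  have h3 : KerOn Lc (ζ : Subgroup.centralizer (D : Set G) → ℂ) := fun y hy => h2 y (hLcpc hy)
  have h4 := (hK Lc hLcC (le_normalizer_pc σ _)).mpr h3
  intro ξ' hξ'
  exact kerOn_dichotomy hM (le_normalizer_pc σ _) hpL hB₁.1 hξ hξ' h4

end Cfsg.Agent.Lib.Helper2_KerPair3
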