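import Mathlib
import Cfsg.Agent.Lib.Helper2_KerPair3

set_option autoImplicit false

namespace Cfsg.Agent.Lib.Helper2_IndCent

open Cfsg Cfsg.Agent.Lib.Helper2_BlockLocal Cfsg.Agent.Lib.Helper2_BlockOm
  Cfsg.Agent.Lib.Helper2_BlockOsima Cfsg.Agent.Lib.Helper2_BlockBasic
  Cfsg.Agent.Lib.Helper2_BlockOrtho Cfsg.Agent.Lib.Helper2_BlockMinMax
  Cfsg.Agent.Lib.Helper2_BlockInd Cfsg.Agent.Lib.Helper2_BlockDefect
  Cfsg.Agent.Lib.Helper2_BlockPCore Cfsg.Agent.Lib.Helper2_BlockNormal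
  Cfsg.Agent.Lib.Helper2_BlockBrauer Cfsg.Agent.Lib.Helper2_BlockFMT
  Cfsg.Agent.Lib.Helper2_BrauerPairs Cfsg.Agent.Lib.Helper2_SecondMain
  Cfsg.Agent.Lib.Helper2_BP1 Cfsg.Agent.Lib.Helper2_BP2 Cfsg.Agent.Lib.Helper2_BP3
  Cfsg.Agent.Lib.Helper2_BP4 Cfsg.Agent.Lib.Helper2_BP5 Cfsg.Agent.Lib.Helper2_BP6
  Cfsg.Agent.Lib.Helper2_BP7 Cfsg.Agent.Lib.Helper2_BP8 Cfsg.Agent.Lib.Helper2_BP9
  Cfsg.Agent.Lib.Helper2_BP10 Cfsg.Agent.Lib.Helper2_BP11 Cfsg.Agent.Lib.Helper2_BP12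
  Cfsg.Agent.Lib.Helper2_BP13 Cfsg.Agent.Lib.Helper2_BP14 Cfsg.Agent.Lib.Helper2_BP15
  Cfsg.Agent.Lib.Helper2_ExtFMT
  Cfsg.Agent.Lib.Helper2_Fong Cfsg.Agent.Lib.Helper2_EA Cfsg.Agent.Lib.Helper2_MaxPair
  Cfsg.Agent.Lib.Helper2_MaxPair2 Cfsg.Agent.Lib.Helper2_Down Cfsg.Agent.Lib.Helper2_RelConj
  Cfsg.Agent.Lib.Helper2_BlockSection
  Cfsg.Agent.Lib.Helper2_BlockCover2 Cfsg.Agent.Lib.Helper2_Basic
  Cfsg.Agent.Lib.CharBasic Cfsg.Agent.Lib.CharOrtho
  Cfsg.Agent.Lib.CharComplete Cfsg.Agent.Lib.CharIntegral Cfsg.Agent.Lib.CharMore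
  Cfsg.Agent.Lib.CharPerm Cfsg.Agent.Lib.CharInd
open scoped ComplexConjugate Classical
open Relation
open Cfsg.Agent.Lib.Helper2_AbDef Cfsg.FusionSystem Cfsg.Agent.Lib.Helper2_BFS1
  Cfsg.Agent.Lib.Helper2_BP17 Cfsg.Agent.Lib.Helper2_BlockDefOrder Cfsg.Agent.Lib.Helper2_BFS2
  Cfsg.Agent.Lib.Helper2_BFS3 Cfsg.Agent.Lib.Helper2_PPart Cfsg.Agent.Lib.Helper2_Nilp
open Cfsg.Agent.Lib.Helper2_PExt1 Cfsg.Agent.Lib.Helper2_BlockQuot Cfsg.Agent.Lib.Helper2_BlockThird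
open Cfsg.Agent.Lib.Helper2_PiCore Cfsg.Agent.Lib.CharKer Cfsg.Agent.Lib.CharQuot
  Cfsg.Agent.Lib.Helper2_KerPair1 Cfsg.Agent.Lib.Helper2_KerPair2
open Cfsg.Agent.Lib.Helper2_KerPair3

universe u

variable {M : Ideal AlgInt} {p : ℕ} {G : Type u} [Group G] [Fintype G]

/-- the canonical isomorphism of a subgroup of a subgroup with its image -/
noncomputable def mE {X : Subgroup G} (L' : Subgroup X) : L' ≃* L'.map X.subtype :=
  Subgroup.equivMapOfInjective L' X.subtype (Subgroup.subtype_injective X)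

theorem mE_coe {X : Subgroup G} (L' : Subgroup X) (l : L') : ((mE L' l : L'.map X.subtype) : G) = ((l : X) : G) :=
  rfl

/-- transitivity of block induction -/
theorem induced_trans (hPr : M.IsPrime) {X : Subgroup G} {L' : Subgroup X}
    {b₁ : Set (IrrCharacter L')} {b : Set (IrrCharacter X)} (h1 : IsInducedBlock M L' b₁ b)
    {B : Set (IrrCharacter G)}
    (h2 : IsInducedBlock M (L'.map X.subtype) (mapBlock (mE L') b₁) B) :
    IsInducedBlock M X b B := by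
  haveI : Fintype X := Fintype.ofFinite X
  haveI : Fintype L' := Fintype.ofFinite L'
  haveI : Fintype (L'.map X.subtype) := Fintype.ofFinite _
  refine ⟨h1.2.1, h2.2.1, ?_⟩
  intro ξ hξ χ hχ g
  obtain ⟨ξ₁, hξ₁⟩ := block_nonempty hPr h1.1
  have hring : ∀ x : G, MemLocalRing M (classInd g x) := by
    intro x
    unfold classInd
    split_ifs
    · exact ring_one hPr
    · exact ring_zero hPr
  have e1 := Om_restrict_congr_induced hPr h1 hξ₁ hξ
    (restrict_classFunction X (classInd_classFunction g)) (fun x => hring _)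
  have e2 := Om_restrict_congr_induced hPr h2 ((mem_mapBlock (mE L') b₁ ξ₁).mpr hξ₁) hχ
    (classInd_classFunction g) hring
  rw [Om_mapIrr] at e2
  rw [inducedCentralChar_eq_Om]
  have e3 : Om (classInd g) (χ : G → ℂ) = centralChar (χ : G → ℂ) g := by
    exact Om_classInd g (irr_classFunction χ)
  rw [← e3]
  exact ideal_sub_trans hPr (ideal_sub_comm e1) e2


theorem mem_map_subtype {X : Subgroup G} {K : Subgroup X} {g : G} :
    g ∈ K.map X.subtype ↔ ∃ h : g ∈ X, (⟨g, h⟩ : X) ∈ K := by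
  constructor
  · rintro ⟨x, hx, rfl⟩
    exact ⟨x.2, hx⟩
  · rintro ⟨h, hK⟩
    exact ⟨⟨g, h⟩, hK, rfl⟩

/-- a block whose defect group has its centralizer inside the subgroup induces a block -/
theorem induced_defined_of_centralizer [Fact p.Prime] (hM : IsPModular p M) {X : Subgroup G}
    {b : Set (IrrCharacter X)} (hb : IsPBlock M b) {D₀ : Subgroup X}
    (hD₀ : IsDefectGroup p M b D₀)
    (hC : Subgroup.centralizer ((D₀.map X.subtype : Subgroup G) : Set G) ≤ X) :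
    InducedBlockDefined M X b := by
  haveI : Fintype X := Fintype.ofFinite X
  have hPr := isPrime_of_modular hM
  have hpD : IsPGroup p D₀ := Cfsg.Agent.Lib.Helper2_BlockFMT.isPGroup_of_defect hD₀
  set L' := Subgroup.normalizer ((D₀ : Subgroup X) : Set X) with hL'
  obtain ⟨b₁, -, hind⟩ := ext_fmt_exists hM (D := D₀)
    (L := L') Subgroup.le_normalizer
    (centralizer_le_normalizer' _) le_rfl hb hD₀
  have hdef : InducedBlockDefined M (L'.map X.subtype) (mapBlock (mE L') b₁) := by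
    apply inducedBlockDefined hM (P := D₀.map X.subtype) (hpD.map _) _ _ _
      (isPBlock_mapBlock _ hind.1)
    · exact Subgroup.map_mono Subgroup.le_normalizer
    · intro g hg
      rw [mem_map_subtype]
      refine ⟨hC hg, ?_⟩
      apply centralizer_le_normalizer' D₀
      rw [Subgroup.mem_centralizer_iff]
      intro d hd
      apply Subtype.ext
      exact (Subgroup.mem_centralizer_iff.mp hg) (d : G) ⟨d, hd, rfl⟩
    · rintro _ ⟨x, hx, rfl⟩
      rw [Subgroup.mem_normalizer_iff]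
      intro g
      have hx' := Subgroup.mem_normalizer_iff.mp hx
      constructor
      · rintro ⟨d, hd, rfl⟩
        exact ⟨x * d * x⁻¹, (hx' d).mp hd, rfl⟩
      · rintro ⟨d, hd, hdg⟩
        have hgX : g ∈ X := by
          have : g = (x : G)⁻¹ * (d : G) * (x : G) := by
            have h3 : (d : G) = (x : G) * g * (x : G)⁻¹ := hdg
            rw [h3]; group
          rw [this]
          exact X.mul_mem (X.mul_mem (X.inv_mem x.2) d.2) x.2
        refine ⟨⟨g, hgX⟩, (hx' ⟨g, hgX⟩).mpr ?_, rfl⟩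
        have : x * ⟨g, hgX⟩ * x⁻¹ = d := Subtype.ext hdg.symm
        rw [this]
        exact hd
  obtain ⟨B, hB⟩ := hdef
  exact ⟨B, induced_trans hPr hind hB⟩

/-- the defect group of the induced block can be chosen with its centre inside `R` -/
theorem exists_defect_center [Fact p.Prime] (hM : IsPModular p M) {X R : Subgroup G}
    (hAdm : Adm X R) {B₀ : Set (IrrCharacter X)} {B : Set (IrrCharacter G)}
    (hind : IsInducedBlock M X B₀ B) (hD : IsDefectGroup p M B₀ (R.subgroupOf X)) :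
    ∃ D : Subgroup G, IsDefectGroup p M B D ∧ R ≤ D ∧
      ∀ z ∈ D, (∀ d ∈ D, z * d = d * z) → z ∈ R := by
  haveI : Fintype X := Fintype.ofFinite X
  have hPr := isPrime_of_modular hM
  obtain ⟨hB₀, hB, -⟩ := id hind
  obtain ⟨ζ₀, hpair, hbo⟩ := exists_pair_sub hM hAdm hind hD
  set f := blockOf M (ζ₀ : Subgroup.centralizer (R : Set G) → ℂ) with hf
  -- the pair in `X`
  have hdown : IsBrauerPairOf p M B₀ (down X ⟨R, f⟩).1 (down X ⟨R, f⟩).2 := by
    refine ⟨isBrauerPair_down (a := ⟨R, f⟩) hAdm hpair.1, hB₀, ?_⟩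
    intro ξ' hξ'
    rw [down_snd (a := ⟨R, f⟩) hAdm] at hξ'
    obtain ⟨ξ, hξ, rfl⟩ := hξ'
    have h1 := bo_down hAdm (subgroupBlockCoeff X B₀) ξ
    have e1 : (fun x : X => subgroupBlockCoeff X B₀ (x : G)) = blockCoeff B₀ :=
      funext (sbc_coe X B₀)
    rw [e1] at h1
    show MemLocalIdeal M (brauerOmega (R.subgroupOf X) (blockCoeff B₀) _ - 1)
    rw [h1]
    have h6 := bo_sameBlock R hPr (c := subgroupBlockCoeff X B₀)
      (fun x hx g => sbc_inv X B₀ x (hAdm.2 hx) g)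
      (sbc_ring hPr hB₀) hpair.1.2 hξ (self_mem_blockOf hPr ζ₀)
    exact ideal_sub_trans hPr h6 hbo
  have hno : NoExt p M (down X ⟨R, f⟩).1 (down X ⟨R, f⟩).2 :=
    Cfsg.Agent.Lib.Helper2_ExtFMT.noExt_of_defect hM hdown hD
  obtain ⟨c, hc1, hc2, hc3⟩ := exists_noExt_ge hM _ (⟨R, f⟩ : BrauerPairIdx G) le_rfl hpair
  refine ⟨c.1, defect_of_noExt hM hc2 hc3, rtg_le hc1, ?_⟩
  intro z hz hzc
  set R₁ := R ⊔ Subgroup.zpowers z with hR₁
  have hR₁c : R₁ ≤ c.1 := sup_le (rtg_le hc1) (by rw [Subgroup.zpowers_le]; exact hz)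
  have hzC : z ∈ Subgroup.centralizer (R : Set G) := by
    rw [Subgroup.mem_centralizer_iff]
    intro r hr
    exact (hzc r (rtg_le hc1 hr)).symm
  have hR₁X : R₁ ≤ X := sup_le hAdm.1 (by rw [Subgroup.zpowers_le]; exact hAdm.2 hzC)
  obtain ⟨f₁, hf₁⟩ := subpair_exists hM _ hc2.1 hR₁c le_rfl
  have hpair₁ : IsBrauerPair p M (⟨R₁, f₁⟩ : BrauerPairIdx G).1 (⟨R₁, f₁⟩ : BrauerPairIdx G).2 := by
    rcases Relation.ReflTransGen.cases_head hf₁ with h | ⟨d, hd, -⟩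
    · rw [h]; exact hc2.1
    · exact hd.1
  obtain ⟨f', hf'⟩ := subpair_exists hM _ hpair₁ (le_sup_left : R ≤ R₁) le_rfl
  have hff' : f' = f := subpair_unique hM _ c le_rfl hc2.1 R f' f (hf'.trans hf₁) hc1
  rw [hff'] at hf'
  have hdn := rtg_down (X := X) (a := ⟨R, f⟩) (b := ⟨R₁, f₁⟩) hAdm.2 hR₁X hf'
  have heq := eq_of_noExt_le hPr hno hdn
  have h1 : R₁.subgroupOf X = R.subgroupOf X := congrArg Sigma.fst heq
  rw [Subgroup.subgroupOf_inj, inf_eq_left.mpr hR₁X, inf_eq_left.mpr hAdm.1] at h1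
  rw [← h1]
  exact (le_sup_right : Subgroup.zpowers z ≤ R₁) (Subgroup.mem_zpowers z)

end Cfsg.Agent.Lib.Helper2_IndCent
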