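import Mathlib
import Cfsg.Agent.Lib.CharBurnside
import Cfsg.Agent.Lib.helper8_Height
import Cfsg.Agent.Lib.Helper2_Up

set_option autoImplicit false

namespace Cfsg.Agent.Lib.Helper2_PDeg

open Cfsg Cfsg.Agent.Lib.CharBasic Cfsg.Agent.Lib.CharOrtho
  Cfsg.Agent.Lib.CharComplete Cfsg.Agent.Lib.CharIntegral Cfsg.Agent.Lib.CharMore
  Cfsg.Agent.Lib.CharInd Cfsg.Agent.Lib.helper8_Defect Cfsg.Agent.Lib.CharBurnside
  Cfsg.Agent.Lib.Helper2_BlockLocal Cfsg.Agent.Lib.Helper2_BlockOm Cfsg.Agent.Lib.Helper2_BlockBasic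
  Cfsg.Agent.Lib.helper8_Height
open scoped ComplexConjugate Classical
open Module

universe u

variable {G : Type u} [Group G] [Fintype G] {p : ℕ} {M : Ideal AlgInt}

/-- A faithful irreducible character of a group with trivial centre vanishes on the nonidentity
elements whose class size is prime to the degree. -/
theorem vanish_of_coprime (hZ : Subgroup.center G = ⊥) (χ : IrrCharacter G)
    (hfaith : ∀ g : G, (χ : G → ℂ) g = (χ : G → ℂ) 1 → g = 1) {z : G} (hz : z ≠ 1)
    (hcop : Nat.Coprime (charDegree (χ : G → ℂ)) (Subgroup.centralizer ({z} : Set G)).index) :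
    (χ : G → ℂ) z = 0 := by
  obtain ⟨d0, d1, -⟩ := irr_charDegree χ.2
  obtain ⟨χ, n, ρ, hρ, rfl⟩ := χ
  haveI := hρ
  simp only at hfaith hcop d1 ⊢
  have hfr : finrank ℂ (Fin n → ℂ) = charDegree ρ.character := by
    have : ((finrank ℂ (Fin n → ℂ) : ℕ) : ℂ) = (charDegree ρ.character : ℂ) := by
      rw [← d1, Representation.char_one]
    exact_mod_cast this
  rcases vanish_or_scalar ρ z (by rw [hfr]; exact hcop) with h0 | h1
  · exact h0
  · exfalso
    obtain ⟨ω, hω⟩ := (char_norm_eq_iff ρ z).mp h1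
    apply hz
    have : z ∈ Subgroup.center G := by
      rw [Subgroup.mem_center_iff]
      intro x
      have h2 : ρ (x * z * x⁻¹ * z⁻¹) = 1 := by
        have e1 : ρ (x * z * x⁻¹) = ρ z := by
          rw [map_mul, map_mul, hω, mul_smul_comm, smul_mul_assoc]
          have h2 : ρ x * (LinearMap.id : Module.End ℂ (Fin n → ℂ)) = ρ x := mul_one _
          rw [h2, ← map_mul, mul_inv_cancel, map_one]
          rfl
        rw [map_mul, e1, ← map_mul, mul_inv_cancel, map_one]
      have h3 : x * z * x⁻¹ * z⁻¹ = 1 := by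
        apply hfaith
        unfold Representation.character
        rw [h2, ← map_one ρ]
      calc x * z = (x * z * x⁻¹ * z⁻¹) * (z * x) := by group
        _ = z * x := by rw [h3, one_mul]
    rwa [hZ, Subgroup.mem_bot] at this

/-- A rational number with `p`-power denominator in the local ring is an integer. -/
theorem pow_dvd_of_ring (hM : IsPModular p M) {d b : ℕ} (hd : d ≠ 0)
    (h : MemLocalRing M ((d : ℂ) / ((p : ℂ) ^ b))) : p ^ b ∣ d := by
  have hp := hM.1
  have hP := isPrime_of_modular hM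
  by_contra hcon
  have hlt : d.factorization p < b := by
    by_contra h2
    exact hcon ((hp.pow_dvd_iff_le_factorization hd).mpr (not_lt.mp h2))
  obtain ⟨m, hm⟩ : p ^ d.factorization p ∣ d := Nat.ordProj_dvd _ _
  have hpm : ¬ p ∣ m := by
    intro hdv
    have : p ^ (d.factorization p + 1) ∣ d := by
      conv_rhs => rw [hm]
      rw [pow_succ]; exact Nat.mul_dvd_mul_left _ hdv
    have := (hp.pow_dvd_iff_le_factorization hd).mp this
    omega
  obtain ⟨c, hc⟩ : ∃ c, b = d.factorization p + 1 + c := ⟨b - d.factorization p - 1, by omega⟩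
  have hpp : (p : ℂ) ≠ 0 := by exact_mod_cast hp.ne_zero
  have hm0 : (m : ℂ) ≠ 0 := by
    intro h
    have : m = 0 := by exact_mod_cast h
    exact hpm (this ▸ dvd_zero p)
  apply not_ideal_one hP
  have e : (1 : ℂ) = (p : ℂ) * ((d : ℂ) / ((p : ℂ) ^ b) * ((m : ℂ)⁻¹ * (p : ℂ) ^ c)) := by
    have hdC : (d : ℂ) = (p : ℂ) ^ d.factorization p * m := by
      conv_lhs => rw [hm]
      push_cast; ring
    generalize d.factorization p = k at *
    rw [hdC, hc]
    field_simp
    ring
  rw [e]
  apply ideal_mul_right hP ((ideal_natCast_iff hM p).mpr dvd_rfl)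
  exact ring_mul hP h (ring_mul hP (ring_inv_natCast hM hpm) (ring_pow hP (ring_natCast hP p) c))

/-- If `χ` vanishes on the nonidentity elements of a `p`-subgroup `Z` all of whose elements have
class size prime to `p`, then `|Z|` divides the degree of every character in the block of `χ`. -/
theorem card_dvd_degree (hM : IsPModular p M) (χ : IrrCharacter G) (Z : Subgroup G) {b : ℕ}
    (hZ : Nat.card Z = p ^ b)
    (hcl : ∀ z ∈ Z, ¬ p ∣ (Subgroup.centralizer ({z} : Set G)).index)
    (hv : ∀ z ∈ Z, z ≠ 1 → (χ : G → ℂ) z = 0) {ψ : IrrCharacter G}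
    (hψ : ψ ∈ blockOf M (χ : G → ℂ)) : p ^ b ∣ charDegree (ψ : G → ℂ) := by
  have hp := hM.1
  have hP := isPrime_of_modular hM
  obtain ⟨d0, d1, -⟩ := irr_charDegree ψ.2
  have d2 : (ψ : G → ℂ) 1 ≠ 0 := irr_degree_ne_zero ψ.2
  obtain ⟨m, hm⟩ := sum_subgroup_nat (isCharacter_of_isIrr ψ.2) Z
  -- the ratios
  have hε : ∀ z : Z, z ≠ 1 → MemLocalIdeal M ((ψ : G → ℂ) z / (ψ : G → ℂ) 1) := by
    intro z hz
    have h1 := hψ (z : G)
    have hz' : (z : G) ≠ 1 := fun h => hz (Subtype.ext h)
    have h2 : centralChar (χ : G → ℂ) (z : G) = 0 := by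
      unfold centralChar
      rw [hv z z.2 hz']; simp
    rw [h2, zero_sub] at h1
    have h3 := ideal_neg h1
    rw [neg_neg] at h3
    have h4 := hcl z z.2
    have h5 : ((Subgroup.centralizer ({(z : G)} : Set G)).index : ℂ) ≠ 0 := by
      intro h
      have : (Subgroup.centralizer ({(z : G)} : Set G)).index = 0 := by exact_mod_cast h
      exact h4 (this ▸ dvd_zero p)
    have e : (ψ : G → ℂ) z / (ψ : G → ℂ) 1 =
        ((Subgroup.centralizer ({(z : G)} : Set G)).index : ℂ)⁻¹ * centralChar (ψ : G → ℂ) (z : G) := by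
      unfold centralChar
      field_simp
    rw [e]
    exact ideal_mul_left hP (ring_inv_natCast hM h4) h3
  set u : ℂ := 1 + ∑ z ∈ Finset.univ.erase (1 : Z), (ψ : G → ℂ) z / (ψ : G → ℂ) 1 with hu
  have hu1 : MemLocalIdeal M (u - 1) := by
    rw [hu, add_sub_cancel_left]
    exact ideal_sum hP _ _ fun z hz => hε z (Finset.mem_erase.mp hz).1
  have hu2 : ¬ MemLocalIdeal M u := not_ideal_of_sub hP hu1 (not_ideal_one hP)
  have hu3 : MemLocalRing M u := by
    have := ring_add hP (ideal_ring hu1) (ring_one hP)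
    rwa [sub_add_cancel] at this
  have hsum : (ψ : G → ℂ) 1 * u = (p : ℂ) ^ b * m := by
    rw [← Finset.add_sum_erase _ _ (Finset.mem_univ (1 : Z)), hZ] at hm
    push_cast at hm
    rw [← hm, hu, mul_add, mul_one, Finset.mul_sum]
    congr 1
    refine Finset.sum_congr rfl fun z _ => ?_
    field_simp
  apply pow_dvd_of_ring hM d0.ne'
  have hu0 : u ≠ 0 := ne_zero_of_not_ideal hP hu2
  have hpp : (p : ℂ) ≠ 0 := by exact_mod_cast hp.ne_zero
  have e : (charDegree (ψ : G → ℂ) : ℂ) / (p : ℂ) ^ b = (m : ℂ) * u⁻¹ := by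
    rw [← d1]
    field_simp
    linear_combination hsum
  rw [e]
  exact ring_mul hP (ring_natCast hP m) (ring_inv hu3 hu2)

end Cfsg.Agent.Lib.Helper2_PDeg
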