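import Mathlib
import Cfsg.Prelude.Def_BrauerPairs
import Cfsg.Prelude.Def_BlockFusion
import Cfsg.Agent.Lib.Helper2_PExt1

set_option autoImplicit false

namespace Cfsg.Agent.Lib.Helper2_PExt2

open Cfsg Cfsg.Agent.Lib.Helper2_BlockLocal Cfsg.Agent.Lib.Helper2_BlockOm
  Cfsg.Agent.Lib.Helper2_BlockOsima Cfsg.Agent.Lib.Helper2_BlockBasic
  Cfsg.Agent.Lib.Helper2_BlockOrtho Cfsg.Agent.Lib.Helper2_BlockMinMax
  Cfsg.Agent.Lib.Helper2_BlockInd Cfsg.Agent.Lib.Helper2_BlockDefect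
  Cfsg.Agent.Lib.Helper2_BlockPCore Cfsg.Agent.Lib.Helper2_BlockNormal
  Cfsg.Agent.Lib.Helper2_BlockBrauer Cfsg.Agent.Lib.Helper2_BlockFMT
  Cfsg.Agent.Lib.Helper2_BrauerPairs Cfsg.Agent.Lib.Helper2_SecondMain
  Cfsg.Agent.Lib.Helper2_BP1 Cfsg.Agent.Lib.Helper2_BP2 Cfsg.Agent.Lib.Helper2_BP3
  Cfsg.Agent.Lib.Helper2_BP4 Cfsg.Agent.Lib.Helper2_BP5 Cfsg.Agent.Lib.Helper2_BP6
  Cfsg.Agent.Lib.Helper2_BP7 Cfsg.Agent.Lib.Helper2_BP8 Cfsg.Agent.Lib.Helper2_BP9
  Cfsg.Agent.Lib.Helper2_BP10 Cfsg.Agent.Lib.Helper2_BP11 Cfsg.Agent.Lib.Helper2_BP12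
  Cfsg.Agent.Lib.Helper2_BP13 Cfsg.Agent.Lib.Helper2_BP14 Cfsg.Agent.Lib.Helper2_BP15
  Cfsg.Agent.Lib.Helper2_ExtFMT
  Cfsg.Agent.Lib.Helper2_Fong Cfsg.Agent.Lib.Helper2_EA Cfsg.Agent.Lib.Helper2_MaxPair
  Cfsg.Agent.Lib.Helper2_MaxPair2 Cfsg.Agent.Lib.Helper2_Down Cfsg.Agent.Lib.Helper2_RelConj
  Cfsg.Agent.Lib.Helper2_BlockSection
  Cfsg.Agent.Lib.Helper2_BlockCover2 Cfsg.Agent.Lib.Helper2_Basic
  Cfsg.Agent.Lib.CharBasic Cfsg.Agent.Lib.CharOrtho
  Cfsg.Agent.Lib.CharComplete Cfsg.Agent.Lib.CharIntegral Cfsg.Agent.Lib.CharMore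
  Cfsg.Agent.Lib.CharPerm Cfsg.Agent.Lib.CharInd
open scoped ComplexConjugate Classical
open Relation
open Cfsg.Agent.Lib.Helper2_AbDef Cfsg.FusionSystem Cfsg.Agent.Lib.Helper2_BFS1
  Cfsg.Agent.Lib.Helper2_BP17 Cfsg.Agent.Lib.Helper2_BlockDefOrder Cfsg.Agent.Lib.Helper2_BFS2
  Cfsg.Agent.Lib.Helper2_BFS3 Cfsg.Agent.Lib.Helper2_PPart Cfsg.Agent.Lib.Helper2_Nilp
open Cfsg.Agent.Lib.Helper2_BlockCover Cfsg.Agent.Lib.Helper2_PExt1

universe u

variable {M : Ideal AlgInt} {p : ℕ} {G : Type u} [Group G]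

theorem mem_centralizer_map {N : Subgroup G} {R' : Subgroup N} (n : N) :
    n ∈ Subgroup.centralizer (R' : Set N) ↔
      (n : G) ∈ Subgroup.centralizer ((R'.map N.subtype : Subgroup G) : Set G) := by
  rw [Subgroup.mem_centralizer_iff, Subgroup.mem_centralizer_iff]
  constructor
  · rintro h _ ⟨a, ha, rfl⟩
    exact congrArg Subtype.val (h a ha)
  · intro h a ha
    exact Subtype.ext (h a ⟨a, ha, rfl⟩)

theorem mem_normalizer_map {N : Subgroup G} {R' : Subgroup N} (n : N) :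
    n ∈ Subgroup.normalizer (R' : Set N) ↔
      (n : G) ∈ Subgroup.normalizer ((R'.map N.subtype : Subgroup G) : Set G) := by
  rw [Subgroup.mem_normalizer_iff, Subgroup.mem_normalizer_iff]
  constructor
  · intro h g
    constructor
    · rintro ⟨a, ha, rfl⟩
      exact ⟨n * a * n⁻¹, (h a).mp ha, rfl⟩
    · rintro ⟨a, ha, ha2⟩
      have ha3 : (a : G) = n * g * (n : G)⁻¹ := ha2
      have hg : g = ((n⁻¹ * a * n : N) : G) := by
        show g = (n : G)⁻¹ * a * n
        rw [ha3]; group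
      refine ⟨n⁻¹ * a * n, (h _).mpr ?_, hg.symm⟩
      have : n * (n⁻¹ * a * n) * n⁻¹ = a := by group
      rwa [this]
  · intro h a
    constructor
    · intro ha
      obtain ⟨b, hb, hb2⟩ := (h a).mp ⟨a, ha, rfl⟩
      have : b = n * a * n⁻¹ := Subtype.ext hb2
      rwa [← this]
    · intro ha
      obtain ⟨b, hb, hb2⟩ := (h a).mpr ⟨n * a * n⁻¹, ha, rfl⟩
      have : b = a := Subtype.ext hb2
      rwa [← this]

/-- the identification `C_N(R') ≃ C_G(R) ⊓ N` -/
def nEquiv (N : Subgroup G) (R' : Subgroup N) : Subgroup.centralizer (R' : Set N) ≃*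
    ↥(Subgroup.centralizer ((R'.map N.subtype : Subgroup G) : Set G) ⊓ N) where
  toFun k := ⟨((k : N) : G), Subgroup.mem_inf.mpr ⟨(mem_centralizer_map _).mp k.2, (k : N).2⟩⟩
  invFun k := ⟨⟨k, (Subgroup.mem_inf.mp k.2).2⟩,
    (mem_centralizer_map _).mpr (Subgroup.mem_inf.mp k.2).1⟩
  left_inv _ := rfl
  right_inv _ := rfl
  map_mul' _ _ := rfl

theorem normalizer_inf_normal {H N : Subgroup G} [hN : N.Normal] {x : G}
    (hx : x ∈ Subgroup.normalizer (H : Set G)) :
    x ∈ Subgroup.normalizer ((H ⊓ N : Subgroup G) : Set G) := by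
  rw [Subgroup.mem_normalizer_iff] at hx ⊢
  intro g
  rw [Subgroup.mem_inf, Subgroup.mem_inf, ← hx g]
  have : g ∈ N ↔ x * g * x⁻¹ ∈ N := by
    constructor
    · intro h; exact hN.conj_mem g h x
    · intro h
      have := hN.conj_mem _ h x⁻¹
      simpa [mul_assoc] using this
  rw [this]

theorem pnormal_inf (hp : p.Prime) (H N : Subgroup G) [hN : N.Normal] {k : ℕ}
    (hidx : N.index = p ^ k) : PNormal p H (H ⊓ N) where
  le := inf_le_left
  norm := fun _ hx => normalizer_inf_normal (Subgroup.le_normalizer hx)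
  reg := fun _ hg hr => Subgroup.mem_inf.mpr ⟨hg, regular_mem_of_index hp N hidx hr⟩

theorem mapBlock_symm_cancel {A A' : Type u} [Group A] [Group A'] [Finite A] [Finite A']
    (e : A ≃* A') (b : Set (IrrCharacter A')) : mapBlock e (mapBlock e.symm b) = b := by
  apply blockCoeff_injective
  funext a
  rw [blockCoeff_mapBlock', blockCoeff_mapBlock']
  simp

variable [Finite G]

theorem sbc_nEquiv (N : Subgroup G) (R' : Subgroup N)
    (f' : Set (IrrCharacter (Subgroup.centralizer (R' : Set N)))) (n : N) :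
    subgroupBlockCoeff _ (mapBlock (nEquiv N R') f') (n : G) = subgroupBlockCoeff _ f' n := by
  by_cases hx : n ∈ Subgroup.centralizer (R' : Set N)
  · have hx' : (n : G) ∈ Subgroup.centralizer ((R'.map N.subtype : Subgroup G) : Set G) ⊓ N :=
      Subgroup.mem_inf.mpr ⟨(mem_centralizer_map _).mp hx, n.2⟩
    have h1 := sbc_coe _ (mapBlock (nEquiv N R') f') ⟨(n : G), hx'⟩
    have h2 := sbc_coe _ f' ⟨n, hx⟩
    simp only at h1 h2
    rw [h1, h2, blockCoeff_mapBlock']
    rfl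
  · rw [sbc_not_mem _ _ hx, sbc_not_mem]
    intro h
    exact hx ((mem_centralizer_map _).mpr (Subgroup.mem_inf.mp h).1)

theorem sbc_nEquiv_not_mem (N : Subgroup G) (R' : Subgroup N)
    (f' : Set (IrrCharacter (Subgroup.centralizer (R' : Set N)))) {g : G} (hg : g ∉ N) :
    subgroupBlockCoeff _ (mapBlock (nEquiv N R') f') g = 0 := by
  apply sbc_not_mem
  intro h
  exact hg (Subgroup.mem_inf.mp h).2

theorem stabilizes_nEquiv (N : Subgroup G) [hN : N.Normal] (R' : Subgroup N)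
    (f' : Set (IrrCharacter (Subgroup.centralizer (R' : Set N)))) {x : N}
    (hx : x ∈ Subgroup.normalizer (R' : Set N)) :
    StabilizesBlock (Subgroup.centralizer (R' : Set N)) f' x ↔
      ∀ g : G, subgroupBlockCoeff _ (mapBlock (nEquiv N R') f') ((x : G) * g * (x : G)⁻¹) =
        subgroupBlockCoeff _ (mapBlock (nEquiv N R') f') g := by
  rw [stabilizes_iff_inv]
  constructor
  · rintro ⟨-, h⟩ g
    by_cases hg : g ∈ N
    · have h1 := sbc_nEquiv N R' f' (x * ⟨g, hg⟩ * x⁻¹)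
      have h2 := sbc_nEquiv N R' f' ⟨g, hg⟩
      simp only at h2
      rw [h2, ← h ⟨g, hg⟩, ← h1]
      rfl
    · rw [sbc_nEquiv_not_mem N R' f' hg, sbc_nEquiv_not_mem]
      intro h'
      apply hg
      have := hN.conj_mem _ h' (x : G)⁻¹
      simpa [mul_assoc] using this
  · intro h
    refine ⟨normalizer_le_normalizer_centralizer R' hx, fun n => ?_⟩
    rw [← sbc_nEquiv, ← sbc_nEquiv]
    exact h n

section main

variable [Fintype G] [Fact p.Prime]

/-- comparison of the Brauer-pair conditions in `N` and in `G` -/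
theorem bo_cov (hM : IsPModular p M) (N : Subgroup G) [hN : N.Normal] {k : ℕ}
    (hidx : N.index = p ^ k) {c : Set (IrrCharacter N)} {B : Set (IrrCharacter G)}
    (hB : IsPBlock M B) (hBc : ∀ g : G, blockCoeff B g = subgroupBlockCoeff N c g)
    (R' : Subgroup N) {f' : Set (IrrCharacter (Subgroup.centralizer (R' : Set N)))}
    (hf' : IsPBlock M f')
    [Fintype (Subgroup.centralizer ((R'.map N.subtype : Subgroup G) : Set G))]
    [Fintype ↥(Subgroup.centralizer ((R'.map N.subtype : Subgroup G) : Set G) ⊓ N)]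
    {F : Set (IrrCharacter (Subgroup.centralizer ((R'.map N.subtype : Subgroup G) : Set G)))}
    (hF : IsPBlock M F) (hcov : Cov _ _ M F (mapBlock (nEquiv N R') f'))
    {ξ : IrrCharacter (Subgroup.centralizer ((R'.map N.subtype : Subgroup G) : Set G))}
    (hξ : ξ ∈ F) {θ' : IrrCharacter (Subgroup.centralizer (R' : Set N))} (hθ' : θ' ∈ f') :
    MemLocalIdeal M (brauerOmega (R'.map N.subtype) (blockCoeff B) (ξ : _ → ℂ) -
      brauerOmega R' (blockCoeff c) (θ' : _ → ℂ)) := by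
  have hPr := isPrime_of_modular hM
  have hp : p.Prime := Fact.out
  haveI : Fintype (Subgroup.centralizer (R' : Set N)) := Fintype.ofFinite _
  have hPN := pnormal_inf hp (Subgroup.centralizer ((R'.map N.subtype : Subgroup G) : Set G)) N hidx
  have h1 := Om_cov hM hPN hF (isPBlock_mapBlock _ hf') hcov (a := blockCoeff B)
    (inv_of_classFunction (blockCoeff_classFunction B) _)
    (fun g hg hgK => by
      rw [hBc g]
      apply sbc_not_mem
      intro hgN
      exact hgK (Subgroup.mem_inf.mpr ⟨hg, hgN⟩))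
    (osima_block hPr hB) hξ ((mem_mapBlock (nEquiv N R') f' θ').mpr hθ')
  rw [Om_mapIrr] at h1
  rw [bo_eq, bo_eq]
  convert h1 using 3
  funext a
  show blockCoeff c (a : N) = blockCoeff B ((a : N) : G)
  rw [hBc, sbc_coe]

theorem nilpotent_down (hM : IsPModular p M) (N : Subgroup G) [hN : N.Normal] {k : ℕ}
    (hidx : N.index = p ^ k) {c : Set (IrrCharacter N)} (hc : IsPBlock M c)
    {B : Set (IrrCharacter G)}
    (hB : IsPBlock M B) (hBc : ∀ g : G, blockCoeff B g = subgroupBlockCoeff N c g)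
    (hnil : IsNilpotentBlock p M B) : IsNilpotentBlock p M c := by
  have hPr := isPrime_of_modular hM
  have hp : p.Prime := Fact.out
  refine ⟨hc, ?_⟩
  intro R' f' hpair x hxN hxS hxr
  haveI : Fintype (Subgroup.centralizer ((R'.map N.subtype : Subgroup G) : Set G)) :=
    Fintype.ofFinite _
  haveI : Fintype ↥(Subgroup.centralizer ((R'.map N.subtype : Subgroup G) : Set G) ⊓ N) :=
    Fintype.ofFinite _
  have hPN := pnormal_inf hp (Subgroup.centralizer ((R'.map N.subtype : Subgroup G) : Set G)) N hidx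
  have hb := isPBlock_mapBlock (M := M) (nEquiv N R') hpair.1.2
  obtain ⟨F, hF, hcov⟩ := exists_cov hM hPN hb
  obtain ⟨θ', hθ'⟩ := block_nonempty hPr hpair.1.2
  have hpairG : IsBrauerPairOf p M B (R'.map N.subtype) F := by
    refine ⟨⟨hpair.1.1.map _, hF⟩, hB, fun ξ hξ => ?_⟩
    have h1 := bo_cov hM N hidx hB hBc R' hpair.1.2 hF hcov hξ hθ'
    have h2 := ideal_add hPr h1 (hpair.2.2 θ' hθ')
    convert h2 using 1
    ring
  have hxNG := (mem_normalizer_map x).mp hxN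
  have hxH := normalizer_le_normalizer_centralizer _ hxNG
  have hxK : (x : G) ∈ Subgroup.normalizer ((Subgroup.centralizer
      ((R'.map N.subtype : Subgroup G) : Set G) ⊓ N : Subgroup G) : Set G) :=
    normalizer_inf_normal hxH
  have hbx : mapBlock (conjAut _ (x : G) hxK) (mapBlock (nEquiv N R') f') =
      mapBlock (nEquiv N R') f' := by
    apply sbc_injective
    funext g
    rw [sbc_conjAut]
    have := (stabilizes_nEquiv N R' f' hxN).mp hxS ((x : G)⁻¹ * g * x)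
    rw [← this]
    congr 1
    group
  have h3 := cov_conj hcov hxH hxK
  rw [hbx] at h3
  have hFx := cov_unique hM hPN (isPBlock_mapBlock _ hF) hF hb h3 hcov
  have hst : StabilizesBlock _ F (x : G) := stabilizes_iff.mpr ⟨hxH, hFx⟩
  have hreg : IsPRegular p (x : G) := by
    unfold IsPRegular at hxr ⊢
    rwa [Subgroup.orderOf_coe]
  exact (mem_centralizer_map x).mpr (hnil.2 _ F hpairG _ hxNG hst hreg)

theorem centralizes_map (hM : IsPModular p M) (N : Subgroup G) [hN : N.Normal] {k : ℕ}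
    (hidx : N.index = p ^ k) {c : Set (IrrCharacter N)} (hc : IsPBlock M c)
    {B : Set (IrrCharacter G)}
    (hB : IsPBlock M B) (hBc : ∀ g : G, blockCoeff B g = subgroupBlockCoeff N c g)
    (hnil : IsNilpotentBlock p M c) (R' : Subgroup N)
    {F : Set (IrrCharacter (Subgroup.centralizer ((R'.map N.subtype : Subgroup G) : Set G)))}
    (hpair : IsBrauerPairOf p M B (R'.map N.subtype) F) {x : G}
    (hxN : x ∈ Subgroup.normalizer ((R'.map N.subtype : Subgroup G) : Set G))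
    (hxS : StabilizesBlock _ F x) (hxr : IsPRegular p x) :
    x ∈ Subgroup.centralizer ((R'.map N.subtype : Subgroup G) : Set G) := by
  have hPr := isPrime_of_modular hM
  have hp : p.Prime := Fact.out
  haveI : Fintype (Subgroup.centralizer ((R'.map N.subtype : Subgroup G) : Set G)) :=
    Fintype.ofFinite _
  haveI : Fintype ↥(Subgroup.centralizer ((R'.map N.subtype : Subgroup G) : Set G) ⊓ N) :=
    Fintype.ofFinite _
  have hPN := pnormal_inf hp (Subgroup.centralizer ((R'.map N.subtype : Subgroup G) : Set G)) N hidx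
  have hF := hpair.1.2
  obtain ⟨b, hb, hcov⟩ := exists_cov_under hM hPN hF
  obtain ⟨f', hf', rfl⟩ : ∃ f' : Set (IrrCharacter (Subgroup.centralizer (R' : Set N))),
      IsPBlock M f' ∧ mapBlock (nEquiv N R') f' = b :=
    ⟨mapBlock (nEquiv N R').symm b, isPBlock_mapBlock _ hb, mapBlock_symm_cancel _ b⟩
  obtain ⟨ξ, hξ⟩ := block_nonempty hPr hF
  have hR' : IsPGroup p R' :=
    hpair.1.1.of_injective (N.subtype.subgroupMap R') (by
      intro a a' h
      have := congrArg (fun z : R'.map N.subtype => (z : G)) h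
      exact Subtype.ext (Subtype.ext this))
  have hpairN : IsBrauerPairOf p M c R' f' := by
    refine ⟨⟨hR', hf'⟩, hc, fun θ' hθ' => ?_⟩
    have h1 := bo_cov hM N hidx hB hBc R' hf' hF hcov hξ hθ'
    have h2 := ideal_sub hPr (hpair.2.2 ξ hξ) h1
    convert h2 using 1
    ring
  have hxH := normalizer_le_normalizer_centralizer _ hxN
  have hxK : x ∈ Subgroup.normalizer ((Subgroup.centralizer
      ((R'.map N.subtype : Subgroup G) : Set G) ⊓ N : Subgroup G) : Set G) :=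
    normalizer_inf_normal hxH
  obtain ⟨hxH', hFx⟩ := stabilizes_iff.mp hxS
  have h3 := cov_conj hcov hxH' hxK
  rw [hFx] at h3
  obtain ⟨h, hh, h4⟩ := cov_trans hM hPN hF hb (isPBlock_mapBlock _ hb) hcov h3
  set E := subgroupBlockCoeff _ (mapBlock (nEquiv N R') f') with hE
  have h5 : ∀ g, E (x⁻¹ * g * x) = E (h⁻¹ * g * h) := by
    intro g
    have := congrArg (fun z => subgroupBlockCoeff _ z g) h4
    beta_reduce at this
    rwa [sbc_conjAut, sbc_conjAut] at this
  set y := x⁻¹ * h with hy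
  have h6 : ∀ g, E (y * g * y⁻¹) = E g := by
    intro g
    have := h5 (h * g * h⁻¹)
    have e1 : x⁻¹ * (h * g * h⁻¹) * x = y * g * y⁻¹ := by rw [hy]; group
    have e2 : h⁻¹ * (h * g * h⁻¹) * h = g := by group
    rwa [e1, e2] at this
  have h7 : ∀ n : ℕ, ∀ g, E (y ^ n * g * (y ^ n)⁻¹) = E g := by
    intro n
    induction n with
    | zero => intro g; simp
    | succ n ih =>
      intro g
      rw [← ih g, ← h6 (y ^ n * g * (y ^ n)⁻¹)]
      congr 1
      rw [pow_succ']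
      group
  have hhN : h ∈ Subgroup.normalizer ((R'.map N.subtype : Subgroup G) : Set G) :=
    centralizer_le_normalizer' _ hh
  have hyN : y ∈ Subgroup.normalizer ((R'.map N.subtype : Subgroup G) : Set G) :=
    Subgroup.mul_mem _ (Subgroup.inv_mem _ hxN) hhN
  obtain ⟨a, m, hm, hom⟩ := Nat.exists_eq_pow_mul_and_not_dvd (orderOf_pos y).ne' p hp.ne_one
  have hord : orderOf (y ^ (p ^ a)) = m := by
    rw [orderOf_pow_of_dvd (pow_pos hp.pos a).ne' (by rw [hom]; exact Dvd.intro _ rfl), hom,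
      Nat.mul_div_cancel_left _ (pow_pos hp.pos a)]
  have hy1N : y ^ (p ^ a) ∈ N := regular_mem_of_index hp N hidx (by rw [hord]; exact hm)
  have hy1 : (⟨y ^ (p ^ a), hy1N⟩ : N) ∈ Subgroup.centralizer (R' : Set N) := by
    have hn1 : (⟨y ^ (p ^ a), hy1N⟩ : N) ∈ Subgroup.normalizer (R' : Set N) :=
      (mem_normalizer_map _).mpr (Subgroup.pow_mem _ hyN _)
    apply hnil.2 R' f' hpairN _ hn1 ((stabilizes_nEquiv N R' f' hn1).mpr (h7 (p ^ a)))
    unfold IsPRegular
    rw [← Subgroup.orderOf_coe]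
    simp only
    rw [hord]; exact hm
  have hy2 : y ^ (p ^ a) ∈ Subgroup.centralizer ((R'.map N.subtype : Subgroup G) : Set G) :=
    (mem_centralizer_map _).mp hy1
  have h8 : ∀ n : ℕ, ∃ z ∈ Subgroup.centralizer ((R'.map N.subtype : Subgroup G) : Set G),
      y ^ n = (x⁻¹) ^ n * z := by
    intro n
    induction n with
    | zero => exact ⟨1, Subgroup.one_mem _, by simp⟩
    | succ n ih =>
      obtain ⟨z, hz, hz2⟩ := ih
      refine ⟨x * z * x⁻¹ * h, Subgroup.mul_mem _ ?_ hh, ?_⟩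
      · exact (Subgroup.mem_normalizer_iff.mp hxH z).mp hz
      · rw [pow_succ, hz2, hy, pow_succ]
        group
  obtain ⟨z, hz, hz2⟩ := h8 (p ^ a)
  have h9 : (x⁻¹) ^ (p ^ a) ∈ Subgroup.centralizer ((R'.map N.subtype : Subgroup G) : Set G) := by
    have : (x⁻¹) ^ (p ^ a) = y ^ (p ^ a) * z⁻¹ := by rw [hz2]; group
    rw [this]
    exact Subgroup.mul_mem _ hy2 (Subgroup.inv_mem _ hz)
  have h10 : x ^ (p ^ a) ∈ Subgroup.centralizer ((R'.map N.subtype : Subgroup G) : Set G) := by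
    rw [inv_pow] at h9
    simpa using Subgroup.inv_mem _ h9
  refine Cfsg.Agent.Lib.Helper7_Class.mem_of_pow_mem_of_coprime _ x (a := p ^ a) (b := orderOf x)
    ?_ h10 ?_
  · exact Nat.Coprime.pow_left a ((Nat.Prime.coprime_iff_not_dvd hp).mpr hxr)
  · rw [pow_orderOf_eq_one]; exact Subgroup.one_mem _

theorem centralizes_le (hM : IsPModular p M) (N : Subgroup G) [hN : N.Normal] {k : ℕ}
    (hidx : N.index = p ^ k) {c : Set (IrrCharacter N)} (hc : IsPBlock M c)
    {B : Set (IrrCharacter G)}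
    (hB : IsPBlock M B) (hBc : ∀ g : G, blockCoeff B g = subgroupBlockCoeff N c g)
    (hnil : IsNilpotentBlock p M c) {Q0 : Subgroup G} (hQ0 : Q0 ≤ N)
    {F : Set (IrrCharacter (Subgroup.centralizer (Q0 : Set G)))}
    (hpair : IsBrauerPairOf p M B Q0 F) {x : G}
    (hxN : x ∈ Subgroup.normalizer (Q0 : Set G))
    (hxS : StabilizesBlock _ F x) (hxr : IsPRegular p x) :
    x ∈ Subgroup.centralizer (Q0 : Set G) := by
  obtain ⟨R', rfl⟩ : ∃ R' : Subgroup N, R'.map N.subtype = Q0 :=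
    ⟨Q0.subgroupOf N, Subgroup.map_subgroupOf_eq_of_le hQ0⟩
  exact centralizes_map hM N hidx hc hB hBc hnil R' hpair hxN hxS hxr

theorem nilpotent_up (hM : IsPModular p M) (N : Subgroup G) [hN : N.Normal] {k : ℕ}
    (hidx : N.index = p ^ k) {c : Set (IrrCharacter N)} (hc : IsPBlock M c)
    {B : Set (IrrCharacter G)}
    (hB : IsPBlock M B) (hBc : ∀ g : G, blockCoeff B g = subgroupBlockCoeff N c g)
    (hnil : IsNilpotentBlock p M c) : IsNilpotentBlock p M B := by
  have hp : p.Prime := Fact.out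
  refine ⟨hB, ?_⟩
  intro Q f hQf x hxN hxS hxr
  have hxNN : x ∈ N := regular_mem_of_index hp N hidx hxr
  obtain ⟨f0, hle⟩ := subpair_exists hM _ hQf.1 (inf_le_left : Q ⊓ N ≤ Q) le_rfl
  have hp0 : IsBrauerPair p M (Q ⊓ N) f0 :=
    rtg_isBrauerPair' (a := ⟨Q ⊓ N, f0⟩) (b := ⟨Q, f⟩) hle hQf.1
  have hB0 : IsBrauerPairOf p M B (Q ⊓ N) f0 :=
    (brauerPairOf_iff_of_le hM hQf.1 hp0 hle hB).mp hQf
  have hxN0 : x ∈ Subgroup.normalizer ((Q ⊓ N : Subgroup G) : Set G) := normalizer_inf_normal hxN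
  have hfix : cjPair x ⟨Q, f⟩ = (⟨Q, f⟩ : BrauerPairIdx G) := cjPair_eq_self_iff.mpr ⟨hxN, hxS⟩
  have h1 : ReflTransGen (NormalSubpairRel p M) (cjPair x ⟨Q ⊓ N, f0⟩) ⟨Q, f⟩ := by
    have := rtg_cjPair (p := p) (M := M) x (a := ⟨Q ⊓ N, f0⟩) (b := ⟨Q, f⟩) hle
    rwa [hfix] at this
  have h2 : cjPair x ⟨Q ⊓ N, f0⟩ = (⟨Q ⊓ N, f0⟩ : BrauerPairIdx G) :=
    rtg_unique hM (b := ⟨Q, f⟩) hQf.1 h1 hle (map_conj_of_normalizer hxN0)
  have hxS0 := (cjPair_eq_self_iff.mp h2).2
  have hc0 := centralizes_le hM N hidx hc hB hBc hnil inf_le_right hB0 hxN0 hxS0 hxr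
  rw [Subgroup.mem_centralizer_iff]
  intro q hq
  set z := q⁻¹ * (x * q * x⁻¹) with hz
  have hzQ : z ∈ Q := Subgroup.mul_mem _ (Subgroup.inv_mem _ hq)
    ((Subgroup.mem_normalizer_iff.mp hxN q).mp hq)
  have hzN : z ∈ N := by
    have e : z = (q⁻¹ * x * q⁻¹⁻¹) * x⁻¹ := by rw [hz]; group
    rw [e]
    exact Subgroup.mul_mem _ (hN.conj_mem x hxNN q⁻¹) (Subgroup.inv_mem _ hxNN)
  have hzx : z * x = x * z :=
    Subgroup.mem_centralizer_iff.mp hc0 z (Subgroup.mem_inf.mpr ⟨hzQ, hzN⟩)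
  have h3 : ∀ n : ℕ, x ^ n * q * (x ^ n)⁻¹ = q * z ^ n := by
    intro n
    induction n with
    | zero => simp
    | succ n ih =>
      have e1 : x ^ (n + 1) * q * (x ^ (n + 1))⁻¹ = x * (x ^ n * q * (x ^ n)⁻¹) * x⁻¹ := by
        rw [pow_succ']; group
      have hzn : x * z ^ n = z ^ n * x := ((Commute.pow_left (show Commute z x from hzx) n).eq).symm
      rw [e1, ih]
      calc x * (q * z ^ n) * x⁻¹ = x * q * (x⁻¹ * (x * z ^ n)) * x⁻¹ := by group
        _ = x * q * (x⁻¹ * (z ^ n * x)) * x⁻¹ := by rw [hzn]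
        _ = q * (q⁻¹ * (x * q * x⁻¹)) * z ^ n := by group
        _ = q * z ^ (n + 1) := by rw [← hz, pow_succ', mul_assoc]
  have h4 : z ^ orderOf x = 1 := by
    have := h3 (orderOf x)
    rw [pow_orderOf_eq_one] at this
    simpa using this.symm
  obtain ⟨j, hj⟩ := hQf.1.1 ⟨z, hzQ⟩
  have hj' : z ^ (p ^ j) = 1 := congrArg Subtype.val hj
  have hz1 : z ∈ (⊥ : Subgroup G) :=
    Cfsg.Agent.Lib.Helper7_Class.mem_of_pow_mem_of_coprime _ z (a := p ^ j) (b := orderOf x)
      (Nat.Coprime.pow_left j ((Nat.Prime.coprime_iff_not_dvd hp).mpr hxr))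
      (by rw [hj']; exact Subgroup.one_mem _) (by rw [h4]; exact Subgroup.one_mem _)
  rw [Subgroup.mem_bot] at hz1
  have : x * q * x⁻¹ = q := by
    have : q * z = q := by rw [hz1, mul_one]
    rw [hz] at this
    simpa [mul_assoc] using this
  calc q * x = (x * q * x⁻¹) * x := by rw [this]
    _ = x * q := by group

end main

end Cfsg.Agent.Lib.Helper2_PExt2
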