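import Mathlib

set_option autoImplicit false

namespace Cfsg.Agent.Lib.Helper2_Perm

open MulAction SubMulAction

/-- If `G` is `m`-transitive and the pointwise stabiliser of an `m`-set is `k`-transitive on the
complement then `G` is `(m+k)`-transitive. -/
theorem isMultiplyPretransitive_add {k : ℕ} (m : ℕ) {G α : Type*} [Group G] [MulAction G α]
    (s : Set α) (hs : s.Finite) (hsm : s.ncard = m) (h1 : IsMultiplyPretransitive G α m)
    (h2 : IsMultiplyPretransitive (fixingSubgroup G s) (ofFixingSubgroup G s) k) :
    IsMultiplyPretransitive G α (m + k) := by
  induction m generalizing G α with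
  | zero =>
    have h0 : s = ∅ := (Set.ncard_eq_zero hs).mp hsm
    subst h0
    rw [zero_add]
    exact IsPretransitive.of_embedding
      (f := ofFixingSubgroup_equivariantMap G (∅ : Set α))
      ofFixingSubgroupEmpty_equivariantMap_bijective.surjective
  | succ m ih =>
    have hne : s.Nonempty := by
      rw [← Set.ncard_pos hs, hsm]; exact Nat.succ_pos m
    obtain ⟨a, ha⟩ := hne
    set t : Set (ofStabilizer G a) := Subtype.val ⁻¹' s with ht
    have hst : s = insert a (Subtype.val '' t) := by
      ext x
      by_cases hx : x = a <;> simp [hx, mem_ofStabilizer_iff, ha, ht]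
    have ha' : a ∉ Subtype.val '' t := by
      intro h; rw [Set.mem_image] at h; obtain ⟨x, hx⟩ := h
      apply x.prop; rw [hx.right]; exact Set.mem_singleton a
    have hcard : ((m + 1 : ℕ) : ENat) ≤ ENat.card α := by
      rw [← hsm, hs.cast_ncard_eq]
      exact Set.encard_le_card
    have htr : IsPretransitive G α := by
      rw [← is_one_pretransitive_iff]
      exact isMultiplyPretransitive_of_le' (n := m + 1) (Nat.succ_le_succ (Nat.zero_le m)) hcard
    have h1' : IsMultiplyPretransitive (stabilizer G a) (ofStabilizer G a) m :=
      (ofStabilizer.isMultiplyPretransitive (a := a)).mp h1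
    have h2' : IsMultiplyPretransitive (fixingSubgroup G (insert a (Subtype.val '' t)))
        (ofFixingSubgroup G (insert a (Subtype.val '' t))) k :=
      IsPretransitive.of_embedding (ofFixingSubgroup_of_eq_bijective (hst := hst)).surjective
    have h2'' : IsMultiplyPretransitive (fixingSubgroup (stabilizer G a) t)
        (ofFixingSubgroup (stabilizer G a) t) k :=
      IsPretransitive.of_embedding ofFixingSubgroup_insert_map_bijective.surjective
    have htfin : t.Finite := hs.preimage Subtype.val_injective.injOn
    have htm : t.ncard = m := by
      rw [← Set.ncard_image_of_injective t Subtype.val_injective]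
      apply Nat.add_right_cancel
      rw [← Set.ncard_insert_of_notMem ha' (htfin.image _), ← hst, hsm]
    have h3 := ih t htfin htm h1' h2''
    have h4 := (ofStabilizer.isMultiplyPretransitive (G := G) (a := a) (n := m + k)).mpr h3
    have e : m + 1 + k = (m + k).succ := by omega
    rw [e]
    exact h4

end Cfsg.Agent.Lib.Helper2_Perm
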