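import Mathlib

set_option autoImplicit false

namespace Cfsg.Agent.Lib.Helper2_Perm2

variable {α : Type*}

theorem comm_apply {H : Subgroup (Equiv.Perm α)} {c : Equiv.Perm α}
    (hc : c ∈ Subgroup.centralizer (H : Set (Equiv.Perm α))) {g : Equiv.Perm α} (hg : g ∈ H)
    (x : α) : c (g x) = g (c x) := by
  have := Subgroup.mem_centralizer_iff.mp hc g hg
  exact (congrArg (fun σ : Equiv.Perm α => σ x) this).symm

theorem semireg {H : Subgroup (Equiv.Perm α)} (htr : ∀ a b : α, ∃ h ∈ H, h a = b)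
    {c : Equiv.Perm α} (hc : c ∈ Subgroup.centralizer (H : Set (Equiv.Perm α))) {a : α}
    (hca : c a = a) : c = 1 := by
  ext x
  obtain ⟨g, hg, rfl⟩ := htr a x
  rw [comm_apply hc hg, hca]
  rfl

theorem centralizer_eq_of_transitive_le {H K : Subgroup (Equiv.Perm α)}
    (hH : ∀ a b : α, ∃ h ∈ H, h a = b) (hK : ∀ a b : α, ∃ h ∈ K, h a = b)
    (hKH : K ≤ Subgroup.centralizer (H : Set (Equiv.Perm α))) :
    Subgroup.centralizer (H : Set (Equiv.Perm α)) = K := by
  apply le_antisymm _ hKH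
  intro c hc
  rcases isEmpty_or_nonempty α with he | ⟨⟨a⟩⟩
  · have : c = 1 := by ext x; exact (he.false x).elim
    rw [this]; exact K.one_mem
  · obtain ⟨k, hk, hka⟩ := hK a (c a)
    have h1 : k⁻¹ * c ∈ Subgroup.centralizer (H : Set (Equiv.Perm α)) :=
      Subgroup.mul_mem _ (Subgroup.inv_mem _ (hKH hk)) hc
    have h2 : (k⁻¹ * c) a = a := by
      rw [Equiv.Perm.mul_apply, ← hka]; simp
    have h3 := semireg hH h1 h2
    have : c = k := (inv_mul_eq_one.mp h3).symm
    rw [this]; exact hk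

/-- elementwise transitivity of the image in the symmetric group -/
theorem trans_map {G : Subgroup (Equiv.Perm α)} (M : Subgroup G)
    (htrans : MulAction.IsPretransitive M α) :
    ∀ a b : α, ∃ h ∈ M.map G.subtype, h a = b := by
  intro a b
  obtain ⟨m, hm⟩ := MulAction.exists_smul_eq M a b
  exact ⟨((m : G) : Equiv.Perm α), ⟨(m : G), m.2, rfl⟩, hm⟩

/-- Two minimal normal subgroups are equal or disjoint. -/
theorem min_normal_disjoint {G : Type*} [Group G] {M L : Subgroup G} [M.Normal] (hL : L.Normal)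
    (hM0 : M ≠ ⊥)
    (hMmin : ∀ L : Subgroup G, L.Normal → L ≤ M → L = ⊥ ∨ L = M)
    (hLmin : ∀ L' : Subgroup G, L'.Normal → L' ≤ L → L' = ⊥ ∨ L' = L) (hne : L ≠ M) :
    Disjoint L M := by
  rw [disjoint_iff]
  have hn : (L ⊓ M).Normal := inferInstance
  rcases hMmin (L ⊓ M) hn inf_le_right with h | h
  · exact h
  · exfalso
    have hML : M ≤ L := by rw [← h]; exact inf_le_left
    rcases hLmin M inferInstance hML with h' | h'
    · exact hM0 h'
    · exact hne h'.symm

theorem map_le_centralizer_map {G : Subgroup (Equiv.Perm α)} {L M : Subgroup G}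
    (h : ∀ x ∈ L, ∀ y ∈ M, Commute x y) :
    L.map G.subtype ≤ Subgroup.centralizer ((M.map G.subtype : Subgroup (Equiv.Perm α)) :
      Set (Equiv.Perm α)) := by
  rintro _ ⟨x, hx, rfl⟩
  rw [Subgroup.mem_centralizer_iff]
  rintro _ ⟨y, hy, rfl⟩
  have := h x hx y hy
  exact congrArg G.subtype this.eq.symm

theorem stabilizer_eq_bot {G : Subgroup (Equiv.Perm α)} {L M : Subgroup G}
    (hM : ∀ a b : α, ∃ h ∈ M.map G.subtype, h a = b)
    (h : L.map G.subtype ≤ Subgroup.centralizer ((M.map G.subtype : Subgroup (Equiv.Perm α)) :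
      Set (Equiv.Perm α))) (a : α) : MulAction.stabilizer L a = ⊥ := by
  rw [eq_bot_iff]
  intro m hm
  rw [Subgroup.mem_bot]
  have h1 : ((m : G) : Equiv.Perm α) ∈ L.map G.subtype := ⟨(m : G), m.2, rfl⟩
  have h2 : ((m : G) : Equiv.Perm α) a = a := hm
  have h3 := semireg hM (h h1) h2
  apply Subtype.ext
  apply Subtype.ext
  exact h3

end Cfsg.Agent.Lib.Helper2_Perm2
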