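import Mathlib
import Cfsg.Prelude.Def_ClassicalGeometry

set_option autoImplicit false

namespace Cfsg.Agent.Lib.Helper2_Quad

open Matrix

variable {F : Type*} {ι : Type} [Fintype ι] [DecidableEq ι]

theorem polarVec_dot [CommRing F] (Q : QuadraticForm F (ι → F)) (v x : ι → F) :
    Cfsg.polarVec ⇑Q v ⬝ᵥ x = QuadraticMap.polar ⇑Q v x := by
  have h : QuadraticMap.polar ⇑Q v x = QuadraticMap.polarBilin Q v x := rfl
  rw [h]
  conv_rhs => rw [pi_eq_sum_univ' x, map_sum]
  unfold Cfsg.polarVec dotProduct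
  apply Finset.sum_congr rfl
  intro j _
  rw [map_smul, smul_eq_mul, mul_comm]
  rfl

theorem det_one_add_smul_vecMulVec [CommRing F] (c : F) (u w : ι → F) :
    (1 + c • vecMulVec u w).det = 1 + c * (w ⬝ᵥ u) := by
  rw [← smul_vecMulVec, vecMulVec_eq Unit, det_one_add_replicateCol_mul_replicateRow,
    dotProduct_smul, smul_eq_mul]

theorem reflection_mulVec [Field F] (Q : QuadraticForm F (ι → F)) (v x : ι → F) :
    (Cfsg.reflectionMatrix ⇑Q v) *ᵥ x = x - ((Q v)⁻¹ * QuadraticMap.polar ⇑Q v x) • v := by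
  unfold Cfsg.reflectionMatrix
  rw [sub_mulVec, one_mulVec, smul_mulVec, vecMulVec_mulVec, polarVec_dot, mul_smul]
  simp

theorem siegel_mulVec [CommRing F] (Q : QuadraticForm F (ι → F)) (u v : ι → F) (c : F)
    (x : ι → F) : (Cfsg.siegelMatrix ⇑Q u v c) *ᵥ x =
      x + (c * QuadraticMap.polar ⇑Q u x) • v - (c * QuadraticMap.polar ⇑Q v x) • u := by
  unfold Cfsg.siegelMatrix
  rw [add_mulVec, one_mulVec, smul_mulVec, sub_mulVec, vecMulVec_mulVec, vecMulVec_mulVec,
    polarVec_dot, polarVec_dot, smul_sub, mul_smul, mul_smul, add_sub_assoc]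
  simp

theorem map_sub_smul [CommRing F] (Q : QuadraticForm F (ι → F)) (x v : ι → F) (t : F) :
    Q (x - t • v) = Q x + t * t * Q v - t * QuadraticMap.polar ⇑Q x v := by
  rw [sub_eq_add_neg, ← neg_smul, QuadraticMap.map_add (⇑Q), QuadraticMap.map_smul,
    QuadraticMap.polar_smul_right]
  simp only [smul_eq_mul]
  ring

end Cfsg.Agent.Lib.Helper2_Quad
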