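import Mathlib
import Cfsg.Prelude.Def_ClassicalGeometry

set_option autoImplicit false

namespace Cfsg.Agent.Lib.Helper2_Symp

open Matrix

variable {F : Type*} [CommRing F] (m : ℕ)

theorem J_J_mulVec (v : Fin m ⊕ Fin m → F) :
    Matrix.J (Fin m) F *ᵥ (Matrix.J (Fin m) F *ᵥ v) = -v := by
  rw [mulVec_mulVec, J_squared, neg_mulVec, one_mulVec]

theorem vecMul_J (w : Fin m ⊕ Fin m → F) :
    w ᵥ* Matrix.J (Fin m) F = -(Matrix.J (Fin m) F *ᵥ w) := by
  rw [← mulVec_transpose, J_transpose, neg_mulVec]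

theorem dot_J_self (v : Fin m ⊕ Fin m → F) : v ⬝ᵥ (Matrix.J (Fin m) F *ᵥ v) = 0 := by
  simp only [Matrix.J, dotProduct, Fintype.sum_sum_type, fromBlocks_mulVec, Sum.elim_inl,
    Sum.elim_inr, zero_mulVec, neg_mulVec, one_mulVec, zero_add, add_zero, Pi.neg_apply,
    Function.comp_apply]
  rw [← Finset.sum_add_distrib]
  apply Finset.sum_eq_zero
  intros
  ring

theorem sympForm_self (v : Fin m ⊕ Fin m → F) : Cfsg.sympForm m F v v = 0 := dot_J_self m v

theorem sympForm_add_left (u u' v : Fin m ⊕ Fin m → F) :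
    Cfsg.sympForm m F (u + u') v = Cfsg.sympForm m F u v + Cfsg.sympForm m F u' v := by
  simp [Cfsg.sympForm, add_dotProduct]

theorem sympForm_add_right (u v v' : Fin m ⊕ Fin m → F) :
    Cfsg.sympForm m F u (v + v') = Cfsg.sympForm m F u v + Cfsg.sympForm m F u v' := by
  simp [Cfsg.sympForm, mulVec_add, dotProduct_add]

theorem sympForm_smul_left (a : F) (u v : Fin m ⊕ Fin m → F) :
    Cfsg.sympForm m F (a • u) v = a * Cfsg.sympForm m F u v := by
  simp [Cfsg.sympForm]

theorem sympForm_smul_right (a : F) (u v : Fin m ⊕ Fin m → F) :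
    Cfsg.sympForm m F u (a • v) = a * Cfsg.sympForm m F u v := by
  simp [Cfsg.sympForm, mulVec_smul]

theorem sympForm_swap (u v : Fin m ⊕ Fin m → F) :
    Cfsg.sympForm m F u v = - Cfsg.sympForm m F v u := by
  unfold Cfsg.sympForm
  rw [dotProduct_mulVec, vecMul_J, neg_dotProduct, dotProduct_comm]

theorem sympTransvection_mulVec (v : Fin m ⊕ Fin m → F) (c : F) (x : Fin m ⊕ Fin m → F) :
    Cfsg.sympTransvection m v c *ᵥ x = x + (c * Cfsg.sympForm m F x v) • v := by
  unfold Cfsg.sympTransvection Cfsg.sympForm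
  rw [add_mulVec, one_mulVec, smul_mulVec, vecMulVec_mulVec, dotProduct_comm, mul_smul]
  simp

theorem N_sq (v : Fin m ⊕ Fin m → F) :
    vecMulVec v (Matrix.J (Fin m) F *ᵥ v) * vecMulVec v (Matrix.J (Fin m) F *ᵥ v) = 0 := by
  rw [vecMulVec_mul_vecMulVec, dotProduct_comm, dot_J_self, zero_smul, vecMulVec_zero]

theorem sympTransvection_mul (v : Fin m ⊕ Fin m → F) (c d : F) :
    Cfsg.sympTransvection m v c * Cfsg.sympTransvection m v d =
      Cfsg.sympTransvection m v (c + d) := by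
  unfold Cfsg.sympTransvection
  rw [add_mul, mul_add, mul_add, one_mul, mul_one, one_mul, smul_mul_smul_comm, N_sq, smul_zero,
    add_zero, add_smul, add_assoc, add_comm (d • _)]

theorem sympTransvection_mem (v : Fin m ⊕ Fin m → F) (c : F) :
    Cfsg.sympTransvection m v c ∈ Matrix.symplecticGroup (Fin m) F := by
  rw [SymplecticGroup.mem_iff]
  unfold Cfsg.sympTransvection
  have h1 : vecMulVec v (Matrix.J (Fin m) F *ᵥ v) * Matrix.J (Fin m) F = vecMulVec v v := by
    rw [vecMulVec_mul, vecMul_J, J_J_mulVec, neg_neg]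
  have h2 : Matrix.J (Fin m) F * vecMulVec (Matrix.J (Fin m) F *ᵥ v) v = - vecMulVec v v := by
    rw [mul_vecMulVec, J_J_mulVec, neg_vecMulVec]
  have h3 : vecMulVec v v * vecMulVec (Matrix.J (Fin m) F *ᵥ v) v = 0 := by
    rw [vecMulVec_mul_vecMulVec, dot_J_self, zero_smul, vecMulVec_zero]
  rw [transpose_add, transpose_one, transpose_smul, transpose_vecMulVec, add_mul, one_mul,
    smul_mul_assoc, h1, mul_add, mul_one, add_mul, mul_smul_comm, h2, smul_mul_smul_comm, h3]
  simp

end Cfsg.Agent.Lib.Helper2_Symp
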