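import Mathlib

/-!
# helper3: coset leaders of an abstract `[24, 12, ≥ 8]` binary code (sphere packing count)
-/

set_option autoImplicit false
set_option linter.unusedSectionVars false

namespace Cfsg.Agent.Lib.Helper3_Abs

open Finset

abbrev V := Fin 24 → ZMod 2

def sp (v : V) : Finset (Fin 24) := univ.filter fun i => v i ≠ 0

theorem norm_eq (v : V) : hammingNorm v = (sp v).card := rfl

theorem z2 : ∀ a : ZMod 2, a = 0 ∨ a = 1 := by decide

theorem sp_sub (u v : V) : sp (u - v) = symmDiff (sp u) (sp v) := by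
  ext i
  simp only [sp, mem_filter, mem_univ, true_and, mem_symmDiff, Pi.sub_apply]
  rcases z2 (u i) with h | h <;> rcases z2 (v i) with h' | h' <;> simp [h, h']

theorem card_sd {α : Type*} [DecidableEq α] (s t : Finset α) :
    (symmDiff s t).card + 2 * (s ∩ t).card = s.card + t.card := by
  have h1 : symmDiff s t = (s \ t) ∪ (t \ s) := rfl
  have h2 : Disjoint (s \ t) (t \ s) := by
    rw [Finset.disjoint_left]
    intro a ha hb
    exact (mem_sdiff.mp ha).2 (mem_sdiff.mp hb).1
  rw [h1, card_union_of_disjoint h2]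
  have h3 := card_inter_add_card_sdiff s t
  have h4 := card_inter_add_card_sdiff t s
  rw [inter_comm t s] at h4
  omega

def indV (s : Finset (Fin 24)) : V := fun i => if i ∈ s then 1 else 0

theorem sp_indV (s : Finset (Fin 24)) : sp (indV s) = s := by
  ext i; simp [sp, indV]

theorem indV_sp (v : V) : indV (sp v) = v := by
  funext i
  rcases z2 (v i) with h | h <;> simp [indV, sp, h]

def eqv : V ≃ Finset (Fin 24) := ⟨sp, indV, indV_sp, sp_indV⟩

theorem card_norm_eq (k : ℕ) :
    (univ.filter fun v : V => hammingNorm v = k).card = Nat.choose 24 k := by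
  have : (univ.filter fun v : V => hammingNorm v = k).map eqv.toEmbedding =
      powersetCard k univ := by
    ext s
    simp only [mem_map, mem_filter, mem_univ, true_and, Equiv.coe_toEmbedding, mem_powersetCard,
      subset_univ]
    constructor
    · rintro ⟨v, hv, rfl⟩; exact hv
    · intro h
      exact ⟨indV s, by rw [norm_eq, sp_indV]; exact h, sp_indV s⟩
  rw [← card_map eqv.toEmbedding, this, card_powersetCard, card_univ, Fintype.card_fin]

theorem card_norm_le (m : ℕ) :
    (univ.filter fun v : V => hammingNorm v ≤ m).card = ∑ k ∈ range (m + 1), Nat.choose 24 k := by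
  rw [card_eq_sum_card_fiberwise (f := hammingNorm) (t := range (m + 1)) (by
    intro v hv
    simp only [coe_filter, mem_univ, true_and, Set.mem_ofPred_eq] at hv
    simp only [coe_range, Set.mem_Iio]
    omega)]
  apply sum_congr rfl
  intro k hk
  rw [← card_norm_eq k]
  congr 1
  ext v
  simp only [mem_filter, mem_univ, true_and]
  have := mem_range.mp hk
  constructor
  · rintro ⟨_, h⟩; exact h
  · intro h; exact ⟨by omega, h⟩

theorem card4 : (univ.filter fun v : V => hammingNorm v ≤ 4).card = 12951 := by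
  rw [card_norm_le]; decide +kernel

theorem card3 : (univ.filter fun v : V => hammingNorm v ≤ 3).card = 2325 := by
  rw [card_norm_le]; decide +kernel

section
variable (C : Submodule (ZMod 2) V)

open Classical in
noncomputable def L (m : ℕ) (x : V) : Finset V :=
  univ.filter fun b => hammingNorm b ≤ m ∧ x - b ∈ C

theorem mem_L {m : ℕ} {x b : V} : b ∈ L C m x ↔ hammingNorm b ≤ m ∧ x - b ∈ C := by
  simp [L]

open Classical in
theorem card_shift (b : V) : (univ.filter fun x : V => x - b ∈ C).card = Nat.card C := by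
  rw [Nat.card_eq_fintype_card, Fintype.card_subtype]
  exact card_equiv (Equiv.subRight b) (by intro x; simp)

open Classical in
theorem sum_L (m : ℕ) :
    ∑ x : V, (L C m x).card = (univ.filter fun v : V => hammingNorm v ≤ m).card * Nat.card C := by
  have h1 : ∀ x : V, (L C m x).card =
      ∑ b ∈ univ.filter (fun v : V => hammingNorm v ≤ m), if x - b ∈ C then 1 else 0 := by
    intro x
    rw [← card_filter, L, filter_filter]
  simp only [h1]
  rw [sum_comm]
  have h2 : ∀ b ∈ univ.filter (fun v : V => hammingNorm v ≤ m),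
      ∑ x : V, (if x - b ∈ C then 1 else 0) = Nat.card C := by
    intro b _
    rw [← card_filter, card_shift]
  rw [sum_congr rfl h2, sum_const, smul_eq_mul]

variable {C}

theorem key (hmin : ∀ w ∈ C, w ≠ 0 → 8 ≤ hammingNorm w) {x b b' : V} (hb : b ∈ L C 4 x)
    (hb' : b' ∈ L C 4 x) (hne : b ≠ b') :
    hammingNorm b = 4 ∧ hammingNorm b' = 4 ∧ Disjoint (sp b) (sp b') := by
  obtain ⟨h1, h2⟩ := (mem_L C).mp hb
  obtain ⟨h1', h2'⟩ := (mem_L C).mp hb'
  have hC : b - b' ∈ C := by
    have := C.sub_mem h2' h2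
    have e : x - b' - (x - b) = b - b' := by abel
    rwa [e] at this
  have h8 := hmin _ hC (sub_ne_zero.mpr hne)
  rw [norm_eq, sp_sub] at h8
  have h := card_sd (sp b) (sp b')
  rw [norm_eq] at h1 h1'
  refine ⟨by rw [norm_eq]; omega, by rw [norm_eq]; omega, ?_⟩
  rw [Finset.disjoint_iff_inter_eq_empty, ← card_eq_zero]
  omega

theorem L3_sub (x : V) : L C 3 x ⊆ L C 4 x := by
  intro b hb
  obtain ⟨h1, h2⟩ := (mem_L C).mp hb
  exact (mem_L C).mpr ⟨by omega, h2⟩

theorem local_le (hmin : ∀ w ∈ C, w ≠ 0 → 8 ≤ hammingNorm w) (x : V) :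
    (L C 4 x).card + 5 * (L C 3 x).card ≤ 6 := by
  by_cases h3 : (L C 3 x).Nonempty
  · obtain ⟨b0, hb0⟩ := h3
    have h4 : L C 4 x = {b0} := by
      ext b
      rw [mem_singleton]
      constructor
      · intro hb
        by_contra hne
        have := (key hmin hb (L3_sub x hb0) hne).2.1
        have := ((mem_L C).mp hb0).1
        omega
      · rintro rfl; exact L3_sub x hb0
    have h5 : (L C 3 x).card ≤ 1 := by
      have := card_le_card (L3_sub (C := C) x)
      rwa [h4, card_singleton] at this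
    rw [h4, card_singleton]
    omega
  · rw [not_nonempty_iff_eq_empty] at h3
    rw [h3, card_empty]
    have hfour : ∀ b ∈ L C 4 x, (sp b).card = 4 := by
      intro b hb
      obtain ⟨h1, h2⟩ := (mem_L C).mp hb
      have : b ∉ L C 3 x := by rw [h3]; simp
      rw [mem_L] at this
      rw [norm_eq] at h1 this
      by_contra hcon
      exact this ⟨by omega, h2⟩
    have hU := card_biUnion (s := L C 4 x) (t := sp) (fun b hb b' hb' hne => (key hmin hb hb' hne).2.2)
    rw [sum_congr rfl hfour, sum_const, smul_eq_mul] at hU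
    have h24 : ((L C 4 x).biUnion sp).card ≤ 24 := by
      have := card_le_univ ((L C 4 x).biUnion sp)
      simpa using this
    omega

theorem cardV : (univ : Finset V).card = 16777216 := by
  rw [card_univ, Fintype.card_fun, ZMod.card, Fintype.card_fin]; norm_num

theorem sum4 (hC : Nat.card C = 4096) : ∑ x : V, (L C 4 x).card = 12951 * 4096 := by
  have e4 := sum_L C 4
  rw [card4, hC] at e4
  exact e4

theorem sum3 (hC : Nat.card C = 4096) : ∑ x : V, (L C 3 x).card = 2325 * 4096 := by
  have e3 := sum_L C 3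
  rw [card3, hC] at e3
  exact e3

theorem sum_all (hC : Nat.card C = 4096) :
    ∑ x : V, ((L C 4 x).card + 5 * (L C 3 x).card) = ∑ _x : V, 6 := by
  rw [sum_add_distrib, ← mul_sum, sum4 hC, sum3 hC, sum_const, cardV]
  rfl

theorem cardC (hdim : Module.finrank (ZMod 2) C = 12) : Nat.card C = 4096 := by
  rw [Module.natCard_eq_pow_finrank (K := ZMod 2) (V := C), hdim, Nat.card_eq_fintype_card,
    ZMod.card]
  norm_num

theorem local_eq (hdim : Module.finrank (ZMod 2) C = 12)
    (hmin : ∀ w ∈ C, w ≠ 0 → 8 ≤ hammingNorm w) (x : V) :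
    (L C 4 x).card + 5 * (L C 3 x).card = 6 :=
  (sum_eq_sum_iff_of_le (fun x _ => local_le hmin x)).mp (sum_all (cardC hdim)) x (mem_univ x)

theorem set_eq (w : V) :
    {u : V | u - w ∈ C ∧ hammingNorm u ≤ 4} = ↑(L C 4 w) := by
  ext u
  simp only [Set.mem_ofPred_eq, mem_coe, mem_L]
  have : u - w ∈ C ↔ w - u ∈ C := by
    rw [← neg_sub, Submodule.neg_mem_iff]
  rw [this, and_comm]

theorem leaders (hdim : Module.finrank (ZMod 2) C = 12)
    (hmin : ∀ w ∈ C, w ≠ 0 → 8 ≤ hammingNorm w) (w : V) :
    (∃ u : V, {u : V | u - w ∈ C ∧ hammingNorm u ≤ 4} = {u} ∧ hammingNorm u ≤ 3) ∨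
    ({u : V | u - w ∈ C ∧ hammingNorm u ≤ 4}.ncard = 6 ∧
      ∀ u ∈ {u : V | u - w ∈ C ∧ hammingNorm u ≤ 4}, hammingNorm u = 4 ∧
        ∀ u' ∈ {u : V | u - w ∈ C ∧ hammingNorm u ≤ 4}, u ≠ u' →
          Disjoint (Finset.univ.filter fun i => u i ≠ 0) (Finset.univ.filter fun i => u' i ≠ 0)) := by
  have h := local_eq hdim hmin w
  rw [set_eq]
  by_cases h3 : (L C 3 w).Nonempty
  · left
    obtain ⟨b0, hb0⟩ := h3
    have hpos : 0 < (L C 3 w).card := card_pos.mpr ⟨b0, hb0⟩
    have h1 : (L C 4 w).card = 1 := by omega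
    obtain ⟨a, ha⟩ := card_eq_one.mp h1
    have hb : b0 ∈ L C 4 w := L3_sub w hb0
    rw [ha, mem_singleton] at hb
    refine ⟨b0, ?_, ((mem_L C).mp hb0).1⟩
    rw [ha, hb, coe_singleton]
  · right
    rw [not_nonempty_iff_eq_empty] at h3
    rw [h3, card_empty] at h
    refine ⟨by rw [Set.ncard_coe_finset]; omega, ?_⟩
    intro u hu
    have hu' : u ∈ L C 4 w := hu
    constructor
    · obtain ⟨h1, h2⟩ := (mem_L C).mp hu'
      have : u ∉ L C 3 w := by rw [h3]; simp
      rw [mem_L] at this
      by_contra hcon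
      exact this ⟨by omega, h2⟩
    · intro u' hu2 hne
      exact (key hmin hu' hu2 hne).2.2

end

end Cfsg.Agent.Lib.Helper3_Abs
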