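import Mathlib
import Cfsg.Agent.Lib.Helper3_Abs
import Cfsg.Prelude.Def_Sporadic_a

/-!
# helper3: the octads of an abstract `[24, 12, ≥ 8]` self-dual code form a Steiner system
-/

set_option autoImplicit false
set_option linter.unusedSectionVars false

namespace Cfsg.Agent.Lib.Helper3_Abs2

open Finset Cfsg Cfsg.Agent.Lib.Helper3_Abs

variable {C : Submodule (ZMod 2) V}

theorem even_norm (horth : ∀ v ∈ C, ∀ w ∈ C, ∑ i, v i * w i = 0) {c : V} (hc : c ∈ C) :
    Even (hammingNorm c) := by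
  have h := horth c hc c hc
  have h1 : ∀ i, c i * c i = if c i ≠ 0 then 1 else 0 := by
    intro i
    rcases z2 (c i) with h | h <;> simp [h]
  simp only [h1] at h
  rw [sum_boole] at h
  exact ZMod.natCast_eq_zero_iff_even.mp h

theorem exists_oct (hdim : Module.finrank (ZMod 2) C = 12)
    (horth : ∀ v ∈ C, ∀ w ∈ C, ∑ i, v i * w i = 0)
    (hmin : ∀ w ∈ C, w ≠ 0 → 8 ≤ hammingNorm w) {s : Finset (Fin 24)} (hs : s.card = 5) :
    ∃ c ∈ C, hammingNorm c = 8 ∧ s ⊆ sp c := by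
  have h := local_eq hdim hmin (indV s)
  have hne : (L C 4 (indV s)).Nonempty := by
    rw [← card_pos]
    by_contra hcon
    have h0 : (L C 4 (indV s)).card = 0 := by omega
    have h3 := card_le_card (L3_sub (C := C) (indV s))
    omega
  obtain ⟨b, hb⟩ := hne
  obtain ⟨h1, h2⟩ := (mem_L C).mp hb
  have hsd := card_sd s (sp b)
  have hsp : sp (indV s - b) = symmDiff s (sp b) := by rw [sp_sub, sp_indV]
  have hne0 : indV s - b ≠ 0 := by
    intro h0
    have : indV s = b := sub_eq_zero.mp h0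
    rw [← this, norm_eq, sp_indV, hs] at h1
    omega
  have h8 := hmin _ h2 hne0
  have hev := even_norm horth h2
  rw [norm_eq, hsp] at h8 hev
  rw [norm_eq] at h1
  rw [hs] at hsd
  have hj : (s ∩ sp b).card = 0 := by omega
  refine ⟨indV s - b, h2, ?_, ?_⟩
  · rw [norm_eq, hsp]
    rw [Nat.even_iff] at hev
    omega
  · rw [hsp]
    intro i hi
    refine mem_symmDiff.mpr (Or.inl ⟨hi, fun hib => ?_⟩)
    have : i ∈ s ∩ sp b := mem_inter.mpr ⟨hi, hib⟩
    rw [card_eq_zero.mp hj] at this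
    simp at this

theorem main (C : Submodule (ZMod 2) (Fin 24 → ZMod 2)) (hdim : Module.finrank (ZMod 2) C = 12)
    (horth : ∀ v ∈ C, ∀ w ∈ C, ∑ i, v i * w i = 0)
    (hmin : ∀ w ∈ C, w ≠ 0 → 8 ≤ hammingNorm w) :
    (∃ w ∈ C, hammingNorm w = 8) ∧
      IsSteinerSystem 5 8 (wordsOfWeight (C : Set (Fin 24 → ZMod 2)) 8) := by
  constructor
  · obtain ⟨c, hc, h8, _⟩ := exists_oct hdim horth hmin (s := {0, 1, 2, 3, 4}) (by decide)
    exact ⟨c, hc, h8⟩
  · refine ⟨fun b hb => hb.2, ?_⟩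
    intro s hs
    obtain ⟨c, hc, h8, hsub⟩ := exists_oct hdim horth hmin hs
    refine ⟨sp c, ⟨⟨⟨c, hc, rfl⟩, h8⟩, hsub⟩, ?_⟩
    rintro b ⟨⟨⟨w, hw, rfl⟩, hb8⟩, hsb⟩
    change sp w = sp c
    have hb8' : (sp w).card = 8 := hb8
    have hsb' : s ⊆ sp w := hsb
    by_contra hne
    have hwc : w - c ≠ 0 := by
      intro h0
      exact hne (by rw [sub_eq_zero.mp h0])
    have h8' := hmin _ (C.sub_mem hw hc) hwc
    rw [norm_eq, sp_sub] at h8'
    have hsd := card_sd (sp w) (sp c)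
    rw [norm_eq] at h8
    have h5 : 5 ≤ (sp w ∩ sp c).card := by
      rw [← hs]; exact card_le_card (subset_inter hsb' hsub)
    omega

end Cfsg.Agent.Lib.Helper3_Abs2
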