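import Mathlib
import Cfsg.Agent.Lib.Helper3_Abs2

/-!
# helper3: an abstract `[24, 12, ≥ 8]` self-dual code is spanned by its octads and doubly even
-/

set_option autoImplicit false
set_option linter.unusedSectionVars false

namespace Cfsg.Agent.Lib.Helper3_Abs3

open Finset Cfsg Cfsg.Agent.Lib.Helper3_Abs Cfsg.Agent.Lib.Helper3_Abs2

variable {C : Submodule (ZMod 2) V}

theorem aux (hdim : Module.finrank (ZMod 2) C = 12)
    (horth : ∀ v ∈ C, ∀ w ∈ C, ∑ i, v i * w i = 0)
    (hmin : ∀ w ∈ C, w ≠ 0 → 8 ≤ hammingNorm w) : ∀ n : ℕ, ∀ c ∈ C, hammingNorm c ≤ n →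
    c ∈ Submodule.span (ZMod 2) {w : V | w ∈ C ∧ hammingNorm w = 8} := by
  intro n
  induction n with
  | zero =>
    intro c _ h0
    have : c = 0 := hammingNorm_eq_zero.mp (by omega)
    rw [this]; exact Submodule.zero_mem _
  | succ n ih =>
    intro c hc hn
    by_cases h0 : c = 0
    · rw [h0]; exact Submodule.zero_mem _
    · have h8 := hmin c hc h0
      rw [norm_eq] at h8 hn
      obtain ⟨s, hs, hs5⟩ := exists_subset_card_eq (s := sp c) (n := 5) (by omega)
      obtain ⟨o, ho, ho8, hso⟩ := exists_oct hdim horth hmin hs5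
      have hsd := card_sd (sp c) (sp o)
      have h5 : 5 ≤ (sp c ∩ sp o).card := by
        rw [← hs5]; exact card_le_card (subset_inter hs hso)
      have h1 := ih (c - o) (C.sub_mem hc ho) (by
        rw [norm_eq, sp_sub]
        rw [norm_eq] at ho8
        omega)
      have h2 : o ∈ Submodule.span (ZMod 2) {w : V | w ∈ C ∧ hammingNorm w = 8} :=
        Submodule.subset_span ⟨ho, ho8⟩
      have := Submodule.add_mem _ h1 h2
      rwa [sub_add_cancel] at this

theorem span_oct (C : Submodule (ZMod 2) (Fin 24 → ZMod 2))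
    (hdim : Module.finrank (ZMod 2) C = 12)
    (horth : ∀ v ∈ C, ∀ w ∈ C, ∑ i, v i * w i = 0)
    (hmin : ∀ w ∈ C, w ≠ 0 → 8 ≤ hammingNorm w) :
    Submodule.span (ZMod 2) {w : Fin 24 → ZMod 2 | w ∈ C ∧ hammingNorm w = 8} = C := by
  apply le_antisymm
  · rw [Submodule.span_le]
    intro w hw
    exact hw.1
  · intro c hc
    exact aux hdim horth hmin _ c hc le_rfl

theorem sp_add (u v : V) : sp (u + v) = symmDiff (sp u) (sp v) := by
  ext i
  have h11 : (1 : ZMod 2) + 1 = 0 := by decide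
  simp only [sp, mem_filter, mem_univ, true_and, mem_symmDiff, Pi.add_apply]
  rcases z2 (u i) with h | h <;> rcases z2 (v i) with h' | h' <;> simp [h, h', h11]

theorem even_inter (horth : ∀ v ∈ C, ∀ w ∈ C, ∑ i, v i * w i = 0) {x y : V} (hx : x ∈ C)
    (hy : y ∈ C) : Even (sp x ∩ sp y).card := by
  have h := horth x hx y hy
  have h1 : ∀ i, x i * y i = if (x i ≠ 0 ∧ y i ≠ 0) then 1 else 0 := by
    intro i
    rcases z2 (x i) with h | h <;> rcases z2 (y i) with h' | h' <;> simp [h, h']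
  simp only [h1] at h
  rw [sum_boole] at h
  have h2 := ZMod.natCast_eq_zero_iff_even.mp h
  have e : sp x ∩ sp y = univ.filter fun i => x i ≠ 0 ∧ y i ≠ 0 := by
    ext i; simp [sp]
  rw [e]; exact h2

theorem dbl_even (C : Submodule (ZMod 2) (Fin 24 → ZMod 2))
    (hdim : Module.finrank (ZMod 2) C = 12)
    (horth : ∀ v ∈ C, ∀ w ∈ C, ∑ i, v i * w i = 0)
    (hmin : ∀ w ∈ C, w ≠ 0 → 8 ≤ hammingNorm w) : ∀ w ∈ C, 4 ∣ hammingNorm w := by
  have key : ∀ w ∈ Submodule.span (ZMod 2) {w : V | w ∈ C ∧ hammingNorm w = 8},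
      w ∈ C ∧ 4 ∣ hammingNorm w := by
    intro w hw
    induction hw using Submodule.span_induction with
    | mem x hx => exact ⟨hx.1, by rw [hx.2]; norm_num⟩
    | zero => exact ⟨C.zero_mem, by simp⟩
    | add x y _ _ hx hy =>
      refine ⟨C.add_mem hx.1 hy.1, ?_⟩
      have hsd := card_sd (sp x) (sp y)
      obtain ⟨r, hr⟩ := even_inter horth hx.1 hy.1
      obtain ⟨a, ha⟩ := hx.2
      obtain ⟨b, hb⟩ := hy.2
      rw [norm_eq] at ha hb
      rw [norm_eq, sp_add]
      omega
    | smul a x _ hx =>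
      rcases z2 a with h | h
      · rw [h, zero_smul]; exact ⟨C.zero_mem, by simp⟩
      · rw [h, one_smul]; exact hx
  intro w hw
  rw [← span_oct C hdim horth hmin] at hw
  exact (key w hw).2

end Cfsg.Agent.Lib.Helper3_Abs3
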