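import Mathlib
import Cfsg.Agent.Lib.Helper3_Coatom

/-!
# helper3: decomposition of an invariant set into orbits of a stabiliser
-/

set_option autoImplicit false
set_option linter.unusedSectionVars false

namespace Cfsg.Agent.Lib.Helper3_Orb

open MulAction Cfsg.Agent.Lib.Helper3_Coatom

variable {G A Z : Type*} [Group G] [MulAction G A] [MulAction G Z]

theorem orbit_stab_smul (g : G) (a : A) (z : Z) :
    orbit (stabilizer G (g • a)) (g • z) = (fun x => g • x) '' orbit (stabilizer G a) z := by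
  ext x
  constructor
  · rintro ⟨⟨h, hh⟩, rfl⟩
    refine ⟨(g⁻¹ * h * g) • z, ⟨⟨g⁻¹ * h * g, ?_⟩, rfl⟩, ?_⟩
    · rw [mem_stabilizer_iff, mul_smul, mul_smul, mem_stabilizer_iff.mp hh, inv_smul_smul]
    · show g • (g⁻¹ * h * g) • z = h • g • z
      simp [mul_smul]
  · rintro ⟨_, ⟨⟨h, hh⟩, rfl⟩, rfl⟩
    refine ⟨⟨g * h * g⁻¹, ?_⟩, ?_⟩
    · rw [mem_stabilizer_iff, mul_smul, mul_smul, inv_smul_smul, mem_stabilizer_iff.mp hh]
    · show (g * h * g⁻¹) • g • z = g • h • z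
      simp [mul_smul]

/-- `B` is the disjoint union of `k` orbits of the stabiliser of `a`, of lengths `n i`. -/
def OrbDec (G : Type*) {A Z : Type*} [Group G] [MulAction G A] [MulAction G Z] (a : A) (B : Set Z)
    {k : ℕ} (n : Fin k → ℕ) : Prop :=
  ∃ y : Fin k → Z, (∀ i, y i ∈ B) ∧ (∀ i, (orbit (stabilizer G a) (y i)).ncard = n i) ∧
    B = ⋃ i, orbit (stabilizer G a) (y i)

theorem OrbDec.smul {a : A} {B : Set Z} {k : ℕ} {n : Fin k → ℕ} (h : OrbDec G a B n)
    (hB : ∀ g : G, ∀ z ∈ B, g • z ∈ B) (g : G) : OrbDec G (g • a) B n := by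
  obtain ⟨y, hy, hn, hU⟩ := h
  refine ⟨fun i => g • y i, fun i => hB g _ (hy i), ?_, ?_⟩
  · intro i
    rw [orbit_stab_smul, Set.ncard_image_of_injective _ (MulAction.injective g), hn]
  · simp only [orbit_stab_smul]
    rw [← Set.image_iUnion, ← hU]
    ext x
    constructor
    · intro hx
      exact ⟨g⁻¹ • x, hB _ _ hx, by simp⟩
    · rintro ⟨z, hz, rfl⟩
      exact hB _ _ hz

theorem partition_of_le {H : Type*} [Group H] [MulAction H Z] (B : Set Z) (hfin : B.Finite)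
    (hB : ∀ h : H, ∀ z ∈ B, h • z ∈ B) {k : ℕ} (y : Fin k → Z) (n : Fin k → ℕ)
    (hy : ∀ i, y i ∈ B) (hn : ∀ i, n i ≤ (orbit H (y i)).ncard)
    (c : Z → ℕ) (hc : ∀ (h : H) (z : Z), c (h • z) = c z)
    (hinj : Function.Injective (fun i => c (y i))) (hsum : B.ncard = ∑ i, n i) :
    (∀ i, (orbit H (y i)).ncard = n i) ∧ B = ⋃ i, orbit H (y i) := by
  have hsub : ∀ i, orbit H (y i) ⊆ B := by
    rintro i _ ⟨h, rfl⟩
    exact hB h _ (hy i)
  have hf : ∀ i, (orbit H (y i)).Finite := fun i => hfin.subset (hsub i)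
  have hdis : Pairwise (Function.onFun Disjoint fun i => orbit H (y i)) := by
    intro i j hij
    rw [Function.onFun, Set.disjoint_left]
    rintro _ ⟨h, rfl⟩ ⟨h', he⟩
    apply hij
    apply hinj
    have e1 : c (h' • y j) = c (h • y i) := congrArg c he
    rw [hc, hc] at e1
    exact e1.symm
  have hU : (⋃ i, orbit H (y i)) ⊆ B := Set.iUnion_subset hsub
  have hcard : (⋃ i, orbit H (y i)).ncard = ∑ i, (orbit H (y i)).ncard := by
    rw [Set.ncard_iUnion_of_finite hf hdis, finsum_eq_sum_of_fintype]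
  have hle : (⋃ i, orbit H (y i)).ncard ≤ B.ncard := Set.ncard_le_ncard hU hfin
  have hge : ∑ i, n i ≤ ∑ i, (orbit H (y i)).ncard := Finset.sum_le_sum fun i _ => hn i
  have heq : ∑ i, n i = ∑ i, (orbit H (y i)).ncard := by omega
  constructor
  · intro i
    exact ((Finset.sum_eq_sum_iff_of_le (fun i _ => hn i)).mp heq i (Finset.mem_univ i)).symm
  · exact (Set.eq_of_subset_of_ncard_le hU (by omega) hfin).symm

theorem iUnion_fin3 {α : Type*} (f : Fin 3 → Set α) : (⋃ i, f i) = f 0 ∪ f 1 ∪ f 2 := by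
  ext x
  simp only [Set.mem_iUnion, Set.mem_union, Fin.exists_fin_succ, Fin.succ_zero_eq_one]
  simp [or_assoc]

theorem iUnion_fin4 {α : Type*} (f : Fin 4 → Set α) : (⋃ i, f i) = f 0 ∪ f 1 ∪ f 2 ∪ f 3 := by
  ext x
  simp only [Set.mem_iUnion, Set.mem_union, Fin.exists_fin_succ, Fin.succ_zero_eq_one]
  simp [or_assoc]

theorem iUnion_fin5 {α : Type*} (f : Fin 5 → Set α) :
    (⋃ i, f i) = f 0 ∪ f 1 ∪ f 2 ∪ f 3 ∪ f 4 := by
  ext x
  simp only [Set.mem_iUnion, Set.mem_union, Fin.exists_fin_succ, Fin.succ_zero_eq_one]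
  simp [or_assoc]

/-- maximality of the stabiliser from the orbit decomposition -/
theorem isCoatom_of_orbDec [Finite G] {a : A} {k : ℕ} {n : Fin k → ℕ}
    (h : OrbDec G a (orbit G a) n)
    (hnum : ∀ I : Finset (Fin k), (∑ i ∈ I, n i) ∣ (∑ i, n i) →
      (∑ i ∈ I, n i) = 0 ∨ (∑ i ∈ I, n i) = 1 ∨ (∑ i ∈ I, n i) = ∑ i, n i)
    (hk : (∑ i, n i) ≠ 1) (hpos : 0 < k) (hsum : (orbit G a).ncard = ∑ i, n i) :
    IsCoatom (stabilizer G a) := by
  classical
  obtain ⟨y, hy, hn, hU⟩ := h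
  let c : A → Fin k := fun x => if hx : ∃ i, x ∈ orbit (stabilizer G a) (y i) then hx.choose
    else ⟨0, hpos⟩
  have hc : ∀ x ∈ orbit G a, x ∈ orbit (stabilizer G a) (y (c x)) := by
    intro x hx
    rw [hU] at hx
    have hx' : ∃ i, x ∈ orbit (stabilizer G a) (y i) := Set.mem_iUnion.mp hx
    simp only [c, dif_pos hx']
    exact hx'.choose_spec
  -- distinct indices with nonempty intersection give equal orbits; handle through classes
  have hfinG : (orbit G a).Finite := Set.finite_range _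
  have hsubi : ∀ i, orbit (stabilizer G a) (y i) ⊆ orbit G a := by
    intro i
    rw [hU]
    exact Set.subset_iUnion (fun i => orbit (stabilizer G a) (y i)) i
  have hcls : ∀ i, {x | x ∈ orbit G a ∧ c x = i} ⊆ orbit (stabilizer G a) (y i) := by
    rintro i x ⟨hx, rfl⟩
    exact hc x hx
  have hfi : ∀ i, (orbit (stabilizer G a) (y i)).Finite := fun i => hfinG.subset (hsubi i)
  have hle : ∀ i, {x | x ∈ orbit G a ∧ c x = i}.ncard ≤ n i := by
    intro i
    rw [← hn i]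
    exact Set.ncard_le_ncard (hcls i) (hfi i)
  have hs2 := ncard_eq_sum_classes c (orbit G a) hfinG Finset.univ (fun _ _ => Finset.mem_univ _)
  have hcn : ∀ i, {x | x ∈ orbit G a ∧ c x = i}.ncard = n i := by
    intro i
    exact (Finset.sum_eq_sum_iff_of_le (fun i _ => hle i)).mp (by rw [← hs2, hsum]) i
      (Finset.mem_univ i)
  apply isCoatom_stabilizer_of_classes a c n hcn ?_ hnum hk
  intro x hx z hz hxz
  obtain ⟨h1, e1⟩ := hc x hx
  obtain ⟨h2, e2⟩ := hc z hz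
  rw [← hxz] at e2
  refine ⟨(h2 * h1⁻¹ : stabilizer G a), (h2 * h1⁻¹ : stabilizer G a).2, ?_⟩
  have e1' : (h1 : G) • y (c x) = x := e1
  have e2' : (h2 : G) • y (c x) = z := e2
  rw [← e1', ← e2']
  simp [mul_smul]

end Cfsg.Agent.Lib.Helper3_Orb
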