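import Mathlib
import Cfsg.Agent.Lib.Helper3_M24j
import Cfsg.Agent.Lib.Helper3_Orb
import Cfsg.Prelude.Def_SporadicCombinatorics

/-!
# helper3: sextets and trios: invariance, transitivity, number
-/

set_option autoImplicit false
set_option linter.unusedSectionVars false
set_option linter.unusedSimpArgs false
set_option linter.constructorNameAsVariable false

namespace Cfsg.Agent.Lib.Helper3_Sext

open Cfsg Cfsg.Agent.Lib.Helper3_Golay Cfsg.Agent.Lib.Helper3_Golay2 Cfsg.Agent.Lib.Helper3_Golay3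
open Cfsg.Agent.Lib.Helper3_M24a Cfsg.Agent.Lib.Helper3_PermChain Cfsg.Agent.Lib.Helper3_M24b
open Cfsg.Agent.Lib.Helper3_M24c Cfsg.Agent.Lib.Helper3_M24d Cfsg.Agent.Lib.Helper3_M24e
open Cfsg.Agent.Lib.Helper3_M24f Cfsg.Agent.Lib.Helper3_Fast Cfsg.Agent.Lib.Helper3_Coatom
open Cfsg.Agent.Lib.Helper3_M24g Cfsg.Agent.Lib.Helper3_M24h Cfsg.Agent.Lib.Helper3_Steiner
open Cfsg.Agent.Lib.Helper3_M24i Cfsg.Agent.Lib.Helper3_M24j Cfsg.Agent.Lib.Helper3_Orb
open scoped Pointwise

/-! ### sextets -/

theorem smul_mem_sextets {g : Equiv.Perm GolayPt} (hg : g ∈ M24) {S : Finset (Finset GolayPt)}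
    (hS : S ∈ sextets) : g • S ∈ sextets := by
  obtain ⟨h1, h2, h3⟩ := hS
  refine ⟨by rw [Finset.card_smul_finset, h1], ?_, ?_⟩
  · intro t ht
    obtain ⟨t', ht', rfl⟩ := Finset.mem_smul_finset.mp ht
    rw [Finset.card_smul_finset]; exact h2 t' ht'
  · intro t ht u hu htu
    obtain ⟨t', ht', rfl⟩ := Finset.mem_smul_finset.mp ht
    obtain ⟨u', hu', rfl⟩ := Finset.mem_smul_finset.mp hu
    rw [← Finset.smul_finset_union]
    exact smul_mem_octads hg (h3 t' ht' u' hu' (fun h => htu (by rw [h])))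

/-- the sextet determined by a tetrad -/
noncomputable def sextOf (t : Finset GolayPt) : Finset (Finset GolayPt) :=
  insert t (((blocks octads).filter (t ⊆ ·)).image (· \ t))

theorem sext_disjoint {S : Finset (Finset GolayPt)} (hS : S ∈ sextets) {t u : Finset GolayPt}
    (ht : t ∈ S) (hu : u ∈ S) (htu : t ≠ u) : Disjoint t u := by
  obtain ⟨h1, h2, h3⟩ := hS
  have h8 := (h3 t ht u hu htu).2
  have := Finset.card_union_add_card_inter t u
  rw [h8, h2 t ht, h2 u hu] at this
  rw [Finset.disjoint_iff_inter_eq_empty, ← Finset.card_eq_zero]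
  omega

theorem eq_sextOf {S : Finset (Finset GolayPt)} (hS : S ∈ sextets) {t : Finset GolayPt}
    (ht : t ∈ S) : S = sextOf t := by
  have hS' := hS
  obtain ⟨h1, h2, h3⟩ := hS
  have h5 : ((blocks octads).filter (t ⊆ ·)).card = 5 := by
    rw [card_through steiner (by norm_num) t (by rw [h2 t ht]; norm_num), h2 t ht]
    decide
  have hsd : ∀ u ∈ S.erase t, (t ∪ u) \ t = u := by
    intro u hu
    have hd := sext_disjoint hS' ht (Finset.mem_of_mem_erase hu) (Finset.ne_of_mem_erase hu).symm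
    rw [Finset.union_sdiff_left]
    exact Finset.sdiff_eq_self_of_disjoint hd.symm
  have himg : (S.erase t).image (t ∪ ·) = (blocks octads).filter (t ⊆ ·) := by
    apply Finset.eq_of_subset_of_card_le
    · intro o ho
      obtain ⟨u, hu, rfl⟩ := Finset.mem_image.mp ho
      exact Finset.mem_filter.mpr ⟨mem_blocks.mpr (h3 t ht u (Finset.mem_of_mem_erase hu)
        (Finset.ne_of_mem_erase hu).symm), Finset.subset_union_left⟩
    · rw [h5, Finset.card_image_of_injOn, Finset.card_erase_of_mem ht, h1]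
      intro u hu v hv huv
      have huv' : t ∪ u = t ∪ v := huv
      rw [← hsd u hu, ← hsd v hv, huv']
  rw [sextOf, ← himg, Finset.image_image]
  have : (S.erase t).image ((· \ t) ∘ (t ∪ ·)) = S.erase t := by
    conv_rhs => rw [← Finset.image_id (s := S.erase t)]
    apply Finset.image_congr
    intro u hu
    exact hsd u hu
  rw [this, Finset.insert_erase ht]

/-! ### encoded systems of sets -/

/-- the system of sets encoded by a list of masks -/
def decS (L : List ℕ) : Finset (Finset GolayPt) := (L.map dec).toFinset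

theorem mem_decS {L : List ℕ} {s : Finset GolayPt} : s ∈ decS L ↔ ∃ m ∈ L, dec m = s := by
  simp [decS]

/-- masks below `2 ^ 24`, without repetition -/
def validL (L : List ℕ) : Bool := L.all (fun m => decide (m < 2 ^ 24)) && decide L.Nodup

theorem validL_lt {L : List ℕ} (h : validL L = true) : ∀ m ∈ L, m < 2 ^ 24 := by
  rw [validL, Bool.and_eq_true, List.all_eq_true] at h
  intro m hm
  simpa using h.1 m hm

theorem validL_nodup {L : List ℕ} (h : validL L = true) : L.Nodup := by
  rw [validL, Bool.and_eq_true] at h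
  simpa using h.2

theorem nodup_map_dec {L : List ℕ} (h : validL L = true) : (L.map dec).Nodup := by
  apply List.Nodup.map_on _ (validL_nodup h)
  intro a ha b hb hab
  exact dec_injOn (validL_lt h a ha) (validL_lt h b hb) hab

theorem card_decS {L : List ℕ} (h : validL L = true) : (decS L).card = L.length := by
  rw [decS, List.toFinset_card_of_nodup (nodup_map_dec h), List.length_map]

theorem sum_decS {L : List ℕ} (h : validL L = true) {M : Type*} [AddCommMonoid M]
    (f : Finset GolayPt → M) : ∑ s ∈ decS L, f s = (L.map fun m => f (dec m)).sum := by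
  rw [decS, List.sum_toFinset _ (nodup_map_dec h), List.map_map]
  rfl

theorem smul_decS {N : ℕ} (h : isPerm N = true) (L : List ℕ) :
    prm N • decS L = decS (L.map (img N)) := by
  ext s
  rw [Finset.mem_smul_finset, mem_decS]
  constructor
  · rintro ⟨t, ht, rfl⟩
    obtain ⟨m, hm, rfl⟩ := mem_decS.mp ht
    exact ⟨img N m, List.mem_map_of_mem hm, (smul_dec h m).symm⟩
  · rintro ⟨m', hm', rfl⟩
    obtain ⟨m, hm, rfl⟩ := List.mem_map.mp hm'
    exact ⟨dec m, mem_decS.mpr ⟨m, hm, rfl⟩, smul_dec h m⟩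

/-- Boolean test for sextets -/
def isSext (L : List ℕ) : Bool :=
  validL L && (L.length == 6) && L.all (fun m => pop24 m == 4) &&
    L.all (fun m => L.all fun m' => m == m' || (code (m ||| m') && pop24 (m ||| m') == 8))

theorem decS_mem_sextets {L : List ℕ} (h : isSext L = true) : decS L ∈ sextets := by
  simp only [isSext, Bool.and_eq_true, List.all_eq_true, beq_iff_eq, Bool.or_eq_true] at h
  obtain ⟨⟨⟨h1, h2⟩, h3⟩, h4⟩ := h
  refine ⟨by rw [card_decS h1, h2], ?_, ?_⟩
  · intro t ht
    obtain ⟨m, hm, rfl⟩ := mem_decS.mp ht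
    rw [card_dec, popN_eq_pop24, h3 m hm]
  · intro t ht u hu htu
    obtain ⟨m, hm, rfl⟩ := mem_decS.mp ht
    obtain ⟨m', hm', rfl⟩ := mem_decS.mp hu
    rcases h4 m hm m' hm' with h | h
    · exact absurd (by rw [h]) htu
    · rw [← dec_or]
      exact ⟨dec_mem_of_code h.1, by rw [card_dec, popN_eq_pop24, h.2]⟩

/-- the standard sextet -/
def S0L : List ℕ := [147496, 268544, 1082880, 2621632, 4268048, 8388615]

theorem S0_mem : decS S0L ∈ sextets := decS_mem_sextets (by decide +kernel)

theorem exists_smul_eq_of_card {s t : Finset GolayPt} (h : s.card = t.card) (h5 : s.card ≤ 5) :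
    ∃ g ∈ M24, g • s = t := by
  obtain ⟨g, hg, _, h2⟩ := pair_equiv (s := ∅) (x := s) (y := t) h (by simp)
    (by simp; omega) (by simp; omega)
  exact ⟨g, hg, h2⟩

theorem exists_sextet {t : Finset GolayPt} (ht : t.card = 4) : ∃ S ∈ sextets, t ∈ S := by
  have h0 : dec (S0L.headD 0) ∈ decS S0L := mem_decS.mpr ⟨_, by decide +kernel, rfl⟩
  have hc : (dec (S0L.headD 0)).card = 4 := S0_mem.2.1 _ h0
  obtain ⟨g, hg, rfl⟩ := exists_smul_eq_of_card (s := dec (S0L.headD 0)) (t := t) (by rw [hc, ht])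
    (by omega)
  exact ⟨g • decS S0L, smul_mem_sextets hg S0_mem, Finset.smul_mem_smul_finset h0⟩

theorem existsUnique_sextet {t : Finset GolayPt} (ht : t.card = 4) :
    ∃! S : Finset (Finset GolayPt), S ∈ sextets ∧ t ∈ S := by
  obtain ⟨S, hS, htS⟩ := exists_sextet ht
  refine ⟨S, ⟨hS, htS⟩, ?_⟩
  rintro S' ⟨hS', htS'⟩
  rw [eq_sextOf hS htS, eq_sextOf hS' htS']

theorem trans_sextets {S S' : Finset (Finset GolayPt)} (hS : S ∈ sextets) (hS' : S' ∈ sextets) :
    ∃ g ∈ M24, g • S = S' := by
  obtain ⟨t, ht⟩ : S.Nonempty := by rw [← Finset.card_pos, hS.1]; norm_num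
  obtain ⟨t', ht'⟩ : S'.Nonempty := by rw [← Finset.card_pos, hS'.1]; norm_num
  obtain ⟨g, hg, hgt⟩ := exists_smul_eq_of_card (s := t) (t := t')
    (by rw [hS.2.1 t ht, hS'.2.1 t' ht']) (by rw [hS.2.1 t ht]; norm_num)
  refine ⟨g, hg, ?_⟩
  rw [eq_sextOf (smul_mem_sextets hg hS) (t := t') (by rw [← hgt]; exact Finset.smul_mem_smul_finset ht),
    eq_sextOf hS' ht']

theorem ncard_sextets : sextets.ncard = 1771 := by
  classical
  have hfin : sextets.Finite := Set.toFinite _
  rw [Set.ncard_eq_toFinset_card _ hfin]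
  have hU : hfin.toFinset.biUnion id = (Finset.univ : Finset GolayPt).powersetCard 4 := by
    ext t
    simp only [Finset.mem_biUnion, Set.Finite.mem_toFinset, id, Finset.mem_powersetCard,
      Finset.subset_univ, true_and]
    constructor
    · rintro ⟨S, hS, ht⟩
      exact hS.2.1 t ht
    · intro ht
      exact exists_sextet ht
  have hc := Finset.card_biUnion (s := hfin.toFinset) (t := id) (by
    intro S hS S' hS' hne
    rw [Function.onFun, Finset.disjoint_left]
    intro t ht ht'
    apply hne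
    rw [eq_sextOf (hfin.mem_toFinset.mp hS) ht, eq_sextOf (hfin.mem_toFinset.mp hS') ht'])
  have hs6 : ∑ u ∈ hfin.toFinset, (id u).card = ∑ u ∈ hfin.toFinset, 6 :=
    Finset.sum_congr rfl (fun S hS => (hfin.mem_toFinset.mp hS).1)
  rw [hU, Finset.card_powersetCard, hs6, Finset.sum_const, smul_eq_mul] at hc
  have h24 : (Finset.univ : Finset GolayPt).card = 24 := rfl
  rw [h24] at hc
  have : Nat.choose 24 4 = 10626 := by decide
  omega

/-! ### trios -/

theorem smul_mem_trios {g : Equiv.Perm GolayPt} (hg : g ∈ M24) {T : Finset (Finset GolayPt)}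
    (hT : T ∈ trios) : g • T ∈ trios := by
  obtain ⟨h1, h2, h3⟩ := hT
  refine ⟨by rw [Finset.card_smul_finset, h1], ?_, ?_⟩
  · intro t ht
    obtain ⟨t', ht', rfl⟩ := Finset.mem_smul_finset.mp ht
    exact smul_mem_octads hg (h2 t' ht')
  · intro t ht u hu htu
    obtain ⟨t', ht', rfl⟩ := Finset.mem_smul_finset.mp ht
    obtain ⟨u', hu', rfl⟩ := Finset.mem_smul_finset.mp hu
    have := h3 t' ht' u' hu' (fun h => htu (by rw [h]))
    rw [Finset.disjoint_iff_inter_eq_empty] at this ⊢
    rw [← Finset.smul_finset_inter, this, Finset.smul_finset_empty]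

theorem compl_union_mem {o o' : Finset GolayPt} (ho : o ∈ octads) (ho' : o' ∈ octads)
    (hd : Disjoint o o') : (o ∪ o')ᶜ ∈ octads := by
  have h1 : o ∪ o' = symmDiff o o' := by
    ext p
    have : p ∈ o → p ∉ o' := fun h => Finset.disjoint_left.mp hd h
    simp only [Finset.mem_union, Finset.mem_symmDiff]
    tauto
  refine ⟨by rw [h1]; exact compl_mem (symmDiff_mem ho.1 ho'.1), ?_⟩
  rw [Finset.card_compl, Finset.card_union_of_disjoint hd, ho.2, ho'.2]
  rfl

/-- the trio determined by two disjoint octads -/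
def trioOf (o o' : Finset GolayPt) : Finset (Finset GolayPt) := {o, o', (o ∪ o')ᶜ}

theorem eq_trioOf {T : Finset (Finset GolayPt)} (hT : T ∈ trios) {o o' : Finset GolayPt}
    (ho : o ∈ T) (ho' : o' ∈ T) (hne : o ≠ o') : T = trioOf o o' := by
  obtain ⟨h1, h2, h3⟩ := hT
  have hc : ((T.erase o).erase o').card = 1 := by
    rw [Finset.card_erase_of_mem (Finset.mem_erase.mpr ⟨hne.symm, ho'⟩),
      Finset.card_erase_of_mem ho, h1]
  obtain ⟨x, hx⟩ := Finset.card_eq_one.mp hc
  have hxm : x ∈ (T.erase o).erase o' := by rw [hx]; exact Finset.mem_singleton_self x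
  have hx1 : x ≠ o' := Finset.ne_of_mem_erase hxm
  have hx2 : x ≠ o := Finset.ne_of_mem_erase (Finset.mem_of_mem_erase hxm)
  have hxT : x ∈ T := Finset.mem_of_mem_erase (Finset.mem_of_mem_erase hxm)
  have hxe : x = (o ∪ o')ᶜ := by
    apply Finset.eq_of_subset_of_card_le
    · intro p hp
      rw [Finset.mem_compl, Finset.mem_union]
      rintro (h | h)
      · exact Finset.disjoint_left.mp (h3 x hxT o ho hx2) hp h
      · exact Finset.disjoint_left.mp (h3 x hxT o' ho' hx1) hp h
    · rw [(compl_union_mem (h2 o ho) (h2 o' ho') (h3 o ho o' ho' hne)).2, (h2 x hxT).2]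
  rw [trioOf, ← hxe, ← hx, Finset.insert_erase (Finset.mem_erase.mpr ⟨hne.symm, ho'⟩),
    Finset.insert_erase ho]

theorem exists_two {T : Finset (Finset GolayPt)} (hT : T ∈ trios) :
    ∃ o ∈ T, ∃ o' ∈ T, o ≠ o' := by
  have : 1 < T.card := by rw [hT.1]; norm_num
  obtain ⟨o, ho, o', ho', hne⟩ := Finset.one_lt_card.mp this
  exact ⟨o, ho, o', ho', hne⟩

theorem card_inter_zero {o o' : Finset GolayPt} (h : Disjoint o o') : (o ∩ o').card = 0 := by
  rw [Finset.disjoint_iff_inter_eq_empty.mp h]; rfl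

theorem trans_trios {T T' : Finset (Finset GolayPt)} (hT : T ∈ trios) (hT' : T' ∈ trios) :
    ∃ g ∈ M24, g • T = T' := by
  obtain ⟨o, ho, o', ho', hne⟩ := exists_two hT
  obtain ⟨p, hp, p', hp', hne'⟩ := exists_two hT'
  obtain ⟨g, hg, hgo⟩ := trans_octads (hT.2.1 o ho) (hT'.2.1 p hp)
  have hd : Disjoint p (g • o') := by
    rw [← hgo, Finset.disjoint_iff_inter_eq_empty, ← Finset.smul_finset_inter,
      Finset.disjoint_iff_inter_eq_empty.mp (hT.2.2 o ho o' ho' hne), Finset.smul_finset_empty]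
  obtain ⟨k, hk, hkp, hkp'⟩ := oct_pair (hT'.2.1 p hp) (smul_mem_octads hg (hT.2.1 o' ho'))
    (hT'.2.1 p' hp') (by rw [card_inter_zero hd, card_inter_zero (hT'.2.2 p hp p' hp' hne')])
  refine ⟨k * g, M24.mul_mem hk hg, ?_⟩
  rw [eq_trioOf (smul_mem_trios (M24.mul_mem hk hg) hT) (o := p) (o' := p') ?_ ?_ hne',
    eq_trioOf hT' hp hp' hne']
  · rw [← hkp, ← hgo, ← mul_smul]; exact Finset.smul_mem_smul_finset ho
  · rw [← hkp', ← mul_smul]; exact Finset.smul_mem_smul_finset ho'

theorem trioOf_mem {o o' : Finset GolayPt} (ho : o ∈ octads) (ho' : o' ∈ octads)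
    (hd : Disjoint o o') : trioOf o o' ∈ trios := by
  have h3 := compl_union_mem ho ho' hd
  have hne : o ≠ o' := by
    rintro rfl
    have := Finset.disjoint_self_iff_empty o |>.mp hd
    rw [this] at ho
    exact absurd ho.2 (by simp)
  have d1 : Disjoint o (o ∪ o')ᶜ := by
    rw [Finset.disjoint_left]; intro p hp hq
    exact (Finset.mem_compl.mp hq) (Finset.mem_union_left _ hp)
  have d2 : Disjoint o' (o ∪ o')ᶜ := by
    rw [Finset.disjoint_left]; intro p hp hq
    exact (Finset.mem_compl.mp hq) (Finset.mem_union_right _ hp)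
  have ne_of_disj : ∀ {a b : Finset GolayPt}, a ∈ octads → Disjoint a b → a ≠ b := by
    rintro a b ha hab rfl
    have := Finset.disjoint_self_iff_empty a |>.mp hab
    rw [this] at ha
    exact absurd ha.2 (by simp)
  refine ⟨?_, ?_, ?_⟩
  · rw [trioOf, Finset.card_insert_of_notMem, Finset.card_insert_of_notMem, Finset.card_singleton]
    · rw [Finset.mem_singleton]; exact ne_of_disj ho' d2
    · rw [Finset.mem_insert, Finset.mem_singleton]
      rintro (h | h)
      · exact hne h
      · exact ne_of_disj ho d1 h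
  · intro x hx
    simp only [trioOf, Finset.mem_insert, Finset.mem_singleton] at hx
    rcases hx with rfl | rfl | rfl
    · exact ho
    · exact ho'
    · exact h3
  · intro x hx y hy hxy
    simp only [trioOf, Finset.mem_insert, Finset.mem_singleton] at hx hy
    rcases hx with rfl | rfl | rfl <;> rcases hy with rfl | rfl | rfl
    · exact absurd rfl hxy
    · exact hd
    · exact d1
    · exact hd.symm
    · exact absurd rfl hxy
    · exact d2
    · exact d1.symm
    · exact d2.symm
    · exact absurd rfl hxy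

theorem card_disjoint_octads {o : Finset GolayPt} (ho : o ∈ octads) :
    (octF.filter (fun x => Disjoint o x)).card = 30 := by
  have h := count_oct_oct ho 0
  have h0 := nOct_eq 0
  rw [show ((0 : Fin 9) : ℕ) = 0 from rfl] at h0
  rw [h0] at h
  rw [← Set.ncard_coe_finset]
  have : (↑(octF.filter (fun x => Disjoint o x)) : Set (Finset GolayPt)) =
      {x : Finset GolayPt | x ∈ octads ∧ (o ∩ x).card = 0} := by
    ext x
    simp only [Finset.coe_filter, Set.mem_ofPred_eq, mem_octF, Finset.card_eq_zero,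
      Finset.disjoint_iff_inter_eq_empty]
  rw [this, h]
  rfl

theorem ncard_trios : trios.ncard = 3795 := by
  classical
  have hfin : trios.Finite := Set.toFinite _
  rw [Set.ncard_eq_toFinset_card _ hfin]
  let P : Finset (Finset GolayPt × Finset GolayPt) :=
    octF.biUnion (fun o => (octF.filter (fun x => Disjoint o x)).image (Prod.mk o))
  have hP : P.card = 759 * 30 := by
    rw [Finset.card_biUnion]
    · rw [Finset.sum_congr rfl (fun o ho => by
        rw [Finset.card_image_of_injective _ (Prod.mk_right_injective o),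
          card_disjoint_octads (mem_octF.mp ho)]), Finset.sum_const, card_octF, smul_eq_mul]
    · intro o _ o' _ hne
      rw [Function.onFun, Finset.disjoint_left]
      intro x hx hx'
      obtain ⟨a, _, rfl⟩ := Finset.mem_image.mp hx
      obtain ⟨b, _, hb⟩ := Finset.mem_image.mp hx'
      exact hne (congrArg Prod.fst hb).symm
  have hU : hfin.toFinset.biUnion (fun T => T.offDiag) = P := by
    ext ⟨a, b⟩
    simp only [P, Finset.mem_biUnion, Set.Finite.mem_toFinset, Finset.mem_offDiag,
      Finset.mem_image, Finset.mem_filter, mem_octF, Prod.mk.injEq]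
    constructor
    · rintro ⟨T, hT, ha, hb, hab⟩
      exact ⟨a, hT.2.1 a ha, b, ⟨hT.2.1 b hb, hT.2.2 a ha b hb hab⟩, rfl, rfl⟩
    · rintro ⟨a', ha, b', ⟨hb, hd⟩, rfl, rfl⟩
      refine ⟨trioOf a' b', trioOf_mem ha hb hd, by simp [trioOf], by simp [trioOf], ?_⟩
      rintro rfl
      have := Finset.disjoint_self_iff_empty a' |>.mp hd
      rw [this] at ha
      exact absurd ha.2 (by simp)
  have hc := Finset.card_biUnion (s := hfin.toFinset) (t := fun T => T.offDiag) (by
    intro T hT T' hT' hne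
    rw [Function.onFun, Finset.disjoint_left]
    rintro ⟨a, b⟩ h1 h2
    apply hne
    rw [Finset.mem_offDiag] at h1 h2
    rw [eq_trioOf (hfin.mem_toFinset.mp hT) h1.1 h1.2.1 h1.2.2,
      eq_trioOf (hfin.mem_toFinset.mp hT') h2.1 h2.2.1 h2.2.2])
  rw [hU, hP, Finset.sum_congr rfl (fun T hT => by
    rw [Finset.offDiag_card, (hfin.mem_toFinset.mp hT).1]), Finset.sum_const, smul_eq_mul] at hc
  omega

/-! ### keys and certificates for orbit lengths -/

/-- a left inverse of `dec` -/
noncomputable def enc (s : Finset GolayPt) : ℕ := Function.invFunOn dec (Set.Iio (2 ^ 24)) s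

theorem enc_dec {m : ℕ} (h : m < 2 ^ 24) : enc (dec m) = m := by
  have hinj : Set.InjOn dec (Set.Iio (2 ^ 24)) := fun a ha b hb hab => dec_injOn ha hb hab
  exact hinj.leftInvOn_invFunOn h

noncomputable def keyF (Y : Finset (Finset GolayPt)) : ℕ := ∑ s ∈ Y, enc s * enc s

def keyL (L : List ℕ) : ℕ := (L.map fun m => m * m).sum

theorem keyF_decS {L : List ℕ} (h : validL L = true) : keyF (decS L) = keyL L := by
  rw [keyF, sum_decS h, keyL]
  congr 1
  apply List.map_congr_left
  intro m hm
  rw [enc_dec (validL_lt h m hm)]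

/-- strictly increasing lists -/
def incr : List ℕ → Bool
  | [] => true
  | [_] => true
  | a :: b :: l => decide (a < b) && incr (b :: l)

theorem incr_cons {a : ℕ} : ∀ {l : List ℕ}, incr (a :: l) = true → (∀ x ∈ l, a < x) ∧ incr l = true
  | [], _ => ⟨by simp, rfl⟩
  | b :: l, h => by
    rw [incr, Bool.and_eq_true, decide_eq_true_eq] at h
    obtain ⟨h1, h2⟩ := incr_cons h.2
    refine ⟨?_, h.2⟩
    intro x hx
    rcases List.mem_cons.mp hx with rfl | hx
    · exact h.1
    · exact lt_trans h.1 (h1 x hx)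

theorem nodup_of_incr : ∀ {l : List ℕ}, incr l = true → l.Nodup
  | [], _ => List.nodup_nil
  | a :: l, h => by
    obtain ⟨h1, h2⟩ := incr_cons h
    exact List.nodup_cons.mpr ⟨fun hc => lt_irrefl a (h1 a hc), nodup_of_incr h2⟩

theorem le_ncard_orbit {Z : Type*} [MulAction M24 Z] (H : Subgroup M24) (z : Z) (key : Z → ℕ)
    (Ns : List ℕ) (kf : ℕ → ℕ) (h : ∀ N ∈ Ns, ∃ g : M24, g ∈ H ∧ key (g • z) = kf N)
    (hinc : incr (Ns.map kf) = true) : Ns.length ≤ (MulAction.orbit H z).ncard := by
  have hfin : (MulAction.orbit H z).Finite := Set.finite_range _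
  have h1 : (Ns.map kf).toFinset.card = Ns.length := by
    rw [List.toFinset_card_of_nodup (nodup_of_incr hinc), List.length_map]
  rw [← h1, ← Set.ncard_coe_finset]
  refine le_trans (Set.ncard_le_ncard ?_ (hfin.image key)) (Set.ncard_image_le hfin)
  intro x hx
  rw [Finset.mem_coe, List.mem_toFinset] at hx
  obtain ⟨N, hN, rfl⟩ := List.mem_map.mp hx
  obtain ⟨g, hg, hk⟩ := h N hN
  exact ⟨g • z, ⟨⟨g, hg⟩, rfl⟩, hk⟩

/-- soundness of a Boolean membership test for a subgroup of `M24` -/
def Sound (H : Subgroup M24) (inH : ℕ → Bool) : Prop :=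
  ∀ N, inH N = true → isPerm N = true ∧ ∃ hm : prm N ∈ M24, (⟨prm N, hm⟩ : M24) ∈ H

theorem isPerm_of_isAut {N : ℕ} (h : isAut N = true) : isPerm N = true := by
  rw [isAut, Bool.and_eq_true] at h
  exact h.1

def inStS (L0 : List ℕ) (N : ℕ) : Bool := isAut N && L0.all (fun m => L0.contains (img N m))

theorem sound_inStS (L0 : List ℕ) : Sound (MulAction.stabilizer M24 (decS L0)) (inStS L0) := by
  intro N h
  rw [inStS, Bool.and_eq_true, List.all_eq_true] at h
  have hp := isPerm_of_isAut h.1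
  refine ⟨hp, prm_mem_M24 h.1, ?_⟩
  show prm N • decS L0 = decS L0
  apply Finset.eq_of_subset_of_card_le
  · rw [smul_decS hp]
    intro s hs
    obtain ⟨m', hm', rfl⟩ := mem_decS.mp hs
    obtain ⟨m, hm, rfl⟩ := List.mem_map.mp hm'
    have := h.2 m hm
    rw [List.contains_iff_mem] at this
    exact mem_decS.mpr ⟨_, this, rfl⟩
  · rw [Finset.card_smul_finset]

def inStM (W N : ℕ) : Bool := isAut N && (img N W == W)

theorem sound_inStM (W : ℕ) : Sound (MulAction.stabilizer M24 (dec W)) (inStM W) := by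
  intro N h
  rw [inStM, Bool.and_eq_true, beq_iff_eq] at h
  have hp := isPerm_of_isAut h.1
  refine ⟨hp, prm_mem_M24 h.1, ?_⟩
  show prm N • dec W = dec W
  rw [smul_dec hp, h.2]

def chkOrbS (inH : ℕ → Bool) (Y0 Ns : List ℕ) : Bool :=
  Ns.all (fun N => inH N && validL (Y0.map (img N))) &&
    incr (Ns.map fun N => keyL (Y0.map (img N)))

theorem orbS_le {H : Subgroup M24} {inH : ℕ → Bool} (hH : Sound H inH) {Y0 Ns : List ℕ}
    (h : chkOrbS inH Y0 Ns = true) : Ns.length ≤ (MulAction.orbit H (decS Y0)).ncard := by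
  rw [chkOrbS, Bool.and_eq_true, List.all_eq_true] at h
  apply le_ncard_orbit H (decS Y0) keyF Ns _ _ h.2
  intro N hN
  have h1 := h.1 N hN
  rw [Bool.and_eq_true] at h1
  obtain ⟨hp, hm, hmem⟩ := hH N h1.1
  refine ⟨⟨prm N, hm⟩, hmem, ?_⟩
  show keyF (prm N • decS Y0) = _
  rw [smul_decS hp, keyF_decS h1.2]

def chkOrbM (inH : ℕ → Bool) (y0 : ℕ) (Ns : List ℕ) : Bool :=
  Ns.all inH && incr (Ns.map fun N => img N y0)

theorem orbM_le {H : Subgroup M24} {inH : ℕ → Bool} (hH : Sound H inH) {y0 : ℕ} {Ns : List ℕ}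
    (h : chkOrbM inH y0 Ns = true) : Ns.length ≤ (MulAction.orbit H (dec y0)).ncard := by
  rw [chkOrbM, Bool.and_eq_true, List.all_eq_true] at h
  apply le_ncard_orbit H (dec y0) enc Ns _ _ h.2
  intro N hN
  obtain ⟨hp, hm, hmem⟩ := hH N (h.1 N hN)
  refine ⟨⟨prm N, hm⟩, hmem, ?_⟩
  show enc (prm N • dec y0) = _
  rw [smul_dec hp, enc_dec (img_lt hp _)]

/-! ### invariants -/

def cInv (f : ℕ → ℕ) (X Y : Finset (Finset GolayPt)) : ℕ := ∑ s ∈ X, ∑ t ∈ Y, f (s ∩ t).card

theorem sum_smul_finset {M : Type*} [AddCommMonoid M] (g : Equiv.Perm GolayPt)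
    (X : Finset (Finset GolayPt)) (F : Finset GolayPt → M) :
    ∑ s ∈ g • X, F s = ∑ s ∈ X, F (g • s) := by
  have : g • X = X.image (fun s => g • s) := rfl
  rw [this, Finset.sum_image]
  intro a _ b _ hab
  exact MulAction.injective g hab

theorem cInv_smul (f : ℕ → ℕ) (g : Equiv.Perm GolayPt) (X Y : Finset (Finset GolayPt)) :
    cInv f (g • X) (g • Y) = cInv f X Y := by
  rw [cInv, cInv, sum_smul_finset]
  apply Finset.sum_congr rfl
  intro s _
  rw [sum_smul_finset]
  apply Finset.sum_congr rfl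
  intro t _
  rw [← Finset.smul_finset_inter, Finset.card_smul_finset]

theorem cInv_inv (f : ℕ → ℕ) {g : Equiv.Perm GolayPt} {X : Finset (Finset GolayPt)}
    (hX : g • X = X) (Y : Finset (Finset GolayPt)) : cInv f X (g • Y) = cInv f X Y := by
  conv_lhs => rw [← hX]
  exact cInv_smul f g X Y

def cInvL (f : ℕ → ℕ) (L L' : List ℕ) : ℕ :=
  (L.map fun m => (L'.map fun m' => f (pop24 (m &&& m'))).sum).sum

theorem cInv_decS (f : ℕ → ℕ) {L L' : List ℕ} (h : validL L = true) (h' : validL L' = true) :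
    cInv f (decS L) (decS L') = cInvL f L L' := by
  rw [cInv, sum_decS h, cInvL]
  congr 1
  apply List.map_congr_left
  intro m _
  rw [sum_decS h']
  congr 1
  apply List.map_congr_left
  intro m' _
  rw [← dec_and, card_dec, popN_eq_pop24]

theorem decS_singleton (m : ℕ) : decS [m] = {dec m} := rfl

/-! ### orbit decompositions from certificates -/

section cert

variable {A : Type*} [MulAction M24 A]

/-- objects: systems of sets -/
theorem orbDec_sys (a : A) (inH : ℕ → Bool) (hH : Sound (MulAction.stabilizer M24 a) inH)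
    (XL : List ℕ) (hXv : validL XL = true)
    (hX : ∀ g ∈ MulAction.stabilizer M24 a, (g : Equiv.Perm GolayPt) • decS XL = decS XL)
    (B : Set (Finset (Finset GolayPt))) (hB : ∀ g : M24, ∀ z ∈ B, g • z ∈ B)
    {k : ℕ} (YL NsL : Fin k → List ℕ) (f : ℕ → ℕ)
    (hy : ∀ i, decS (YL i) ∈ B) (hv : ∀ i, validL (YL i) = true)
    (hchk : ∀ i, chkOrbS inH (YL i) (NsL i) = true)
    (hinj : Function.Injective fun i => cInvL f XL (YL i))
    (hsum : B.ncard = ∑ i, (NsL i).length) :
    OrbDec M24 a B (fun i => (NsL i).length) := by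
  obtain ⟨h1, h2⟩ := partition_of_le (H := MulAction.stabilizer M24 a) B (Set.toFinite B)
    (fun h z hz => hB h z hz) (fun i => decS (YL i)) (fun i => (NsL i).length) hy
    (fun i => orbS_le hH (hchk i)) (fun Y => cInv f (decS XL) Y)
    (fun h z => cInv_inv f (hX h h.2) z)
    (by
      intro i j hij
      apply hinj
      simp only [cInv_decS f hXv (hv _)] at hij
      exact hij) hsum
  exact ⟨fun i => decS (YL i), hy, h1, h2⟩

/-- objects: sets -/
theorem orbDec_set (a : A) (inH : ℕ → Bool) (hH : Sound (MulAction.stabilizer M24 a) inH)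
    (XL : List ℕ) (hXv : validL XL = true)
    (hX : ∀ g ∈ MulAction.stabilizer M24 a, (g : Equiv.Perm GolayPt) • decS XL = decS XL)
    (B : Set (Finset GolayPt)) (hB : ∀ g : M24, ∀ z ∈ B, g • z ∈ B)
    {k : ℕ} (yL : Fin k → ℕ) (NsL : Fin k → List ℕ) (f : ℕ → ℕ)
    (hy : ∀ i, dec (yL i) ∈ B) (hv : ∀ i, yL i < 2 ^ 24)
    (hchk : ∀ i, chkOrbM inH (yL i) (NsL i) = true)
    (hinj : Function.Injective fun i => cInvL f XL [yL i])
    (hsum : B.ncard = ∑ i, (NsL i).length) :
    OrbDec M24 a B (fun i => (NsL i).length) := by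
  obtain ⟨h1, h2⟩ := partition_of_le (H := MulAction.stabilizer M24 a) B (Set.toFinite B)
    (fun h z hz => hB h z hz) (fun i => dec (yL i)) (fun i => (NsL i).length) hy
    (fun i => orbM_le hH (hchk i)) (fun o => cInv f (decS XL) {o})
    (fun h z => by
      have := cInv_inv f (hX h h.2) {z}
      rw [Finset.smul_finset_singleton] at this
      exact this)
    (by
      intro i j hij
      apply hinj
      have hv1 : ∀ i, validL [yL i] = true := by
        intro i
        have := hv i
        simp [validL]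
        omega
      simp only [← decS_singleton, cInv_decS f hXv (hv1 _)] at hij
      exact hij) hsum
  exact ⟨fun i => dec (yL i), hy, h1, h2⟩

end cert

end Cfsg.Agent.Lib.Helper3_Sext
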