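import Mathlib
import Cfsg.Agent.Lib.Helper3_Sext

/-!
# helper3: more on orbit decompositions
-/

set_option autoImplicit false
set_option linter.unusedSectionVars false

namespace Cfsg.Agent.Lib.Helper3_Orb2

open MulAction Cfsg Cfsg.Agent.Lib.Helper3_Coatom Cfsg.Agent.Lib.Helper3_Orb
open Cfsg.Agent.Lib.Helper3_Sext
open scoped Pointwise

variable {G A Z : Type*} [Group G] [MulAction G A] [MulAction G Z]

theorem orbit_stab_self (a : A) : orbit (stabilizer G a) a = {a} := by
  ext x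
  constructor
  · rintro ⟨h, rfl⟩
    exact h.2
  · rintro rfl
    exact mem_orbit_self _

/-- the orbit of length one is the point itself -/
theorem orbit_eq_singleton {a : A} {B : Set A} {k : ℕ} {n : Fin k → ℕ} {y : Fin k → A}
    (hn : ∀ i, (orbit (stabilizer G a) (y i)).ncard = n i)
    (hU : B = ⋃ i, orbit (stabilizer G a) (y i)) (ha : a ∈ B) (i0 : Fin k)
    (h1 : ∀ i, n i = 1 → i = i0) : orbit (stabilizer G a) (y i0) = {a} := by
  rw [hU] at ha
  obtain ⟨i, hi⟩ := Set.mem_iUnion.mp ha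
  have h2 : orbit (stabilizer G a) (y i) = {a} := by
    rw [← orbit_stab_self (G := G) a]
    exact (orbit_eq_iff.mpr hi).symm
  have h3 : n i = 1 := by rw [← hn i, h2, Set.ncard_singleton]
  rw [← h1 i h3, h2]

/-- classes of an invariant function are the orbits -/
theorem class_eq_orbit {H : Type*} [Group H] [MulAction H Z] {B : Set Z} {k : ℕ} {y : Fin k → Z}
    (hU : B = ⋃ i, orbit H (y i)) (c : Z → ℕ) (hc : ∀ (h : H) (z : Z), c (h • z) = c z)
    (hinj : Function.Injective (fun i => c (y i))) (i : Fin k) :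
    {z | z ∈ B ∧ c z = c (y i)} = orbit H (y i) := by
  ext z
  constructor
  · rintro ⟨hz, hcz⟩
    rw [hU] at hz
    obtain ⟨j, h, rfl⟩ := Set.mem_iUnion.mp hz
    have hcz' : c (h • y j) = c (y i) := hcz
    rw [hc] at hcz'
    have : j = i := hinj hcz'
    subst this
    exact ⟨h, rfl⟩
  · rintro ⟨h, rfl⟩
    refine ⟨?_, hc h _⟩
    rw [hU]
    exact Set.mem_iUnion.mpr ⟨i, h, rfl⟩

theorem orbit_sextets {S : Finset (Finset GolayPt)} (hS : S ∈ sextets) :
    orbit M24 S = sextets := by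
  ext x
  constructor
  · rintro ⟨g, rfl⟩
    exact smul_mem_sextets g.2 hS
  · intro hx
    obtain ⟨g, hg, rfl⟩ := trans_sextets hS hx
    exact ⟨⟨g, hg⟩, rfl⟩

theorem orbit_trios {S : Finset (Finset GolayPt)} (hS : S ∈ trios) :
    orbit M24 S = trios := by
  ext x
  constructor
  · rintro ⟨g, rfl⟩
    exact smul_mem_trios g.2 hS
  · intro hx
    obtain ⟨g, hg, rfl⟩ := trans_trios hS hx
    exact ⟨⟨g, hg⟩, rfl⟩

/-- Boolean test for trios -/
def isTrio (L : List ℕ) : Bool :=
  validL L && (L.length == 3) && L.all (fun m => Helper3_Golay.code m && Helper3_Fast.pop24 m == 8) &&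
    L.all (fun m => L.all fun m' => m == m' || (m &&& m' == 0))

theorem decS_mem_trios {L : List ℕ} (h : isTrio L = true) : decS L ∈ trios := by
  simp only [isTrio, Bool.and_eq_true, List.all_eq_true, beq_iff_eq, Bool.or_eq_true] at h
  obtain ⟨⟨⟨h1, h2⟩, h3⟩, h4⟩ := h
  refine ⟨by rw [card_decS h1, h2], ?_, ?_⟩
  · intro t ht
    obtain ⟨m, hm, rfl⟩ := mem_decS.mp ht
    exact ⟨Helper3_M24a.dec_mem_of_code (h3 m hm).1,
      by rw [Helper3_Golay2.card_dec, Helper3_Fast.popN_eq_pop24, (h3 m hm).2]⟩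
  · intro t ht u hu htu
    obtain ⟨m, hm, rfl⟩ := mem_decS.mp ht
    obtain ⟨m', hm', rfl⟩ := mem_decS.mp hu
    rcases h4 m hm m' hm' with h | h
    · exact absurd (by rw [h]) htu
    · rw [Finset.disjoint_iff_inter_eq_empty, ← Helper3_Golay2.dec_and, h]
      ext p
      simp [Helper3_Golay2.mem_dec]

end Cfsg.Agent.Lib.Helper3_Orb2
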