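import Mathlib
import Cfsg.Agent.Lib.Helper3_Orb2

/-!
# helper3: breadth-first certificates for orbit lengths
-/

set_option autoImplicit false
set_option linter.unusedSectionVars false
set_option linter.unusedSimpArgs false

namespace Cfsg.Agent.Lib.Helper3_Bfs

open MulAction Cfsg Cfsg.Agent.Lib.Helper3_Coatom Cfsg.Agent.Lib.Helper3_Orb
open Cfsg.Agent.Lib.Helper3_Sext Cfsg.Agent.Lib.Helper3_Orb2
open Cfsg.Agent.Lib.Helper3_Golay Cfsg.Agent.Lib.Helper3_Golay2 Cfsg.Agent.Lib.Helper3_Golay3
open Cfsg.Agent.Lib.Helper3_M24a Cfsg.Agent.Lib.Helper3_M24c Cfsg.Agent.Lib.Helper3_Fast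
open scoped Pointwise

section bfs

variable {β : Type*} (act : ℕ → β → β)

/-- the images of `x` under the generators selected by the bits of `c` -/
def children : List ℕ → β → ℕ → List β
  | [], _, _ => []
  | s :: gs, x, c =>
    if c % 2 = 1 then act s x :: children gs x (c / 2) else children gs x (c / 2)

/-- next level; the selections are the digits of `C` in base `b` -/
def expand (gens : List ℕ) (b : ℕ) : List β → ℕ → List β
  | [], _ => []
  | x :: L, C => children act gens x (C % b) ++ expand gens b L (C / b)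

def run (gens : List ℕ) (b : ℕ) : List ℕ → List β → List β
  | [], L => L
  | C :: rest, L => L ++ run gens b rest (expand act gens b L C)

variable {act}

theorem children_prop {P : β → Prop} : ∀ (gens : List ℕ), (∀ s ∈ gens, ∀ x, P x → P (act s x)) →
    ∀ (x : β) (c : ℕ), P x → ∀ y ∈ children act gens x c, P y
  | [], _, _, _, _, y, hy => by simp [children] at hy
  | s :: gs, h, x, c, hx, y, hy => by
    have ih := children_prop gs (fun s hs => h s (List.mem_cons_of_mem _ hs)) x (c / 2) hx
    rw [children] at hy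
    split_ifs at hy
    · rcases List.mem_cons.mp hy with rfl | hy
      · exact h s List.mem_cons_self x hx
      · exact ih y hy
    · exact ih y hy

theorem expand_prop {P : β → Prop} {gens : List ℕ} (h : ∀ s ∈ gens, ∀ x, P x → P (act s x))
    (b : ℕ) : ∀ (L : List β) (C : ℕ), (∀ x ∈ L, P x) → ∀ y ∈ expand act gens b L C, P y
  | [], _, _, y, hy => by simp [expand] at hy
  | x :: L, C, hL, y, hy => by
    rw [expand] at hy
    rcases List.mem_append.mp hy with hy | hy
    · exact children_prop gens h x _ (hL x List.mem_cons_self) y hy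
    · exact expand_prop h b L _ (fun z hz => hL z (List.mem_cons_of_mem _ hz)) y hy

theorem run_prop {P : β → Prop} {gens : List ℕ} (h : ∀ s ∈ gens, ∀ x, P x → P (act s x))
    (b : ℕ) : ∀ (cert : List ℕ) (L : List β), (∀ x ∈ L, P x) → ∀ y ∈ run act gens b cert L, P y
  | [], L, hL, y, hy => hL y hy
  | C :: rest, L, hL, y, hy => by
    rw [run] at hy
    rcases List.mem_append.mp hy with hy | hy
    · exact hL y hy
    · exact run_prop h b rest _ (expand_prop h b L C hL) y hy

end bfs

/-- number of entries if they are pairwise distinct (and not in the bit set `B`), else `0` -/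
def distinctCnt : List ℕ → ℕ → ℕ → ℕ
  | [], _, k => k
  | a :: l, B, k => if B.testBit a then 0 else distinctCnt l (B ||| 1 <<< a) (k + 1)

theorem distinctCnt_spec : ∀ (l : List ℕ) (B k m : ℕ), distinctCnt l B k = m → m ≠ 0 →
    l.Nodup ∧ (∀ a ∈ l, B.testBit a = false) ∧ m = k + l.length
  | [], _, k, m, h, _ => ⟨List.nodup_nil, by simp, by simpa [distinctCnt] using h.symm⟩
  | a :: l, B, k, m, h, hm => by
    rw [distinctCnt] at h
    split_ifs at h with hB
    · exact absurd h.symm hm
    · obtain ⟨h1, h2, h3⟩ := distinctCnt_spec l _ _ m h hm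
      have hB' : B.testBit a = false := by simpa using hB
      refine ⟨List.nodup_cons.mpr ⟨?_, h1⟩, ?_, ?_⟩
      · intro ha
        have := h2 a ha
        rw [Nat.testBit_or, Nat.one_shiftLeft, Nat.testBit_two_pow_self] at this
        simp at this
      · intro x hx
        rcases List.mem_cons.mp hx with rfl | hx
        · exact hB'
        · have := h2 x hx
          rw [Nat.testBit_or, Bool.or_eq_false_iff] at this
          exact this.1
      · rw [h3, List.length_cons]; omega

theorem le_ncard_of_list {Z β : Type*} (O : Set Z) (hO : O.Finite) (key : Z → ℕ) (sem : β → Z)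
    (objs : List β) (kf : β → ℕ) (hmem : ∀ x ∈ objs, sem x ∈ O ∧ key (sem x) = kf x)
    (hd : (objs.map kf).Nodup) : objs.length ≤ O.ncard := by
  have h1 : (objs.map kf).toFinset.card = objs.length := by
    rw [List.toFinset_card_of_nodup hd, List.length_map]
  rw [← h1, ← Set.ncard_coe_finset]
  refine le_trans (Set.ncard_le_ncard ?_ (hO.image key)) (Set.ncard_image_le hO)
  intro x hx
  rw [Finset.mem_coe, List.mem_toFinset] at hx
  obtain ⟨N, hN, rfl⟩ := List.mem_map.mp hx
  exact ⟨sem N, (hmem N hN).1, (hmem N hN).2⟩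

theorem validL_map_img {N : ℕ} (hp : isPerm N = true) {L : List ℕ} (h : validL L = true) :
    validL (L.map (img N)) = true := by
  rw [validL, Bool.and_eq_true, List.all_eq_true, decide_eq_true_eq]
  constructor
  · intro m hm
    obtain ⟨m', _, rfl⟩ := List.mem_map.mp hm
    simpa using img_lt hp m'
  · apply List.Nodup.map_on _ (validL_nodup h)
    intro a ha b hb hab
    apply dec_injOn (validL_lt h a ha) (validL_lt h b hb)
    have : prm N • dec a = prm N • dec b := by rw [smul_dec hp, smul_dec hp, hab]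
    exact MulAction.injective _ this

/-- certificate for an orbit on systems of sets -/
def chkBfsS (inH : ℕ → Bool) (gens Y0 cert : List ℕ) (b p n : ℕ) : Bool :=
  gens.all inH && validL Y0 && decide (n ≠ 0) &&
    (distinctCnt ((run (fun s L => L.map (img s)) gens b cert [Y0]).map fun L => keyL L % p) 0 0 == n)

theorem bfsS_le {H : Subgroup M24} {inH : ℕ → Bool} (hH : Sound H inH) {gens Y0 cert : List ℕ}
    {b p n : ℕ} (h : chkBfsS inH gens Y0 cert b p n = true) :
    n ≤ (orbit H (decS Y0)).ncard := by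
  simp only [chkBfsS, Bool.and_eq_true, List.all_eq_true, decide_eq_true_eq, beq_iff_eq] at h
  obtain ⟨⟨⟨h1, h2⟩, h3⟩, h4⟩ := h
  obtain ⟨d1, _, d3⟩ := distinctCnt_spec _ _ _ _ h4 h3
  rw [List.length_map, Nat.zero_add] at d3
  rw [d3]
  have hP := run_prop (act := fun s (L : List ℕ) => L.map (img s))
    (P := fun L => validL L = true ∧ decS L ∈ orbit H (decS Y0)) (gens := gens)
    (by
      rintro s hs L ⟨hv, g, hg⟩
      obtain ⟨hp, hm, hmem⟩ := hH s (h1 s hs)
      refine ⟨validL_map_img hp hv, ⟨⟨prm s, hm⟩, hmem⟩ * g, ?_⟩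
      have hg' : (g : M24) • decS Y0 = decS L := hg
      show ((⟨prm s, hm⟩ : M24) * (g : M24)) • decS Y0 = _
      rw [mul_smul, hg', ← smul_decS hp]
      rfl) b cert [Y0]
    (by
      intro x hx
      rw [List.mem_singleton] at hx
      subst hx
      exact ⟨h2, mem_orbit_self _⟩)
  apply le_ncard_of_list (orbit H (decS Y0)) (Set.finite_range _) (fun Y => keyF Y % p) decS _
    (fun L => keyL L % p) _ d1
  intro L hL
  obtain ⟨hv, ho⟩ := hP L hL
  exact ⟨ho, by simp only [keyF_decS hv]⟩

/-- certificate for an orbit on sets -/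
def chkBfsM (inH : ℕ → Bool) (gens : List ℕ) (y0 : ℕ) (cert : List ℕ) (b p n : ℕ) : Bool :=
  gens.all inH && decide (y0 < 2 ^ 24) && decide (n ≠ 0) &&
    (distinctCnt ((run (fun s m => img s m) gens b cert [y0]).map fun m => m % p) 0 0 == n)

theorem bfsM_le {H : Subgroup M24} {inH : ℕ → Bool} (hH : Sound H inH) {gens cert : List ℕ}
    {y0 b p n : ℕ} (h : chkBfsM inH gens y0 cert b p n = true) :
    n ≤ (orbit H (dec y0)).ncard := by
  simp only [chkBfsM, Bool.and_eq_true, List.all_eq_true, decide_eq_true_eq, beq_iff_eq] at h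
  obtain ⟨⟨⟨h1, h2⟩, h3⟩, h4⟩ := h
  obtain ⟨d1, _, d3⟩ := distinctCnt_spec _ _ _ _ h4 h3
  rw [List.length_map, Nat.zero_add] at d3
  rw [d3]
  have hP := run_prop (act := fun s (m : ℕ) => img s m)
    (P := fun m => m < 2 ^ 24 ∧ dec m ∈ orbit H (dec y0)) (gens := gens)
    (by
      rintro s hs m ⟨hv, g, hg⟩
      obtain ⟨hp, hm, hmem⟩ := hH s (h1 s hs)
      refine ⟨img_lt hp m, ⟨⟨prm s, hm⟩, hmem⟩ * g, ?_⟩
      have hg' : (g : M24) • dec y0 = dec m := hg
      show ((⟨prm s, hm⟩ : M24) * (g : M24)) • dec y0 = _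
      rw [mul_smul, hg', ← smul_dec hp]
      rfl) b cert [y0]
    (by
      intro x hx
      rw [List.mem_singleton] at hx
      subst hx
      exact ⟨h2, mem_orbit_self _⟩)
  apply le_ncard_of_list (orbit H (dec y0)) (Set.finite_range _) (fun Y => enc Y % p) dec _
    (fun m => m % p) _ d1
  intro m hm
  obtain ⟨hv, ho⟩ := hP m hm
  exact ⟨ho, by simp only [enc_dec hv]⟩

/-! ### orbit decompositions -/

section cert

variable {A : Type*} [MulAction M24 A]

theorem orbDec_sys' (a : A) (XL : List ℕ) (hXv : validL XL = true)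
    (hX : ∀ g ∈ stabilizer M24 a, (g : Equiv.Perm GolayPt) • decS XL = decS XL)
    (B : Set (Finset (Finset GolayPt))) (hB : ∀ g : M24, ∀ z ∈ B, g • z ∈ B)
    {k : ℕ} (YL : Fin k → List ℕ) (n : Fin k → ℕ) (f : ℕ → ℕ)
    (hy : ∀ i, decS (YL i) ∈ B) (hv : ∀ i, validL (YL i) = true)
    (hle : ∀ i, n i ≤ (orbit (stabilizer M24 a) (decS (YL i))).ncard)
    (hinj : Function.Injective fun i => cInvL f XL (YL i))
    (hsum : B.ncard = ∑ i, n i) :
    (∀ i, (orbit (stabilizer M24 a) (decS (YL i))).ncard = n i) ∧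
      B = ⋃ i, orbit (stabilizer M24 a) (decS (YL i)) :=
  partition_of_le (H := stabilizer M24 a) B (Set.toFinite B)
    (fun h z hz => hB h z hz) (fun i => decS (YL i)) n hy hle (fun Y => cInv f (decS XL) Y)
    (fun h z => cInv_inv f (hX h h.2) z)
    (by
      intro i j hij
      apply hinj
      simp only [cInv_decS f hXv (hv _)] at hij
      exact hij) hsum

theorem orbDec_set' (a : A) (XL : List ℕ) (hXv : validL XL = true)
    (hX : ∀ g ∈ stabilizer M24 a, (g : Equiv.Perm GolayPt) • decS XL = decS XL)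
    (B : Set (Finset GolayPt)) (hB : ∀ g : M24, ∀ z ∈ B, g • z ∈ B)
    {k : ℕ} (yL : Fin k → ℕ) (n : Fin k → ℕ) (f : ℕ → ℕ)
    (hy : ∀ i, dec (yL i) ∈ B) (hv : ∀ i, yL i < 2 ^ 24)
    (hle : ∀ i, n i ≤ (orbit (stabilizer M24 a) (dec (yL i))).ncard)
    (hinj : Function.Injective fun i => cInvL f XL [yL i])
    (hsum : B.ncard = ∑ i, n i) :
    (∀ i, (orbit (stabilizer M24 a) (dec (yL i))).ncard = n i) ∧
      B = ⋃ i, orbit (stabilizer M24 a) (dec (yL i)) :=
  partition_of_le (H := stabilizer M24 a) B (Set.toFinite B)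
    (fun h z hz => hB h z hz) (fun i => dec (yL i)) n hy hle (fun o => cInv f (decS XL) {o})
    (fun h z => by
      have := cInv_inv f (hX h h.2) {z}
      rw [Finset.smul_finset_singleton] at this
      exact this)
    (by
      intro i j hij
      apply hinj
      have hv1 : ∀ i, validL [yL i] = true := by
        intro i
        have := hv i
        simp [validL]
        omega
      simp only [← decS_singleton, cInv_decS f hXv (hv1 _)] at hij
      exact hij) hsum

end cert

end Cfsg.Agent.Lib.Helper3_Bfs
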