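import Mathlib
import Cfsg.Agent.Lib.Helper3_Bfs

/-!
# helper3: a faster image function for masks, and the corresponding certificates
-/

set_option autoImplicit false
set_option linter.unusedSectionVars false
set_option linter.unusedSimpArgs false

namespace Cfsg.Agent.Lib.Helper3_Bfs2

open MulAction Cfsg Cfsg.Agent.Lib.Helper3_Sext Cfsg.Agent.Lib.Helper3_Bfs
open Cfsg.Agent.Lib.Helper3_M24a
open scoped Pointwise

def bt (N m k : ℕ) : ℕ :=
  Nat.shiftLeft (Nat.mod (Nat.shiftRight m k) 2) (Nat.mod (Nat.shiftRight N (5 * k)) 32)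

theorem bt_eq (N m k : ℕ) : bt N m k = if m.testBit k then 1 <<< ap N k else 0 := by
  have h1 : bt N m k = ((m >>> k) % 2) <<< ap N k := rfl
  rw [h1, Nat.testBit_eq_decide_div_mod_eq, Nat.shiftRight_eq_div_pow]
  rcases Nat.mod_two_eq_zero_or_one (m / 2 ^ k) with h | h
  · simp [h]
  · simp [h]

/-- unrolled version of `img` -/
def fimg (N m : ℕ) : ℕ :=
  Nat.lor (Nat.lor (Nat.lor (Nat.lor (Nat.lor (bt N m 0) (bt N m 1)) (Nat.lor (bt N m 2) (bt N m 3)))
    (Nat.lor (Nat.lor (bt N m 4) (bt N m 5)) (Nat.lor (bt N m 6) (bt N m 7))))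
   (Nat.lor (Nat.lor (Nat.lor (bt N m 8) (bt N m 9)) (Nat.lor (bt N m 10) (bt N m 11)))
    (Nat.lor (Nat.lor (bt N m 12) (bt N m 13)) (Nat.lor (bt N m 14) (bt N m 15)))))
   (Nat.lor (Nat.lor (Nat.lor (bt N m 16) (bt N m 17)) (Nat.lor (bt N m 18) (bt N m 19)))
    (Nat.lor (Nat.lor (bt N m 20) (bt N m 21)) (Nat.lor (bt N m 22) (bt N m 23))))

theorem fimg_eq (N m : ℕ) : fimg N m = img N m := by
  have e : ∀ a b : ℕ, Nat.lor a b = a ||| b := fun _ _ => rfl
  simp only [fimg, img, imgAux, ← bt_eq, e, Nat.zero_or, Nat.lor_assoc]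

theorem fimg_fun : fimg = img := by
  funext N m
  exact fimg_eq N m

def chkS (inH : ℕ → Bool) (gens Y0 cert : List ℕ) (b p n : ℕ) : Bool :=
  gens.all inH && validL Y0 && decide (n ≠ 0) &&
    (distinctCnt ((run (fun s L => L.map (fimg s)) gens b cert [Y0]).map fun L => keyL L % p) 0 0 == n)

theorem chkS_eq : chkS = chkBfsS := by
  unfold chkS chkBfsS
  rw [fimg_fun]

def chkM (inH : ℕ → Bool) (gens : List ℕ) (y0 : ℕ) (cert : List ℕ) (b p n : ℕ) : Bool :=
  gens.all inH && decide (y0 < 2 ^ 24) && decide (n ≠ 0) &&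
    (distinctCnt ((run (fun s m => fimg s m) gens b cert [y0]).map fun m => m % p) 0 0 == n)

theorem chkM_eq : chkM = chkBfsM := by
  unfold chkM chkBfsM
  rw [fimg_fun]

theorem chkS_le {H : Subgroup M24} {inH : ℕ → Bool} (hH : Sound H inH) {gens Y0 cert : List ℕ}
    {b p n : ℕ} (h : chkS inH gens Y0 cert b p n = true) :
    n ≤ (orbit H (decS Y0)).ncard := by
  rw [chkS_eq] at h
  exact bfsS_le hH h

theorem chkM_le {H : Subgroup M24} {inH : ℕ → Bool} (hH : Sound H inH) {gens cert : List ℕ}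
    {y0 b p n : ℕ} (h : chkM inH gens y0 cert b p n = true) :
    n ≤ (orbit H (Helper3_Golay2.dec y0)).ncard := by
  rw [chkM_eq] at h
  exact bfsM_le hH h

end Cfsg.Agent.Lib.Helper3_Bfs2
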