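import Mathlib
import Cfsg.Agent.Lib.Helper3_Bfs2

/-!
# helper3: standard objects for the orbit decompositions
-/

set_option autoImplicit false
set_option linter.unusedSectionVars false
set_option linter.unusedSimpArgs false

namespace Cfsg.Agent.Lib.Helper3_Orb3

open MulAction Cfsg Cfsg.Agent.Lib.Helper3_Sext Cfsg.Agent.Lib.Helper3_Bfs
open Cfsg.Agent.Lib.Helper3_Orb Cfsg.Agent.Lib.Helper3_Orb2
open Cfsg.Agent.Lib.Helper3_Golay Cfsg.Agent.Lib.Helper3_Golay2 Cfsg.Agent.Lib.Helper3_Golay3
open Cfsg.Agent.Lib.Helper3_M24a Cfsg.Agent.Lib.Helper3_M24d Cfsg.Agent.Lib.Helper3_Fast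
open scoped Pointwise

def isOct (y : ℕ) : Bool := code y && (pop24 y == 8)

theorem dec_mem_octads {y : ℕ} (h : isOct y = true) : dec y ∈ octads := by
  rw [isOct, Bool.and_eq_true, beq_iff_eq] at h
  exact ⟨dec_mem_of_code h.1, by rw [card_dec, popN_eq_pop24, h.2]⟩

/-- the standard trio -/
def T0L : List ℕ := [1351424, 6889680, 8536111]

theorem T0_mem : decS T0L ∈ trios := decS_mem_trios (by decide +kernel)

theorem hX_mask (W : ℕ) :
    ∀ g ∈ stabilizer M24 (dec W), (g : Equiv.Perm GolayPt) • decS [W] = decS [W] := by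
  intro g hg
  have hg' : (g : Equiv.Perm GolayPt) • dec W = dec W := hg
  rw [decS_singleton, Finset.smul_finset_singleton, hg']

def D0c : ℕ := 5304288

theorem decS_pair (a b : ℕ) : decS [a, b] = {dec a, dec b} := by
  simp [decS]

theorem dec_D0c : dec D0c = Finset.univ \ dec D0 := by decide +kernel

theorem cpair_eq (g : Equiv.Perm GolayPt) :
    ({g • dec D0, Finset.univ \ (g • dec D0)} : Finset (Finset GolayPt)) = g • decS [D0, D0c] := by
  rw [decS_pair, Finset.smul_finset_insert, Finset.smul_finset_singleton, dec_D0c,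
    Finset.smul_finset_sdiff, Finset.smul_finset_univ]

/-- the standard set of three points -/
def W3 : ℕ := 8388611

theorem card_W3 : (dec W3).card = 3 := by rw [card_dec]; decide +kernel

end Cfsg.Agent.Lib.Helper3_Orb3
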