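import Mathlib
import Cfsg.Agent.Lib.Helper3_Orb3

/-!
# helper3: classes of octads relative to two points and a set
-/

set_option autoImplicit false
set_option linter.unusedSectionVars false
set_option linter.unusedSimpArgs false

namespace Cfsg.Agent.Lib.Helper3_Cls

open MulAction Cfsg Cfsg.Agent.Lib.Helper3_Sext Cfsg.Agent.Lib.Helper3_Bfs
open Cfsg.Agent.Lib.Helper3_Orb Cfsg.Agent.Lib.Helper3_Orb2 Cfsg.Agent.Lib.Helper3_Orb3
open Cfsg.Agent.Lib.Helper3_Golay Cfsg.Agent.Lib.Helper3_Golay2 Cfsg.Agent.Lib.Helper3_Golay3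
open Cfsg.Agent.Lib.Helper3_M24a Cfsg.Agent.Lib.Helper3_M24d Cfsg.Agent.Lib.Helper3_Fast
open Cfsg.Agent.Lib.Helper3_M24h
open scoped Pointwise

/-- classes and transitivity from an orbit decomposition -/
theorem classes_of_partition {H Z : Type*} [Group H] [MulAction H Z] {B : Set Z} {k : ℕ}
    {y : Fin k → Z} {n : Fin k → ℕ} (h1 : ∀ i, (orbit H (y i)).ncard = n i)
    (h2 : B = ⋃ i, orbit H (y i)) (c : Z → ℕ) (hc : ∀ (h : H) (z : Z), c (h • z) = c z)
    (hinj : Function.Injective (fun i => c (y i))) :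
    (∀ i, {z | z ∈ B ∧ c z = c (y i)}.ncard = n i) ∧
      ∀ z z', z ∈ B → z' ∈ B → c z = c z' → ∃ h : H, h • z = z' := by
  constructor
  · intro i
    rw [class_eq_orbit h2 c hc hinj i, h1]
  · intro z z' hz hz' hzz
    rw [h2] at hz hz'
    obtain ⟨i, a, rfl⟩ := Set.mem_iUnion.mp hz
    obtain ⟨j, b, rfl⟩ := Set.mem_iUnion.mp hz'
    simp only at hzz
    rw [hc, hc] at hzz
    have hij : i = j := hinj hzz
    subst hij
    exact ⟨b * a⁻¹, by simp [mul_smul]⟩

abbrev A3 : Type := GolayPt × GolayPt × Finset GolayPt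

def cA (a : A3) (z : Finset GolayPt) : ℕ :=
  (if a.1 ∈ z then 32 else 0) + (if a.2.1 ∈ z then 16 else 0) + (a.2.2 ∩ z).card

theorem cA_smul (g : Equiv.Perm GolayPt) (a : A3) (z : Finset GolayPt) :
    cA (g • a) (g • z) = cA a z := by
  obtain ⟨p, q, o⟩ := a
  simp only [cA, Prod.smul_mk, Finset.smul_mem_smul_finset_iff, ← Finset.smul_finset_inter,
    Finset.card_smul_finset]

def cL (i j W y : ℕ) : ℕ :=
  (if y.testBit i then 32 else 0) + (if y.testBit j then 16 else 0) + pop24 (W &&& y)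

theorem cA_dec {i j : ℕ} (hi : i < 24) (hj : j < 24) (W y : ℕ) :
    cA (pt i, pt j, dec W) (dec y) = cL i j W y := by
  simp only [cA, cL, mem_dec, idx_pt i hi, idx_pt j hj, ← dec_and, card_dec, popN_eq_pop24]

def inSt3 (i j W N : ℕ) : Bool := isAut N && (ap N i == i) && (ap N j == j) && (img N W == W)

theorem sound_inSt3 {i j : ℕ} (hi : i < 24) (hj : j < 24) (W : ℕ) :
    Sound (stabilizer M24 ((pt i, pt j, dec W) : A3)) (inSt3 i j W) := by
  intro N h
  simp only [inSt3, Bool.and_eq_true, beq_iff_eq] at h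
  obtain ⟨⟨⟨h1, h2⟩, h3⟩, h4⟩ := h
  have hp := isPerm_of_isAut h1
  refine ⟨hp, prm_mem_M24 h1, ?_⟩
  show (prm N • pt i, prm N • pt j, prm N • dec W) = (pt i, pt j, dec W)
  rw [smul_dec hp, h4, Equiv.Perm.smul_def, Equiv.Perm.smul_def, prm_pt hp hi, prm_pt hp hj, h2, h3]

theorem classes3 {i j : ℕ} (hi : i < 24) (hj : j < 24) (W : ℕ) {k : ℕ} (yL : Fin k → ℕ)
    (n : Fin k → ℕ) (hy : ∀ t, isOct (yL t) = true)
    (hle : ∀ t, n t ≤ (orbit (stabilizer M24 ((pt i, pt j, dec W) : A3)) (dec (yL t))).ncard)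
    (hinj : Function.Injective fun t => cL i j W (yL t)) (hsum : 759 = ∑ t, n t)
    (g : Equiv.Perm GolayPt) (hg : g ∈ M24) :
    (∀ t, {z | z ∈ octads ∧ cA (g • ((pt i, pt j, dec W) : A3)) z = cL i j W (yL t)}.ncard = n t) ∧
      ∀ z z', z ∈ octads → z' ∈ octads →
        cA (g • ((pt i, pt j, dec W) : A3)) z = cA (g • ((pt i, pt j, dec W) : A3)) z' →
        ∃ h ∈ M24, h • (g • ((pt i, pt j, dec W) : A3)) = g • ((pt i, pt j, dec W) : A3) ∧
          h • z = z' := by
  set a0 : A3 := (pt i, pt j, dec W) with ha0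
  have hc : ∀ (h : stabilizer M24 a0) (z : Finset GolayPt), cA a0 (h • z) = cA a0 z := by
    intro h z
    have h1 : ((h : M24) : Equiv.Perm GolayPt) • a0 = a0 := h.2
    have h2 := cA_smul ((h : M24) : Equiv.Perm GolayPt) a0 z
    rw [h1] at h2
    exact h2
  have hinj' : Function.Injective (fun t => cA a0 (dec (yL t))) := by
    intro s t hst
    apply hinj
    simp only [ha0, cA_dec hi hj] at hst
    exact hst
  obtain ⟨p1, p2⟩ := partition_of_le (H := stabilizer M24 a0) octads (Set.toFinite _)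
    (fun h z hz => smul_mem_octads (h : M24).2 hz) (fun t => dec (yL t)) n
    (fun t => dec_mem_octads (hy t)) hle (cA a0) hc hinj' (by rw [ncard_octads]; exact hsum)
  obtain ⟨q1, q2⟩ := classes_of_partition p1 p2 (cA a0) hc hinj'
  constructor
  · intro t
    have e : {z | z ∈ octads ∧ cA (g • a0) z = cL i j W (yL t)} =
        (fun z => g • z) '' {z | z ∈ octads ∧ cA a0 z = cA a0 (dec (yL t))} := by
      ext z
      constructor
      · rintro ⟨hz, hcz⟩
        refine ⟨g⁻¹ • z, ⟨smul_mem_octads (M24.inv_mem hg) hz, ?_⟩, by simp⟩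
        rw [← cA_smul g a0 (g⁻¹ • z), smul_inv_smul, hcz, ha0, cA_dec hi hj]
      · rintro ⟨z, ⟨hz, hcz⟩, rfl⟩
        refine ⟨smul_mem_octads hg hz, ?_⟩
        rw [cA_smul, hcz, ha0, cA_dec hi hj]
    rw [e, Set.ncard_image_of_injective _ (MulAction.injective g), q1]
  · intro z z' hz hz' hzz
    obtain ⟨h, hh⟩ := q2 (g⁻¹ • z) (g⁻¹ • z') (smul_mem_octads (M24.inv_mem hg) hz)
      (smul_mem_octads (M24.inv_mem hg) hz') (by
        rw [← cA_smul g a0 (g⁻¹ • z), ← cA_smul g a0 (g⁻¹ • z'), smul_inv_smul, smul_inv_smul]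
        exact hzz)
    have h1 : ((h : M24) : Equiv.Perm GolayPt) • a0 = a0 := h.2
    have h2 : ((h : M24) : Equiv.Perm GolayPt) • (g⁻¹ • z) = g⁻¹ • z' := hh
    refine ⟨g * ((h : M24) : Equiv.Perm GolayPt) * g⁻¹,
      M24.mul_mem (M24.mul_mem hg (h : M24).2) (M24.inv_mem hg), ?_, ?_⟩
    · rw [mul_smul, mul_smul, inv_smul_smul, h1]
    · rw [mul_smul, mul_smul, h2, smul_inv_smul]

/-! ### normal forms -/

theorem head_of_map {g : Equiv.Perm GolayPt} {x : GolayPt} {ys : List GolayPt}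
    (h : baseL.map g = x :: ys) : g (pt 23) = x := by
  simp only [baseL, List.map_cons, List.cons.injEq] at h
  exact h.1

theorem nf_in {o : Finset GolayPt} (ho : o ∈ octads) {x : GolayPt} (hx : x ∈ o) :
    ∃ g ∈ M24, g (pt 23) = x ∧ g • dec O0 = o := by
  obtain ⟨ys, h1, h2, h3⟩ := exists_list_cons hx (n := 4) (by rw [ho.2]; norm_num)
  obtain ⟨g, hg, hm, hgo⟩ := octad_nf ho (x :: ys) h1 h2 h3
  exact ⟨g, hg, head_of_map hm, hgo⟩

theorem nf_in2 {o : Finset GolayPt} (ho : o ∈ octads) {p q : GolayPt} (hp : p ∈ o) (hq : q ∈ o)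
    (hpq : p ≠ q) : ∃ g ∈ M24, g (pt 23) = p ∧ g (pt 0) = q ∧ g • dec O0 = o := by
  obtain ⟨ys, h1, h2, h3⟩ := exists_list_cons (s := o.erase p) (p := q)
    (Finset.mem_erase.mpr ⟨hpq.symm, hq⟩) (n := 3)
    (by rw [Finset.card_erase_of_mem hp, ho.2]; norm_num)
  obtain ⟨g, hg, hm, hgo⟩ := octad_nf ho (p :: q :: ys) (by simp at h1 ⊢; omega)
    (by
      rw [List.nodup_cons]
      exact ⟨fun hc => (Finset.mem_erase.mp (h3 p hc)).1 rfl, h2⟩)
    (by
      intro y hy
      rcases List.mem_cons.mp hy with rfl | hy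
      · exact hp
      · exact Finset.mem_of_mem_erase (h3 y hy))
  simp only [baseL, List.map_cons, List.cons.injEq] at hm
  exact ⟨g, hg, hm.1, hm.2.1, hgo⟩

theorem octad_of_map {o : Finset GolayPt} (ho : o ∈ octads) {g : Equiv.Perm GolayPt} (hg : g ∈ M24)
    {ys : List GolayPt} (hl : ys.length = 5) (hn : ys.Nodup) (hys : ∀ y ∈ ys, y ∈ o)
    (hm : baseL.map g = ys) : g • dec O0 = o := by
  apply octad_eq_of_five (u := ys.toFinset) (smul_mem_octads hg O0_mem) ho
  · rw [List.toFinset_card_of_nodup hn, hl]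
  · intro y hy
    rw [List.mem_toFinset, ← hm] at hy
    obtain ⟨b, hb, rfl⟩ := List.mem_map.mp hy
    exact Finset.smul_mem_smul_finset (a := g) (base_mem_O0 b hb)
  · intro y hy
    exact hys y (List.mem_toFinset.mp hy)

theorem nf_in_out {o : Finset GolayPt} (ho : o ∈ octads) {p q : GolayPt} (hp : p ∈ o) (hq : q ∉ o) :
    ∃ g ∈ M24, g (pt 23) = p ∧ g (pt 4) = q ∧ g • dec O0 = o := by
  obtain ⟨ys, h1, h2, h3⟩ := exists_list_cons hp (n := 4) (by rw [ho.2]; norm_num)
  obtain ⟨g, hg, hm⟩ := nf6_general (zs := p :: ys) (f := q) h1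
    (by
      rw [List.nodup_append]
      refine ⟨h2, by simp, ?_⟩
      intro a ha b hb hab
      rw [List.mem_singleton] at hb
      subst hb
      subst hab
      exact hq (h3 a ha))
    (by
      rintro ⟨o', ho', h⟩
      have : o' = o := octad_eq_of_five (u := (p :: ys).toFinset) ho' ho
        (by rw [List.toFinset_card_of_nodup h2, h1])
        (fun y hy => h y (List.mem_append_left _ (List.mem_toFinset.mp hy)))
        (fun y hy => h3 y (List.mem_toFinset.mp hy))
      subst this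
      exact hq (h q (by simp)))
  have hm5 : baseL.map g = p :: ys := by
    have : base6n = baseL ++ [pt 4] := rfl
    rw [this, List.map_append] at hm
    exact (List.append_inj hm (by simp [baseL]; simpa using h1.symm)).1
  have hm6 : g (pt 4) = q := by
    have : base6n = baseL ++ [pt 4] := rfl
    rw [this, List.map_append] at hm
    have := (List.append_inj hm (by simp [baseL]; simpa using h1.symm)).2
    simpa using this
  exact ⟨g, hg, head_of_map hm5, hm6, octad_of_map ho hg h1 h2 h3 hm5⟩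

end Cfsg.Agent.Lib.Helper3_Cls
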