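import Mathlib
import Cfsg.Agent.Lib.Helper3_Nrm

/-!
# helper3: the code modulo the all-ones word is irreducible
-/

set_option autoImplicit false
set_option linter.unusedSectionVars false
set_option linter.constructorNameAsVariable false

namespace Cfsg.Agent.Lib.Helper3_Irr

open Cfsg Cfsg.Agent.Lib.Helper3_Golay Cfsg.Agent.Lib.Helper3_Golay2 Cfsg.Agent.Lib.Helper3_Golay3
open Cfsg.Agent.Lib.Helper3_M24a Cfsg.Agent.Lib.Helper3_PermChain Cfsg.Agent.Lib.Helper3_M24b
open Cfsg.Agent.Lib.Helper3_M24c Cfsg.Agent.Lib.Helper3_M24d Cfsg.Agent.Lib.Helper3_M24e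
open Cfsg.Agent.Lib.Helper3_M24f Cfsg.Agent.Lib.Helper3_Nrm
open scoped Pointwise

/-- indicator word of a set of points -/
def ind (s : Finset GolayPt) : GolayPt → ZMod 2 := fun p => if p ∈ s then 1 else 0

theorem ind_support (w : GolayPt → ZMod 2) : ind (support₂ w) = w := by
  funext p
  have h2 : ∀ a : ZMod 2, a ≠ 0 → a = 1 := by decide
  simp only [ind, support₂, Finset.mem_filter, Finset.mem_univ, true_and]
  by_cases h : w p = 0
  · simp [h]
  · simp [h2 _ h]

theorem ind_symmDiff (s t : Finset GolayPt) : ind (symmDiff s t) = ind s + ind t := by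
  funext p
  have h11 : (1 : ZMod 2) + 1 = 0 := by decide
  simp only [ind, Finset.mem_symmDiff, Pi.add_apply]
  by_cases hs : p ∈ s <;> by_cases ht : p ∈ t <;> simp [hs, ht, h11]

theorem ind_smul (σ : Equiv.Perm GolayPt) (s : Finset GolayPt) :
    ind (σ • s) = fun p => ind s (σ.symm p) := by
  funext p
  have h : p ∈ σ • s ↔ σ.symm p ∈ s := by
    rw [← Finset.inv_smul_mem_iff]
    rfl
  simp only [ind, h]

theorem wd_eq_ind (m : ℕ) : wd m = ind (dec m) := by
  funext p
  simp [wd, ind, mem_dec]

theorem ind_univ : ind Finset.univ = fun _ => (1 : ZMod 2) := by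
  funext p
  simp [ind]

theorem ind_empty : ind ∅ = 0 := by
  funext p
  simp [ind]

theorem ind_fold_mem (W : Submodule (ZMod 2) (GolayPt → ZMod 2)) :
    ∀ L : List ℕ, (∀ o ∈ L, ind (dec o) ∈ W) → ind (dec (L.foldr (· ^^^ ·) 0)) ∈ W := by
  intro L
  induction L with
  | nil =>
    intro _
    have : dec 0 = ∅ := by decide +kernel
    simp only [List.foldr_nil, this, ind_empty]
    exact W.zero_mem
  | cons a L ih =>
    intro h
    rw [List.foldr_cons, dec_xor, ind_symmDiff]
    exact W.add_mem (h a List.mem_cons_self) (ih fun o ho => h o (List.mem_cons_of_mem _ ho))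

theorem code_le_of_octads (W : Submodule (ZMod 2) (GolayPt → ZMod 2))
    (h : ∀ o ∈ octads, ind o ∈ W) : golayCode ≤ W := by
  rw [golayCode_eq, Submodule.span_le]
  rintro _ ⟨m, hm, rfl⟩
  have hm' : m ∈ EL := hm
  rw [← spanL_ok] at hm'
  obtain ⟨L, hL, rfl⟩ := List.mem_map.mp hm'
  rw [wd_eq_ind]
  apply ind_fold_mem
  intro o ho
  obtain ⟨h1, h2, _⟩ := spanL_oct L hL o ho
  exact h (dec o) ⟨dec_mem_of_code h1, by rw [card_dec, h2]⟩

theorem irr (W : Submodule (ZMod 2) (GolayPt → ZMod 2)) (h1 : (fun _ => (1 : ZMod 2)) ∈ W)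
    (hle : W ≤ golayCode) (hinv : ∀ σ ∈ M24, ∀ w ∈ W, (fun p => w (σ.symm p)) ∈ W) :
    W = Submodule.span (ZMod 2) {fun _ => (1 : ZMod 2)} ∨ W = golayCode := by
  by_cases hall : ∀ w ∈ W, w ∈ Submodule.span (ZMod 2) {fun _ : GolayPt => (1 : ZMod 2)}
  · left
    apply le_antisymm hall
    rw [Submodule.span_le]
    rintro _ rfl
    exact h1
  · right
    push Not at hall
    obtain ⟨w, hw, hns⟩ := hall
    have hs : support₂ w ∈ Sup := ⟨w, hle hw, rfl⟩
    have hindW : ind (support₂ w) ∈ W := by rw [ind_support]; exact hw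
    have hinv' : ∀ σ ∈ M24, ∀ s : Finset GolayPt, ind s ∈ W → ind (σ • s) ∈ W := by
      intro σ hσ s hsW
      rw [ind_smul]
      exact hinv σ hσ _ hsW
    have hoct : ∃ o ∈ octads, ind o ∈ W := by
      rcases card_cases hs with h | h | h | h | h
      · exfalso
        apply hns
        rw [Finset.card_eq_zero] at h
        rw [← ind_support w, h, ind_empty]
        exact Submodule.zero_mem _
      · exact ⟨_, ⟨hs, h⟩, hindW⟩
      · have hd : support₂ w ∈ dodecads := ⟨hs, h⟩
        have hne : {o : Finset GolayPt | o ∈ octads ∧ (o ∩ support₂ w).card = 4}.Nonempty := by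
          apply Set.nonempty_of_ncard_ne_zero
          rw [(count_oct_dod hd).2.2]
          norm_num
        obtain ⟨o, ho, h4⟩ := hne
        have hd' : symmDiff o (support₂ w) ∈ dodecads := by
          refine ⟨symmDiff_mem ho.1 hs, ?_⟩
          have := card_symmDiff_add o (support₂ w)
          rw [ho.2, h, h4] at this
          omega
        obtain ⟨σ, hσ, hσd⟩ := trans_dodecads hd hd'
        refine ⟨o, ho, ?_⟩
        have h5 : ind (symmDiff o (support₂ w)) ∈ W := by
          rw [← hσd]; exact hinv' σ hσ _ hindW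
        have h6 : o = symmDiff (symmDiff o (support₂ w)) (support₂ w) :=
          (symmDiff_symmDiff_cancel_right _ _).symm
        rw [h6, ind_symmDiff]
        exact W.add_mem h5 hindW
      · refine ⟨(support₂ w)ᶜ, ⟨compl_mem hs, ?_⟩, ?_⟩
        · rw [Finset.card_compl, h]; decide
        · have : (support₂ w)ᶜ = symmDiff (support₂ w) Finset.univ := by
            ext p; simp [Finset.mem_symmDiff]
          rw [this, ind_symmDiff, ind_univ]
          exact W.add_mem hindW h1
      · exfalso
        apply hns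
        have : support₂ w = Finset.univ := by
          apply Finset.eq_univ_of_card
          rw [h]; decide
        rw [← ind_support w, this, ind_univ]
        exact Submodule.subset_span rfl
    obtain ⟨o, ho, hoW⟩ := hoct
    apply le_antisymm hle
    apply code_le_of_octads
    intro o' ho'
    obtain ⟨σ, hσ, rfl⟩ := trans_octads ho ho'
    exact hinv' σ hσ _ hoW

end Cfsg.Agent.Lib.Helper3_Irr
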