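import Mathlib
import Cfsg.Agent.Lib.Helper3_Irr
import Cfsg.Agent.Lib.Helper3_Oct8b
import Cfsg.Agent.Lib.Helper3_Nrm22
import Cfsg.Agent.Lib.Helper3_Sext
import Cfsg.Agent.Lib.Helper3_Orb3

/-!
# helper3: the invariant subspaces of the permutation module of `M24`
-/

set_option autoImplicit false
set_option linter.unusedSectionVars false
set_option linter.constructorNameAsVariable false

namespace Cfsg.Agent.Lib.Helper3_Sub24

open Cfsg Cfsg.Agent.Lib.Helper3_Golay Cfsg.Agent.Lib.Helper3_Golay2 Cfsg.Agent.Lib.Helper3_Golay3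
open Cfsg.Agent.Lib.Helper3_M24a Cfsg.Agent.Lib.Helper3_M24d Cfsg.Agent.Lib.Helper3_M24f
open Cfsg.Agent.Lib.Helper3_Irr Cfsg.Agent.Lib.Helper3_Oct8b Cfsg.Agent.Lib.Helper3_Nrm22
open Cfsg.Agent.Lib.Helper3_Sext Cfsg.Agent.Lib.Helper3_Orb3
open scoped Pointwise

variable {W : Submodule (ZMod 2) (GolayPt → ZMod 2)}

def Inv (W : Submodule (ZMod 2) (GolayPt → ZMod 2)) : Prop :=
  ∀ σ ∈ M24, ∀ s : Finset GolayPt, ind s ∈ W → ind (σ • s) ∈ W

theorem inv_of (hW : ∀ σ ∈ M24, ∀ w ∈ W, (fun p => w (σ.symm p)) ∈ W) : Inv W := by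
  intro σ hσ s hs
  rw [ind_smul]
  exact hW σ hσ _ hs

theorem mA : dec 5279 ∈ octads := dec_mem_octads (by decide +kernel)
theorem mB : dec 10558 ∈ octads := dec_mem_octads (by decide +kernel)
theorem mC : dec 15777 ∈ octads := dec_mem_octads (by decide +kernel)
theorem eC : symmDiff (dec 5279) (dec 10558) = dec 15777 := by
  rw [← dec_xor]; rfl

theorem smul_compl' (g : Equiv.Perm GolayPt) (d : Finset GolayPt) : g • dᶜ = (g • d)ᶜ := by
  rw [Finset.compl_eq_univ_sdiff, Finset.smul_finset_sdiff, Finset.smul_finset_univ,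
    ← Finset.compl_eq_univ_sdiff]

theorem oct_of_compl (hI : Inv W) {o : Finset GolayPt} (ho : o ∈ octads) (h : ind oᶜ ∈ W) :
    ∃ o' ∈ octads, ind o' ∈ W := by
  refine ⟨dec 15777, mC, ?_⟩
  obtain ⟨g, hg, hgo⟩ := trans_octads ho mA
  obtain ⟨k, hk, hko⟩ := trans_octads ho mB
  have h1 := hI g hg _ h
  have h2 := hI k hk _ h
  rw [smul_compl', hgo] at h1
  rw [smul_compl', hko] at h2
  rw [← eC, ← compl_symmDiff_compl, ind_symmDiff]
  exact W.add_mem h1 h2

theorem oct_of_code (hI : Inv W) {s : Finset GolayPt} (hs : s ∈ Sup) (h0 : s ≠ ∅)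
    (h1 : s ≠ Finset.univ) (hW : ind s ∈ W) : ∃ o ∈ octads, ind o ∈ W := by
  rcases card_cases hs with h | h | h | h | h
  · exact absurd (Finset.card_eq_zero.mp h) h0
  · exact ⟨_, ⟨hs, h⟩, hW⟩
  · have hd : s ∈ dodecads := ⟨hs, h⟩
    have hne : {o : Finset GolayPt | o ∈ octads ∧ (o ∩ s).card = 4}.Nonempty := by
      apply Set.nonempty_of_ncard_ne_zero
      rw [(count_oct_dod hd).2.2]
      norm_num
    obtain ⟨o, ho, h4⟩ := hne
    have hd' : symmDiff o s ∈ dodecads := by
      refine ⟨symmDiff_mem ho.1 hs, ?_⟩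
      have := card_symmDiff_add o s
      rw [ho.2, h, h4] at this
      omega
    obtain ⟨σ, hσ, hσd⟩ := trans_dodecads hd hd'
    refine ⟨o, ho, ?_⟩
    have h5 : ind (symmDiff o s) ∈ W := by
      rw [← hσd]; exact hI σ hσ _ hW
    have h6 : o = symmDiff (symmDiff o s) s := (symmDiff_symmDiff_cancel_right _ _).symm
    rw [h6, ind_symmDiff]
    exact W.add_mem h5 hW
  · apply oct_of_compl hI (o := sᶜ)
    · refine ⟨compl_mem hs, ?_⟩
      rw [Finset.card_compl, h]; decide
    · rw [compl_compl]; exact hW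
  · exfalso
    apply h1
    apply Finset.eq_univ_of_card
    rw [h]; decide

theorem code_le (hI : Inv W) (h : ∃ o ∈ octads, ind o ∈ W) : golayCode ≤ W := by
  obtain ⟨o, ho, hoW⟩ := h
  apply code_le_of_octads
  intro o' ho'
  obtain ⟨σ, hσ, rfl⟩ := trans_octads ho ho'
  exact hI σ hσ _ hoW

theorem card_pair_inter : (({pt 0, pt 23} : Finset GolayPt) ∩ dec 5279).card = 1 := by
  decide +kernel

theorem mem_Sup_of_even {X : Finset GolayPt} (h : ∀ o ∈ octads, Even (X ∩ o).card) : X ∈ Sup := by
  rcases dual22 (X := X) (fun o ho _ _ => h o ho) with h1 | h1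
  · exact h1
  · exfalso
    have e1 := h _ mA
    have e2 := even_inter h1 mA.1
    have e3 := even_symmDiff_inter e1 e2
    rw [symmDiff_symmDiff_cancel_left, card_pair_inter] at e3
    exact absurd e3 (by decide)

theorem exists_odd {S : Finset GolayPt} (hS : S ∉ Sup) : ∃ o ∈ octads, Odd (S \ o).card := by
  by_contra hcon
  push Not at hcon
  have hev : ∀ o ∈ octads, Even (S \ o).card := fun o ho => Nat.not_odd_iff_even.mp (hcon o ho)
  have hsp : ∀ o : Finset GolayPt, (S ∩ o).card + (S \ o).card = S.card :=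
    fun o => Finset.card_inter_add_card_sdiff S o
  have hSe : Even S.card := by
    have a1 := hev _ mA
    have a2 := hev _ mB
    have a3 := hev _ mC
    have b1 := hsp (dec 5279)
    have b2 := hsp (dec 10558)
    have b3 := hsp (dec 15777)
    have c := card_symmDiff_add (S ∩ dec 5279) (S ∩ dec 10558)
    have d : symmDiff (S ∩ dec 5279) (S ∩ dec 10558) = S ∩ dec 15777 := by
      rw [← eC]; exact (inf_symmDiff_distrib_left S _ _).symm
    rw [d] at c
    rw [Nat.even_iff] at *
    omega
  apply hS
  apply mem_Sup_of_even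
  intro o ho
  have a := hev o ho
  have b := hsp o
  rw [Nat.even_iff] at *
  omega

theorem sum_ind (s S : Finset GolayPt) : ∑ x ∈ s, ind S x = ((s ∩ S).card : ZMod 2) := by
  simp only [ind]
  rw [Finset.sum_boole, Finset.filter_mem_eq_inter]

theorem avg (hW : ∀ σ ∈ M24, ∀ w ∈ W, (fun p => w (σ.symm p)) ∈ W) {S o : Finset GolayPt}
    (ho : o ∈ octads) (hodd : Odd (S \ o).card) (hS : ind S ∈ W) : ind oᶜ ∈ W := by
  classical
  have hp0 : ∃ p0, p0 ∉ o := by
    by_contra hcon
    push Not at hcon
    have : o = Finset.univ := Finset.eq_univ_iff_forall.mpr hcon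
    have h8 := ho.2
    rw [this] at h8
    exact absurd h8 (by decide)
  obtain ⟨p0, hp0⟩ := hp0
  have hex : ∀ q : GolayPt, ∃ t : Equiv.Perm GolayPt, t ∈ M24 ∧ (∀ x ∈ o, t x = x) ∧
      (q ∉ o → t p0 = q) := by
    intro q
    by_cases hq : q ∈ o
    · exact ⟨1, M24.one_mem, fun _ _ => rfl, fun h => absurd hq h⟩
    · obtain ⟨t, ht, htq⟩ := exists_T_map ho hp0 hq
      exact ⟨t, (mem_T_iff.mp ht).1, (mem_T_iff.mp ht).2, fun _ => htq⟩
  choose t ht1 ht2 ht3 using hex
  have key : ind oᶜ = ∑ q ∈ oᶜ, (fun p => ind S ((t q).symm p)) := by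
    funext p
    rw [Finset.sum_apply]
    by_cases hp : p ∈ o
    · have e1 : ∀ q ∈ oᶜ, ind S ((t q).symm p) = ind S p := by
        intro q _
        rw [(Equiv.symm_apply_eq _).mpr (ht2 q p hp).symm]
      rw [Finset.sum_congr rfl e1, Finset.sum_const, Finset.card_compl, ho.2]
      have : ind oᶜ p = 0 := by simp [ind, hp]
      rw [this]
      have h16 : Fintype.card GolayPt - 8 = 16 := by decide
      rw [h16, nsmul_eq_mul]
      have : ((16 : ℕ) : ZMod 2) = 0 := by decide
      rw [this, zero_mul]
    · have hmem : ∀ q, (t q).symm p ∉ o := by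
        intro q hq
        have := ht2 q _ hq
        rw [Equiv.apply_symm_apply] at this
        rw [← this] at hq
        exact hp hq
      have hinj : Set.InjOn (fun q => (t q).symm p) (oᶜ : Finset GolayPt) := by
        intro q hq q' hq' hqq
        have hq1 : q ∉ o := by simpa using hq
        have hq2 : q' ∉ o := by simpa using hq'
        have hqq' : (t q).symm p = (t q').symm p := hqq
        have hone : (t q')⁻¹ * t q = 1 := by
          apply eq_one_of_fix9 ho (hmem q) (M24.mul_mem (M24.inv_mem (ht1 q')) (ht1 q))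
          · intro x hx
            rw [Equiv.Perm.mul_apply, ht2 q x hx, Equiv.Perm.inv_eq_iff_eq, ht2 q' x hx]
          · rw [Equiv.Perm.mul_apply, Equiv.apply_symm_apply, Equiv.Perm.inv_eq_iff_eq, hqq',
              Equiv.apply_symm_apply]
        have htt : t q = t q' := by
          have := congrArg (fun z => t q' * z) hone
          simpa using this
        rw [← ht3 q hq1, ← ht3 q' hq2, htt]
      have himg : (oᶜ).image (fun q => (t q).symm p) = oᶜ := by
        apply Finset.eq_of_subset_of_card_le
        · intro x hx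
          obtain ⟨q, _, rfl⟩ := Finset.mem_image.mp hx
          exact Finset.mem_compl.mpr (hmem q)
        · rw [Finset.card_image_of_injOn hinj]
      have e2 : ∑ q ∈ oᶜ, ind S ((t q).symm p) = ∑ x ∈ oᶜ, ind S x := by
        conv_rhs => rw [← himg]
        rw [Finset.sum_image hinj]
      rw [e2, sum_ind]
      have e3 : oᶜ ∩ S = S \ o := by
        ext x; simp [and_comm]
      rw [e3, ZMod.natCast_eq_one_iff_odd.mpr hodd]
      simp [ind, hp]
  rw [key]
  exact W.sum_mem (fun q _ => hW (t q) (ht1 q) _ hS)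

theorem ind_mem_code {b : Finset GolayPt} (hb : b ∈ Sup) : ind b ∈ golayCode := by
  obtain ⟨c, hc, rfl⟩ := hb
  rw [ind_support]; exact hc

theorem small (hC : golayCode ≤ W) : ∀ n : ℕ, ∀ S : Finset GolayPt, S.card ≤ n → ind S ∈ W →
    S ∉ Sup → ∃ S' : Finset GolayPt, S'.card ≤ 4 ∧ ind S' ∈ W ∧ S' ∉ Sup := by
  intro n
  induction n with
  | zero => intro S h0 hW hS; exact ⟨S, by omega, hW, hS⟩
  | succ n ih =>
    intro S hn hW hS
    by_cases h4 : S.card ≤ 4
    · exact ⟨S, h4, hW, hS⟩
    · obtain ⟨u, hu, hu5⟩ := Finset.exists_subset_card_eq (s := S) (n := 5) (by omega)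
      obtain ⟨b, hb, hub⟩ := exists_octad hu5
      apply ih (symmDiff S b)
      · have h1 := card_symmDiff_add S b
        have h2 : 5 ≤ (S ∩ b).card := by
          rw [← hu5]
          exact Finset.card_le_card (Finset.subset_inter hu hub)
        rw [hb.2] at h1
        omega
      · rw [ind_symmDiff]
        exact W.add_mem hW (hC (ind_mem_code hb.1))
      · intro hcon
        apply hS
        have := symmDiff_mem hcon hb.1
        rwa [symmDiff_symmDiff_cancel_right] at this

theorem pair_mem (hI : Inv W) {S : Finset GolayPt} (h4 : S.card ≤ 4) (hW : ind S ∈ W)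
    (hne : S ≠ ∅) : ∀ a b : GolayPt, a ≠ b → ind {a, b} ∈ W := by
  obtain ⟨a0, ha0⟩ := Finset.nonempty_iff_ne_empty.mpr hne
  have hb0 : ∃ b0, b0 ∉ S := by
    by_contra hcon
    push Not at hcon
    have : S = Finset.univ := Finset.eq_univ_iff_forall.mpr hcon
    rw [this] at h4
    exact absurd h4 (by decide)
  obtain ⟨b0, hb0⟩ := hb0
  have hab0 : a0 ≠ b0 := fun h => hb0 (h ▸ ha0)
  have hc : (insert b0 (S.erase a0)).card = S.card := by
    rw [Finset.card_insert_of_notMem (fun h => hb0 (Finset.mem_of_mem_erase h)),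
      Finset.card_erase_of_mem ha0]
    have := Finset.card_pos.mpr ⟨a0, ha0⟩
    omega
  obtain ⟨g, hg, hgS⟩ := exists_smul_eq_of_card hc.symm (by omega)
  have h1 := hI g hg _ hW
  rw [hgS] at h1
  have h2 : symmDiff S (insert b0 (S.erase a0)) = {a0, b0} := by
    ext x
    simp only [Finset.mem_symmDiff, Finset.mem_insert, Finset.mem_erase, Finset.mem_singleton]
    by_cases hxa : x = a0
    · subst hxa; simp [ha0, hab0]
    · by_cases hxb : x = b0
      · subst hxb; simp [hb0]
      · simp [hxa, hxb]
  have h3 : ind ({a0, b0} : Finset GolayPt) ∈ W := by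
    rw [← h2, ind_symmDiff]; exact W.add_mem hW h1
  intro a b hab
  obtain ⟨k, hk, hkS⟩ := exists_smul_eq_of_card (s := {a0, b0}) (t := {a, b})
    (by rw [Finset.card_pair hab0, Finset.card_pair hab]) (by rw [Finset.card_pair hab0]; norm_num)
  rw [← hkS]
  exact hI k hk _ h3

theorem even_mem (hp : ∀ a b : GolayPt, a ≠ b → ind {a, b} ∈ W) : ∀ n : ℕ, ∀ S : Finset GolayPt,
    S.card = 2 * n → ind S ∈ W := by
  intro n
  induction n with
  | zero =>
    intro S hS
    rw [Finset.card_eq_zero.mp (by omega : S.card = 0), ind_empty]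
    exact W.zero_mem
  | succ n ih =>
    intro S hS
    obtain ⟨a, ha⟩ := Finset.card_pos.mp (by omega : 0 < S.card)
    have h1 : (S.erase a).card = 2 * n + 1 := by rw [Finset.card_erase_of_mem ha]; omega
    obtain ⟨b, hb⟩ := Finset.card_pos.mp (by omega : 0 < (S.erase a).card)
    have h2 : ((S.erase a).erase b).card = 2 * n := by rw [Finset.card_erase_of_mem hb]; omega
    have hab : a ≠ b := fun h => (Finset.mem_erase.mp hb).1 h.symm
    have hbS : b ∈ S := Finset.mem_of_mem_erase hb
    have h3 : S = symmDiff {a, b} ((S.erase a).erase b) := by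
      ext x
      simp only [Finset.mem_symmDiff, Finset.mem_insert, Finset.mem_erase, Finset.mem_singleton]
      by_cases hxa : x = a
      · subst hxa; simp [ha]
      · by_cases hxb : x = b
        · subst hxb; simp [hbS]
        · simp [hxa, hxb]
    rw [h3, ind_symmDiff]
    exact W.add_mem (hp a b hab) (ih _ h2)

theorem sum_eq_card (w : GolayPt → ZMod 2) : ∑ p, w p = ((support₂ w).card : ZMod 2) := by
  conv_lhs => rw [← ind_support w]
  rw [sum_ind, Finset.univ_inter]

theorem main (W : Submodule (ZMod 2) (GolayPt → ZMod 2))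
    (hW : ∀ σ ∈ M24, ∀ w ∈ W, (fun p => w (σ.symm p)) ∈ W) :
    W = ⊥ ∨ W = Submodule.span (ZMod 2) {fun _ => (1 : ZMod 2)} ∨ W = golayCode ∨
      (W : Set (GolayPt → ZMod 2)) = {w | ∑ p, w p = 0} ∨ W = ⊤ := by
  have hI := inv_of hW
  by_cases hsm : ∀ S : Finset GolayPt, ind S ∈ W → S = ∅ ∨ S = Finset.univ
  · by_cases h1 : ind Finset.univ ∈ W
    · right; left
      apply le_antisymm
      · intro w hw
        rcases hsm (support₂ w) (by rw [ind_support]; exact hw) with h | h
        · rw [← ind_support w, h, ind_empty]; exact Submodule.zero_mem _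
        · rw [← ind_support w, h, ind_univ]; exact Submodule.subset_span rfl
      · rw [Submodule.span_le]
        rintro _ rfl
        rw [← ind_univ]; exact h1
    · left
      rw [Submodule.eq_bot_iff]
      intro w hw
      rcases hsm (support₂ w) (by rw [ind_support]; exact hw) with h | h
      · rw [← ind_support w, h, ind_empty]
      · exfalso; apply h1; rw [← h, ind_support]; exact hw
  · push Not at hsm
    obtain ⟨S, hSW, hS0, hS1⟩ := hsm
    have hoct : ∃ o ∈ octads, ind o ∈ W := by
      by_cases hSS : S ∈ Sup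
      · exact oct_of_code hI hSS hS0.ne_empty hS1 hSW
      · obtain ⟨o, ho, hodd⟩ := exists_odd hSS
        exact oct_of_compl hI ho (avg hW ho hodd hSW)
    have hC := code_le hI hoct
    right; right
    by_cases hWC : W ≤ golayCode
    · left; exact le_antisymm hWC hC
    · right
      obtain ⟨w, hw, hwC⟩ := SetLike.not_le_iff_exists.mp hWC
      have hns : support₂ w ∉ Sup := by
        intro h
        apply hwC
        rw [← ind_support w]; exact ind_mem_code h
      obtain ⟨S', h4, hS'W, hS'⟩ := small hC _ (support₂ w) le_rfl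
        (by rw [ind_support]; exact hw) hns
      have hne : S' ≠ ∅ := by
        rintro rfl; exact hS' empty_mem
      have hp := pair_mem hI h4 hS'W hne
      have hev : ∀ T : Finset GolayPt, Even T.card → ind T ∈ W := by
        intro T hT
        obtain ⟨n, hn⟩ := hT
        exact even_mem hp n T (by omega)
      by_cases hall : ∀ T : Finset GolayPt, ind T ∈ W → Even T.card
      · left
        ext v
        simp only [SetLike.mem_coe, Set.mem_ofPred_eq]
        rw [sum_eq_card, ZMod.natCast_eq_zero_iff_even]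
        constructor
        · intro hv
          exact hall _ (by rw [ind_support]; exact hv)
        · intro hv
          rw [← ind_support v]; exact hev _ hv
      · right
        push Not at hall
        obtain ⟨T, hTW, hTo⟩ := hall
        rw [eq_top_iff]
        intro v _
        by_cases hv : Even (support₂ v).card
        · rw [← ind_support v]; exact hev _ hv
        · have h1 := card_symmDiff_add (support₂ v) T
          have h2 : Even (symmDiff (support₂ v) T).card := by
            rw [Nat.even_iff] at *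
            omega
          have h3 := W.add_mem (hev _ h2) hTW
          rw [← ind_symmDiff, symmDiff_symmDiff_cancel_right, ind_support] at h3
          exact h3

end Cfsg.Agent.Lib.Helper3_Sub24
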