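import Mathlib
import Cfsg.Agent.Lib.Helper3_Sub24
import Cfsg.Agent.Lib.Helper3_M24h

/-!
# helper3: stabilisers of code words fix no non-zero element of the cocode
-/

set_option autoImplicit false
set_option linter.unusedSectionVars false
set_option linter.constructorNameAsVariable false

namespace Cfsg.Agent.Lib.Helper3_Coc

open Cfsg Cfsg.Agent.Lib.Helper3_Golay Cfsg.Agent.Lib.Helper3_Golay2 Cfsg.Agent.Lib.Helper3_Golay3
open Cfsg.Agent.Lib.Helper3_M24a Cfsg.Agent.Lib.Helper3_M24d Cfsg.Agent.Lib.Helper3_M24f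
open Cfsg.Agent.Lib.Helper3_Irr Cfsg.Agent.Lib.Helper3_Oct8b Cfsg.Agent.Lib.Helper3_Nrm22
open Cfsg.Agent.Lib.Helper3_Sext Cfsg.Agent.Lib.Helper3_Orb3 Cfsg.Agent.Lib.Helper3_Sub24
open Cfsg.Agent.Lib.Helper3_M24h
open scoped Pointwise

def Good (B : Finset GolayPt) : Prop :=
  ∀ a ∈ B, ∀ a' ∈ B, ∀ b ∈ B, a ≠ a' → a ≠ b → ∃ σ ∈ M24, σ • B = B ∧ σ a = a ∧ σ a' = b

theorem exists_list2 {B : Finset GolayPt} (h8 : 8 ≤ B.card) {a b : GolayPt} (ha : a ∈ B)
    (hb : b ∈ B) (hab : a ≠ b) : ∃ l : List GolayPt, (a :: b :: l).length = 5 ∧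
      (a :: b :: l).Nodup ∧ ∀ y ∈ a :: b :: l, y ∈ B := by
  have hb' : b ∈ B.erase a := Finset.mem_erase.mpr ⟨hab.symm, hb⟩
  obtain ⟨l, h1, h2, h3⟩ := exists_list_of_le (s := (B.erase a).erase b) (n := 3) (by
    rw [Finset.card_erase_of_mem hb', Finset.card_erase_of_mem ha]; omega)
  refine ⟨l, by simp [h1], ?_, ?_⟩
  · rw [List.nodup_cons, List.nodup_cons]
    refine ⟨?_, ?_, h2⟩
    · intro h
      rcases List.mem_cons.mp h with h | h
      · exact hab h
      · have := h3 a h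
        simp at this
    · intro h
      have := h3 b h
      simp at this
  · intro y hy
    rcases List.mem_cons.mp hy with rfl | hy
    · exact ha
    rcases List.mem_cons.mp hy with rfl | hy
    · exact hb
    · exact Finset.mem_of_mem_erase (Finset.mem_of_mem_erase (h3 y hy))

theorem good_of_nf {B B0 : Finset GolayPt}
    (hnf : ∀ ys : List GolayPt, ys.length = 5 → ys.Nodup → (∀ y ∈ ys, y ∈ B) →
      ∃ g ∈ M24, baseL.map g = ys ∧ g • B0 = B) (h8 : 8 ≤ B.card) : Good B := by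
  intro a ha a' ha' b hb h1 h2
  obtain ⟨l, x1, x2, x3⟩ := exists_list2 h8 ha ha' h1
  obtain ⟨l', y1, y2, y3⟩ := exists_list2 h8 ha hb h2
  obtain ⟨g, hg, hgm, hgB⟩ := hnf _ x1 x2 x3
  obtain ⟨k, hk, hkm, hkB⟩ := hnf _ y1 y2 y3
  have hm := map_trans hgm hkm
  simp only [List.map_cons, List.cons.injEq] at hm
  refine ⟨k * g⁻¹, M24.mul_mem hk (M24.inv_mem hg), ?_, hm.1, hm.2.1⟩
  have hB0 : g⁻¹ • B = B0 := by rw [← hgB, inv_smul_smul]
  rw [mul_smul, hB0, hkB]

theorem good_octad {o : Finset GolayPt} (ho : o ∈ octads) : Good o :=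
  good_of_nf (fun ys h1 h2 h3 => octad_nf ho ys h1 h2 h3) (by rw [ho.2])

theorem good_dodecad {o : Finset GolayPt} (ho : o ∈ dodecads) : Good o :=
  good_of_nf (fun ys h1 h2 h3 => dodecad_nf ho ys h1 h2 h3) (by rw [ho.2]; norm_num)

theorem good_univ : Good Finset.univ :=
  good_of_nf (B0 := Finset.univ) (fun ys h1 h2 _ => by
    obtain ⟨g, hg, hm⟩ := exists_base_map ys h1 h2
    exact ⟨g, hg, hm, Finset.smul_finset_univ⟩) (by decide)

theorem notSup_of {σ : Equiv.Perm GolayPt} {S : Finset GolayPt} {b : GolayPt} (hb : b ∈ σ • S)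
    (hb' : b ∉ S) (hs : S.card ≤ 3 ∨ (S.card ≤ 4 ∧ ∃ a ∈ S, a ∈ σ • S)) :
    symmDiff (σ • S) S ∉ Sup := by
  intro hcon
  have h1 := card_symmDiff_add (σ • S) S
  rw [Finset.card_smul_finset] at h1
  have hpos : 0 < (symmDiff (σ • S) S).card :=
    Finset.card_pos.mpr ⟨b, Finset.mem_symmDiff.mpr (Or.inl ⟨hb, hb'⟩)⟩
  have hlt : (symmDiff (σ • S) S).card < 8 := by
    rcases hs with hs | ⟨hs, a, ha, ha'⟩
    · omega
    · have : 0 < (σ • S ∩ S).card := Finset.card_pos.mpr ⟨a, Finset.mem_inter.mpr ⟨ha', ha⟩⟩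
      omega
  rcases card_cases hcon with h | h | h | h | h <;> omega

theorem exists_notMem {B S : Finset GolayPt} (h : S.card < B.card) : ∃ b ∈ B, b ∉ S := by
  by_contra hcon
  push Not at hcon
  exact absurd (Finset.card_le_card (fun x hx => hcon x hx)) (by omega)

theorem K1 {B S : Finset GolayPt} (hB : Good B) (h8 : 8 ≤ B.card) (h4 : S.card ≤ 4)
    (h2 : 2 ≤ (S ∩ B).card) : ∃ σ ∈ M24, σ • B = B ∧ symmDiff (σ • S) S ∉ Sup := by
  obtain ⟨a, ha, a', ha', haa⟩ := Finset.one_lt_card.mp (by omega : 1 < (S ∩ B).card)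
  obtain ⟨b, hb, hbS⟩ := exists_notMem (B := B) (S := S) (by omega)
  rw [Finset.mem_inter] at ha ha'
  have hab : a ≠ b := fun h => hbS (h ▸ ha.1)
  obtain ⟨σ, hσ, h1, h2, h3⟩ := hB a ha.2 a' ha'.2 b hb haa hab
  refine ⟨σ, hσ, h1, notSup_of (b := b) ?_ hbS (Or.inr ⟨h4, a, ha.1, ?_⟩)⟩
  · rw [← h3]; exact Finset.smul_mem_smul_finset (a := σ) ha'.1
  · have := Finset.smul_mem_smul_finset (a := σ) ha.1
    rwa [Equiv.Perm.smul_def, h2] at this

theorem K2 {B S : Finset GolayPt} (hB : Good B) (h8 : 8 ≤ B.card) (h3 : S.card ≤ 3)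
    {a : GolayPt} (ha : a ∈ S) (haB : a ∈ B) :
    ∃ σ ∈ M24, σ • B = B ∧ symmDiff (σ • S) S ∉ Sup := by
  obtain ⟨b, hb, hbS⟩ := exists_notMem (B := B) (S := S) (by omega)
  have hab : a ≠ b := fun h => hbS (h ▸ ha)
  obtain ⟨e, he, heS⟩ := exists_notMem (B := B) (S := {a, b}) (by
    have := Finset.card_le_two (a := a) (b := b); omega)
  simp only [Finset.mem_insert, Finset.mem_singleton, not_or] at heS
  obtain ⟨σ, hσ, h1, _, h3'⟩ := hB e he a haB b hb heS.1 heS.2
  refine ⟨σ, hσ, h1, notSup_of (b := b) ?_ hbS (Or.inl h3)⟩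
  rw [← h3']; exact Finset.smul_mem_smul_finset (a := σ) ha

theorem K3 {o S : Finset GolayPt} (ho : o ∈ octads) (h4 : S.card ≤ 4) {a' : GolayPt}
    (ha' : a' ∈ S) (hao : a' ∉ o) (hs : S.card ≤ 3 ∨ ∃ a ∈ S, a ∈ o) :
    ∃ σ ∈ M24, σ • o = o ∧ symmDiff (σ • S) S ∉ Sup := by
  obtain ⟨b, hb, hbS⟩ := exists_notMem (B := oᶜ) (S := S) (by
    rw [Finset.card_compl, ho.2]
    have : Fintype.card GolayPt = 24 := by decide
    omega)
  rw [Finset.mem_compl] at hb
  obtain ⟨t, ht, htb⟩ := exists_T_map ho hao hb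
  obtain ⟨ht1, ht2⟩ := mem_T_iff.mp ht
  have hto : t • o = o := by
    apply Finset.eq_of_subset_of_card_le
    · intro x hx
      obtain ⟨y, hy, rfl⟩ := Finset.mem_smul_finset.mp hx
      rw [Equiv.Perm.smul_def, ht2 y hy]; exact hy
    · rw [Finset.card_smul_finset]
  refine ⟨t, ht1, hto, notSup_of (b := b) ?_ hbS ?_⟩
  · rw [← htb]; exact Finset.smul_mem_smul_finset (a := t) ha'
  · rcases hs with hs | ⟨a, ha, hao'⟩
    · exact Or.inl hs
    · refine Or.inr ⟨h4, a, ha, ?_⟩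
      have := Finset.smul_mem_smul_finset (a := t) ha
      rwa [Equiv.Perm.smul_def, ht2 a hao'] at this

theorem sd3 (A B C : Finset GolayPt) :
    symmDiff (symmDiff A B) (symmDiff A C) = symmDiff B C := by
  rw [symmDiff_comm A B, symmDiff_assoc, symmDiff_symmDiff_cancel_left]

theorem transfer {σ : Equiv.Perm GolayPt} (hσ : σ ∈ M24) {S S' : Finset GolayPt}
    (hc : symmDiff S S' ∈ Sup) (h : symmDiff (σ • S') S' ∉ Sup) : symmDiff (σ • S) S ∉ Sup := by
  intro hcon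
  apply h
  have h1 := smul_mem_Sup hσ hc
  rw [Finset.smul_finset_symmDiff] at h1
  have h2 := symmDiff_mem (symmDiff_mem hcon h1) hc
  have e : symmDiff (symmDiff (symmDiff (σ • S) S) (symmDiff (σ • S) (σ • S'))) (symmDiff S S') =
      symmDiff (σ • S') S' := by
    rw [sd3, sd3]
  rwa [e] at h2

theorem cover4 : ∀ n : ℕ, ∀ S : Finset GolayPt, S.card ≤ n →
    ∃ S' : Finset GolayPt, S'.card ≤ 4 ∧ symmDiff S S' ∈ Sup := by
  intro n
  induction n with
  | zero => intro S h0; exact ⟨S, by omega, by rw [symmDiff_self]; exact empty_mem⟩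
  | succ n ih =>
    intro S hn
    by_cases h4 : S.card ≤ 4
    · exact ⟨S, h4, by rw [symmDiff_self]; exact empty_mem⟩
    · obtain ⟨u, hu, hu5⟩ := Finset.exists_subset_card_eq (s := S) (n := 5) (by omega)
      obtain ⟨b, hb, hub⟩ := exists_octad hu5
      obtain ⟨S', h1, h2⟩ := ih (symmDiff S b) (by
        have h1 := card_symmDiff_add S b
        have h2 : 5 ≤ (S ∩ b).card := by
          rw [← hu5]
          exact Finset.card_le_card (Finset.subset_inter hu hub)
        rw [hb.2] at h1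
        omega)
      refine ⟨S', h1, ?_⟩
      have h3 := symmDiff_mem h2 hb.1
      have e : symmDiff (symmDiff (symmDiff S b) S') b = symmDiff S S' := by
        ext x
        simp only [Finset.mem_symmDiff]
        tauto
      rwa [e] at h3

theorem oct_case {o S : Finset GolayPt} (ho : o ∈ octads) (h4 : S.card ≤ 4) (hne : S ≠ ∅) :
    ∃ σ ∈ M24, σ • o = o ∧ symmDiff (σ • S) S ∉ Sup := by
  obtain ⟨a, ha⟩ := Finset.nonempty_iff_ne_empty.mpr hne
  by_cases h3 : S.card ≤ 3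
  · by_cases hao : a ∈ o
    · exact K2 (good_octad ho) (by rw [ho.2]) h3 ha hao
    · exact K3 ho h4 ha hao (Or.inl h3)
  · -- tetrads
    have key : ∀ S : Finset GolayPt, S.card = 4 → (S ∩ o).Nonempty →
        ∃ σ ∈ M24, σ • o = o ∧ symmDiff (σ • S) S ∉ Sup := by
      intro S h4 hne
      by_cases h2 : 2 ≤ (S ∩ o).card
      · exact K1 (good_octad ho) (by rw [ho.2]) (by omega) h2
      · obtain ⟨a, ha⟩ := hne
        rw [Finset.mem_inter] at ha
        obtain ⟨a', ha', hao'⟩ := exists_notMem (B := S) (S := S ∩ o) (by omega)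
        have : a' ∉ o := fun h => hao' (Finset.mem_inter.mpr ⟨ha', h⟩)
        exact K3 ho (by omega) ha' this (Or.inr ⟨a, ha.1, ha.2⟩)
    by_cases hSo : (S ∩ o).Nonempty
    · exact key S (by omega) hSo
    · rw [Finset.not_nonempty_iff_eq_empty] at hSo
      obtain ⟨x, hx⟩ := Finset.card_pos.mp (by rw [ho.2]; norm_num : 0 < o.card)
      have hxS : x ∉ S := by
        intro h
        have : x ∈ S ∩ o := Finset.mem_inter.mpr ⟨h, hx⟩
        rw [hSo] at this
        simp at this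
      obtain ⟨b, hb, hsub⟩ := exists_octad (s := insert x S) (by
        rw [Finset.card_insert_of_notMem hxS]; omega)
      have hSb : S ⊆ b := fun y hy => hsub (Finset.mem_insert_of_mem hy)
      have hxb : x ∈ b := hsub (Finset.mem_insert_self x S)
      have hc4 : (b \ S).card = 4 := by
        rw [Finset.card_sdiff_of_subset hSb, hb.2]; omega
      obtain ⟨σ, hσ, h1, h2⟩ := key (b \ S) hc4
        ⟨x, Finset.mem_inter.mpr ⟨Finset.mem_sdiff.mpr ⟨hxb, hxS⟩, hx⟩⟩
      refine ⟨σ, hσ, h1, transfer hσ ?_ h2⟩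
      have e : symmDiff S (b \ S) = b := by
        ext y
        simp only [Finset.mem_symmDiff, Finset.mem_sdiff]
        constructor
        · rintro (⟨h, _⟩ | ⟨h, _⟩)
          · exact hSb h
          · exact h.1
        · intro h
          by_cases hy : y ∈ S
          · exact Or.inl ⟨hy, fun h' => h'.2 hy⟩
          · exact Or.inr ⟨⟨h, hy⟩, hy⟩
      rw [e]; exact hb.1

theorem two_sides {d S : Finset GolayPt} (h1 : Good d) (h2 : Good dᶜ) (c1 : 8 ≤ d.card)
    (c2 : 8 ≤ dᶜ.card) (h4 : S.card ≤ 4) (hne : S ≠ ∅) :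
    ∃ σ ∈ M24, σ • d = d ∧ symmDiff (σ • S) S ∉ Sup := by
  have hflip : (∃ σ ∈ M24, σ • dᶜ = dᶜ ∧ symmDiff (σ • S) S ∉ Sup) →
      ∃ σ ∈ M24, σ • d = d ∧ symmDiff (σ • S) S ∉ Sup := by
    rintro ⟨σ, hσ, h, h'⟩
    refine ⟨σ, hσ, ?_, h'⟩
    rw [smul_compl', compl_inj_iff] at h
    exact h
  obtain ⟨a, ha⟩ := Finset.nonempty_iff_ne_empty.mpr hne
  by_cases h3 : S.card ≤ 3
  · by_cases had : a ∈ d
    · exact K2 h1 c1 h3 ha had
    · exact hflip (K2 h2 c2 h3 ha (Finset.mem_compl.mpr had))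
  · have hsum : (S ∩ d).card + (S ∩ dᶜ).card = S.card := by
      have := Finset.card_inter_add_card_sdiff S d
      have e : S ∩ dᶜ = S \ d := by ext x; simp
      rw [e]; exact this
    by_cases h2' : 2 ≤ (S ∩ d).card
    · exact K1 h1 c1 h4 h2'
    · exact hflip (K1 h2 c2 h4 (by omega))

theorem sets_main {U S : Finset GolayPt} (hU : U ∈ Sup) (hS : S ∉ Sup) :
    ∃ σ ∈ M24, σ • U = U ∧ symmDiff (σ • S) S ∉ Sup := by
  obtain ⟨S', h4, hc⟩ := cover4 _ S le_rfl
  have hne : S' ≠ ∅ := by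
    rintro rfl
    apply hS
    have : symmDiff S ∅ = S := by simp
    rwa [this] at hc
  suffices h : ∃ σ ∈ M24, σ • U = U ∧ symmDiff (σ • S') S' ∉ Sup by
    obtain ⟨σ, hσ, h1, h2⟩ := h
    exact ⟨σ, hσ, h1, transfer hσ hc h2⟩
  have huniv : ∃ σ ∈ M24, σ • (Finset.univ : Finset GolayPt) = Finset.univ ∧
      symmDiff (σ • S') S' ∉ Sup := by
    by_cases h3 : S'.card ≤ 3
    · obtain ⟨a, ha⟩ := Finset.nonempty_iff_ne_empty.mpr hne
      exact K2 good_univ (by decide) h3 ha (Finset.mem_univ a)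
    · exact K1 good_univ (by decide) h4 (by rw [Finset.inter_univ]; omega)
  rcases card_cases hU with h | h | h | h | h
  · obtain ⟨σ, hσ, _, h2⟩ := huniv
    rw [Finset.card_eq_zero] at h
    exact ⟨σ, hσ, by rw [h, Finset.smul_finset_empty], h2⟩
  · exact oct_case ⟨hU, h⟩ h4 hne
  · have hd : U ∈ dodecads := ⟨hU, h⟩
    have hd' : Uᶜ ∈ dodecads := ⟨compl_mem hU, by rw [Finset.card_compl, h]; decide⟩
    exact two_sides (good_dodecad hd) (good_dodecad hd') (by rw [hd.2]; norm_num)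
      (by rw [hd'.2]; norm_num) h4 hne
  · have ho : Uᶜ ∈ octads := ⟨compl_mem hU, by rw [Finset.card_compl, h]; decide⟩
    obtain ⟨σ, hσ, h1, h2⟩ := oct_case ho h4 hne
    rw [smul_compl', compl_inj_iff] at h1
    exact ⟨σ, hσ, h1, h2⟩
  · obtain ⟨σ, hσ, h1, h2⟩ := huniv
    have : U = Finset.univ := by
      apply Finset.eq_univ_of_card
      rw [h]; decide
    exact ⟨σ, hσ, by rw [this]; exact h1, h2⟩

theorem support_ind (s : Finset GolayPt) : support₂ (ind s) = s := by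
  ext p
  simp [support₂, ind]

theorem main (u : GolayPt → ZMod 2) (hu : u ∈ golayCode) (w : GolayPt → ZMod 2)
    (hw : w ∉ golayCode) : ∃ σ ∈ M24, (fun p => u (σ.symm p)) = u ∧
      (fun p => w (σ.symm p)) - w ∉ golayCode := by
  have hU : support₂ u ∈ Sup := ⟨u, hu, rfl⟩
  have hS : support₂ w ∉ Sup := by
    intro h
    apply hw
    rw [← ind_support w]; exact ind_mem_code h
  obtain ⟨σ, hσ, h1, h2⟩ := sets_main hU hS
  refine ⟨σ, hσ, ?_, ?_⟩
  · have := ind_smul σ (support₂ u)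
    rw [h1, ind_support] at this
    exact this.symm
  · intro hcon
    apply h2
    have e1 := ind_smul σ (support₂ w)
    rw [ind_support] at e1
    have e2 : (fun p => w (σ.symm p)) - w = ind (symmDiff (σ • support₂ w) (support₂ w)) := by
      rw [ind_symmDiff, e1, ind_support]
      funext p
      have : ∀ x y : ZMod 2, x - y = x + y := by decide
      exact this _ _
    rw [e2] at hcon
    exact ⟨_, hcon, support_ind _⟩

end Cfsg.Agent.Lib.Helper3_Coc
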