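import Mathlib
import Cfsg.Agent.Lib.Helper3_ConjB

/-!
# helper3: commuting elements of order two and three in `M24`
-/

set_option autoImplicit false
set_option linter.unusedSectionVars false
set_option linter.constructorNameAsVariable false

namespace Cfsg.Agent.Lib.Helper3_Comm23

open Cfsg Cfsg.Agent.Lib.Helper3_Golay Cfsg.Agent.Lib.Helper3_Golay2 Cfsg.Agent.Lib.Helper3_Golay3
open Cfsg.Agent.Lib.Helper3_M24a Cfsg.Agent.Lib.Helper3_PermChain Cfsg.Agent.Lib.Helper3_M24b
open Cfsg.Agent.Lib.Helper3_M24c Cfsg.Agent.Lib.Helper3_M24d Cfsg.Agent.Lib.Helper3_M24e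
open Cfsg.Agent.Lib.Helper3_M24h Cfsg.Agent.Lib.Helper3_Fixp Cfsg.Agent.Lib.Helper3_Enum
open Cfsg.Agent.Lib.Helper3_Fix9 Cfsg.Agent.Lib.Helper3_Conj Cfsg.Agent.Lib.Helper3_ConjB
open scoped Pointwise

def I2B : List ℕ := [9268431565351186951343964350383191, 21385626203289537830258411788895319, 11931408899874022996879638983672919, 6948319157996677191034997895726167, 18954756559157013724352018331599959, 22905550945827948657697045989164119, 13240909570316232578060630151758935, 28171520779137508846063610133578839, 21143756395149145572732883413861463, 20177763643652483851946826119971927, 5405947491382263735420182690202711, 23946145424234454171894864699130967, 17665557174438149324336018692932695, 23998713586146347121374253096797271, 5447382388983081592886053788877911, 11223110482434808275981567346771031, 14693711278714818796648777220523095, 15949996363569057416853246830609495, 4308085967595670892146378002859095, 4636300130985976083744215677994071, 4679749470456082224362226337907799, 21607507263777464423976202730341463, 26233056479097312418209713303716951, 8456677377925756400620634562233431, 9631777975941357282974943533302871,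 14584578442752741159953316155196503, 17328253020659790669071593041790039, 21199735037438914446963999490966615, 19735068521872577958133797415552087, 25210656762468984689523208608810071, 13554408028152415039135883318232151, 5897328060570502564494253960168535, 15792962113776465500053415773045847, 13488246947635466754201336759747671, 12145843332203879576343784496596055, 19801439077662944691101987789898839, 26719882389304997286299517257811031, 5495518024292395953547195890304087, 21553437447306391113730797094863959, 22861668434165072353846638706951255, 7108128418911371606309837526795351, 18509409755239679601247674531578967, 7277157654465511526888190747509847, 18563015515822114106942345669149783, 22566185766497139294779895848535127, 7972780293787231076463204141171799, 10675139845455015775387687127942231, 17379814655206104355584294051447895, 5328502736137924236406283603444823, 10519658684250915333322510334329943, 11824856743127674106482797259162711, 14981219414754993159776851701892183, 26192329443678368342858579179045975, 5783165887594280223726738579489879, 28167367375106645565081499637056599, 24840496363859016890177502494262359,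 8326581753781783876511092673283159, 17131322563941782780614511264466007, 9758914281536097782199268080550999, 21064801546226450623669850930086999, 15878834451447108423290358321153111, 17627144126903844291425996957320279, 25319667457992514902955138202502231, 17203770683460535489197990130353239, 28156431620862369792373283701261399, 23653358063062684413134533535859799]

def commChk (k s : ℕ) : Bool := (List.range 24).all fun i => ap k (ap s i) == ap s (ap k i)

theorem commChk_of {k s : ℕ} (hk : isPerm k = true) (hs : isPerm s = true)
    (h : prm k * prm s = prm s * prm k) : commChk k s = true := by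
  rw [commChk, List.all_eq_true]
  intro i hi
  rw [List.mem_range] at hi
  rw [beq_iff_eq]
  have h4 : idx ((prm k * prm s) (pt i)) = idx ((prm s * prm k) (pt i)) := by rw [h]
  rw [Equiv.Perm.mul_apply, Equiv.Perm.mul_apply, prm_pt hs hi, prm_pt hk hi,
    prm_pt hk (ap_lt hs hi), prm_pt hs (ap_lt hk hi), idx_pt _ (ap_lt hk (ap_lt hs hi)),
    idx_pt _ (ap_lt hs (ap_lt hk hi))] at h4
  exact h4

theorem chkI : chk960 (fun k => isPerm (cmp U2B k) && isComp (cmp U2B k) U2B k &&
    (!(isInv (cmp U2B k) && fixc (cmp U2B k) == 0) || I2B.contains (cmp U2B k))) = true := by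
  decide +kernel

theorem chkX : chk960 (fun k => !isCube k || k == NI || I2B.all (fun s => !commChk k s)) = true := by
  decide +kernel

theorem no_comm {x s : Equiv.Perm GolayPt} (hx : x ∈ M24) (hs : s ∈ M24) (h3 : orderOf x = 3)
    (h2 : orderOf s = 2) (hc : x * s = s * x) (hfree : ∀ p, s p ≠ p) (hfx : ∃ p, x p = p) :
    False := by
  have hcu : x ^ 3 = 1 := by rw [← h3]; exact pow_orderOf_eq_one x
  have hsq : s ^ 2 = 1 := by rw [← h2]; exact pow_orderOf_eq_one s
  have hss : ∀ y, s (s y) = y := by
    intro y
    have := congrArg (fun f => f y) hsq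
    simpa [pow_two] using this
  have hne : x ≠ 1 := by
    intro h; rw [h, orderOf_one] at h3; norm_num at h3
  have hxs : ∀ y, x y = y → x (s y) = s y := by
    intro y hy
    rw [← Equiv.Perm.mul_apply, hc, Equiv.Perm.mul_apply, hy]
  have h6 : (Finset.univ.filter fun p => x p = p).card = 6 := by
    obtain ⟨c, _, hcc⟩ := ord3_fixed_nf hx h3 hfx
    rw [fix_conj hcc, Finset.card_smul_finset, card_fix3A]
  obtain ⟨a, ha⟩ := hfx
  obtain ⟨c, hcx, hca, hcb⟩ : ∃ c, x c = c ∧ c ≠ a ∧ c ≠ s a := by
    have hpos : 0 < ((Finset.univ.filter fun p => x p = p) \ {a, s a}).card := by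
      have h1 := Finset.le_card_sdiff ({a, s a} : Finset GolayPt)
        (Finset.univ.filter fun p => x p = p)
      have h2 : ({a, s a} : Finset GolayPt).card ≤ 2 := Finset.card_le_two
      omega
    obtain ⟨c, hc⟩ := Finset.card_pos.mp hpos
    rw [Finset.mem_sdiff, Finset.mem_filter] at hc
    simp only [Finset.mem_insert, Finset.mem_singleton, not_or] at hc
    exact ⟨c, hc.1.2, hc.2.1, hc.2.2⟩
  have n1 : a ≠ s c := fun h => hcb (by rw [h, hss])
  have n2 : s a ≠ s c := fun h => hca (s.injective h).symm
  obtain ⟨k, hk, hm⟩ := exists_map_list 1 [a, s a, c, s c] [pt 23, pt 0, pt 1, pt 2] rfl rfl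
    (by
      simp only [List.nodup_cons, List.mem_cons, List.not_mem_nil, or_false, not_or,
        List.nodup_nil, and_true, not_false_eq_true]
      exact ⟨⟨(hfree a).symm, hca.symm, n1⟩, ⟨hcb.symm, n2⟩, (hfree c).symm⟩)
    (by decide +kernel)
  simp only [List.map_cons, List.map_nil, List.cons.injEq, and_true] at hm
  obtain ⟨m1, m2, m3, m4⟩ := hm
  have hU : isAut U2B = true := by decide +kernel
  have hUp := isPerm_of_isAut hU
  obtain ⟨cs, hcs, hP, hscs⟩ := forall960_left U2B hU
    (fun y => !(isInv y && fixc y == 0) || I2B.contains y) chkI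
    (k * s * k⁻¹) (M24.mul_mem (M24.mul_mem hk hs) (M24.inv_mem hk))
    (by
      intro b hb
      simp only [List.mem_cons, List.not_mem_nil, or_false] at hb
      rcases hb with rfl | rfl | rfl | rfl
      · rw [← m4, conj_apply', hss, m3, m4, prm_pt hUp (by norm_num)]; decide +kernel
      · rw [← m3, conj_apply', m4, m3, prm_pt hUp (by norm_num)]; decide +kernel
      · rw [← m2, conj_apply', hss, m1, m2, prm_pt hUp (by norm_num)]; decide +kernel
      · rw [← m1, conj_apply', m2, m1, prm_pt hUp (by norm_num)]; decide +kernel)
  have hI1 : isInv cs = true := by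
    apply isInv_of_sq hcs
    rw [← hscs]
    have : k * s * k⁻¹ * (k * s * k⁻¹) = k * (s ^ 2) * k⁻¹ := by rw [pow_two]; group
    rw [this, hsq]; group
  have hI2 : fixc cs = 0 := by
    apply fixc_zero_of hcs
    intro p hp
    rw [← hscs] at hp
    apply hfree (k⁻¹ p)
    have := congrArg (fun z => k⁻¹ z) hp
    simpa using this
  rw [hI1, hI2] at hP
  simp only [beq_self_eq_true, Bool.and_self, Bool.not_true, Bool.false_or,
    List.contains_iff_mem] at hP
  have hxF : k * x * k⁻¹ ∈ Fx [2, 1, 0, 23] := by
    refine ⟨M24.mul_mem (M24.mul_mem hk hx) (M24.inv_mem hk), ?_⟩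
    intro q hq
    simp only [List.map_cons, List.map_nil, List.mem_cons, List.not_mem_nil, or_false] at hq
    rcases hq with rfl | rfl | rfl | rfl
    · rw [← m4, conj_apply', hxs c hcx]
    · rw [← m3, conj_apply', hcx]
    · rw [← m2, conj_apply', hxs a ha]
    · rw [← m1, conj_apply', ha]
  obtain ⟨cx, hcxp, hPx, hxcx⟩ := forall960 _ chkX _ hxF
  have hC : isCube cx = true := by
    apply isCube_of hcxp
    rw [← hxcx, conj_pow, hcu]; group
  rw [hC] at hPx
  simp only [Bool.not_true, Bool.false_or, Bool.or_eq_true, beq_iff_eq, List.all_eq_true,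
    Bool.not_eq_true'] at hPx
  rcases hPx with h | h
  · apply hne
    rw [h, prm_NI] at hxcx
    have : x = k⁻¹ * (k * x * k⁻¹) * k := by group
    rw [this, hxcx]; group
  · have h5 := h cs hP
    rw [commChk_of hcxp hcs (by
      rw [← hxcx, ← hscs]
      have e1 : k * x * k⁻¹ * (k * s * k⁻¹) = k * (x * s) * k⁻¹ := by group
      have e2 : k * s * k⁻¹ * (k * x * k⁻¹) = k * (s * x) * k⁻¹ := by group
      rw [e1, e2, hc])] at h5
    exact absurd h5 (by decide)

theorem main (x s : Equiv.Perm GolayPt) (hx : x ∈ M24) (hs : s ∈ M24) (h₃ : orderOf x = 3)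
    (h₂ : orderOf s = 2) (hc : Commute x s) :
    ((Finset.univ.filter fun p => x p = p).card = 6 ∧ (Finset.univ.filter fun p => s p = p).card = 8) ∨
    ((Finset.univ.filter fun p => x p = p).card = 0 ∧
      (Finset.univ.filter fun p => s p = p).card = 0) := by
  have : Fact (Nat.Prime 3) := ⟨by norm_num⟩
  have hcu : x ^ 3 = 1 := by rw [← h₃]; exact pow_orderOf_eq_one x
  have hc' : x * s = s * x := hc
  have card0 : ∀ g : Equiv.Perm GolayPt, (∀ p, g p ≠ p) →
      (Finset.univ.filter fun p => g p = p).card = 0 := by
    intro g hg
    rw [Finset.card_eq_zero, Finset.filter_eq_empty_iff]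
    intro p _
    exact hg p
  by_cases hfs : ∃ p, s p = p
  · left
    have h8 : (Finset.univ.filter fun p => s p = p).card = 8 := by
      obtain ⟨c, _, hcc⟩ := inv_fixed_nf hs h₂ hfs
      rw [fix_conj hcc, Finset.card_smul_finset, fix2A.2]
    refine ⟨?_, h8⟩
    have hmod := card_modEq_fixed x 3 hcu (Finset.univ.filter fun p => s p = p) (by
      intro y
      simp only [Finset.mem_filter, Finset.mem_univ, true_and]
      rw [← Equiv.Perm.mul_apply, ← hc', Equiv.Perm.mul_apply]
      exact x.injective.eq_iff)
    rw [h8] at hmod
    have hpos : 0 < ((Finset.univ.filter fun p => s p = p).filter fun y => x y = y).card := by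
      by_contra h0
      have h00 : ((Finset.univ.filter fun p => s p = p).filter fun y => x y = y).card = 0 := by
        omega
      rw [h00] at hmod
      exact absurd hmod (by decide)
    obtain ⟨p, hp⟩ := Finset.card_pos.mp hpos
    rw [Finset.mem_filter] at hp
    obtain ⟨c, _, hcc⟩ := ord3_fixed_nf hx h₃ ⟨p, hp.2⟩
    rw [fix_conj hcc, Finset.card_smul_finset, card_fix3A]
  · right
    push Not at hfs
    refine ⟨?_, card0 s hfs⟩
    apply card0
    intro p hp
    exact no_comm hx hs h₃ h₂ hc' hfs ⟨p, hp⟩

end Cfsg.Agent.Lib.Helper3_Comm23
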