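import Mathlib
import Cfsg.Agent.Lib.Helper3_Golay3

set_option autoImplicit false

namespace Cfsg.Agent.Lib.Helper3_Dim

open Cfsg Cfsg.Agent.Lib.Helper3_Golay Cfsg.Agent.Lib.Helper3_Golay2 Cfsg.Agent.Lib.Helper3_Golay3

theorem card_code : Nat.card golayCode = 4096 := by
  let f : Fin 4096 → golayCode := fun n => ⟨wd (combL EL n.1), wd_mem_of_code (code_combL n.2)⟩
  have hinj : Function.Injective f := by
    intro a b hab
    have h1 : wd (combL EL a.1) = wd (combL EL b.1) := congrArg Subtype.val hab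
    have h2 := dec_injOn (combL_props a.1 a.2).2 (combL_props b.1 b.2).2 (wd_eq_iff_dec.mp h1)
    apply Fin.ext
    rw [← (combL_props a.1 a.2).1, ← (combL_props b.1 b.2).1, h2]
  have hsurj : Function.Surjective f := by
    rintro ⟨w, hw⟩
    obtain ⟨x, rfl, hx, hc⟩ := exists_code w hw
    refine ⟨⟨x % 4096, Nat.mod_lt _ (by norm_num)⟩, ?_⟩
    apply Subtype.ext
    change wd (combL EL (x % 4096)) = wd x
    rw [code, beq_iff_eq] at hc
    rw [hc]
  rw [← Nat.card_congr (Equiv.ofBijective f ⟨hinj, hsurj⟩), Nat.card_eq_fintype_card,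
    Fintype.card_fin]

theorem finrank_code : Module.finrank (ZMod 2) golayCode = 12 := by
  have h := Module.natCard_eq_pow_finrank (K := ZMod 2) (V := golayCode)
  rw [card_code, Nat.card_eq_fintype_card, ZMod.card] at h
  exact (Nat.pow_right_injective (le_refl 2) (by change 2 ^ 12 = 2 ^ _; rw [← h])).symm

end Cfsg.Agent.Lib.Helper3_Dim
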