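import Mathlib
import Cfsg.Agent.Lib.Helper3_Sext

/-!
# helper3: counting invariant trios and sextets (double counting)
-/

set_option autoImplicit false
set_option linter.unusedSectionVars false
set_option linter.constructorNameAsVariable false

namespace Cfsg.Agent.Lib.Helper3_Inv1

open Cfsg Cfsg.Agent.Lib.Helper3_Golay Cfsg.Agent.Lib.Helper3_Golay2 Cfsg.Agent.Lib.Helper3_Golay3
open Cfsg.Agent.Lib.Helper3_M24a Cfsg.Agent.Lib.Helper3_M24f Cfsg.Agent.Lib.Helper3_Steiner
open Cfsg.Agent.Lib.Helper3_Sext
open scoped Pointwise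

/-- `c` is one of the three octads of the trio of `a`, `b` -/
def RT (a b c : Finset GolayPt) : Prop := c = a ∨ c = b ∨ (Disjoint c a ∧ Disjoint c b)

instance (a b c : Finset GolayPt) : Decidable (RT a b c) := by unfold RT; infer_instance

theorem mem_trioOf_of_RT {a b c : Finset GolayPt} (ha : a ∈ octads) (hb : b ∈ octads)
    (hd : Disjoint a b) (hc : c ∈ octads) (h : RT a b c) : c ∈ trioOf a b := by
  simp only [trioOf, Finset.mem_insert, Finset.mem_singleton]
  rcases h with h | h | ⟨h1, h2⟩
  · exact Or.inl h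
  · exact Or.inr (Or.inl h)
  · right; right
    apply Finset.eq_of_subset_of_card_le
    · intro p hp
      rw [Finset.mem_compl, Finset.mem_union]
      rintro (h | h)
      · exact Finset.disjoint_left.mp h1 hp h
      · exact Finset.disjoint_left.mp h2 hp h
    · rw [(compl_union_mem ha hb hd).2, hc.2]

theorem RT_of_mem {T : Finset (Finset GolayPt)} (hT : T ∈ trios) {a b c : Finset GolayPt}
    (ha : a ∈ T) (hb : b ∈ T) (hc : c ∈ T) : RT a b c := by
  by_cases h1 : c = a
  · exact Or.inl h1
  by_cases h2 : c = b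
  · exact Or.inr (Or.inl h2)
  exact Or.inr (Or.inr ⟨hT.2.2 c hc a ha h1, hT.2.2 c hc b hb h2⟩)

theorem six_mul_inv_trios {g : Equiv.Perm GolayPt} (hg : g ∈ M24) :
    6 * {T : Finset (Finset GolayPt) | T ∈ trios ∧ g • T = T}.ncard =
      ((octF ×ˢ octF).filter (fun x => Disjoint x.1 x.2 ∧ RT x.1 x.2 (g • x.1) ∧
        RT x.1 x.2 (g • x.2))).card := by
  classical
  have hfin : {T : Finset (Finset GolayPt) | T ∈ trios ∧ g • T = T}.Finite := Set.toFinite _
  rw [Set.ncard_eq_toFinset_card _ hfin]
  have hU : hfin.toFinset.biUnion (fun T => T.offDiag) =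
      (octF ×ˢ octF).filter (fun x => Disjoint x.1 x.2 ∧ RT x.1 x.2 (g • x.1) ∧
        RT x.1 x.2 (g • x.2)) := by
    ext ⟨a, b⟩
    simp only [Finset.mem_biUnion, Set.Finite.mem_toFinset, Finset.mem_offDiag,
      Finset.mem_filter, Finset.mem_product, mem_octF, Set.mem_ofPred_eq]
    constructor
    · rintro ⟨T, ⟨hT, hgT⟩, ha, hb, hab⟩
      have hga : g • a ∈ T := by rw [← hgT]; exact Finset.smul_mem_smul_finset ha
      have hgb : g • b ∈ T := by rw [← hgT]; exact Finset.smul_mem_smul_finset hb
      exact ⟨⟨hT.2.1 a ha, hT.2.1 b hb⟩, hT.2.2 a ha b hb hab, RT_of_mem hT ha hb hga,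
        RT_of_mem hT ha hb hgb⟩
    · rintro ⟨⟨ha, hb⟩, hd, h1, h2⟩
      have hab : a ≠ b := by
        rintro rfl
        have := Finset.disjoint_self_iff_empty a |>.mp hd
        rw [this] at ha
        exact absurd ha.2 (by simp)
      have hT := trioOf_mem ha hb hd
      have m1 := mem_trioOf_of_RT ha hb hd (smul_mem_octads hg ha) h1
      have m2 := mem_trioOf_of_RT ha hb hd (smul_mem_octads hg hb) h2
      refine ⟨trioOf a b, ⟨hT, ?_⟩, by simp [trioOf], by simp [trioOf], hab⟩
      have hne : g • a ≠ g • b := fun h => hab (MulAction.injective g h)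
      rw [eq_trioOf (smul_mem_trios hg hT) (o := g • a) (o' := g • b)
        (Finset.smul_mem_smul_finset (by simp [trioOf]))
        (Finset.smul_mem_smul_finset (by simp [trioOf])) hne, ← eq_trioOf hT m1 m2 hne]
  have hc := Finset.card_biUnion (s := hfin.toFinset) (t := fun T => T.offDiag) (by
    intro T hT T' hT' hne
    rw [Function.onFun, Finset.disjoint_left]
    rintro ⟨a, b⟩ h1 h2
    apply hne
    rw [Finset.mem_offDiag] at h1 h2
    rw [eq_trioOf (hfin.mem_toFinset.mp hT).1 h1.1 h1.2.1 h1.2.2,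
      eq_trioOf (hfin.mem_toFinset.mp hT').1 h2.1 h2.2.1 h2.2.2])
  rw [hU, Finset.sum_congr rfl (fun T hT => by
    rw [Finset.offDiag_card, (hfin.mem_toFinset.mp hT).1.1]), Finset.sum_const, smul_eq_mul] at hc
  omega

theorem six_mul_inv_sextets {g : Equiv.Perm GolayPt} (hg : g ∈ M24) :
    6 * {S : Finset (Finset GolayPt) | S ∈ sextets ∧ g • S = S}.ncard =
      (((Finset.univ : Finset GolayPt).powersetCard 4).filter
        (fun t => g • t = t ∨ t ∪ g • t ∈ octF)).card := by
  classical
  have hfin : {S : Finset (Finset GolayPt) | S ∈ sextets ∧ g • S = S}.Finite := Set.toFinite _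
  rw [Set.ncard_eq_toFinset_card _ hfin]
  have hU : hfin.toFinset.biUnion id = ((Finset.univ : Finset GolayPt).powersetCard 4).filter
      (fun t => g • t = t ∨ t ∪ g • t ∈ octF) := by
    ext t
    simp only [Finset.mem_biUnion, Set.Finite.mem_toFinset, id, Finset.mem_powersetCard,
      Finset.subset_univ, true_and, Finset.mem_filter, mem_octF, Set.mem_ofPred_eq]
    constructor
    · rintro ⟨S, ⟨hS, hgS⟩, ht⟩
      refine ⟨hS.2.1 t ht, ?_⟩
      have hgt : g • t ∈ S := by rw [← hgS]; exact Finset.smul_mem_smul_finset ht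
      by_cases h : g • t = t
      · exact Or.inl h
      · exact Or.inr (hS.2.2 t ht _ hgt (Ne.symm h))
    · rintro ⟨ht, h⟩
      obtain ⟨S, hS, htS⟩ := exists_sextet ht
      refine ⟨S, ⟨hS, ?_⟩, htS⟩
      have hgS := smul_mem_sextets hg hS
      have hgt : g • t ∈ g • S := Finset.smul_mem_smul_finset htS
      have hgtS : g • t ∈ S := by
        rcases h with h | h
        · rw [h]; exact htS
        · rw [eq_sextOf hS htS, sextOf, Finset.mem_insert]
          right
          refine Finset.mem_image.mpr ⟨t ∪ g • t, Finset.mem_filter.mpr ⟨mem_blocks.mpr h,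
            Finset.subset_union_left⟩, ?_⟩
          have hd : Disjoint t (g • t) := by
            have h8 := h.2
            have := Finset.card_union_add_card_inter t (g • t)
            rw [h8, Finset.card_smul_finset, ht] at this
            rw [Finset.disjoint_iff_inter_eq_empty, ← Finset.card_eq_zero]
            omega
          rw [Finset.union_sdiff_left]
          exact Finset.sdiff_eq_self_of_disjoint hd.symm
      rw [eq_sextOf hgS hgt, ← eq_sextOf hS hgtS]
  have hc := Finset.card_biUnion (s := hfin.toFinset) (t := id) (by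
    intro S hS S' hS' hne
    rw [Function.onFun, Finset.disjoint_left]
    intro t ht ht'
    apply hne
    rw [eq_sextOf (hfin.mem_toFinset.mp hS).1 ht, eq_sextOf (hfin.mem_toFinset.mp hS').1 ht'])
  have hs6 : ∑ u ∈ hfin.toFinset, (id u).card = ∑ u ∈ hfin.toFinset, 6 :=
    Finset.sum_congr rfl (fun S hS => (hfin.mem_toFinset.mp hS).1.1)
  rw [hU, hs6, Finset.sum_const, smul_eq_mul] at hc
  omega

end Cfsg.Agent.Lib.Helper3_Inv1
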