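import Mathlib
import Cfsg.Agent.Lib.Helper3_Inv1
import Cfsg.Agent.Lib.Helper3_Orb3
import Cfsg.Agent.Lib.Helper3_M24c

/-!
# helper3: counting invariant trios and sextets (mask evaluation)
-/

set_option autoImplicit false
set_option linter.unusedSectionVars false
set_option linter.constructorNameAsVariable false

namespace Cfsg.Agent.Lib.Helper3_Inv2

open Cfsg Cfsg.Agent.Lib.Helper3_Golay Cfsg.Agent.Lib.Helper3_Golay2 Cfsg.Agent.Lib.Helper3_Golay3
open Cfsg.Agent.Lib.Helper3_M24a Cfsg.Agent.Lib.Helper3_M24c Cfsg.Agent.Lib.Helper3_M24f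
open Cfsg.Agent.Lib.Helper3_Steiner Cfsg.Agent.Lib.Helper3_Fast
open Cfsg.Agent.Lib.Helper3_Sext Cfsg.Agent.Lib.Helper3_Inv1 Cfsg.Agent.Lib.Helper3_Orb3
open scoped Pointwise

/-- the 759 octads, as increasing masks -/
def OL : List ℕ := [5279, 10558, 15777, 18147, 21116, 31554, 36294, 39257, 42232, 45159, 52005, 57883, 63108, 69395, 72588, 75309, 78514, 84464, 90318, 95313, 99029, 104010, 115766, 118953, 126216, 133817, 138790, 140167, 145176, 150618, 153797, 157028, 168928, 175681, 180636, 185603, 190626, 198058, 201013, 208020, 210955, 213833, 231532, 237906, 252432, 262637, 267634, 272595, 277580, 280334, 283537, 290352, 298027, 301236, 304405, 307594, 314056, 334433, 337856, 346141, 351362, 352547, 361272, 371206, 381252, 396116, 402026, 416040, 418953, 421910, 427666, 430605, 442481, 459847, 463064, 475812, 493953, 504864, 525274, 530245, 535268, 542009, 545190, 551943, 555160, 560668, 563843, 567074, 580704, 582081, 593097, 596054, 602472, 608810, 615188, 622863, 628112, 632881, 657763, 663645, 668866, 675712, 684577, 689317, 692282, 702724,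 705094, 722544, 737427, 742412, 762504, 786999, 792232, 797449, 804052, 806987, 832080, 837906, 843820, 855332, 861210, 864389, 884962, 902657, 919694, 924689, 926128, 951624, 987906, 1009728, 1050548, 1053483, 1060490, 1063445, 1065303, 1070536, 1075305, 1084018, 1090380, 1100945, 1103886, 1110320, 1116327, 1121336, 1122713, 1127686, 1134148, 1148257, 1161408, 1164162, 1182989, 1186194, 1188915, 1192108, 1204944, 1212619, 1217620, 1230376, 1245726, 1250945, 1256224, 1265762, 1302533, 1312345, 1315526, 1327290, 1332261, 1337732, 1351424, 1352353, 1369154, 1378634, 1384564, 1405448, 1410188, 1413139, 1445088, 1454401, 1460739, 1474854, 1484824, 1525008, 1573998, 1577201, 1584464, 1589901, 1594898, 1608104, 1613974, 1618953, 1647171, 1661185, 1664160, 1675812, 1687640, 1710664, 1722420, 1728778, 1737489, 1769924, 1805314, 1836419, 1839388, 1849378, 1852256, 1869893, 1903248, 1975812, 2019456, 2031657, 2101096, 2106966, 2110153, 2115979, 2120980, 2121909, 2126890, 2130606, 2135601, 2141072, 2147405, 2150610, 2162811, 2168036, 2173253, 2180760, 2183687,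 2201890, 2204803, 2207772, 2220640, 2229713, 2232654, 2242672, 2245426, 2255372, 2263063, 2268296, 2269481, 2296514, 2313249, 2322816, 2328324, 2363013, 2365978, 2372388, 2377830, 2384216, 2392899, 2409888, 2422785, 2425238, 2430217, 2435240, 2460752, 2491452, 2494627, 2501890, 2512448, 2531524, 2564625, 2605066, 2624690, 2627629, 2631052, 2634003, 2640465, 2654580, 2664522, 2675464, 2687905, 2702848, 2704706, 2738308, 2754059, 2757268, 2769128, 2810896, 2820376, 2826278, 2854977, 2890176, 2892897, 2908802, 2916505, 2921478, 2949708, 2969648, 3031301, 3050016, 3147996, 3152963, 3154402, 3168928, 3172097, 3179802, 3182981, 3189796, 3216208, 3227948, 3237906, 3246601, 3277413, 3294342, 3297305, 3322370, 3328320, 3351624, 3375280, 3410225, 3416079, 3421328, 3444840, 3457556, 3474978, 3489985, 3539848, 3610628, 3672838, 3678776, 3698756, 3704512, 3719203, 3736597, 3739786, 3806496, 3811457, 3951624, 4038912, 4063314, 4196943, 4202192, 4203377, 4213932, 4216883, 4220306, 4223245, 4229001, 4231958, 4241960, 4243818, 4253780, 4261212, 4264387, 4271202,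 4282144, 4287105, 4294810, 4299781, 4301220, 4325622, 4330601, 4336072, 4343317, 4346506, 4361520, 4367374, 4370577, 4403780, 4409606, 4415544, 4424227, 4441280, 4459426, 4465308, 4470275, 4476225, 4485344, 4490852, 4505735, 4510744, 4523185, 4526126, 4536592, 4538962, 4563017, 4587803, 4593028, 4597797, 4626498, 4645632, 4656648, 4721045, 4726026, 4726955, 4731956, 4744776, 4752467, 4755660, 4768432, 4785798, 4788761, 4800613, 4819776, 4845570, 4850476, 4860434, 4870480, 4900873, 4921504, 4924673, 4982904, 4989254, 5003780, 5017889, 5024896, 5063048, 5112513, 5129250, 5210132, 5249380, 5252293, 5255258, 5262104, 5268006, 5275709, 5280930, 5286147, 5296705, 5309160, 5325835, 5329044, 5350928, 5375810, 5390753, 5405696, 5409412, 5441617, 5476616, 5508118, 5511305, 5514536, 5538256, 5571333, 5621792, 5640752, 5652556, 5709954, 5770785, 5780352, 5785794, 5817604, 5833010, 5842956, 5899416, 5902343, 5939296, 6053905, 6062602, 6100032, 6292775, 6295992, 6302745, 6305926, 6308804, 6326497, 6337856, 6344194, 6359604, 6365962, 6379592, 6406417, 6429441,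 6432416, 6447171, 6455896, 6475812, 6488205, 6493202, 6554826, 6557781, 6570537, 6588684, 6594610, 6644740, 6656640, 6703248, 6750560, 6820450, 6832158, 6837377, 6842656, 6857221, 6889680, 6915112, 6949956, 6979970, 7079696, 7145475, 7221256, 7340691, 7345676, 7357552, 7397512, 7409024, 7417889, 7438406, 7473194, 7479572, 7612992, 7622914, 7767041, 7864649, 7903248, 8077824, 8126628, 8391797, 8394986, 8398155, 8401364, 8407702, 8412681, 8414120, 8421811, 8426796, 8431757, 8436754, 8439632, 8455014, 8464984, 8471941, 8474906, 8484900, 8490656, 8499969, 8505411, 8521420, 8524371, 8536111, 8541360, 8546577, 8555274, 8561204, 8581192, 8592704, 8593633, 8611330, 8619033, 8622214, 8654232, 8657159, 8660134, 8663097, 8675909, 8683614, 8688833, 8694112, 8704546, 8716939, 8721940, 8733800, 8773776, 8783649, 8796800, 8798658, 8834052, 8849458, 8855820, 8919856, 8922769, 8925710, 8931660, 8937586, 8946281, 8963210, 8966165, 8978620, 8983587, 8989058, 8999616, 9020484, 9045270, 9048457, 9055272, 9078992, 9112069, 9158944, 9178690, 9193633, 9204992, 9208708,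 9240913, 9279496, 9310308, 9323032, 9347075, 9440193, 9451104, 9456930, 9462812, 9465987, 9471495, 9474712, 9486564, 9503954, 9506893, 9519665, 9537812, 9543722, 9568632, 9578566, 9589508, 9607201, 9610624, 9652360, 9701932, 9708306, 9721936, 9748745, 9769376, 9776129, 9830549, 9835530, 9929280, 9963547, 9968772, 9969957, 9998658, 10021376, 10028808, 10093218, 10110017, 10170384, 10232008, 10257456, 10305542, 10486557, 10491778, 10496547, 10506593, 10513600, 10525252, 10537016, 10543366, 10554382, 10557585, 10560816, 10584520, 10619300, 10625178, 10630149, 10650722, 10666625, 10687016, 10698836, 10748656, 10765331, 10768524, 10790408, 10825794, 10832640, 10846245, 10881097, 10916112, 11010247, 11015256, 11028004, 11046145, 11055264, 11100169, 11108882, 11150144, 11163650, 11272490, 11282452, 11469952, 11535529, 11538486, 11548936, 11551306, 11575377, 11608708, 11654144, 11669008, 11731203, 11797828, 11831426, 11952160, 12075408, 12126304, 12222476, 12325377, 12584506, 12587685, 12594948, 12599513, 12604486, 12624578, 12638592, 12641313, 12650793,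 12656663, 12661896, 12685424, 12698124, 12717187, 12720156, 12726562, 12733024, 12747077, 12780432, 12849992, 12861748, 12871690, 12880401, 12912836, 12944642, 12985424, 13009064, 13062145, 13108704, 13121601, 13124355, 13142054, 13148440, 13192208, 13262980, 13276672, 13303882, 13370381, 13373586, 13443616, 13631886, 13636881, 13641904, 13667400, 13703682, 13721920, 13771273, 13811730, 13829156, 13893731, 13911680, 13938692, 14156372, 14176296, 14254209, 14551296, 14682450, 14688364, 14709264, 14714004, 14716939, 14747201, 14762146, 14828808, 14919680, 14949408, 14950785, 15073798, 15207048, 15274244, 15335473, 15515712, 15747077, 15762208, 15864000, 16056344, 16262146]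

theorem validL_of_incr {L : List ℕ} (h1 : (L.all fun m => decide (m < 2 ^ 24)) = true)
    (h2 : incr L = true) : validL L = true := by
  rw [validL, Bool.and_eq_true]
  exact ⟨h1, decide_eq_true (nodup_of_incr h2)⟩

theorem OL_valid : validL OL = true :=
  validL_of_incr (by decide +kernel) (by decide +kernel)

theorem OL_oct : (OL.all isOct) = true := by decide +kernel

theorem OL_len : OL.length = 759 := by decide +kernel

theorem decS_OL : decS OL = octF := by
  apply Finset.eq_of_subset_of_card_le
  · intro s hs
    obtain ⟨m, hm, rfl⟩ := mem_decS.mp hs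
    exact mem_octF.mpr (dec_mem_octads (List.all_eq_true.mp OL_oct m hm))
  · rw [card_decS OL_valid, OL_len, card_octF]

theorem disj_dec (a b : ℕ) : Disjoint (dec a) (dec b) ↔ (pop24 (a &&& b) == 0) = true := by
  rw [Finset.disjoint_iff_inter_eq_empty, ← Finset.card_eq_zero, card_inter_dec, beq_iff_eq]

theorem dec_eq_iff {a b : ℕ} (ha : a < 2 ^ 24) (hb : b < 2 ^ 24) :
    dec a = dec b ↔ (a == b) = true := by
  rw [beq_iff_eq]
  exact ⟨dec_injOn ha hb, fun h => by rw [h]⟩

def rt (a b c : ℕ) : Bool := c == a || c == b || (pop24 (c &&& a) == 0 && pop24 (c &&& b) == 0)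

theorem RT_dec {a b c : ℕ} (ha : a < 2 ^ 24) (hb : b < 2 ^ 24) (hc : c < 2 ^ 24) :
    RT (dec a) (dec b) (dec c) ↔ rt a b c = true := by
  rw [RT, rt, Bool.or_eq_true, Bool.or_eq_true, Bool.and_eq_true, dec_eq_iff hc ha,
    dec_eq_iff hc hb, disj_dec, disj_dec, or_assoc]

def tT (r a b : ℕ) : Bool := pop24 (a &&& b) == 0 && rt a b (img r a) && rt a b (img r b)

def cntT (L : List ℕ) (r : ℕ) : ℕ :=
  (L.map fun a => (L.map fun b => if tT r a b = true then 1 else 0).sum).sum

theorem six_trios_aux (L : List ℕ) (hv : validL L = true) (hL : decS L = octF)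
    {r : ℕ} (hp : isPerm r = true) (hm : prm r ∈ M24) :
    6 * {T : Finset (Finset GolayPt) | T ∈ trios ∧ prm r • T = T}.ncard = cntT L r := by
  rw [six_mul_inv_trios hm, Finset.card_filter, Finset.sum_product, ← hL, sum_decS hv,
    cntT]
  congr 1
  apply List.map_congr_left
  intro a ha
  rw [sum_decS hv]
  congr 1
  apply List.map_congr_left
  intro b hb
  have ha' := validL_lt hv a ha
  have hb' := validL_lt hv b hb
  have : (Disjoint (dec a) (dec b) ∧ RT (dec a) (dec b) (prm r • dec a) ∧
      RT (dec a) (dec b) (prm r • dec b)) ↔ tT r a b = true := by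
    rw [smul_dec hp, smul_dec hp, RT_dec ha' hb' (img_lt hp a), RT_dec ha' hb' (img_lt hp b),
      disj_dec, tT, Bool.and_eq_true, Bool.and_eq_true, and_assoc]
  simp only [this]

theorem six_trios {r : ℕ} (hp : isPerm r = true) (hm : prm r ∈ M24) :
    6 * {T : Finset (Finset GolayPt) | T ∈ trios ∧ prm r • T = T}.ncard = cntT OL r :=
  six_trios_aux OL OL_valid decS_OL hp hm

/-- masks of the `k`-subsets of the lowest `n` bits, increasing -/
def sub : ℕ → ℕ → List ℕ
  | _, 0 => [0]
  | 0, _ + 1 => []
  | n + 1, k + 1 => sub n (k + 1) ++ (sub n k).map (· + 2 ^ n)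

def TL : List ℕ := sub 24 4

theorem TL_valid : validL TL = true :=
  validL_of_incr (by decide +kernel) (by decide +kernel)

theorem TL_four : (TL.all fun m => pop24 m == 4) = true := by decide +kernel

theorem TL_len : TL.length = 10626 := by decide +kernel

theorem decS_TL : decS TL = (Finset.univ : Finset GolayPt).powersetCard 4 := by
  apply Finset.eq_of_subset_of_card_le
  · intro s hs
    obtain ⟨m, hm, rfl⟩ := mem_decS.mp hs
    rw [Finset.mem_powersetCard]
    refine ⟨Finset.subset_univ _, ?_⟩
    rw [card_dec, popN_eq_pop24]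
    simpa using List.all_eq_true.mp TL_four m hm
  · rw [card_decS TL_valid, TL_len, Finset.card_powersetCard]
    decide +kernel

theorem dec_mem_octF_iff {y : ℕ} (hy : y < 2 ^ 24) : dec y ∈ octF ↔ isOct y = true := by
  rw [mem_octF, mem_octads, dec_mem_supports_iff hy, card_dec, popN_eq_pop24, isOct,
    Bool.and_eq_true, beq_iff_eq]

def tS (r t : ℕ) : Bool := img r t == t || isOct (t ||| img r t)

def cntS (L : List ℕ) (r : ℕ) : ℕ := (L.map fun t => if tS r t = true then 1 else 0).sum

theorem six_sextets_aux (L : List ℕ) (hv : validL L = true)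
    (hL : decS L = (Finset.univ : Finset GolayPt).powersetCard 4)
    {r : ℕ} (hp : isPerm r = true) (hm : prm r ∈ M24) :
    6 * {S : Finset (Finset GolayPt) | S ∈ sextets ∧ prm r • S = S}.ncard = cntS L r := by
  rw [six_mul_inv_sextets hm, Finset.card_filter, ← hL, sum_decS hv, cntS]
  congr 1
  apply List.map_congr_left
  intro t ht
  have ht' := validL_lt hv t ht
  have : (prm r • dec t = dec t ∨ dec t ∪ prm r • dec t ∈ octF) ↔ tS r t = true := by
    rw [smul_dec hp, ← dec_or, dec_mem_octF_iff (Nat.or_lt_two_pow ht' (img_lt hp t)),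
      dec_eq_iff (img_lt hp t) ht', tS, Bool.or_eq_true]
  simp only [this]

theorem six_sextets {r : ℕ} (hp : isPerm r = true) (hm : prm r ∈ M24) :
    6 * {S : Finset (Finset GolayPt) | S ∈ sextets ∧ prm r • S = S}.ncard = cntS TL r :=
  six_sextets_aux TL TL_valid decS_TL hp hm

/-- transfer of counts along a group element -/
theorem ncard_transfer' {α : Type*} [MulAction (Equiv.Perm GolayPt) α] (g : Equiv.Perm GolayPt)
    {A B : Set α} (h : ∀ o, o ∈ A ↔ g • o ∈ B) : A.ncard = B.ncard := by
  have : B = (fun o => g • o) '' A := by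
    ext o
    constructor
    · intro ho
      exact ⟨g⁻¹ • o, (h _).mpr (by rwa [smul_inv_smul]), smul_inv_smul g o⟩
    · rintro ⟨o', ho', rfl⟩
      exact (h o').mp ho'
  rw [this, Set.ncard_image_of_injective _ (MulAction.injective g)]

theorem ncard_fix_conj {α : Type*} [MulAction (Equiv.Perm GolayPt) α] (X : Set α)
    {c g t : Equiv.Perm GolayPt} (hc : c * g * c⁻¹ = t) (hX : ∀ x, c • x ∈ X ↔ x ∈ X) :
    {x | x ∈ X ∧ g • x = x}.ncard = {x | x ∈ X ∧ t • x = x}.ncard := by
  apply ncard_transfer' c
  intro o
  change (o ∈ X ∧ g • o = o) ↔ (c • o ∈ X ∧ t • c • o = c • o)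
  rw [hX, ← hc, mul_smul, mul_smul, inv_smul_smul, smul_left_cancel_iff]

/-- invariant code words of a given weight -/
theorem ncard_inv_words (w : ℕ) {r : ℕ} (hp : isPerm r = true) :
    {o | o ∈ wordsOfWeight (golayCode : Set (GolayPt → ZMod 2)) w ∧ prm r • o = o}.ncard =
      ((Finset.range 4096).filter fun n =>
        (pop24 (fcomb n) == w && (pop24 (img r (fcomb n) ^^^ fcomb n) == 0)) = true).card := by
  apply ncard_code_set w (fun o => prm r • o = o) (fun x => pop24 (img r x ^^^ x) == 0)
  intro x
  rw [smul_dec hp, beq_iff_eq, ← popN_eq_pop24, ← card_dec, dec_xor, Finset.card_eq_zero]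
  constructor
  · intro h; rw [h]; simp
  · intro h
    have := symmDiff_eq_bot.mp h
    exact this

end Cfsg.Agent.Lib.Helper3_Inv2
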