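import Mathlib
import Cfsg.Agent.Lib.Helper3_Inv2

/-!
# helper3: counting invariant trios (faster evaluation)
-/

set_option autoImplicit false
set_option linter.unusedSectionVars false
set_option linter.constructorNameAsVariable false

namespace Cfsg.Agent.Lib.Helper3_Inv2b

open Cfsg Cfsg.Agent.Lib.Helper3_Golay Cfsg.Agent.Lib.Helper3_Golay2 Cfsg.Agent.Lib.Helper3_Golay3
open Cfsg.Agent.Lib.Helper3_M24a Cfsg.Agent.Lib.Helper3_M24c Cfsg.Agent.Lib.Helper3_M24f
open Cfsg.Agent.Lib.Helper3_Steiner Cfsg.Agent.Lib.Helper3_Fast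
open Cfsg.Agent.Lib.Helper3_Sext Cfsg.Agent.Lib.Helper3_Inv1 Cfsg.Agent.Lib.Helper3_Orb3
open Cfsg.Agent.Lib.Helper3_Inv2
open scoped Pointwise

def cnt (p : ℕ → Bool) : List ℕ → ℕ
  | [] => 0
  | x :: l => cond (p x) (cnt p l + 1) (cnt p l)

def sm (p : ℕ → ℕ) : List ℕ → ℕ
  | [] => 0
  | x :: l => p x + sm p l

theorem sm_eq (f : ℕ → ℕ) : ∀ L : List ℕ, sm f L = (L.map f).sum
  | [] => rfl
  | x :: l => by rw [sm, sm_eq f l, List.map_cons, List.sum_cons]

theorem cnt_eq (p : ℕ → Bool) : ∀ L : List ℕ,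
    cnt p L = (L.map fun x => if p x = true then 1 else 0).sum
  | [] => rfl
  | x :: l => by
    rw [cnt, cnt_eq p l, List.map_cons, List.sum_cons]
    cases p x <;> simp [add_comm]

theorem cnt_eq_zero (p : ℕ → Bool) : ∀ L : List ℕ, (∀ x ∈ L, p x = false) → cnt p L = 0
  | [], _ => rfl
  | x :: l, h => by
    rw [cnt, h x (by simp), cnt_eq_zero p l (fun y hy => h y (by simp [hy]))]
    rfl

theorem dec_zero : dec 0 = ∅ := by decide +kernel

theorem disj_dec' {a b : ℕ} (ha : a < 2 ^ 24) :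
    Disjoint (dec a) (dec b) ↔ Nat.beq (Nat.land a b) 0 = true := by
  rw [Finset.disjoint_iff_inter_eq_empty, ← dec_and, ← dec_zero, Nat.beq_eq]
  constructor
  · intro h
    exact dec_injOn (lt_of_le_of_lt Nat.and_le_left ha) (by norm_num) h
  · intro h
    change a &&& b = 0 at h
    rw [h]

theorem dec_eq_iff' {a b : ℕ} (ha : a < 2 ^ 24) (hb : b < 2 ^ 24) :
    dec a = dec b ↔ Nat.beq a b = true := by
  rw [Nat.beq_eq]
  exact ⟨dec_injOn ha hb, fun h => by rw [h]⟩

def rt' (a b c : ℕ) : Bool :=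
  Nat.beq c a || Nat.beq c b || (Nat.beq (Nat.land c a) 0 && Nat.beq (Nat.land c b) 0)

theorem RT_dec' {a b c : ℕ} (ha : a < 2 ^ 24) (hb : b < 2 ^ 24) (hc : c < 2 ^ 24) :
    RT (dec a) (dec b) (dec c) ↔ rt' a b c = true := by
  rw [RT, rt', Bool.or_eq_true, Bool.or_eq_true, Bool.and_eq_true, dec_eq_iff' hc ha,
    dec_eq_iff' hc hb, disj_dec' hc, disj_dec' hc, or_assoc]

def tT' (r a b : ℕ) : Bool :=
  Nat.beq (Nat.land a b) 0 && rt' a b (img r a) && rt' a b (img r b)

def pre (r a : ℕ) : Bool := Nat.beq (img r a) a || Nat.beq (Nat.land (img r a) a) 0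

theorem pre_of_tT {r a b : ℕ} (h : tT' r a b = true) : pre r a = true := by
  rw [tT', Bool.and_eq_true, Bool.and_eq_true, rt', Bool.or_eq_true, Bool.or_eq_true,
    Bool.and_eq_true] at h
  obtain ⟨⟨h0, h1⟩, -⟩ := h
  rw [pre, Bool.or_eq_true]
  rcases h1 with (h1 | h1) | h1
  · exact Or.inl h1
  · right
    rw [Nat.beq_eq] at h1
    rw [h1]
    rw [Nat.beq_eq] at h0 ⊢
    change a &&& b = 0 at h0
    change b &&& a = 0
    rw [Nat.and_comm]; exact h0
  · exact Or.inr h1.1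

def cntT' (L : List ℕ) (r : ℕ) : ℕ :=
  sm (fun a => cond (pre r a) (cnt (fun b => tT' r a b) L) 0) L

theorem cond_pre (L : List ℕ) (r a : ℕ) :
    cond (pre r a) (cnt (fun b => tT' r a b) L) 0 = cnt (fun b => tT' r a b) L := by
  cases hp : pre r a
  · rw [cnt_eq_zero]
    · rfl
    · intro b _
      by_contra hb
      rw [Bool.not_eq_false] at hb
      rw [pre_of_tT hb] at hp
      exact Bool.noConfusion hp
  · rfl

theorem six_trios_aux' (L : List ℕ) (hv : validL L = true) (hL : decS L = octF)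
    {r : ℕ} (hp : isPerm r = true) (hm : prm r ∈ M24) :
    6 * {T : Finset (Finset GolayPt) | T ∈ trios ∧ prm r • T = T}.ncard = cntT' L r := by
  rw [six_mul_inv_trios hm, Finset.card_filter, Finset.sum_product, ← hL, sum_decS hv,
    cntT', sm_eq]
  congr 1
  apply List.map_congr_left
  intro a ha
  rw [sum_decS hv, cond_pre, cnt_eq]
  congr 1
  apply List.map_congr_left
  intro b hb
  have ha' := validL_lt hv a ha
  have hb' := validL_lt hv b hb
  have : (Disjoint (dec a) (dec b) ∧ RT (dec a) (dec b) (prm r • dec a) ∧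
      RT (dec a) (dec b) (prm r • dec b)) ↔ tT' r a b = true := by
    rw [smul_dec hp, smul_dec hp, RT_dec' ha' hb' (img_lt hp a), RT_dec' ha' hb' (img_lt hp b),
      disj_dec' ha', tT', Bool.and_eq_true, Bool.and_eq_true, and_assoc]
  simp only [this]

theorem six_trios' {r : ℕ} (hp : isPerm r = true) (hm : prm r ∈ M24) :
    6 * {T : Finset (Finset GolayPt) | T ∈ trios ∧ prm r • T = T}.ncard = cntT' OL r :=
  six_trios_aux' OL OL_valid decS_OL hp hm

end Cfsg.Agent.Lib.Helper3_Inv2b
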