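import Mathlib
import Cfsg.Agent.Lib.Helper3_Inv2
import Cfsg.Agent.Lib.Helper3_Conj

/-!
# helper3: invariant sextets, class 2B (one kernel computation)
-/

set_option autoImplicit false

namespace Cfsg.Agent.Lib.Helper3_InvS2B

open Cfsg.Agent.Lib.Helper3_Inv2 Cfsg.Agent.Lib.Helper3_Conj

theorem s2B : cntS TL r2B = 6 * 51 := by decide +kernel

end Cfsg.Agent.Lib.Helper3_InvS2B
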