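import Mathlib
import Cfsg.Agent.Lib.Helper3_Inv2b
import Cfsg.Agent.Lib.Helper3_Conj

/-!
# helper3: invariant trios (kernel computations)
-/

set_option autoImplicit false

namespace Cfsg.Agent.Lib.Helper3_InvT

open Cfsg.Agent.Lib.Helper3_Inv2 Cfsg.Agent.Lib.Helper3_Inv2b Cfsg.Agent.Lib.Helper3_Conj

theorem t2A : cntT' OL r2A = 6 * 99 := by decide +kernel
theorem t2B : cntT' OL r2B = 6 * 75 := by decide +kernel
theorem t3A : cntT' OL r3A = 6 * 15 := by decide +kernel
theorem t3B : cntT' OL r3B = 6 * 15 := by decide +kernel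

end Cfsg.Agent.Lib.Helper3_InvT
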