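import Mathlib
import Cfsg.Agent.Lib.Helper3_Inv2b
import Cfsg.Agent.Lib.Helper3_InvT
import Cfsg.Agent.Lib.Helper3_InvS2A
import Cfsg.Agent.Lib.Helper3_InvS2B
import Cfsg.Agent.Lib.Helper3_InvS3A
import Cfsg.Agent.Lib.Helper3_InvS3B
import Cfsg.Agent.Lib.Helper3_ConjB

/-!
# helper3: numbers of invariant octads, dodecads, trios, sextets for elements of order 2 and 3
-/

set_option autoImplicit false
set_option linter.unusedSectionVars false
set_option linter.constructorNameAsVariable false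

namespace Cfsg.Agent.Lib.Helper3_Inv3

open Cfsg Cfsg.Agent.Lib.Helper3_Golay Cfsg.Agent.Lib.Helper3_Golay2 Cfsg.Agent.Lib.Helper3_Golay3
open Cfsg.Agent.Lib.Helper3_M24a Cfsg.Agent.Lib.Helper3_M24c Cfsg.Agent.Lib.Helper3_M24f
open Cfsg.Agent.Lib.Helper3_Steiner Cfsg.Agent.Lib.Helper3_Fast
open Cfsg.Agent.Lib.Helper3_Sext Cfsg.Agent.Lib.Helper3_Inv1 Cfsg.Agent.Lib.Helper3_Inv2
open Cfsg.Agent.Lib.Helper3_Conj Cfsg.Agent.Lib.Helper3_ConjB Cfsg.Agent.Lib.Helper3_Inv2b
open Cfsg.Agent.Lib.Helper3_InvT Cfsg.Agent.Lib.Helper3_InvS2A Cfsg.Agent.Lib.Helper3_InvS2B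
open Cfsg.Agent.Lib.Helper3_InvS3A Cfsg.Agent.Lib.Helper3_InvS3B
open scoped Pointwise

theorem smul_mem_trios_iff {c : Equiv.Perm GolayPt} (hc : c ∈ M24) (T : Finset (Finset GolayPt)) :
    c • T ∈ trios ↔ T ∈ trios := by
  constructor
  · intro h
    have := smul_mem_trios (M24.inv_mem hc) h
    rwa [inv_smul_smul] at this
  · exact smul_mem_trios hc

theorem smul_mem_sextets_iff {c : Equiv.Perm GolayPt} (hc : c ∈ M24)
    (T : Finset (Finset GolayPt)) : c • T ∈ sextets ↔ T ∈ sextets := by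
  constructor
  · intro h
    have := smul_mem_sextets (M24.inv_mem hc) h
    rwa [inv_smul_smul] at this
  · exact smul_mem_sextets hc

theorem trios_count {g c : Equiv.Perm GolayPt} {r n : ℕ} (hc : c ∈ M24)
    (h : c * g * c⁻¹ = prm r) (hp : isPerm r = true) (hm : prm r ∈ M24)
    (hn : cntT' OL r = 6 * n) :
    {T : Finset (Finset GolayPt) | T ∈ trios ∧ g • T = T}.ncard = n := by
  rw [ncard_fix_conj trios h (smul_mem_trios_iff hc)]
  have := six_trios' hp hm
  rw [hn] at this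
  omega

theorem sextets_count {g c : Equiv.Perm GolayPt} {r n : ℕ} (hc : c ∈ M24)
    (h : c * g * c⁻¹ = prm r) (hp : isPerm r = true) (hm : prm r ∈ M24)
    (hn : cntS TL r = 6 * n) :
    {T : Finset (Finset GolayPt) | T ∈ sextets ∧ g • T = T}.ncard = n := by
  rw [ncard_fix_conj sextets h (smul_mem_sextets_iff hc)]
  have := six_sextets hp hm
  rw [hn] at this
  omega

theorem octads_count {g c : Equiv.Perm GolayPt} {r : ℕ} (hc : c ∈ M24)
    (h : c * g * c⁻¹ = prm r) (hp : isPerm r = true) :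
    {o : Finset GolayPt | o ∈ octads ∧ g • o = o}.ncard = ((Finset.range 4096).filter fun n =>
        (pop24 (fcomb n) == 8 && (pop24 (img r (fcomb n) ^^^ fcomb n) == 0)) = true).card := by
  rw [ncard_fix_conj octads h (fun x => smul_mem_octads_iff hc)]
  exact ncard_inv_words 8 hp

theorem dodecads_count {g c : Equiv.Perm GolayPt} {r : ℕ} (hc : c ∈ M24)
    (h : c * g * c⁻¹ = prm r) (hp : isPerm r = true) :
    {o : Finset GolayPt | o ∈ dodecads ∧ g • o = o}.ncard = ((Finset.range 4096).filter fun n =>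
        (pop24 (fcomb n) == 12 && (pop24 (img r (fcomb n) ^^^ fcomb n) == 0)) = true).card := by
  rw [ncard_fix_conj dodecads h (fun x => smul_mem_dodecads_iff hc)]
  exact ncard_inv_words 12 hp

theorem exists_fixed_of_card {g : Equiv.Perm GolayPt} {k : ℕ}
    (h : (Finset.univ.filter fun p => g p = p).card = k + 1) : ∃ p, g p = p := by
  have : (Finset.univ.filter fun p => g p = p).Nonempty := by
    rw [← Finset.card_pos, h]; omega
  obtain ⟨p, hp⟩ := this
  exact ⟨p, (Finset.mem_filter.mp hp).2⟩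

theorem main2A (g : Equiv.Perm GolayPt) (hg : g ∈ M24) (h₂ : orderOf g = 2)
    (h₈ : (Finset.univ.filter fun p => g p = p).card = 8) :
    {o : Finset GolayPt | o ∈ octads ∧ g • o = o}.ncard = 71 ∧
    {T : Finset (Finset GolayPt) | T ∈ trios ∧ g • T = T}.ncard = 99 ∧
    {S : Finset (Finset GolayPt) | S ∈ sextets ∧ g • S = S}.ncard = 91 := by
  obtain ⟨c, hc, h⟩ := inv_fixed_nf hg h₂ (exists_fixed_of_card h₈)
  refine ⟨?_, trios_count hc h p2A m2A t2A, sextets_count hc h p2A m2A s2A⟩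
  rw [octads_count hc h p2A]
  decide +kernel

theorem main2B (g : Equiv.Perm GolayPt) (hg : g ∈ M24) (h₂ : orderOf g = 2)
    (h₀ : ∀ p, g p ≠ p) :
    {o : Finset GolayPt | o ∈ octads ∧ g • o = o}.ncard = 15 ∧
    {T : Finset (Finset GolayPt) | T ∈ trios ∧ g • T = T}.ncard = 75 ∧
    {S : Finset (Finset GolayPt) | S ∈ sextets ∧ g • S = S}.ncard = 51 := by
  obtain ⟨c, hc, h⟩ := inv_free_nf hg h₂ h₀
  refine ⟨?_, trios_count hc h p2B m2B t2B, sextets_count hc h p2B m2B s2B⟩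
  rw [octads_count hc h p2B]
  decide +kernel

theorem main3A (g : Equiv.Perm GolayPt) (hg : g ∈ M24) (h₃ : orderOf g = 3)
    (h₆ : (Finset.univ.filter fun p => g p = p).card = 6) :
    {o : Finset GolayPt | o ∈ octads ∧ g • o = o}.ncard = 21 ∧
    {T : Finset (Finset GolayPt) | T ∈ trios ∧ g • T = T}.ncard = 15 ∧
    {S : Finset (Finset GolayPt) | S ∈ sextets ∧ g • S = S}.ncard = 16 ∧
    {d : Finset GolayPt | d ∈ dodecads ∧ g • d = d}.ncard = 20 := by
  obtain ⟨c, hc, h⟩ := ord3_fixed_nf hg h₃ (exists_fixed_of_card h₆)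
  refine ⟨?_, trios_count hc h p3A m3A t3A, sextets_count hc h p3A m3A s3A, ?_⟩
  · rw [octads_count hc h p3A]
    decide +kernel
  · rw [dodecads_count hc h p3A]
    decide +kernel

theorem main3B (g : Equiv.Perm GolayPt) (hg : g ∈ M24) (h₃ : orderOf g = 3)
    (h₀ : ∀ p, g p ≠ p) :
    {S : Finset (Finset GolayPt) | S ∈ sextets ∧ g • S = S}.ncard = 7 ∧
    {T : Finset (Finset GolayPt) | T ∈ trios ∧ g • T = T}.ncard = 15 := by
  obtain ⟨c, hc, h⟩ := ord3_free_nf hg h₃ h₀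
  exact ⟨sextets_count hc h p3B m3B s3B, trios_count hc h p3B m3B t3B⟩

end Cfsg.Agent.Lib.Helper3_Inv3
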