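import Mathlib
import Cfsg.Agent.Lib.Helper3_Coc

/-!
# helper3: coset leaders of the length-24 code
-/

set_option autoImplicit false
set_option linter.unusedSectionVars false
set_option linter.constructorNameAsVariable false

namespace Cfsg.Agent.Lib.Helper3_Lead

open Cfsg Cfsg.Agent.Lib.Helper3_Golay Cfsg.Agent.Lib.Helper3_Golay2 Cfsg.Agent.Lib.Helper3_Golay3
open Cfsg.Agent.Lib.Helper3_M24a Cfsg.Agent.Lib.Helper3_M24d Cfsg.Agent.Lib.Helper3_M24f
open Cfsg.Agent.Lib.Helper3_Irr Cfsg.Agent.Lib.Helper3_Steiner
open Cfsg.Agent.Lib.Helper3_Sext Cfsg.Agent.Lib.Helper3_Sub24 Cfsg.Agent.Lib.Helper3_Coc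
open scoped Pointwise

theorem ind_mem_iff {X : Finset GolayPt} : ind X ∈ golayCode ↔ X ∈ Sup :=
  ⟨fun h => ⟨_, h, support_ind _⟩, ind_mem_code⟩

theorem sub_eq_ind (w v : GolayPt → ZMod 2) :
    w - v = ind (symmDiff (support₂ w) (support₂ v)) := by
  rw [ind_symmDiff, ind_support, ind_support]
  funext p
  have : ∀ x y : ZMod 2, x - y = x + y := by decide
  exact this _ _

theorem sub_mem_iff (w v : GolayPt → ZMod 2) :
    w - v ∈ golayCode ↔ symmDiff (support₂ w) (support₂ v) ∈ Sup := by
  rw [sub_eq_ind, ind_mem_iff]

theorem ind_injective : Function.Injective ind := by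
  intro a b h
  rw [← support_ind a, ← support_ind b, h]

theorem norm_eq (v : GolayPt → ZMod 2) : hammingNorm v = (support₂ v).card := rfl

theorem eq_of_small {A B : Finset GolayPt} (h : symmDiff A B ∈ Sup)
    (hc : A.card + B.card < 8) : A = B := by
  have h1 := card_symmDiff_add A B
  have h2 : (symmDiff A B).card = 0 := by
    rcases card_cases h with h | h | h | h | h <;> omega
  exact symmDiff_eq_bot.mp (Finset.card_eq_zero.mp h2)

theorem main (w : GolayPt → ZMod 2) :
    ({v : GolayPt → ZMod 2 | hammingNorm v ≤ 4 ∧ w - v ∈ golayCode}.ncard = 1 ∧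
      ∃ v : GolayPt → ZMod 2, hammingNorm v ≤ 3 ∧ w - v ∈ golayCode) ∨
    ({v : GolayPt → ZMod 2 | hammingNorm v ≤ 4 ∧ w - v ∈ golayCode}.ncard = 6 ∧
      ∀ v : GolayPt → ZMod 2, w - v ∈ golayCode → hammingNorm v ≤ 4 → hammingNorm v = 4) := by
  set S := support₂ w with hS
  set VS : Set (Finset GolayPt) := {S' | S'.card ≤ 4 ∧ symmDiff S S' ∈ Sup} with hVS
  have hV : {v : GolayPt → ZMod 2 | hammingNorm v ≤ 4 ∧ w - v ∈ golayCode} = ind '' VS := by
    ext v
    simp only [Set.mem_ofPred_eq, Set.mem_image, hVS]
    constructor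
    · rintro ⟨h1, h2⟩
      exact ⟨support₂ v, ⟨h1, (sub_mem_iff w v).mp h2⟩, ind_support v⟩
    · rintro ⟨S', ⟨h1, h2⟩, rfl⟩
      refine ⟨by rw [norm_eq, support_ind]; exact h1, ?_⟩
      rw [sub_mem_iff, support_ind]; exact h2
  rw [hV, Set.ncard_image_of_injective _ ind_injective]
  have hpair : ∀ A ∈ VS, ∀ B ∈ VS, symmDiff A B ∈ Sup := by
    intro A hA B hB
    have := symmDiff_mem hA.2 hB.2
    rwa [sd3] at this
  obtain ⟨S0, h4, hc⟩ := cover4 _ S le_rfl
  have hS0 : S0 ∈ VS := ⟨h4, hc⟩
  by_cases h3 : ∃ A ∈ VS, A.card ≤ 3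
  · left
    obtain ⟨A, hA, hA3⟩ := h3
    constructor
    · have : VS = {A} := by
        ext B
        simp only [Set.mem_singleton_iff]
        constructor
        · intro hB
          exact (eq_of_small (hpair A hA B hB) (by have := hB.1; omega)).symm
        · rintro rfl; exact hA
      rw [this, Set.ncard_singleton]
    · refine ⟨ind A, by rw [norm_eq, support_ind]; exact hA3, ?_⟩
      rw [sub_mem_iff, support_ind]; exact hA.2
  · right
    push Not at h3
    have hfour : ∀ A ∈ VS, A.card = 4 := by
      intro A hA
      have := h3 A hA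
      have := hA.1
      omega
    constructor
    · have hc4 := hfour S0 hS0
      obtain ⟨Sg, hSg, hmem⟩ := exists_sextet hc4
      have hSge := eq_sextOf hSg hmem
      have : VS = ↑(sextOf S0) := by
        ext B
        rw [Finset.mem_coe, sextOf, Finset.mem_insert, Finset.mem_image]
        constructor
        · intro hB
          by_cases hBS : B = S0
          · exact Or.inl hBS
          · right
            have h1 := hpair S0 hS0 B hB
            have h2 := card_symmDiff_add S0 B
            rw [hc4, hfour B hB] at h2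
            have h3 : (symmDiff S0 B).card ≠ 0 := by
              intro h
              exact hBS (symmDiff_eq_bot.mp (Finset.card_eq_zero.mp h)).symm
            have h8 : (symmDiff S0 B).card = 8 := by
              rcases card_cases h1 with h | h | h | h | h <;> omega
            have hdis : S0 ∩ B = ∅ := Finset.card_eq_zero.mp (by omega)
            have hd : ∀ x, x ∈ S0 → x ∉ B := by
              intro x hx hxB
              have : x ∈ S0 ∩ B := Finset.mem_inter.mpr ⟨hx, hxB⟩
              rw [hdis] at this
              simp at this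
            refine ⟨symmDiff S0 B, ?_, ?_⟩
            · rw [Finset.mem_filter, mem_blocks]
              refine ⟨⟨h1, h8⟩, ?_⟩
              intro x hx
              exact Finset.mem_symmDiff.mpr (Or.inl ⟨hx, hd x hx⟩)
            · ext x
              simp only [Finset.mem_sdiff, Finset.mem_symmDiff]
              constructor
              · rintro ⟨(⟨h, _⟩ | ⟨h, _⟩), h'⟩
                · exact absurd h h'
                · exact h
              · intro h
                exact ⟨Or.inr ⟨h, fun h' => hd x h' h⟩, fun h' => hd x h' h⟩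
        · rintro (rfl | ⟨b, hb, rfl⟩)
          · exact hS0
          · rw [Finset.mem_filter, mem_blocks] at hb
            obtain ⟨hb, hsub⟩ := hb
            have e : symmDiff S0 (b \ S0) = b := by
              ext y
              simp only [Finset.mem_symmDiff, Finset.mem_sdiff]
              constructor
              · rintro (⟨h, _⟩ | ⟨h, _⟩)
                · exact hsub h
                · exact h.1
              · intro h
                by_cases hy : y ∈ S0
                · exact Or.inl ⟨hy, fun h' => h'.2 hy⟩
                · exact Or.inr ⟨⟨h, hy⟩, hy⟩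
            refine ⟨by rw [Finset.card_sdiff_of_subset hsub, hb.2, hc4], ?_⟩
            have hb1 : symmDiff S0 (b \ S0) ∈ Sup := by rw [e]; exact hb.1
            have h1 := symmDiff_mem hc hb1
            have e2 : symmDiff (symmDiff S S0) (symmDiff S0 (b \ S0)) = symmDiff S (b \ S0) := by
              rw [symmDiff_assoc, symmDiff_symmDiff_cancel_left]
            rwa [e2] at h1
      rw [this, Set.ncard_coe_finset, ← hSge, hSg.1]
    · intro v hv h4
      exact hfour (support₂ v) ⟨h4, (sub_mem_iff w v).mp hv⟩

end Cfsg.Agent.Lib.Helper3_Lead
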