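import Mathlib
import Cfsg.Agent.Lib.Helper3_M24a

/-!
# helper3: the rank-24 lattice: normal form of its vectors, divisibility and minimum of the norm
-/

set_option autoImplicit false
set_option linter.unusedSectionVars false
set_option linter.unusedSimpArgs false

namespace Cfsg.Agent.Lib.Helper3_Leech

open Cfsg Cfsg.Agent.Lib.Helper3_Golay Cfsg.Agent.Lib.Helper3_Golay2 Cfsg.Agent.Lib.Helper3_Golay3
open Cfsg.Agent.Lib.Helper3_M24a
open scoped Pointwise

/-- indicator with values `0`, `2` -/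
def ind (A : Finset GolayPt) (i : GolayPt) : ℤ := if i ∈ A then 2 else 0

/-- normal form of the vectors of the lattice -/
def IsL (x : GolayPt → ℤ) (m : ℤ) (A : Finset GolayPt) : Prop :=
  A ∈ Sup ∧ (∀ i, (x i - m - ind A i) % 4 = 0) ∧ (∑ i, x i - 4 * m) % 8 = 0

theorem ind_cases (A : Finset GolayPt) (i : GolayPt) :
    (i ∈ A ∧ ind A i = 2) ∨ (i ∉ A ∧ ind A i = 0) := by
  by_cases h : i ∈ A
  · left; exact ⟨h, by simp [ind, h]⟩
  · right; exact ⟨h, by simp [ind, h]⟩

theorem mem_filt (x : GolayPt → ℤ) (k : ℤ) (i : GolayPt) :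
    i ∈ (Finset.univ.filter fun i => x i ≡ k [ZMOD 4]) ↔ x i % 4 = k % 4 := by
  simp only [Finset.mem_filter, Finset.mem_univ, true_and]
  rfl

theorem isL_of_mem {x : GolayPt → ℤ} (hx : x ∈ leechSet) : ∃ m A, IsL x m A := by
  obtain ⟨m, h1, h2, h3⟩ := hx
  refine ⟨m, _, h3 (m + 2), ?_, ?_⟩
  · intro i
    have h := h1 i
    unfold Int.ModEq at h
    rcases ind_cases (Finset.univ.filter fun i => x i ≡ m + 2 [ZMOD 4]) i with ⟨ha, hb⟩ | ⟨ha, hb⟩
    · rw [hb]
      rw [mem_filt] at ha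
      omega
    · rw [hb]
      rw [mem_filt] at ha
      omega
  · unfold Int.ModEq at h2
    omega

theorem mem_of_isL {x : GolayPt → ℤ} {m : ℤ} {A : Finset GolayPt} (h : IsL x m A) :
    x ∈ leechSet := by
  obtain ⟨hA, h1, h2⟩ := h
  refine ⟨m, ?_, ?_, ?_⟩
  · intro i
    have := h1 i
    unfold Int.ModEq
    rcases ind_cases A i with ⟨_, hb⟩ | ⟨_, hb⟩ <;> rw [hb] at this <;> omega
  · unfold Int.ModEq
    omega
  · intro k
    by_cases hk2 : (k - m - 2) % 4 = 0
    · have : (Finset.univ.filter fun i => x i ≡ k [ZMOD 4]) = A := by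
        ext i
        rw [mem_filt]
        have := h1 i
        rcases ind_cases A i with ⟨ha, hb⟩ | ⟨ha, hb⟩ <;> rw [hb] at this
        · simp only [ha, iff_true]; omega
        · simp only [ha, iff_false]; omega
      rw [this]; exact hA
    · by_cases hk0 : (k - m) % 4 = 0
      · have : (Finset.univ.filter fun i => x i ≡ k [ZMOD 4]) = Aᶜ := by
          ext i
          rw [mem_filt, Finset.mem_compl]
          have := h1 i
          rcases ind_cases A i with ⟨ha, hb⟩ | ⟨ha, hb⟩ <;> rw [hb] at this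
          · simp only [ha, not_true, iff_false]; omega
          · simp only [ha, not_false_iff, iff_true]; omega
        rw [this]; exact compl_mem hA
      · have : (Finset.univ.filter fun i => x i ≡ k [ZMOD 4]) = ∅ := by
          ext i
          rw [mem_filt]
          simp only [Finset.notMem_empty, iff_false]
          have := h1 i
          rcases ind_cases A i with ⟨ha, hb⟩ | ⟨ha, hb⟩ <;> rw [hb] at this <;> omega
        rw [this]; exact empty_mem

theorem isL_zero : IsL 0 0 ∅ := by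
  refine ⟨empty_mem, ?_, ?_⟩
  · intro i; simp [ind]
  · simp

theorem isL_add {x y : GolayPt → ℤ} {m n : ℤ} {A B : Finset GolayPt} (hx : IsL x m A)
    (hy : IsL y n B) : IsL (x + y) (m + n) (symmDiff A B) := by
  obtain ⟨hA, h1, h2⟩ := hx
  obtain ⟨hB, k1, k2⟩ := hy
  refine ⟨symmDiff_mem hA hB, ?_, ?_⟩
  · intro i
    have a := h1 i
    have b := k1 i
    simp only [Pi.add_apply]
    rcases ind_cases A i with ⟨ha, hb⟩ | ⟨ha, hb⟩ <;> rcases ind_cases B i with ⟨hc, hd⟩ | ⟨hc, hd⟩ <;>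
      rcases ind_cases (symmDiff A B) i with ⟨he, hf⟩ | ⟨he, hf⟩ <;>
      simp only [Finset.mem_symmDiff, ha, hc, not_true, not_false_iff, and_true, and_false, or_self,
        or_false, false_or] at he <;>
      rw [hb] at a <;> rw [hd] at b <;> rw [hf] <;> omega
  · simp only [Pi.add_apply, Finset.sum_add_distrib]
    omega

theorem isL_neg {x : GolayPt → ℤ} {m : ℤ} {A : Finset GolayPt} (hx : IsL x m A) :
    IsL (-x) (-m) A := by
  obtain ⟨hA, h1, h2⟩ := hx
  refine ⟨hA, ?_, ?_⟩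
  · intro i
    have a := h1 i
    simp only [Pi.neg_apply]
    rcases ind_cases A i with ⟨ha, hb⟩ | ⟨ha, hb⟩ <;> rw [hb] at a ⊢ <;> omega
  · simp only [Pi.neg_apply, Finset.sum_neg_distrib]
    omega

/-- the set of the defining vectors, as an additive subgroup -/
def leechSub : AddSubgroup (GolayPt → ℤ) where
  carrier := leechSet
  zero_mem' := mem_of_isL isL_zero
  add_mem' := by
    intro a b ha hb
    obtain ⟨m, A, h1⟩ := isL_of_mem ha
    obtain ⟨n, B, h2⟩ := isL_of_mem hb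
    exact mem_of_isL (isL_add h1 h2)
  neg_mem' := by
    intro a ha
    obtain ⟨m, A, h1⟩ := isL_of_mem ha
    exact mem_of_isL (isL_neg h1)

theorem leechLattice_eq : leechLattice = leechSub := by
  apply le_antisymm
  · exact (AddSubgroup.closure_le _).mpr (fun x hx => hx)
  · intro x hx
    exact AddSubgroup.subset_closure hx

theorem mem_leech_iff {x : GolayPt → ℤ} : x ∈ leechLattice ↔ ∃ m A, IsL x m A := by
  rw [leechLattice_eq]
  exact ⟨fun h => isL_of_mem h, fun ⟨_, _, h⟩ => mem_of_isL h⟩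

theorem ind_compl (A : Finset GolayPt) (i : GolayPt) : ind Aᶜ i = 2 - ind A i := by
  by_cases h : i ∈ A <;> simp [ind, h]

/-- normalised form: `m` is `0` or `1` -/
theorem isL_norm {x : GolayPt → ℤ} (hx : x ∈ leechLattice) : ∃ A, IsL x 0 A ∨ IsL x 1 A := by
  obtain ⟨m, A, hA, h1, h2⟩ := mem_leech_iff.mp hx
  have hm : m % 4 = 0 ∨ m % 4 = 1 ∨ m % 4 = 2 ∨ m % 4 = 3 := by omega
  rcases hm with hm | hm | hm | hm
  · exact ⟨A, Or.inl ⟨hA, fun i => by have := h1 i; omega, by omega⟩⟩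
  · exact ⟨A, Or.inr ⟨hA, fun i => by have := h1 i; omega, by omega⟩⟩
  · refine ⟨Aᶜ, Or.inl ⟨compl_mem hA, ?_, ?_⟩⟩
    · intro i
      have := h1 i
      have h3 := ind_compl A i
      rcases ind_cases A i with ⟨_, h4⟩ | ⟨_, h4⟩ <;> omega
    · omega
  · refine ⟨Aᶜ, Or.inr ⟨compl_mem hA, ?_, ?_⟩⟩
    · intro i
      have := h1 i
      have h3 := ind_compl A i
      rcases ind_cases A i with ⟨_, h4⟩ | ⟨_, h4⟩ <;> omega
    · omega

theorem sum_ind (A c : Finset GolayPt) : ∑ i ∈ c, ind A i = 2 * ((A ∩ c).card : ℤ) := by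
  simp only [ind]
  rw [← Finset.sum_filter, Finset.sum_const, Finset.inter_comm, Finset.filter_mem_eq_inter]
  simp [mul_comm]

theorem four_dvd_card {A : Finset GolayPt} (hA : A ∈ Sup) : ∃ t : ℤ, (A.card : ℤ) = 4 * t := by
  rcases card_cases hA with h | h | h | h | h <;> rw [h]
  · exact ⟨0, by norm_num⟩
  · exact ⟨2, by norm_num⟩
  · exact ⟨3, by norm_num⟩
  · exact ⟨4, by norm_num⟩
  · exact ⟨6, by norm_num⟩

theorem sq_even (x : ℤ) (a : ℤ) (ha : a = 0 ∨ a = 2) (h : (x - 0 - a) % 4 = 0) :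
    (16 : ℤ) ∣ x ^ 2 - 2 * a := by
  obtain ⟨z, hz⟩ : ∃ z, x = 4 * z + a := ⟨(x - a) / 4, by omega⟩
  rcases ha with rfl | rfl
  · exact ⟨z ^ 2, by rw [hz]; ring⟩
  · exact ⟨z ^ 2 + z, by rw [hz]; ring⟩

theorem sq_odd (x : ℤ) (a : ℤ) (ha : a = 0 ∨ a = 2) (h : (x - 1 - a) % 4 = 0) :
    (16 : ℤ) ∣ x ^ 2 - (2 * x - 1 + 2 * a) := by
  obtain ⟨z, hz⟩ : ∃ z, x = 4 * z + 1 + a := ⟨(x - 1 - a) / 4, by omega⟩
  rcases ha with rfl | rfl
  · exact ⟨z ^ 2, by rw [hz]; ring⟩
  · exact ⟨z ^ 2 + z, by rw [hz]; ring⟩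

theorem ind_vals (A : Finset GolayPt) (i : GolayPt) : ind A i = 0 ∨ ind A i = 2 := by
  rcases ind_cases A i with ⟨_, h⟩ | ⟨_, h⟩ <;> simp [h]

theorem card_univ_pt : (Finset.univ : Finset GolayPt).card = 24 := rfl

theorem sixteen_dvd {x : GolayPt → ℤ} (hx : x ∈ leechLattice) : (16 : ℤ) ∣ sqNorm x := by
  obtain ⟨A, h | h⟩ := isL_norm hx
  · obtain ⟨hA, h1, h2⟩ := h
    have h3 : (16 : ℤ) ∣ ∑ i, (x i ^ 2 - 2 * ind A i) :=
      Finset.dvd_sum fun i _ => sq_even (x i) _ (ind_vals A i) (h1 i)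
    rw [Finset.sum_sub_distrib, ← Finset.mul_sum, sum_ind, Finset.inter_univ] at h3
    obtain ⟨t, ht⟩ := four_dvd_card hA
    rw [ht] at h3
    unfold sqNorm
    omega
  · obtain ⟨hA, h1, h2⟩ := h
    have h3 : (16 : ℤ) ∣ ∑ i, (x i ^ 2 - (2 * x i - 1 + 2 * ind A i)) :=
      Finset.dvd_sum fun i _ => sq_odd (x i) _ (ind_vals A i) (h1 i)
    rw [Finset.sum_sub_distrib, Finset.sum_add_distrib, Finset.sum_sub_distrib, ← Finset.mul_sum,
      ← Finset.mul_sum, sum_ind, Finset.inter_univ, Finset.sum_const, card_univ_pt] at h3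
    obtain ⟨t, ht⟩ := four_dvd_card hA
    rw [ht] at h3
    unfold sqNorm
    have e : (24 : ℕ) • (1 : ℤ) = 24 := by norm_num
    rw [e] at h3
    omega

theorem sqNorm_nonneg (x : GolayPt → ℤ) : 0 ≤ sqNorm x :=
  Finset.sum_nonneg fun i _ => sq_nonneg (x i)

theorem sqNorm_eq_zero {x : GolayPt → ℤ} (h : sqNorm x = 0) : x = 0 := by
  funext i
  have := (Finset.sum_eq_zero_iff_of_nonneg (fun i _ => sq_nonneg (x i))).mp h i (Finset.mem_univ i)
  simpa using this

theorem min_norm {x : GolayPt → ℤ} (hx : x ∈ leechLattice) (h0 : x ≠ 0) : 32 ≤ sqNorm x := by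
  have h16 := sixteen_dvd hx
  have hpos : 0 < sqNorm x := by
    rcases (sqNorm_nonneg x).lt_or_eq with h | h
    · exact h
    · exact absurd (sqNorm_eq_zero h.symm) h0
  obtain ⟨A, h | h⟩ := isL_norm hx
  · obtain ⟨hA, h1, h2⟩ := h
    by_cases hAe : A = ∅
    · subst hAe
      have h3 : (32 : ℤ) ∣ ∑ i, (x i ^ 2 - 4 * x i) := by
        apply Finset.dvd_sum
        intro i _
        have := h1 i
        simp only [ind, Finset.notMem_empty, if_false] at this
        obtain ⟨z, hz⟩ : ∃ z, x i = 4 * z := ⟨x i / 4, by omega⟩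
        obtain ⟨w, hw⟩ : ∃ w, z * (z - 1) = 2 * w := by
          have := Int.even_mul_pred_self z
          obtain ⟨w, hw⟩ := this
          exact ⟨w, by rw [hw]; ring⟩
        exact ⟨w, by rw [hz]; linear_combination 16 * hw⟩
      rw [Finset.sum_sub_distrib, ← Finset.mul_sum] at h3
      unfold sqNorm at hpos ⊢
      omega
    · have hc : 8 ≤ A.card := by
        have : A.card ≠ 0 := by rwa [Ne, Finset.card_eq_zero]
        rcases card_cases hA with h | h | h | h | h <;> omega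
      have h4 : ∑ i ∈ A, (4 : ℤ) ≤ ∑ i ∈ A, x i ^ 2 := by
        apply Finset.sum_le_sum
        intro i hi
        have := h1 i
        simp only [ind, hi, if_true] at this
        have h5 : x i ≤ -2 ∨ 2 ≤ x i := by omega
        rcases h5 with h5 | h5 <;> nlinarith
      have h6 : ∑ i ∈ A, x i ^ 2 ≤ ∑ i, x i ^ 2 :=
        Finset.sum_le_sum_of_subset_of_nonneg (Finset.subset_univ A) (fun i _ _ => sq_nonneg (x i))
      rw [Finset.sum_const] at h4
      simp only [nsmul_eq_mul] at h4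
      unfold sqNorm
      have : (8 : ℤ) ≤ A.card := by exact_mod_cast hc
      omega
  · obtain ⟨hA, h1, h2⟩ := h
    have h4 : ∑ i : GolayPt, (1 : ℤ) ≤ ∑ i, x i ^ 2 := by
      apply Finset.sum_le_sum
      intro i _
      have := h1 i
      have h5 : x i ≤ -1 ∨ 1 ≤ x i := by
        rcases ind_vals A i with h | h <;> rw [h] at this <;> omega
      rcases h5 with h5 | h5 <;> nlinarith
    rw [Finset.sum_const, card_univ_pt] at h4
    simp only [nsmul_eq_mul, Nat.cast_ofNat, mul_one] at h4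
    unfold sqNorm at h16 ⊢
    omega

theorem perm_mem {σ : Equiv.Perm GolayPt} (hσ : σ ∈ M24) {x : GolayPt → ℤ}
    (hx : x ∈ leechLattice) : (fun i => x (σ i)) ∈ leechLattice := by
  obtain ⟨m, A, hA, h1, h2⟩ := mem_leech_iff.mp hx
  refine mem_leech_iff.mpr ⟨m, σ⁻¹ • A, smul_mem_Sup (M24.inv_mem hσ) hA, ?_, ?_⟩
  · intro i
    have : ind (σ⁻¹ • A) i = ind A (σ i) := by
      simp only [ind, Finset.mem_inv_smul_finset_iff]
      rfl
    rw [this]
    exact h1 (σ i)
  · rw [Equiv.sum_comp σ x]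
    exact h2

theorem sum_on {x : GolayPt → ℤ} {m : ℤ} {A : Finset GolayPt} (h1 : ∀ i, (x i - m - ind A i) % 4 = 0)
    (c : Finset GolayPt) :
    (4 : ℤ) ∣ ∑ i ∈ c, x i - m * c.card - 2 * ((A ∩ c).card : ℤ) := by
  have h3 : (4 : ℤ) ∣ ∑ i ∈ c, (x i - m - ind A i) :=
    Finset.dvd_sum fun i _ => Int.dvd_of_emod_eq_zero (h1 i)
  rw [Finset.sum_sub_distrib, Finset.sum_sub_distrib, sum_ind, Finset.sum_const] at h3
  simp only [nsmul_eq_mul] at h3
  rwa [mul_comm (c.card : ℤ) m] at h3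

theorem sum_sign (x : GolayPt → ℤ) (c : Finset GolayPt) :
    ∑ i, (if i ∈ c then -x i else x i) = ∑ i, x i - 2 * ∑ i ∈ c, x i := by
  have : ∀ i, (if i ∈ c then -x i else x i) = x i - (if i ∈ c then 2 * x i else 0) := by
    intro i
    split_ifs <;> ring
  simp only [this]
  rw [Finset.sum_sub_distrib, Finset.sum_ite_mem, Finset.univ_inter, Finset.mul_sum]

theorem sign_mem {c : Finset GolayPt} (hc : c ∈ Sup) {x : GolayPt → ℤ}
    (hx : x ∈ leechLattice) : (fun i => if i ∈ c then -x i else x i) ∈ leechLattice := by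
  obtain ⟨t, ht⟩ := four_dvd_card hc
  obtain ⟨A, h | h⟩ := isL_norm hx
  · obtain ⟨hA, h1, h2⟩ := h
    obtain ⟨e, he⟩ := even_inter hA hc
    have hs := sum_on h1 c
    refine mem_leech_iff.mpr ⟨0, A, hA, ?_, ?_⟩
    · intro i
      have := h1 i
      simp only
      split_ifs
      · rcases ind_cases A i with ⟨_, h4⟩ | ⟨_, h4⟩ <;> omega
      · exact this
    · rw [sum_sign]
      rw [he] at hs
      push_cast at hs
      omega
  · obtain ⟨hA, h1, h2⟩ := h
    obtain ⟨e, he⟩ := even_inter hA hc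
    have hs := sum_on h1 c
    refine mem_leech_iff.mpr ⟨1, symmDiff A c, symmDiff_mem hA hc, ?_, ?_⟩
    · intro i
      have := h1 i
      simp only
      by_cases hic : i ∈ c
      · rw [if_pos hic]
        rcases ind_cases A i with ⟨h3, h4⟩ | ⟨h3, h4⟩ <;>
          rcases ind_cases (symmDiff A c) i with ⟨h5, h6⟩ | ⟨h5, h6⟩ <;>
          simp only [Finset.mem_symmDiff, h3, hic, not_true, not_false_iff, and_true, and_false,
            or_self, or_false, false_or] at h5 <;> omega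
      · rw [if_neg hic]
        rcases ind_cases A i with ⟨h3, h4⟩ | ⟨h3, h4⟩ <;>
          rcases ind_cases (symmDiff A c) i with ⟨h5, h6⟩ | ⟨h5, h6⟩ <;>
          simp only [Finset.mem_symmDiff, h3, hic, not_true, not_false_iff, and_true, and_false,
            or_self, or_false, false_or] at h5 <;> omega
    · rw [sum_sign]
      rw [he, ht] at hs
      push_cast at hs
      omega

theorem sqNorm_add_sub (v w : GolayPt → ℤ) :
    sqNorm (v - w) + sqNorm (v + w) = 2 * sqNorm v + 2 * sqNorm w := by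
  simp only [sqNorm, Pi.sub_apply, Pi.add_apply, Finset.mul_sum, ← Finset.sum_add_distrib]
  apply Finset.sum_congr rfl
  intro i _
  ring

theorem sqNorm_sub (v w : GolayPt → ℤ) :
    sqNorm (v - w) = sqNorm v + sqNorm w - 2 * dotInt v w := by
  simp only [sqNorm, dotInt, Pi.sub_apply, Finset.mul_sum, ← Finset.sum_add_distrib,
    ← Finset.sum_sub_distrib]
  apply Finset.sum_congr rfl
  intro i _
  ring

theorem sqNorm_two_smul (z : GolayPt → ℤ) : sqNorm (2 • z) = 4 * sqNorm z := by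
  simp only [sqNorm, Pi.smul_apply, Finset.mul_sum]
  apply Finset.sum_congr rfl
  intro i _
  ring

theorem sqNorm_neg (z : GolayPt → ℤ) : sqNorm (-z) = sqNorm z := by
  simp [sqNorm]

/-- two short vectors congruent modulo twice the lattice -/
theorem short_congr {v w : GolayPt → ℤ} (hw : w ∈ leechLattice)
    (hvn : sqNorm v ≤ 64) (hwn : sqNorm w ≤ 64) (hc : ∃ z ∈ leechLattice, v - w = 2 • z) :
    w = v ∨ w = -v ∨ (sqNorm v = 64 ∧ sqNorm w = 64 ∧ dotInt v w = 0) := by
  obtain ⟨z, hz, hvw⟩ := hc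
  by_cases h1 : z = 0
  · left
    rw [h1, smul_zero, sub_eq_zero] at hvw
    exact hvw.symm
  · by_cases h2 : z + w = 0
    · right; left
      have : v + w = 2 • (z + w) := by
        rw [smul_add, ← hvw]; simp only [two_smul]; abel
      rw [h2, smul_zero] at this
      exact (neg_eq_of_add_eq_zero_left this).symm ▸ (by simp)
    · right; right
      have e1 : v + w = 2 • (z + w) := by
        rw [smul_add, ← hvw]; simp only [two_smul]; abel
      have n1 := min_norm hz h1
      have n2 := min_norm (leechLattice.add_mem hz hw) h2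
      have n3 := sqNorm_add_sub v w
      rw [hvw, e1, sqNorm_two_smul, sqNorm_two_smul] at n3
      have n4 := sqNorm_sub v w
      rw [hvw, sqNorm_two_smul] at n4
      refine ⟨by omega, by omega, by omega⟩

end Cfsg.Agent.Lib.Helper3_Leech
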