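import Mathlib
import Cfsg.Agent.Lib.Helper3_Dod3

/-!
# helper3: the 72 elements of the stabiliser of a dodecad and three of its points
-/

set_option autoImplicit false
set_option linter.unusedSectionVars false
set_option linter.constructorNameAsVariable false

namespace Cfsg.Agent.Lib.Helper3_M9a

open Cfsg Cfsg.Agent.Lib.Helper3_Golay Cfsg.Agent.Lib.Helper3_Golay2 Cfsg.Agent.Lib.Helper3_Golay3
open Cfsg.Agent.Lib.Helper3_M24a Cfsg.Agent.Lib.Helper3_M24c Cfsg.Agent.Lib.Helper3_M24d
open Cfsg.Agent.Lib.Helper3_Hex
open scoped Pointwise

def L72 : List ℕ := [984818244535754528103549039458486304, 974297736089239669581392726270806048, 963346641302244241982471832828512288, 962371918955368510574636649896478752, 973054518210042674313238929715267616, 965131035075015849898837032318863392, 969802841622095796538075665876486176, 966475956924560098024124728230971424, 984600170262332565272975762020961312, 967565579364797696450790798777256992, 962651512066574722611277533849979936, 982050282450476681547471510865185824, 975594682009894295465223200571952160, 969759747487835800301622965049035808,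 965334175772909427513039479730965536, 973726299115478498653469978768608288, 973686997150873985752216794762907680, 967720771237155294815693095891472416, 970411472219799805744821576735789088, 969143109226073620753785256210337824, 982215698222945954287950344517881888, 972957809807092669634089971507335200, 963259191394733507442561449212874784, 984437871387219516632992196493742112, 964040814920702717206949018817605664, 961963715077338816282939691488096288, 970449309856341001412185157384941600, 984128563442642855769045999180853280, 966433488791888753810104868638601248, 967205586982904567856335449009762336, 975568851705503039487060938489180192, 969102504825768087605693146117877792, 962571055222123691414819409771970592, 982134331149196916848982203999305760, 969223508477797508009485017507053600, 984076628145453245054117117809803296, 967245399870776688315609714097963040, 966273766038144300211841176966873120, 973001842969189728748868071892566048, 964568192192786429819549379874963488, 972434291699668814096336427006641184, 975354635540339156191227561498493984, 981493791035034042311865010661508128,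 965876376176710813449685691979416608, 967808889114777328653557654606070816, 974417045151256171238762148303291424, 962531741252923543313518575080817696, 963955192730199845796036410746782752, 965246890165736009736356715589355552, 969852439484254754509860925335521312, 972932111411285522547004812712626208, 967762008827156065747442177669482528, 966647147312550362262553289495693344, 973644892453930826191055284001622048, 968857831455515482223705517320685600, 975001419139280808564148490343204896, 970176760161687505077112675680472096, 965217743802123914032639568871803936, 963879149272479759044529865121483808, 975715822418356939135336861837708320, 972349693700215201285774100112362528, 962006281525897706408302126136085536, 968537154239807687515146284522097696, 982021529418017966324684496639282208, 966514024817160734567731215827293216, 974257329572637444797480459831464992, 984036102911248115080220955032835104, 969024486132758659813332891300418592, 964597655164639888112068412019594272, 963664325109153113581401109879641120, 975638510105531350037094770374431776, 981523573003594718468298866901505056]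

theorem L72_ok : ∀ c ∈ L72, isPerm c = true ∧ isAut c = true ∧ img c D0 = D0 ∧ ap c 23 = 23 ∧
    ap c 0 = 0 ∧ ap c 1 = 1 := by decide +kernel

theorem L72_transB : ((List.range 24).all fun j0 => (List.range 24).all fun j1 =>
    !(D0.testBit j0 && D0.testBit j1 && (j0 != j1) && (j0 != 23) && (j0 != 0) && (j0 != 1) &&
      (j1 != 23) && (j1 != 0) && (j1 != 1)) ||
      L72.any (fun c => ap c 2 == j0 && ap c 3 == j1)) = true := by decide +kernel

theorem idx_ne {x : Equiv.Perm GolayPt} {i k : ℕ} (hi : i < 24) (hk : k < 24) (hik : i ≠ k)
    (hx : x (pt k) = pt k) : idx (x (pt i)) ≠ k := by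
  intro h
  have h1 : x (pt i) = pt k := by rw [← h, pt_idx]
  rw [← hx] at h1
  have h2 := x.injective h1
  have h3 := congrArg idx h2
  rw [idx_pt i hi, idx_pt k hk] at h3
  exact hik h3

theorem baseS_card : baseL.toFinset.card = 5 := by decide +kernel

theorem mem_L72 {x : Equiv.Perm GolayPt} (hx : x ∈ M24) (hd : x • dec D0 = dec D0)
    (h23 : x (pt 23) = pt 23) (h0 : x (pt 0) = pt 0) (h1 : x (pt 1) = pt 1) :
    ∃ c ∈ L72, x = prm c := by
  have hin : ∀ i, pt i ∈ dec D0 → D0.testBit (idx (x (pt i))) = true := by
    intro i hi
    rw [← mem_dec, ← hd]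
    exact Finset.smul_mem_smul_finset (a := x) hi
  have b2 : pt 2 ∈ dec D0 := base_mem_D0 _ (by simp [baseL])
  have b3 : pt 3 ∈ dec D0 := base_mem_D0 _ (by simp [baseL])
  have hne : idx (x (pt 2)) ≠ idx (x (pt 3)) := by
    intro h
    have h2 := x.injective (idx_injective h)
    have h3 := congrArg idx h2
    rw [idx_pt 2 (by norm_num), idx_pt 3 (by norm_num)] at h3
    norm_num at h3
  have h := List.all_eq_true.mp (List.all_eq_true.mp L72_transB (idx (x (pt 2)))
    (List.mem_range.mpr (idx_lt _))) (idx (x (pt 3))) (List.mem_range.mpr (idx_lt _))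
  have n0 : (idx (x (pt 2)) != idx (x (pt 3))) = true := bne_iff_ne.mpr hne
  have n1 : (idx (x (pt 2)) != 23) = true := bne_iff_ne.mpr
    (idx_ne (x := x) (i := 2) (k := 23) (by norm_num) (by norm_num) (by norm_num) h23)
  have n2 : (idx (x (pt 2)) != 0) = true := bne_iff_ne.mpr
    (idx_ne (x := x) (i := 2) (k := 0) (by norm_num) (by norm_num) (by norm_num) h0)
  have n3 : (idx (x (pt 2)) != 1) = true := bne_iff_ne.mpr
    (idx_ne (x := x) (i := 2) (k := 1) (by norm_num) (by norm_num) (by norm_num) h1)
  have n4 : (idx (x (pt 3)) != 23) = true := bne_iff_ne.mpr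
    (idx_ne (x := x) (i := 3) (k := 23) (by norm_num) (by norm_num) (by norm_num) h23)
  have n5 : (idx (x (pt 3)) != 0) = true := bne_iff_ne.mpr
    (idx_ne (x := x) (i := 3) (k := 0) (by norm_num) (by norm_num) (by norm_num) h0)
  have n6 : (idx (x (pt 3)) != 1) = true := bne_iff_ne.mpr
    (idx_ne (x := x) (i := 3) (k := 1) (by norm_num) (by norm_num) (by norm_num) h1)
  rw [hin 2 b2, hin 3 b3, n0, n1, n2, n3, n4, n5, n6] at h
  simp only [Bool.and_self, Bool.not_true, Bool.false_or, List.any_eq_true, Bool.and_eq_true,
    beq_iff_eq] at h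
  obtain ⟨c, hc, e2, e3⟩ := h
  obtain ⟨c1, c2, c3, c4, c5, c6⟩ := L72_ok c hc
  refine ⟨c, hc, ?_⟩
  have hone : (prm c)⁻¹ * x = 1 := by
    apply eq_one_of_fix5_dod D0_mem (M24.mul_mem (M24.inv_mem (prm_mem_M24 c2)) hx) ?_
      (S := baseL.toFinset) ?_ (by rw [baseS_card]) ?_
    · rw [mul_smul, hd, inv_smul_eq_iff, smul_dec c1, c3]
    · intro p hp
      exact base_mem_D0 p (List.mem_toFinset.mp hp)
    · intro p hp
      rw [Equiv.Perm.mul_apply, Equiv.Perm.inv_eq_iff_eq]
      have hp' := List.mem_toFinset.mp hp
      simp only [baseL, List.mem_cons, List.not_mem_nil, or_false] at hp'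
      rcases hp' with rfl | rfl | rfl | rfl | rfl
      · rw [h23, prm_pt c1 (by norm_num), c4]
      · rw [h0, prm_pt c1 (by norm_num), c5]
      · rw [h1, prm_pt c1 (by norm_num), c6]
      · rw [prm_pt c1 (by norm_num), e2, pt_idx]
      · rw [prm_pt c1 (by norm_num), e3, pt_idx]
  have := congrArg (fun z => prm c * z) hone
  simpa using this

theorem coe_prm {c : ℕ} (h : isPerm c = true) : ⇑(prm c) = pfun c := funext (prm_apply h)

theorem pow_eq_one_iff {c : ℕ} (h : isPerm c = true) (k : ℕ) :
    prm c ^ k = 1 ↔ ∀ p, (pfun c)^[k] p = p := by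
  rw [Equiv.ext_iff, ← coe_prm h, Equiv.Perm.iterate_eq_pow]
  rfl

theorem B1 : ∀ c ∈ L72, (∀ p, (pfun c)^[9] p = p) → ∀ p, (pfun c)^[3] p = p := by decide +kernel
theorem B5 : ∀ c ∈ L72, (∀ p, (pfun c)^[8] p = p) → ∀ p, (pfun c)^[4] p = p := by decide +kernel

def L9 : List ℕ := L72.filter fun c => decide (∀ p, (pfun c)^[3] p = p)
theorem L9_len : L9.length = 9 := by decide +kernel

def I9 : List ℕ := L72.filter fun c => decide (∀ p, (pfun c)^[2] p = p) && decide (∃ p, pfun c p ≠ p)
theorem B4 : ∀ c ∈ I9, ∀ c' ∈ I9, (∀ p, pfun c (pfun c' p) = pfun c' (pfun c p)) → c = c' := by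
  decide +kernel

theorem A1 {c : ℕ} (hc : c ∈ L72) (h : prm c ^ 9 = 1) : prm c ^ 3 = 1 := by
  have c1 := (L72_ok c hc).1
  rw [pow_eq_one_iff c1] at h ⊢
  exact B1 c hc h

theorem A5 {c : ℕ} (hc : c ∈ L72) (h : prm c ^ 8 = 1) : prm c ^ 4 = 1 := by
  have c1 := (L72_ok c hc).1
  rw [pow_eq_one_iff c1] at h ⊢
  exact B5 c hc h

theorem A2 {c : ℕ} (hc : c ∈ L72) (h : prm c ^ 3 = 1) : c ∈ L9 := by
  have c1 := (L72_ok c hc).1
  rw [pow_eq_one_iff c1] at h
  exact List.mem_filter.mpr ⟨hc, decide_eq_true h⟩

theorem mem_I9 {c : ℕ} (hc : c ∈ L72) (h : prm c ^ 2 = 1) (h1 : prm c ≠ 1) : c ∈ I9 := by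
  have c1 := (L72_ok c hc).1
  rw [pow_eq_one_iff c1] at h
  refine List.mem_filter.mpr ⟨hc, ?_⟩
  rw [Bool.and_eq_true]
  refine ⟨decide_eq_true h, decide_eq_true ?_⟩
  by_contra hcon
  push Not at hcon
  apply h1
  ext p
  rw [prm_apply c1, hcon p]; rfl

theorem A4 {c c' : ℕ} (hc : c ∈ L72) (hc' : c' ∈ L72) (h : prm c ^ 2 = 1) (h' : prm c' ^ 2 = 1)
    (h1 : prm c ≠ 1) (h1' : prm c' ≠ 1) (hcomm : prm c * prm c' = prm c' * prm c) : c = c' := by
  have c1 := (L72_ok c hc).1
  have c1' := (L72_ok c' hc').1
  apply B4 c (mem_I9 hc h h1) c' (mem_I9 hc' h' h1')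
  intro p
  have := congrArg (fun f => f p) hcomm
  simp only [Equiv.Perm.mul_apply, prm_apply c1, prm_apply c1'] at this
  exact this

end Cfsg.Agent.Lib.Helper3_M9a
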