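import Mathlib
import Cfsg.Agent.S0016

/-!
# helper3: structure of a group of order 72 from elementwise data
-/

set_option autoImplicit false
set_option linter.unusedSectionVars false
set_option linter.style.haveILetI false

namespace Cfsg.Agent.Lib.Helper3_M9b

theorem fac3 : (72 : ℕ).factorization 3 = 2 := by
  have : (72 : ℕ) = 3 ^ 2 * 8 := by norm_num
  rw [this, Nat.factorization_mul (by norm_num) (by norm_num), Nat.Prime.factorization_pow (by norm_num)]
  simp [Nat.factorization_eq_zero_of_not_dvd (show ¬ 3 ∣ 8 by norm_num)]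

theorem fac2 : (72 : ℕ).factorization 2 = 3 := by
  have : (72 : ℕ) = 2 ^ 3 * 9 := by norm_num
  rw [this, Nat.factorization_mul (by norm_num) (by norm_num), Nat.Prime.factorization_pow (by norm_num)]
  simp [Nat.factorization_eq_zero_of_not_dvd (show ¬ 2 ∣ 9 by norm_num)]

theorem syl3 {G : Type*} [Group G] [Finite G] (hc : Nat.card G = 72)
    (E1 : ∀ x : G, x ^ 9 = 1 → x ^ 3 = 1) (E2 : {x : G | x ^ 3 = 1}.ncard ≤ 9) (Q : Sylow 3 G) :
    (Q : Subgroup G).Normal ∧ Nat.card Q = 9 ∧ ∀ x ∈ (Q : Subgroup G), x ^ 3 = 1 := by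
  haveI : Fact (Nat.Prime 3) := ⟨by norm_num⟩
  have hQ : Nat.card Q = 9 := by
    rw [Sylow.card_eq_multiplicity, hc, fac3]; norm_num
  have h3 : ∀ x ∈ (Q : Subgroup G), x ^ 3 = 1 := by
    intro x hx
    apply E1
    have := Subgroup.orderOf_dvd_natCard (Q : Subgroup G) hx
    rw [hQ] at this
    exact orderOf_dvd_iff_pow_eq_one.mp this
  have hset : ((Q : Subgroup G) : Set G) = {x | x ^ 3 = 1} := by
    apply Set.eq_of_subset_of_ncard_le (fun x hx => h3 x hx) _ (Set.toFinite _)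
    have : ((Q : Subgroup G) : Set G).ncard = 9 := by
      rw [← Nat.card_coe_set_eq]; exact hQ
    rw [this]; exact E2
  refine ⟨⟨?_⟩, hQ, h3⟩
  intro n hn g
  have h1 : n ^ 3 = 1 := h3 n hn
  have h2 : g * n * g⁻¹ ∈ ((Q : Subgroup G) : Set G) := by
    rw [hset]
    change (g * n * g⁻¹) ^ 3 = 1
    rw [conj_pow, h1, mul_one, mul_inv_cancel]
  exact h2

theorem syl2 {G : Type*} [Group G] [Finite G] (hc : Nat.card G = 72)
    (E4 : ∀ x y : G, x ^ 2 = 1 → y ^ 2 = 1 → x ≠ 1 → y ≠ 1 → x * y = y * x → x = y)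
    (E5 : ∀ x : G, x ^ 8 = 1 → x ^ 4 = 1) (P : Sylow 2 G) :
    Nonempty (P ≃* QuaternionGroup 2) := by
  haveI : Fact (Nat.Prime 2) := ⟨by norm_num⟩
  have hP : Nat.card P = 8 := by
    rw [Sylow.card_eq_multiplicity, hc, fac2]; norm_num
  have hPG : IsPGroup 2 P := P.isPGroup'
  haveI : Nontrivial P := by
    rw [← Finite.one_lt_card_iff_nontrivial, hP]; norm_num
  haveI := hPG.center_nontrivial
  obtain ⟨k, hk⟩ := (hPG.to_subgroup (Subgroup.center P)).exists_card_eq
  have hk0 : k ≠ 0 := by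
    rintro rfl
    have h1 : 1 < Nat.card (Subgroup.center P) := Finite.one_lt_card_iff_nontrivial.mpr inferInstance
    rw [hk] at h1; norm_num at h1
  have hdvd : 2 ∣ Nat.card (Subgroup.center P) := by
    rw [hk]; exact dvd_pow_self 2 hk0
  obtain ⟨z, hz⟩ := exists_prime_orderOf_dvd_card' 2 hdvd
  have hz2 : (z : P) ^ 2 = 1 := by
    have := pow_orderOf_eq_one z
    rw [hz] at this
    have h := congrArg Subtype.val this
    simpa using h
  have hz1 : (z : P) ≠ 1 := by
    intro h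
    have : z = 1 := Subtype.ext h
    rw [this, orderOf_one] at hz
    norm_num at hz
  have coe_pow_eq : ∀ (y : P) (m : ℕ), y ^ m = 1 → (y : G) ^ m = 1 := by
    intro y m h
    have h' := congrArg Subtype.val h
    simpa using h'
  have uniq : ∀ y : P, y ≠ 1 → y ^ 2 = 1 → y = (z : P) := by
    intro y hy1 hy2
    apply Subtype.ext
    apply E4 _ _ (coe_pow_eq y 2 hy2) (coe_pow_eq _ 2 hz2)
    · intro h; exact hy1 (Subtype.ext h)
    · intro h; exact hz1 (Subtype.ext h)
    · have := Subgroup.mem_center_iff.mp z.2 y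
      have h' := congrArg Subtype.val this
      simpa using h'
  have hmem : ∀ H : Subgroup P, Nat.card H = 2 → ∀ x, x ∈ H ↔ x = 1 ∨ x = (z : P) := by
    intro H hH x
    have hsq : ∀ y ∈ H, y ^ 2 = 1 := by
      intro y hy
      have := Subgroup.orderOf_dvd_natCard H hy
      rw [hH] at this
      exact orderOf_dvd_iff_pow_eq_one.mp this
    constructor
    · intro hx
      by_cases h1 : x = 1
      · exact Or.inl h1
      · exact Or.inr (uniq x h1 (hsq x hx))
    · rintro (rfl | rfl)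
      · exact H.one_mem
      · have hne : H ≠ ⊥ := by
          rintro rfl
          rw [Subgroup.card_bot] at hH
          norm_num at hH
        obtain ⟨y, hy⟩ := Subgroup.ne_bot_iff_exists_ne_one.mp hne
        have hy1 : (y : P) ≠ 1 := fun h => hy (Subtype.ext h)
        rw [← uniq y hy1 (hsq y y.2)]
        exact y.2
  have huniq : ∀ H K : Subgroup P, Nat.card H = 2 → Nat.card K = 2 → H = K := by
    intro H K hH hK
    ext x
    rw [hmem H hH, hmem K hK]
  rcases Cfsg.Agent.S0016.result 2 hPG huniq with hcyc | ⟨_, n, ⟨e⟩⟩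
  · exfalso
    obtain ⟨g, hg⟩ := hcyc.exists_generator
    have ho : orderOf g = 8 := by rw [orderOf_eq_card_of_forall_mem_zpowers hg, hP]
    have h8 : g ^ 8 = 1 := by rw [← ho]; exact pow_orderOf_eq_one g
    have h4 := E5 _ (coe_pow_eq g 8 h8)
    have h4' : g ^ 4 = 1 := by
      apply Subtype.ext
      simpa using h4
    have := orderOf_dvd_of_pow_eq_one h4'
    rw [ho] at this
    norm_num at this
  · have hcard := Nat.card_congr e.toEquiv
    rw [hP, Nat.card_eq_fintype_card, QuaternionGroup.card] at hcard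
    have h2 : 2 ^ n = 2 := by omega
    rw [h2] at e
    exact ⟨e⟩

theorem struct72 {G : Type*} [Group G] [Finite G] (hc : Nat.card G = 72)
    (E1 : ∀ x : G, x ^ 9 = 1 → x ^ 3 = 1) (E2 : {x : G | x ^ 3 = 1}.ncard ≤ 9)
    (E4 : ∀ x y : G, x ^ 2 = 1 → y ^ 2 = 1 → x ≠ 1 → y ≠ 1 → x * y = y * x → x = y)
    (E5 : ∀ x : G, x ^ 8 = 1 → x ^ 4 = 1) :
    (∀ Q : Sylow 3 G, (Q : Subgroup G).Normal ∧ Nat.card Q = 9 ∧
      ∀ x ∈ (Q : Subgroup G), x ^ 3 = 1) ∧
    ∀ P : Sylow 2 G, Nonempty (P ≃* QuaternionGroup 2) :=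
  ⟨fun Q => syl3 hc E1 E2 Q, fun P => syl2 hc E4 E5 P⟩

end Cfsg.Agent.Lib.Helper3_M9b
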