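import Mathlib
import Cfsg.Agent.Lib.Helper3_M9a
import Cfsg.Agent.Lib.Helper3_M9b

/-!
# helper3: structure of the stabiliser of a dodecad and three of its points
-/

set_option autoImplicit false
set_option linter.unusedSectionVars false
set_option linter.constructorNameAsVariable false

namespace Cfsg.Agent.Lib.Helper3_M9c

open Cfsg Cfsg.Agent.Lib.Helper3_Golay Cfsg.Agent.Lib.Helper3_Golay2 Cfsg.Agent.Lib.Helper3_Golay3
open Cfsg.Agent.Lib.Helper3_M24a Cfsg.Agent.Lib.Helper3_M24c Cfsg.Agent.Lib.Helper3_M24d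
open Cfsg.Agent.Lib.Helper3_Hex Cfsg.Agent.Lib.Helper3_Dod3 Cfsg.Agent.Lib.Helper3_M9a
open Cfsg.Agent.Lib.Helper3_M9b
open scoped Pointwise

theorem main (d : Finset GolayPt) (hd : d ∈ dodecads) (p q r : GolayPt) (hp : p ∈ d) (hq : q ∈ d)
    (hr : r ∈ d) (hpq : p ≠ q) (hpr : p ≠ r) (hqr : q ≠ r) :
    (∀ Q : Sylow 3 ↥(MulAction.stabilizer M24 d ⊓ MulAction.stabilizer M24 p ⊓
        MulAction.stabilizer M24 q ⊓ MulAction.stabilizer M24 r),
      (Q : Subgroup ↥(MulAction.stabilizer M24 d ⊓ MulAction.stabilizer M24 p ⊓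
        MulAction.stabilizer M24 q ⊓ MulAction.stabilizer M24 r)).Normal ∧ Nat.card ↥Q = 9 ∧
      ∀ x ∈ (Q : Subgroup ↥(MulAction.stabilizer M24 d ⊓ MulAction.stabilizer M24 p ⊓
        MulAction.stabilizer M24 q ⊓ MulAction.stabilizer M24 r)), x ^ 3 = 1) ∧
    ∀ P : Sylow 2 ↥(MulAction.stabilizer M24 d ⊓ MulAction.stabilizer M24 p ⊓
        MulAction.stabilizer M24 q ⊓ MulAction.stabilizer M24 r),
      Nonempty (↥P ≃* QuaternionGroup 2) := by
  obtain ⟨g, hg, gp, gq, gr, gd⟩ := dod3_nf hd hp hq hr hpq hpr hqr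
  have hcard := card_K3 hd hp hq hr hpq hpr hqr
  generalize hK : (MulAction.stabilizer M24 d ⊓ MulAction.stabilizer M24 p ⊓
        MulAction.stabilizer M24 q ⊓ MulAction.stabilizer M24 r) = K at hcard ⊢
  let φ : ↥K →* Equiv.Perm GolayPt := M24.subtype.comp K.subtype
  have φinj : Function.Injective φ :=
    (Subgroup.subtype_injective M24).comp (Subgroup.subtype_injective K)
  have gdi : g⁻¹ • d = dec D0 := by rw [← gd, inv_smul_smul]
  have nf : ∀ X : ↥K, ∃ c ∈ L72, φ X = g * prm c * g⁻¹ := by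
    intro X
    have hX : X.1 ∈ MulAction.stabilizer M24 d ⊓ MulAction.stabilizer M24 p ⊓
        MulAction.stabilizer M24 q ⊓ MulAction.stabilizer M24 r := hK ▸ X.2
    obtain ⟨h1, h2, h3, h4⟩ := mem_K3.mp hX
    have hxM : X.1.1 ∈ M24 := X.1.2
    obtain ⟨c, hc, e⟩ := mem_L72 (x := g⁻¹ * X.1.1 * g)
      (M24.mul_mem (M24.mul_mem (M24.inv_mem hg) hxM) hg)
      (by rw [mul_smul, mul_smul, gd, h1, gdi])
      (by rw [Equiv.Perm.mul_apply, Equiv.Perm.mul_apply, gp, h2, Equiv.Perm.inv_eq_iff_eq, gp])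
      (by rw [Equiv.Perm.mul_apply, Equiv.Perm.mul_apply, gq, h3, Equiv.Perm.inv_eq_iff_eq, gq])
      (by rw [Equiv.Perm.mul_apply, Equiv.Perm.mul_apply, gr, h4, Equiv.Perm.inv_eq_iff_eq, gr])
    refine ⟨c, hc, ?_⟩
    rw [← e]
    change X.1.1 = _
    group
  have powiff : ∀ (X : ↥K) (c k : ℕ), φ X = g * prm c * g⁻¹ → (X ^ k = 1 ↔ prm c ^ k = 1) := by
    intro X c k e
    rw [← φinj.eq_iff, map_pow, map_one, e, conj_pow, conj_eq_one_iff]
  apply struct72 hcard
  · intro X h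
    obtain ⟨c, hc, e⟩ := nf X
    rw [powiff X c 9 e] at h
    rw [powiff X c 3 e]
    exact A1 hc h
  · classical
    let T : Finset (Equiv.Perm GolayPt) := L9.toFinset.image (fun c => g * prm c * g⁻¹)
    have h1 : {X : ↥K | X ^ 3 = 1}.ncard ≤ (T : Set (Equiv.Perm GolayPt)).ncard := by
      apply Set.ncard_le_ncard_of_injOn φ _ (φinj.injOn) (Finset.finite_toSet T)
      intro X hX
      obtain ⟨c, hc, e⟩ := nf X
      have hX' : X ^ 3 = 1 := hX
      rw [powiff X c 3 e] at hX'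
      rw [Finset.mem_coe, Finset.mem_image]
      exact ⟨c, List.mem_toFinset.mpr (A2 hc hX'), e.symm⟩
    rw [Set.ncard_coe_finset] at h1
    calc _ ≤ T.card := h1
      _ ≤ L9.toFinset.card := Finset.card_image_le
      _ ≤ L9.length := List.toFinset_card_le _
      _ = 9 := L9_len
  · intro X Y hX hY hX1 hY1 hXY
    obtain ⟨c, hc, e⟩ := nf X
    obtain ⟨c', hc', e'⟩ := nf Y
    rw [powiff X c 2 e] at hX
    rw [powiff Y c' 2 e'] at hY
    have n1 : prm c ≠ 1 := by
      intro h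
      apply hX1
      have := (powiff X c 1 e).mpr (by rw [pow_one, h])
      rwa [pow_one] at this
    have n2 : prm c' ≠ 1 := by
      intro h
      apply hY1
      have := (powiff Y c' 1 e').mpr (by rw [pow_one, h])
      rwa [pow_one] at this
    have hcomm : prm c * prm c' = prm c' * prm c := by
      have h1 := congrArg φ hXY
      rw [map_mul, map_mul, e, e'] at h1
      have h2 := congrArg (fun z => g⁻¹ * z * g) h1
      simpa [mul_assoc] using h2
    apply φinj
    rw [e, e', A4 hc hc' hX hY n1 n2 hcomm]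
  · intro X h
    obtain ⟨c, hc, e⟩ := nf X
    rw [powiff X c 8 e] at h
    rw [powiff X c 4 e]
    exact A5 hc h

end Cfsg.Agent.Lib.Helper3_M9c
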