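import Mathlib
import Cfsg.Agent.Lib.Helper3_Hex

/-!
# helper3: distances in the octad graph
-/

set_option autoImplicit false
set_option linter.unusedSectionVars false
set_option linter.constructorNameAsVariable false

namespace Cfsg.Agent.Lib.Helper3_OGraph

open Cfsg Cfsg.Agent.Lib.Helper3_Golay Cfsg.Agent.Lib.Helper3_Golay2 Cfsg.Agent.Lib.Helper3_Golay3
open Cfsg.Agent.Lib.Helper3_M24a Cfsg.Agent.Lib.Helper3_PermChain Cfsg.Agent.Lib.Helper3_M24b
open Cfsg.Agent.Lib.Helper3_M24c Cfsg.Agent.Lib.Helper3_M24d Cfsg.Agent.Lib.Helper3_M24e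
open Cfsg.Agent.Lib.Helper3_M24f Cfsg.Agent.Lib.Helper3_M24g Cfsg.Agent.Lib.Helper3_M24h
open Cfsg.Agent.Lib.Helper3_Hex
open scoped Pointwise

theorem oct_of_mask {m : ℕ} (h1 : code m = true) (h2 : popN 24 m = 8) : dec m ∈ octads :=
  ⟨dec_mem_of_code h1, by rw [card_dec, h2]⟩

/-- normal form for a pair of octads -/
theorem pair_nf {o o' : Finset GolayPt} (ho : o ∈ octads) (ho' : o' ∈ octads) {m : ℕ}
    (hm : dec m ∈ octads) (hk : (dec O0 ∩ dec m).card = (o ∩ o').card) :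
    ∃ g ∈ M24, g • dec O0 = o ∧ g • dec m = o' := by
  obtain ⟨g, hg, rfl⟩ := trans_octads O0_mem ho
  have h1 : g⁻¹ • o' ∈ octads := smul_mem_octads (M24.inv_mem hg) ho'
  have h2 : g⁻¹ • o' ∈ MulAction.orbit (MulAction.stabilizer M24 (dec O0)) (dec m) := by
    rw [orbit_stab_oct O0_mem hm]
    refine ⟨h1, ?_⟩
    rw [hk, ← Finset.card_smul_finset g⁻¹ (g • dec O0 ∩ o'), Finset.smul_finset_inter,
      inv_smul_smul]
  obtain ⟨⟨⟨h, hh⟩, hst⟩, hho⟩ := h2
  have hst' : h • dec O0 = dec O0 := hst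
  have hho' : h • dec m = g⁻¹ • o' := hho
  refine ⟨g * h, M24.mul_mem hg hh, ?_, ?_⟩
  · rw [mul_smul, hst']
  · rw [mul_smul, hho', smul_inv_smul]

theorem disj_smul {g : Equiv.Perm GolayPt} {a b : ℕ} (h : a &&& b = 0) :
    Disjoint (g • dec a) (g • dec b) := by
  rw [Finset.disjoint_iff_inter_eq_empty, ← Finset.smul_finset_inter, ← dec_and, h]
  have : dec 0 = ∅ := by decide +kernel
  rw [this, Finset.smul_finset_empty]

abbrev OG := blockGraph octads

theorem adj_iff {a b : octads} : OG.Adj a b ↔ Disjoint (a : Finset GolayPt) (b : Finset GolayPt) := by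
  change (SimpleGraph.fromRel fun b c : octads =>
    Disjoint (b : Finset GolayPt) (c : Finset GolayPt)).Adj a b ↔ _
  rw [SimpleGraph.fromRel_adj]
  constructor
  · rintro ⟨_, h | h⟩
    · exact h
    · exact h.symm
  · intro h
    refine ⟨?_, Or.inl h⟩
    intro hab
    rw [hab] at h
    have h0 := Finset.disjoint_self_iff_empty _ |>.mp h
    have h8 := b.2.2
    rw [h0] at h8
    simp at h8

theorem inter_cases {o o' : Finset GolayPt} (ho : o ∈ octads) (ho' : o' ∈ octads) (hne : o ≠ o') :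
    (o ∩ o').card = 0 ∨ (o ∩ o').card = 2 ∨ (o ∩ o').card = 4 := by
  have h1 := card_symmDiff_add o o'
  have h2 := card_cases (symmDiff_mem ho.1 ho'.1)
  rw [ho.2, ho'.2] at h1
  have h3 : (symmDiff o o').card ≠ 0 := by
    intro h
    rw [Finset.card_eq_zero] at h
    exact hne (symmDiff_eq_bot.mp h)
  omega

theorem exists_common {o o' : Finset GolayPt} (ho : o ∈ octads) (ho' : o' ∈ octads)
    (h4 : (o ∩ o').card = 4) : ∃ a ∈ octads, Disjoint o a ∧ Disjoint a o' := by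
  obtain ⟨g, hg, rfl, rfl⟩ := pair_nf ho ho' (m := 13062145)
    (oct_of_mask (by decide +kernel) (by decide +kernel))
    (by rw [h4, ← dec_and, card_dec]; decide +kernel)
  exact ⟨g • dec 3704512, smul_mem_octads hg (oct_of_mask (by decide +kernel) (by decide +kernel)),
    disj_smul (by decide +kernel), disj_smul (by decide +kernel)⟩

theorem exists_path3 {o o' : Finset GolayPt} (ho : o ∈ octads) (ho' : o' ∈ octads)
    (h2 : (o ∩ o').card = 2) :
    ∃ a ∈ octads, ∃ b ∈ octads, Disjoint o a ∧ Disjoint a b ∧ Disjoint b o' := by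
  obtain ⟨g, hg, rfl, rfl⟩ := pair_nf ho ho' (m := 4845570)
    (oct_of_mask (by decide +kernel) (by decide +kernel))
    (by rw [h2, ← dec_and, card_dec]; decide +kernel)
  exact ⟨g • dec 6889680, smul_mem_octads hg (oct_of_mask (by decide +kernel) (by decide +kernel)),
    g • dec 8783649, smul_mem_octads hg (oct_of_mask (by decide +kernel) (by decide +kernel)),
    disj_smul (by decide +kernel), disj_smul (by decide +kernel), disj_smul (by decide +kernel)⟩

theorem no_common {o o' a : Finset GolayPt} (ho : o ∈ octads) (ho' : o' ∈ octads)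
    (h2 : (o ∩ o').card = 2) (ha : a ∈ octads) (h1 : Disjoint o a) (h3 : Disjoint a o') : False := by
  have hd := symmDiff_oct_oct ho ho' h2
  have h0 : (a ∩ symmDiff o o').card = 0 := by
    rw [Finset.card_eq_zero, ← Finset.disjoint_iff_inter_eq_empty, Finset.disjoint_left]
    intro x hxa hx
    rcases Finset.mem_symmDiff.mp hx with ⟨h, _⟩ | ⟨h, _⟩
    · exact Finset.disjoint_left.mp h1 h hxa
    · exact Finset.disjoint_left.mp h3 hxa h
  rcases inter_oct_dod ha hd with h | h | h <;> omega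

theorem dist_facts (o o' : Finset GolayPt) (ho : o ∈ octads) (ho' : o' ∈ octads) (hne : o ≠ o') :
    OG.Reachable ⟨o, ho⟩ ⟨o', ho'⟩ ∧
    ((o ∩ o').card = 0 → OG.dist ⟨o, ho⟩ ⟨o', ho'⟩ = 1) ∧
    ((o ∩ o').card = 4 → OG.dist ⟨o, ho⟩ ⟨o', ho'⟩ = 2) ∧
    ((o ∩ o').card = 2 → OG.dist ⟨o, ho⟩ ⟨o', ho'⟩ = 3) := by
  have hne' : (⟨o, ho⟩ : octads) ≠ ⟨o', ho'⟩ := fun h => hne (congrArg Subtype.val h)
  have hadj : OG.Adj ⟨o, ho⟩ ⟨o', ho'⟩ ↔ (o ∩ o').card = 0 := by
    rw [adj_iff, Finset.card_eq_zero, Finset.disjoint_iff_inter_eq_empty]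
  have c0 : (o ∩ o').card = 0 → OG.dist ⟨o, ho⟩ ⟨o', ho'⟩ = 1 := fun h =>
    SimpleGraph.dist_eq_one_iff_adj.mpr (hadj.mpr h)
  have w4 : (o ∩ o').card = 4 → ∃ p : OG.Walk ⟨o, ho⟩ ⟨o', ho'⟩, p.length = 2 := by
    intro h
    obtain ⟨a, ha, h1, h2⟩ := exists_common ho ho' h
    exact ⟨SimpleGraph.Walk.cons (v := ⟨a, ha⟩) (adj_iff.mpr h1)
      (SimpleGraph.Walk.cons (adj_iff.mpr h2) SimpleGraph.Walk.nil), rfl⟩
  have w2 : (o ∩ o').card = 2 → ∃ p : OG.Walk ⟨o, ho⟩ ⟨o', ho'⟩, p.length = 3 := by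
    intro h
    obtain ⟨a, ha, b, hb, h1, h2, h3⟩ := exists_path3 ho ho' h
    exact ⟨SimpleGraph.Walk.cons (v := ⟨a, ha⟩) (adj_iff.mpr h1)
      (SimpleGraph.Walk.cons (v := ⟨b, hb⟩) (adj_iff.mpr h2)
      (SimpleGraph.Walk.cons (adj_iff.mpr h3) SimpleGraph.Walk.nil)), rfl⟩
  have hreach : OG.Reachable ⟨o, ho⟩ ⟨o', ho'⟩ := by
    rcases inter_cases ho ho' hne with h | h | h
    · exact (hadj.mpr h).reachable
    · obtain ⟨p, _⟩ := w2 h; exact ⟨p⟩
    · obtain ⟨p, _⟩ := w4 h; exact ⟨p⟩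
  have hpos := hreach.pos_dist_of_ne hne'
  refine ⟨hreach, c0, ?_, ?_⟩
  · intro h
    obtain ⟨p, hp⟩ := w4 h
    have h1 := SimpleGraph.dist_le p
    have h2 : OG.dist ⟨o, ho⟩ ⟨o', ho'⟩ ≠ 1 := by
      intro h3
      have := hadj.mp (SimpleGraph.dist_eq_one_iff_adj.mp h3)
      omega
    omega
  · intro h
    obtain ⟨p, hp⟩ := w2 h
    have h1 := SimpleGraph.dist_le p
    have h2 : OG.dist ⟨o, ho⟩ ⟨o', ho'⟩ ≠ 1 := by
      intro h3
      have := hadj.mp (SimpleGraph.dist_eq_one_iff_adj.mp h3)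
      omega
    have h3 : OG.dist ⟨o, ho⟩ ⟨o', ho'⟩ ≠ 2 := by
      intro h3
      obtain ⟨q, hq⟩ := hreach.exists_walk_length_eq_dist
      rw [h3] at hq
      match q, hq with
      | SimpleGraph.Walk.cons (v := a) e1 (SimpleGraph.Walk.cons e2 SimpleGraph.Walk.nil), _ =>
        exact no_common ho ho' h a.2 (adj_iff.mp e1) (adj_iff.mp e2)
    omega

theorem main (o o' : Finset GolayPt) (ho : o ∈ octads) (ho' : o' ∈ octads) (hne : o ≠ o') :
    (blockGraph octads).Connected ∧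
    ((blockGraph octads).dist ⟨o, ho⟩ ⟨o', ho'⟩ = 1 ↔ (o ∩ o').card = 0) ∧
    ((blockGraph octads).dist ⟨o, ho⟩ ⟨o', ho'⟩ = 2 ↔ (o ∩ o').card = 4) ∧
    ((blockGraph octads).dist ⟨o, ho⟩ ⟨o', ho'⟩ = 3 ↔ (o ∩ o').card = 2) := by
  obtain ⟨_, h0, h4, h2⟩ := dist_facts o o' ho ho' hne
  have hc := inter_cases ho ho' hne
  refine ⟨?_, ⟨?_, h0⟩, ⟨?_, h4⟩, ⟨?_, h2⟩⟩
  · have : Nonempty octads := ⟨⟨o, ho⟩⟩
    refine SimpleGraph.Connected.mk ?_
    intro a b
    by_cases hab : a = b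
    · rw [hab]
    · exact (dist_facts a.1 b.1 a.2 b.2 (fun h => hab (Subtype.ext h))).1
  · intro h
    rcases hc with e | e | e
    · exact e
    · rw [h2 e] at h; omega
    · rw [h4 e] at h; omega
  · intro h
    rcases hc with e | e | e
    · rw [h0 e] at h; omega
    · rw [h2 e] at h; omega
    · exact e
  · intro h
    rcases hc with e | e | e
    · rw [h0 e] at h; omega
    · exact e
    · rw [h4 e] at h; omega

end Cfsg.Agent.Lib.Helper3_OGraph
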