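import Mathlib
import Cfsg.Agent.Lib.Helper3_ConjB

/-!
# helper3: subgroups of order three in `M24`
-/

set_option autoImplicit false
set_option linter.unusedSectionVars false

namespace Cfsg.Agent.Lib.Helper3_Ord3

open Cfsg Cfsg.Agent.Lib.Helper3_M24a Cfsg.Agent.Lib.Helper3_Conj Cfsg.Agent.Lib.Helper3_ConjB
open scoped Pointwise

/-- the common fixed points of a subgroup -/
abbrev FixS (X : Subgroup ↥M24) : Set GolayPt :=
  {p : GolayPt | ∀ x ∈ X, ((x : ↥M24) : Equiv.Perm GolayPt) p = p}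

theorem exists_gen {X : Subgroup ↥M24} (hX : Nat.card X = 3) :
    ∃ x : ↥M24, orderOf x = 3 ∧ X = Subgroup.zpowers x := by
  have : Fact (Nat.Prime 3) := ⟨by norm_num⟩
  have hnt : Nontrivial X := Finite.one_lt_card_iff_nontrivial.mp (by rw [hX]; norm_num)
  obtain ⟨x, hx⟩ := exists_ne (1 : X)
  have htop := zpowers_eq_top_of_prime_card hX hx
  have ho : orderOf x = 3 := by
    rw [← Nat.card_zpowers, htop, Subgroup.card_top, hX]
  refine ⟨x.1, by rw [Subgroup.orderOf_coe]; exact ho, ?_⟩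
  apply le_antisymm
  · intro y hy
    have : (⟨y, hy⟩ : X) ∈ Subgroup.zpowers x := by rw [htop]; trivial
    obtain ⟨k, hk⟩ := Subgroup.mem_zpowers_iff.mp this
    refine Subgroup.mem_zpowers_iff.mpr ⟨k, ?_⟩
    have := congrArg Subtype.val hk
    simpa using this
  · rw [Subgroup.zpowers_le]
    exact x.2

theorem fixS_zpowers (x : ↥M24) :
    FixS (Subgroup.zpowers x) = ↑(Finset.univ.filter fun p => (x : Equiv.Perm GolayPt) p = p) := by
  ext p
  simp only [Set.mem_ofPred_eq, Finset.coe_filter, Finset.mem_univ, true_and]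
  constructor
  · intro h
    exact h x (Subgroup.mem_zpowers x)
  · intro h y hy
    obtain ⟨k, rfl⟩ := Subgroup.mem_zpowers_iff.mp hy
    have h1 : ((x ^ k : ↥M24) : Equiv.Perm GolayPt) = (x : Equiv.Perm GolayPt) ^ k := by simp
    rw [h1]
    exact Equiv.Perm.zpow_apply_eq_self_of_apply_eq_self h k

theorem ncard_fixS (x : ↥M24) : (FixS (Subgroup.zpowers x)).ncard =
    (Finset.univ.filter fun p => (x : Equiv.Perm GolayPt) p = p).card := by
  rw [fixS_zpowers, Set.ncard_coe_finset]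

theorem card_fix_of_fixed {x : ↥M24} (h3 : orderOf x = 3)
    (hx : ∃ p, (x : Equiv.Perm GolayPt) p = p) :
    (Finset.univ.filter fun p => (x : Equiv.Perm GolayPt) p = p).card = 6 := by
  obtain ⟨c, _, hcc⟩ := ord3_fixed_nf x.2 (by rw [Subgroup.orderOf_coe]; exact h3) hx
  rw [fix_conj hcc, Finset.card_smul_finset, card_fix3A]

theorem card_fix_of_free {x : ↥M24} (hx : ¬ ∃ p, (x : Equiv.Perm GolayPt) p = p) :
    (Finset.univ.filter fun p => (x : Equiv.Perm GolayPt) p = p).card = 0 := by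
  rw [Finset.card_eq_zero, Finset.filter_eq_empty_iff]
  intro p _ h
  exact hx ⟨p, h⟩

theorem conj_zpowers (k x : ↥M24) :
    MulAut.conj k • Subgroup.zpowers x = Subgroup.zpowers (k * x * k⁻¹) := by
  exact MonoidHom.map_zpowers (MulAut.conj k).toMonoidHom x

theorem main : (∀ X : Subgroup ↥M24, Nat.card X = 3 → (FixS X).ncard = 6 ∨ (FixS X).ncard = 0) ∧
    (∃ X : Subgroup ↥M24, Nat.card X = 3 ∧ (FixS X).ncard = 6) ∧
    (∃ X : Subgroup ↥M24, Nat.card X = 3 ∧ (FixS X).ncard = 0) ∧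
    ∀ X Y : Subgroup ↥M24, Nat.card X = 3 → Nat.card Y = 3 →
      (FixS X).ncard = (FixS Y).ncard → ∃ k : ↥M24, MulAut.conj k • X = Y := by
  refine ⟨?_, ?_, ?_, ?_⟩
  · intro X hX
    obtain ⟨x, h3, rfl⟩ := exists_gen hX
    rw [ncard_fixS]
    by_cases hx : ∃ p, (x : Equiv.Perm GolayPt) p = p
    · left; exact card_fix_of_fixed h3 hx
    · right; exact card_fix_of_free hx
  · refine ⟨Subgroup.zpowers ⟨prm r3A, m3A⟩, ?_, ?_⟩
    · rw [Nat.card_zpowers, ← Subgroup.orderOf_coe]; exact o3A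
    · rw [ncard_fixS]; exact card_fix3A
  · refine ⟨Subgroup.zpowers ⟨prm r3B, m3B⟩, ?_, ?_⟩
    · rw [Nat.card_zpowers, ← Subgroup.orderOf_coe]; exact o3B
    · rw [ncard_fixS]
      apply card_fix_of_free
      rintro ⟨p, hp⟩
      exact free3B p hp
  · intro X Y hX hY hXY
    obtain ⟨x, hx3, rfl⟩ := exists_gen hX
    obtain ⟨y, hy3, rfl⟩ := exists_gen hY
    rw [ncard_fixS, ncard_fixS] at hXY
    have key : ∀ (c1 c2 t : Equiv.Perm GolayPt), c1 ∈ M24 → c2 ∈ M24 →
        c1 * x.1 * c1⁻¹ = t → c2 * y.1 * c2⁻¹ = t →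
        ∃ k : ↥M24, MulAut.conj k • Subgroup.zpowers x = Subgroup.zpowers y := by
      intro c1 c2 t h1 h2 e1 e2
      refine ⟨⟨c2⁻¹ * c1, M24.mul_mem (M24.inv_mem h2) h1⟩, ?_⟩
      rw [conj_zpowers]
      congr 1
      apply Subtype.ext
      change c2⁻¹ * c1 * x.1 * (c2⁻¹ * c1)⁻¹ = y.1
      have : c2⁻¹ * c1 * x.1 * (c2⁻¹ * c1)⁻¹ = c2⁻¹ * (c1 * x.1 * c1⁻¹) * c2 := by group
      rw [this, e1, ← e2]
      group
    have ox : orderOf x.1 = 3 := by rw [Subgroup.orderOf_coe]; exact hx3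
    have oy : orderOf y.1 = 3 := by rw [Subgroup.orderOf_coe]; exact hy3
    by_cases hx : ∃ p, (x : Equiv.Perm GolayPt) p = p
    · have hy : ∃ p, (y : Equiv.Perm GolayPt) p = p := by
        by_contra hc
        rw [card_fix_of_fixed hx3 hx, card_fix_of_free hc] at hXY
        norm_num at hXY
      obtain ⟨c1, h1, e1⟩ := ord3_fixed_nf x.2 ox hx
      obtain ⟨c2, h2, e2⟩ := ord3_fixed_nf y.2 oy hy
      exact key c1 c2 _ h1 h2 e1 e2
    · have hy : ¬ ∃ p, (y : Equiv.Perm GolayPt) p = p := by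
        intro hc
        rw [card_fix_of_fixed hy3 hc, card_fix_of_free hx] at hXY
        norm_num at hXY
      push Not at hx hy
      obtain ⟨c1, h1, e1⟩ := ord3_free_nf x.2 ox hx
      obtain ⟨c2, h2, e2⟩ := ord3_free_nf y.2 oy hy
      exact key c1 c2 _ h1 h2 e1 e2

end Cfsg.Agent.Lib.Helper3_Ord3
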