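import Mathlib
import Cfsg.Agent.Lib.Helper3_Lead

/-!
# helper3: the punctured code is perfect
-/

set_option autoImplicit false
set_option linter.unusedSectionVars false
set_option linter.constructorNameAsVariable false

namespace Cfsg.Agent.Lib.Helper3_Perf

open Cfsg Cfsg.Agent.Lib.Helper3_Golay Cfsg.Agent.Lib.Helper3_Golay2 Cfsg.Agent.Lib.Helper3_Golay3
open Cfsg.Agent.Lib.Helper3_Irr Cfsg.Agent.Lib.Helper3_Sub24 Cfsg.Agent.Lib.Helper3_Coc
open Cfsg.Agent.Lib.Helper3_Lead
open scoped Pointwise

/-- number of finite points in a set of points -/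
theorem card_some_le (X : Finset GolayPt) :
    (Finset.univ.filter fun x : ZMod 23 => (some x : GolayPt) ∈ X).card ≤ (X.erase none).card := by
  rw [← Finset.card_map ⟨(some : ZMod 23 → GolayPt), Option.some_injective _⟩]
  apply Finset.card_le_card
  intro p hp
  obtain ⟨x, hx, rfl⟩ := Finset.mem_map.mp hp
  exact Finset.mem_erase.mpr ⟨by simp, (Finset.mem_filter.mp hx).2⟩

theorem card_le_some (X : Finset GolayPt) :
    X.card ≤ (Finset.univ.filter fun x : ZMod 23 => (some x : GolayPt) ∈ X).card + 1 := by
  rw [← Finset.card_map ⟨(some : ZMod 23 → GolayPt), Option.some_injective _⟩]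
  have : X ⊆ insert none ((Finset.univ.filter fun x : ZMod 23 => (some x : GolayPt) ∈ X).map
      ⟨(some : ZMod 23 → GolayPt), Option.some_injective _⟩) := by
    intro p hp
    cases p with
    | none => exact Finset.mem_insert_self _ _
    | some x =>
      apply Finset.mem_insert_of_mem
      exact Finset.mem_map.mpr ⟨x, Finset.mem_filter.mpr ⟨Finset.mem_univ _, hp⟩, rfl⟩
  exact le_trans (Finset.card_le_card this) (Finset.card_insert_le _ _)

theorem exists_leader (S : Finset GolayPt) :
    ∃ S' : Finset GolayPt, symmDiff S S' ∈ Sup ∧ (S'.erase none).card ≤ 3 := by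
  obtain ⟨S', h4, hc⟩ := cover4 _ S le_rfl
  by_cases h3 : S'.card ≤ 3
  · exact ⟨S', hc, le_trans (Finset.card_erase_le) h3⟩
  by_cases hn : none ∈ S'
  · refine ⟨S', hc, ?_⟩
    rw [Finset.card_erase_of_mem hn]; omega
  · obtain ⟨b, hb, hsub⟩ := exists_octad (s := insert none S') (by
      rw [Finset.card_insert_of_notMem hn]; omega)
    have hSb : S' ⊆ b := fun y hy => hsub (Finset.mem_insert_of_mem hy)
    have hxb : none ∈ b := hsub (Finset.mem_insert_self _ S')
    have hc4 : (b \ S').card = 4 := by
      rw [Finset.card_sdiff_of_subset hSb, hb.2]; omega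
    have e : symmDiff S' (b \ S') = b := by
      ext y
      simp only [Finset.mem_symmDiff, Finset.mem_sdiff]
      constructor
      · rintro (⟨h, _⟩ | ⟨h, _⟩)
        · exact hSb h
        · exact h.1
      · intro h
        by_cases hy : y ∈ S'
        · exact Or.inl ⟨hy, fun h' => h'.2 hy⟩
        · exact Or.inr ⟨⟨h, hy⟩, hy⟩
    refine ⟨b \ S', ?_, ?_⟩
    · have hb1 : symmDiff S' (b \ S') ∈ Sup := by rw [e]; exact hb.1
      have h1 := symmDiff_mem hc hb1
      have e2 : symmDiff (symmDiff S S') (symmDiff S' (b \ S')) = symmDiff S (b \ S') := by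
        rw [symmDiff_assoc, symmDiff_symmDiff_cancel_left]
      rwa [e2] at h1
    · rw [Finset.card_erase_of_mem (Finset.mem_sdiff.mpr ⟨hxb, hn⟩), hc4]

theorem main (u : ZMod 23 → ZMod 2) :
    ∃! c : ZMod 23 → ZMod 2, c ∈ {u : ZMod 23 → ZMod 2 | ∃ w ∈ golayCode,
      ∀ x : ZMod 23, u x = w (some x)} ∧ hammingDist u c ≤ 3 := by
  let w0 : GolayPt → ZMod 2 := fun p => p.elim 0 u
  obtain ⟨S', hc, h3⟩ := exists_leader (support₂ w0)
  refine ⟨fun x => ind (symmDiff (support₂ w0) S') (some x), ⟨⟨_, ind_mem_code hc, fun _ => rfl⟩, ?_⟩,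
    ?_⟩
  · refine le_trans ?_ (le_trans (card_some_le S') h3)
    rw [hammingDist]
    apply Finset.card_le_card
    intro x hx
    rw [Finset.mem_filter] at hx ⊢
    refine ⟨Finset.mem_univ _, ?_⟩
    by_contra hcon
    apply hx.2
    rw [ind_symmDiff, ind_support]
    have : ind S' (some x) = 0 := by simp [ind, hcon]
    rw [Pi.add_apply, this, add_zero]
    rfl
  · rintro c2 ⟨⟨w2, hw2, hc2⟩, hd2⟩
    set c1 : ZMod 23 → ZMod 2 := fun x => ind (symmDiff (support₂ w0) S') (some x) with hc1
    have hd1 : hammingDist u c1 ≤ 3 := by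
      refine le_trans ?_ (le_trans (card_some_le S') h3)
      rw [hammingDist]
      apply Finset.card_le_card
      intro x hx
      rw [Finset.mem_filter] at hx ⊢
      refine ⟨Finset.mem_univ _, ?_⟩
      by_contra hcon
      apply hx.2
      rw [hc1]
      simp only
      rw [ind_symmDiff, ind_support]
      have : ind S' (some x) = 0 := by simp [ind, hcon]
      rw [Pi.add_apply, this, add_zero]
      rfl
    have h6 : hammingDist c2 c1 ≤ 6 := by
      have := hammingDist_triangle c2 u c1
      rw [hammingDist_comm c2 u] at this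
      omega
    set w1 := ind (symmDiff (support₂ w0) S') with hw1
    have hw1C : w1 ∈ golayCode := ind_mem_code hc
    have hD : support₂ (w2 - w1) ∈ Sup := ⟨_, golayCode.sub_mem hw2 hw1C, rfl⟩
    have hle := card_le_some (support₂ (w2 - w1))
    have hF : (Finset.univ.filter fun x : ZMod 23 => (some x : GolayPt) ∈ support₂ (w2 - w1)).card
        ≤ hammingDist c2 c1 := by
      rw [hammingDist]
      apply Finset.card_le_card
      intro x hx
      rw [Finset.mem_filter] at hx ⊢
      refine ⟨Finset.mem_univ _, ?_⟩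
      have h1 := hx.2
      simp only [support₂, Finset.mem_filter, Finset.mem_univ, true_and, Pi.sub_apply] at h1
      intro heq
      apply h1
      rw [← hc2 x, heq]
      exact sub_self _
    have h0 : (support₂ (w2 - w1)).card = 0 := by
      rcases card_cases hD with h | h | h | h | h <;> omega
    have hz : w2 - w1 = 0 := by
      rw [← ind_support (w2 - w1), Finset.card_eq_zero.mp h0, ind_empty]
    funext x
    rw [hc2 x, sub_eq_zero.mp hz]

end Cfsg.Agent.Lib.Helper3_Perf
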