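import Mathlib
import Cfsg.Agent.Lib.Helper3_Perf
import Cfsg.Agent.Lib.Helper3_Fast

/-!
# helper3: weight distribution of the punctured code
-/

set_option autoImplicit false
set_option linter.unusedSectionVars false
set_option linter.constructorNameAsVariable false

namespace Cfsg.Agent.Lib.Helper3_Punc

open Cfsg Cfsg.Agent.Lib.Helper3_Golay Cfsg.Agent.Lib.Helper3_Golay2 Cfsg.Agent.Lib.Helper3_Golay3
open Cfsg.Agent.Lib.Helper3_Irr Cfsg.Agent.Lib.Helper3_Sub24 Cfsg.Agent.Lib.Helper3_Coc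
open Cfsg.Agent.Lib.Helper3_Lead Cfsg.Agent.Lib.Helper3_Perf Cfsg.Agent.Lib.Helper3_Fast
open scoped Pointwise

abbrev Pn : Set (ZMod 23 → ZMod 2) :=
  {u : ZMod 23 → ZMod 2 | ∃ w ∈ golayCode, ∀ x : ZMod 23, u x = w (some x)}

/-- puncturing the indicator word of a set -/
def f (s : Finset GolayPt) : ZMod 23 → ZMod 2 := fun x => ind s (some x)

theorem card_some_eq (X : Finset GolayPt) :
    (Finset.univ.filter fun x : ZMod 23 => (some x : GolayPt) ∈ X).card = (X.erase none).card := by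
  rw [← Finset.card_map ⟨(some : ZMod 23 → GolayPt), Option.some_injective _⟩]
  congr 1
  ext p
  rw [Finset.mem_map, Finset.mem_erase]
  constructor
  · rintro ⟨x, hx, rfl⟩
    exact ⟨by simp, (Finset.mem_filter.mp hx).2⟩
  · rintro ⟨h1, h2⟩
    cases p with
    | none => exact absurd rfl h1
    | some x => exact ⟨x, Finset.mem_filter.mpr ⟨Finset.mem_univ _, h2⟩, rfl⟩

theorem norm_f (s : Finset GolayPt) : hammingNorm (f s) = (s.erase none).card := by
  rw [← card_some_eq, hammingNorm]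
  congr 1
  ext x
  simp [f, ind]

theorem f_injOn : Set.InjOn f Sup := by
  intro s hs t ht h
  have h1 := symmDiff_mem hs ht
  have h2 := card_le_some (symmDiff s t)
  have h3 : (Finset.univ.filter fun x : ZMod 23 => (some x : GolayPt) ∈ symmDiff s t) = ∅ := by
    rw [Finset.filter_eq_empty_iff]
    intro x _ hx
    have h4 := congrFun h x
    simp only [f, ind] at h4
    rcases Finset.mem_symmDiff.mp hx with ⟨a, b⟩ | ⟨a, b⟩
    · rw [if_pos a, if_neg b] at h4; exact one_ne_zero h4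
    · rw [if_neg b, if_pos a] at h4; exact zero_ne_one h4
  rw [h3, Finset.card_empty] at h2
  have h0 : (symmDiff s t).card = 0 := by
    rcases card_cases h1 with h | h | h | h | h <;> omega
  exact symmDiff_eq_bot.mp (Finset.card_eq_zero.mp h0)

theorem mem_Pn {u : ZMod 23 → ZMod 2} : u ∈ Pn ↔ ∃ s ∈ Sup, f s = u := by
  constructor
  · rintro ⟨w, hw, h⟩
    refine ⟨support₂ w, ⟨w, hw, rfl⟩, ?_⟩
    funext x
    rw [f, ind_support, h x]
  · rintro ⟨s, hs, rfl⟩
    exact ⟨ind s, ind_mem_code hs, fun _ => rfl⟩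

theorem dec_low : dec 8388607 = Finset.univ.erase none := by decide +kernel

theorem card_erase_dec (x : ℕ) : ((dec x).erase none).card = pop24 (x &&& 8388607) := by
  rw [← popN_eq_pop24, ← card_dec, dec_and, dec_low]
  congr 1
  ext p
  simp [and_comm]

theorem count (R : ℕ → Bool) :
    {u : ZMod 23 → ZMod 2 | u ∈ Pn ∧ R (hammingNorm u) = true}.ncard =
      ((Finset.range 4096).filter fun n => R (pop24 (fcomb n &&& 8388607)) = true).card := by
  have h1 : {u : ZMod 23 → ZMod 2 | u ∈ Pn ∧ R (hammingNorm u) = true} =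
      f '' (↑(codeFin fun x => R (pop24 (x &&& 8388607))) : Set (Finset GolayPt)) := by
    ext u
    simp only [Set.mem_ofPred_eq, Set.mem_image, Finset.mem_coe, mem_codeFin]
    constructor
    · rintro ⟨hu, hR⟩
      obtain ⟨s, hs, rfl⟩ := mem_Pn.mp hu
      obtain ⟨x, hx, hc, rfl⟩ := mem_supports_iff.mp hs
      refine ⟨dec x, ⟨x, hx, hc, ?_, rfl⟩, rfl⟩
      rw [norm_f, card_erase_dec] at hR
      exact hR
    · rintro ⟨s, ⟨x, hx, hc, hQ, rfl⟩, rfl⟩
      refine ⟨mem_Pn.mpr ⟨dec x, mem_supports_iff.mpr ⟨x, hx, hc, rfl⟩, rfl⟩, ?_⟩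
      rw [norm_f, card_erase_dec]
      exact hQ
  rw [h1, Set.ncard_image_of_injOn, Set.ncard_coe_finset, card_codeFin,
    card_filter_fast (fun x => R (pop24 (x &&& 8388607)))]
  intro s hs t ht h
  have hs' : s ∈ Sup := by
    obtain ⟨x, hx, hc, _, rfl⟩ := mem_codeFin.mp (Finset.mem_coe.mp hs)
    exact mem_supports_iff.mpr ⟨x, hx, hc, rfl⟩
  have ht' : t ∈ Sup := by
    obtain ⟨x, hx, hc, _, rfl⟩ := mem_codeFin.mp (Finset.mem_coe.mp ht)
    exact mem_supports_iff.mpr ⟨x, hx, hc, rfl⟩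
  exact f_injOn hs' ht' h

theorem count_k (k : ℕ) :
    {u : ZMod 23 → ZMod 2 | u ∈ Pn ∧ hammingNorm u = k}.ncard =
      ((Finset.range 4096).filter fun n => (pop24 (fcomb n &&& 8388607) == k) = true).card := by
  rw [← count (fun m => m == k)]
  congr 1
  ext u
  simp

theorem count_all : Pn.ncard = 4096 := by
  have h := count (fun _ => true)
  simp only [and_true, Finset.filter_true, Finset.card_range] at h
  exact h

theorem min7 : ∀ u ∈ Pn, u ≠ 0 → 7 ≤ hammingNorm u := by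
  intro u hu h0
  obtain ⟨s, hs, rfl⟩ := mem_Pn.mp hu
  rw [norm_f]
  have hne : s.card ≠ 0 := by
    intro h
    apply h0
    rw [Finset.card_eq_zero.mp h]
    funext x
    simp [f, ind]
  have h8 : 8 ≤ s.card := by
    rcases card_cases hs with h | h | h | h | h <;> omega
  have := Finset.pred_card_le_card_erase (s := s) (a := none)
  omega

theorem main : Pn.ncard = 4096 ∧
    {u : ZMod 23 → ZMod 2 | u ∈ Pn ∧ hammingNorm u = 7}.ncard = 253 ∧
    {u : ZMod 23 → ZMod 2 | u ∈ Pn ∧ hammingNorm u = 8}.ncard = 506 ∧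
    {u : ZMod 23 → ZMod 2 | u ∈ Pn ∧ hammingNorm u = 11}.ncard = 1288 ∧
    {u : ZMod 23 → ZMod 2 | u ∈ Pn ∧ hammingNorm u = 12}.ncard = 1288 ∧
    {u : ZMod 23 → ZMod 2 | u ∈ Pn ∧ hammingNorm u = 15}.ncard = 506 ∧
    {u : ZMod 23 → ZMod 2 | u ∈ Pn ∧ hammingNorm u = 16}.ncard = 253 ∧
    ∀ u ∈ Pn, u ≠ 0 → 7 ≤ hammingNorm u := by
  refine ⟨count_all, ?_, ?_, ?_, ?_, ?_, ?_, min7⟩ <;> rw [count_k] <;> decide +kernel

end Cfsg.Agent.Lib.Helper3_Punc
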