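import Mathlib
import Cfsg.Agent.Lib.Helper3_SM22
import Cfsg.Agent.Lib.Helper3_SM23
import Cfsg.Agent.Lib.Helper3_SM24

/-!
# helper3: simplicity of the large Mathieu groups, for arbitrary points
-/

set_option autoImplicit false
set_option linter.unusedSectionVars false
set_option linter.constructorNameAsVariable false

namespace Cfsg.Agent.Lib.Helper3_SimpEq

open Cfsg Cfsg.Agent.Lib.Helper3_Golay Cfsg.Agent.Lib.Helper3_Golay2 Cfsg.Agent.Lib.Helper3_Golay3
open Cfsg.Agent.Lib.Helper3_M24a Cfsg.Agent.Lib.Helper3_PermChain Cfsg.Agent.Lib.Helper3_M24b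
open Cfsg.Agent.Lib.Helper3_M24c Cfsg.Agent.Lib.Helper3_M24d Cfsg.Agent.Lib.Helper3_M24e
open Cfsg.Agent.Lib.Helper3_M24h Cfsg.Agent.Lib.Helper3_Out2 Cfsg.Agent.Lib.Helper3_Simp
open Cfsg.Agent.Lib.Helper3_Enum Cfsg.Agent.Lib.Helper3_Simp2
open scoped Pointwise

/-- conjugation between pointwise stabilisers -/
def fixLConj {G : Subgroup (Equiv.Perm GolayPt)} {k : Equiv.Perm GolayPt} (hk : k ∈ G)
    (xs : List GolayPt) : fixL G xs ≃* fixL G (xs.map k) where
  toFun x := ⟨k * x.1 * k⁻¹, G.mul_mem (G.mul_mem hk x.2.1) (G.inv_mem hk), by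
    intro a ha
    obtain ⟨b, hb, rfl⟩ := List.mem_map.mp ha
    have := x.2.2 b hb
    simp [Equiv.Perm.mul_apply, this]⟩
  invFun x := ⟨k⁻¹ * x.1 * k, G.mul_mem (G.mul_mem (G.inv_mem hk) x.2.1) hk, by
    intro a ha
    have := x.2.2 (k a) (List.mem_map_of_mem ha)
    simp [Equiv.Perm.mul_apply, this]⟩
  left_inv x := by ext : 2; simp [mul_assoc]
  right_inv x := by ext : 2; simp [mul_assoc]
  map_mul' x y := by ext : 2; simp [mul_assoc]

def eqv1 (x : GolayPt) : fixL M24 [x] ≃* MulAction.stabilizer M24 x where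
  toFun g := ⟨⟨g.1, g.2.1⟩, g.2.2 x (by simp)⟩
  invFun g := ⟨g.1.1, g.1.2, by
    intro a ha
    rw [List.mem_singleton] at ha
    rw [ha]; exact g.2⟩
  left_inv g := rfl
  right_inv g := rfl
  map_mul' g h := rfl

def eqv2 (x y : GolayPt) :
    fixL M24 [x, y] ≃* ↥(MulAction.stabilizer M24 x ⊓ MulAction.stabilizer M24 y) where
  toFun g := ⟨⟨g.1, g.2.1⟩, g.2.2 x (by simp), g.2.2 y (by simp)⟩
  invFun g := ⟨g.1.1, g.1.2, by
    intro a ha
    simp only [List.mem_cons, List.not_mem_nil, or_false] at ha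
    rcases ha with rfl | rfl
    · exact g.2.1
    · exact g.2.2⟩
  left_inv g := rfl
  right_inv g := rfl
  map_mul' g h := rfl

theorem simple_M24 : IsSimpleGroup M24 := by
  have h := Cfsg.Agent.Lib.Helper3_SM24.simple
  have e : Fx [] = M24 := fixL_nil M24
  rwa [e] at h

theorem simple_stab1 (x : GolayPt) : IsSimpleGroup (MulAction.stabilizer M24 x) := by
  obtain ⟨k, hk, hm⟩ := exists_map_list 4 [pt 23] [x] rfl rfl (by simp) (by simp)
  have e := (fixLConj hk [pt 23]).trans (hm ▸ eqv1 x)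
  exact e.isSimpleGroup_congr.mp Cfsg.Agent.Lib.Helper3_SM23.simple

theorem simple_stab2 (x y : GolayPt) (hxy : x ≠ y) :
    IsSimpleGroup ↥(MulAction.stabilizer M24 x ⊓ MulAction.stabilizer M24 y) := by
  obtain ⟨k, hk, hm⟩ := exists_map_list 3 [pt 0, pt 23] [x, y] rfl rfl (by decide +kernel)
    (by simp [hxy])
  have e := (fixLConj hk [pt 0, pt 23]).trans (hm ▸ eqv2 x y)
  exact e.isSimpleGroup_congr.mp Cfsg.Agent.Lib.Helper3_SM22.simple

end Cfsg.Agent.Lib.Helper3_SimpEq
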