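import Mathlib
import Cfsg.Agent.Lib.Helper3_SM11
import Cfsg.Agent.Lib.Helper3_SM12

/-!
# helper3: simplicity of the small Mathieu groups, for arbitrary dodecads and points
-/

set_option autoImplicit false
set_option linter.unusedSectionVars false
set_option linter.constructorNameAsVariable false

namespace Cfsg.Agent.Lib.Helper3_SimpEq2

open Cfsg Cfsg.Agent.Lib.Helper3_Golay Cfsg.Agent.Lib.Helper3_Golay2 Cfsg.Agent.Lib.Helper3_Golay3
open Cfsg.Agent.Lib.Helper3_M24a Cfsg.Agent.Lib.Helper3_PermChain Cfsg.Agent.Lib.Helper3_M24b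
open Cfsg.Agent.Lib.Helper3_M24c Cfsg.Agent.Lib.Helper3_M24d Cfsg.Agent.Lib.Helper3_M24e
open Cfsg.Agent.Lib.Helper3_M24h Cfsg.Agent.Lib.Helper3_Out2 Cfsg.Agent.Lib.Helper3_Simp
open Cfsg.Agent.Lib.Helper3_Enum Cfsg.Agent.Lib.Helper3_Simp2 Cfsg.Agent.Lib.Helper3_Simp3
open scoped Pointwise

def eqvD {k : Equiv.Perm GolayPt} (hk : k ∈ M24) :
    Stb [] [D0] ≃* MulAction.stabilizer M24 (k • dec D0) where
  toFun g := ⟨⟨k * g.1 * k⁻¹, M24.mul_mem (M24.mul_mem hk g.2.1.1) (M24.inv_mem hk)⟩, by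
    change (k * g.1 * k⁻¹) • (k • dec D0) = k • dec D0
    rw [mul_smul, inv_smul_smul, mul_smul, g.2.1.2 D0 (by simp)]⟩
  invFun g := ⟨k⁻¹ * g.1.1 * k, ⟨M24.mul_mem (M24.mul_mem (M24.inv_mem hk) g.1.2) hk, by
    intro m hm
    rw [List.mem_singleton] at hm
    subst hm
    have h : g.1.1 • (k • dec D0) = k • dec D0 := g.2
    change (k⁻¹ * g.1.1 * k) • dec D0 = dec D0
    rw [mul_smul, mul_smul, h, inv_smul_smul]⟩, by simp⟩
  left_inv g := by ext : 2; simp [mul_assoc]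
  right_inv g := by ext : 3; simp [mul_assoc]
  map_mul' g h := by ext : 3; simp [mul_assoc]

def eqvF {k : Equiv.Perm GolayPt} (hk : k ∈ M24) :
    Stb [23] [D0] ≃*
      ↥(MulAction.stabilizer M24 (k • dec D0) ⊓ MulAction.stabilizer M24 (k (pt 23))) where
  toFun g := ⟨⟨k * g.1 * k⁻¹, M24.mul_mem (M24.mul_mem hk g.2.1.1) (M24.inv_mem hk)⟩, by
    change (k * g.1 * k⁻¹) • (k • dec D0) = k • dec D0
    rw [mul_smul, inv_smul_smul, mul_smul, g.2.1.2 D0 (by simp)], by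
    change (k * g.1 * k⁻¹) (k (pt 23)) = k (pt 23)
    have := g.2.2 (pt 23) (by simp)
    simp [Equiv.Perm.mul_apply, this]⟩
  invFun g := ⟨k⁻¹ * g.1.1 * k, ⟨M24.mul_mem (M24.mul_mem (M24.inv_mem hk) g.1.2) hk, by
    intro m hm
    rw [List.mem_singleton] at hm
    subst hm
    have h : g.1.1 • (k • dec D0) = k • dec D0 := g.2.1
    change (k⁻¹ * g.1.1 * k) • dec D0 = dec D0
    rw [mul_smul, mul_smul, h, inv_smul_smul]⟩, by
    intro a ha
    simp only [List.map_cons, List.map_nil, List.mem_singleton] at ha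
    subst ha
    have h : g.1.1 (k (pt 23)) = k (pt 23) := g.2.2
    simp [Equiv.Perm.mul_apply, h]⟩
  left_inv g := by ext : 2; simp [mul_assoc]
  right_inv g := by ext : 3; simp [mul_assoc]
  map_mul' g h := by ext : 3; simp [mul_assoc]

theorem simple_dod {d : Finset GolayPt} (hd : d ∈ dodecads) :
    IsSimpleGroup (MulAction.stabilizer M24 d) := by
  obtain ⟨k, hk, rfl⟩ := trans_dodecads D0_mem hd
  exact (eqvD hk).isSimpleGroup_congr.mp Cfsg.Agent.Lib.Helper3_SM12.simple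

theorem simple_flag {d : Finset GolayPt} (hd : d ∈ dodecads) {p : GolayPt} (hp : p ∈ d) :
    IsSimpleGroup ↥(MulAction.stabilizer M24 d ⊓ MulAction.stabilizer M24 p) := by
  obtain ⟨k, hk, rfl, rfl⟩ := dodecad_flag_nf hd hp
  exact (eqvF hk).isSimpleGroup_congr.mp Cfsg.Agent.Lib.Helper3_SM11.simple

end Cfsg.Agent.Lib.Helper3_SimpEq2
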