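import Mathlib
import Cfsg.Agent.Lib.Helper3_Steiner

/-!
# helper3: counting in Steiner systems, II
-/

set_option autoImplicit false
set_option linter.unusedSectionVars false

namespace Cfsg.Agent.Lib.Helper3_Steiner2

open Cfsg Finset Cfsg.Agent.Lib.Helper3_Steiner

theorem sum_eq_add_card {ι : Type*} [DecidableEq ι] (S : Finset ι) (b : ι) (hb : b ∈ S) (g : ι → ℤ)
    (P : ι → Prop) [DecidablePred P] (K : ℤ)
    (hg : ∀ c ∈ S, c ≠ b → g c = if P c then K else 0) (hPb : ¬ P b) :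
    ∑ c ∈ S, g c = g b + K * ((S.filter P).card : ℤ) := by
  rw [← add_sum_erase S g hb]
  congr 1
  rw [sum_congr rfl (fun c hc => hg c (mem_of_mem_erase hc) (ne_of_mem_erase hc)), ← sum_filter,
    sum_const, nsmul_eq_mul, mul_comm]
  congr 3
  ext c
  simp only [mem_filter, mem_erase]
  constructor
  · rintro ⟨⟨_, h2⟩, h3⟩; exact ⟨h2, h3⟩
  · rintro ⟨h2, h3⟩; exact ⟨⟨fun h => hPb (h ▸ h3), h2⟩, h3⟩

end Cfsg.Agent.Lib.Helper3_Steiner2
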