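import Mathlib
import Cfsg.Agent.Lib.Helper3_OGraph
import Cfsg.Agent.Lib.Helper3_Oct8b
import Cfsg.Agent.Lib.Helper3_Sext
import Cfsg.Agent.Lib.Helper3_Orb3
import Cfsg.Agent.Lib.Helper3_Sub24

/-!
# helper3: the fifteen trios through an octad (explicit part)
-/

set_option autoImplicit false
set_option linter.unusedSectionVars false
set_option linter.constructorNameAsVariable false

namespace Cfsg.Agent.Lib.Helper3_T15a

open Cfsg Cfsg.Agent.Lib.Helper3_Golay Cfsg.Agent.Lib.Helper3_Golay2 Cfsg.Agent.Lib.Helper3_Golay3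
open Cfsg.Agent.Lib.Helper3_M24a Cfsg.Agent.Lib.Helper3_M24c Cfsg.Agent.Lib.Helper3_M24d
open Cfsg.Agent.Lib.Helper3_M24f Cfsg.Agent.Lib.Helper3_Fast
open Cfsg.Agent.Lib.Helper3_OGraph Cfsg.Agent.Lib.Helper3_Oct8b Cfsg.Agent.Lib.Helper3_Sext
open Cfsg.Agent.Lib.Helper3_Orb3 Cfsg.Agent.Lib.Helper3_Sub24
open scoped Pointwise

def M4 : ℕ := 13062145
def X0 : ℕ := 3704512
def X1 : ℕ := 2141072
def X2 : ℕ := 1584464

theorem M4_mem : dec M4 ∈ octads := dec_mem_octads (by decide +kernel)

theorem hx (c x : ℕ) (h : (isPerm c && isAut c && (img c O0 == O0) && (img c M4 == M4) &&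
    (img c X0 == x)) = true) :
    ∃ h ∈ M24, h • dec O0 = dec O0 ∧ h • dec M4 = dec M4 ∧ h • dec X0 = dec x := by
  simp only [Bool.and_eq_true, beq_iff_eq] at h
  obtain ⟨⟨⟨⟨h1, h2⟩, h3⟩, h4⟩, h5⟩ := h
  exact ⟨prm c, prm_mem_M24 h2, by rw [smul_dec h1, h3], by rw [smul_dec h1, h4],
    by rw [smul_dec h1, h5]⟩

theorem chkX : allComb EL 0 (fun y => !(pop24 y == 8 && pop24 (O0 &&& y) == 0 &&
    pop24 (M4 &&& y) == 0) || (y == X0 || y == X1 || y == X2)) = true := by decide +kernel

theorem triple_nf {a1 a2 o : Finset GolayPt} (h1 : a1 ∈ octads) (h2 : a2 ∈ octads)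
    (ho : o ∈ octads) (h4 : (a1 ∩ a2).card = 4) (d1 : Disjoint o a1) (d2 : Disjoint o a2) :
    ∃ g ∈ M24, g • dec O0 = a1 ∧ g • dec M4 = a2 ∧ g • dec X0 = o := by
  obtain ⟨g, hg, rfl, rfl⟩ := pair_nf h1 h2 (m := M4) M4_mem (by
    rw [h4, card_inter_dec]; decide +kernel)
  have ho' : g⁻¹ • o ∈ octads := smul_mem_octads (M24.inv_mem hg) ho
  obtain ⟨y, hy, hyc, hy8, hoy⟩ := exists_mask_octad ho'
  have e1 : pop24 (O0 &&& y) = 0 := by
    rw [← card_inter_dec, ← hoy, card_inter_transport, Finset.card_eq_zero,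
      ← Finset.disjoint_iff_inter_eq_empty]
    exact d1.symm
  have e2 : pop24 (M4 &&& y) = 0 := by
    rw [← card_inter_dec, ← hoy, card_inter_transport, Finset.card_eq_zero,
      ← Finset.disjoint_iff_inter_eq_empty]
    exact d2.symm
  have hc := forall_code_mask _ chkX hyc
  rw [popN_eq_pop24] at hy8
  simp only [hy8, e1, e2, beq_self_eq_true, Bool.and_self, Bool.not_true, Bool.false_or,
    Bool.or_eq_true, beq_iff_eq] at hc
  have key : ∃ h ∈ M24, h • dec O0 = dec O0 ∧ h • dec M4 = dec M4 ∧ h • dec X0 = dec y := by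
    rcases hc with (hc | hc) | hc
    · rw [hc]; exact hx 984818244535754528103549039458486304 X0 (by decide +kernel)
    · rw [hc]; exact hx 971296294160468296166006156190386222 X1 (by decide +kernel)
    · rw [hc]; exact hx 976936824877992466929675385378539569 X2 (by decide +kernel)
  obtain ⟨h, hh, k1, k2, k3⟩ := key
  refine ⟨g * h, M24.mul_mem hg hh, by rw [mul_smul, k1], by rw [mul_smul, k2], ?_⟩
  rw [mul_smul, k3, ← hoy, smul_inv_smul]

def T16 : List ℕ := [984818244535754528103549039458486304, 965128854020860192151391391390468128, 963721886883755259286232606933354528, 979121071158219704299181131031480352, 968708902336673183175954409307867168, 967812279691448225500382947153381408, 971592882964418941354553515258775584, 970499966350631336865513127433832480, 976448692869377735270425038196672544, 981818691054096003685363657089320992, 972512676110088067912772961567868960, 966182099583441531322624363496310816, 983548720921252936276249910206105632, 975346028712660580592452217730074656,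 980224387687010295957922729495201824, 961365507626256404119956257276790816]

theorem T16_ok : ∀ c ∈ T16, isPerm c = true ∧ isAut c = true ∧
    ∀ i < 24, O0.testBit i = true → ap c i = i := by decide +kernel

theorem T16_trans : ∀ i < 24, O0.testBit i = false → ∃ c ∈ T16, ap c 4 = i := by decide +kernel

theorem pt4 : pt 4 ∉ dec O0 := by decide +kernel

theorem mem_T16 {t : Equiv.Perm GolayPt} (ht : t ∈ M24) (hf : ∀ x ∈ dec O0, t x = x) :
    ∃ c ∈ T16, t = prm c := by
  have hq : t (pt 4) ∉ dec O0 := by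
    intro h
    have := hf _ h
    exact pt4 (t.injective this ▸ h)
  obtain ⟨c, hc, hci⟩ := T16_trans (idx (t (pt 4))) (idx_lt _) (by
    rw [mem_dec] at hq
    simpa using hq)
  obtain ⟨c1, c2, c3⟩ := T16_ok c hc
  refine ⟨c, hc, ?_⟩
  have hcf : ∀ x ∈ dec O0, prm c x = x := by
    intro x hx
    rw [mem_dec] at hx
    have := prm_pt c1 (idx_lt x)
    rw [pt_idx, c3 _ (idx_lt x) hx, pt_idx] at this
    exact this
  have hone : (prm c)⁻¹ * t = 1 := by
    apply eq_one_of_fix9 O0_mem pt4 (M24.mul_mem (M24.inv_mem (prm_mem_M24 c2)) ht)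
    · intro x hx
      rw [Equiv.Perm.mul_apply, hf x hx, Equiv.Perm.inv_eq_iff_eq, hcf x hx]
    · rw [Equiv.Perm.mul_apply, Equiv.Perm.inv_eq_iff_eq, prm_pt c1 (by norm_num), hci, pt_idx]
  have := congrArg (fun z => prm c * z) hone
  simpa using this

theorem chkT : allComb EL 0 (fun y => !(pop24 y == 8 && pop24 (O0 &&& y) == 0) ||
    T16.all (fun c => img c y == y || img c y == (16777215 ^^^ O0) ^^^ y)) = true := by
  decide +kernel

theorem dec_full : dec 16777215 = Finset.univ := by decide +kernel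

theorem compl_union_eq {A B : Finset GolayPt} (h : Disjoint A B) :
    (A ∪ B)ᶜ = symmDiff (symmDiff Finset.univ A) B := by
  ext p
  have : p ∈ A → p ∉ B := fun hp => Finset.disjoint_left.mp h hp
  simp only [Finset.mem_compl, Finset.mem_union, Finset.mem_symmDiff, Finset.mem_univ, true_and,
    not_true_eq_false, and_false, or_false]
  tauto

theorem TA0 {t : Equiv.Perm GolayPt} (ht : t ∈ M24) (hf : ∀ x ∈ dec O0, t x = x)
    {a : Finset GolayPt} (ha : a ∈ octads) (hd : Disjoint (dec O0) a) :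
    t • a = a ∨ t • a = (dec O0 ∪ a)ᶜ := by
  obtain ⟨c, hc, rfl⟩ := mem_T16 ht hf
  obtain ⟨c1, -, -⟩ := T16_ok c hc
  obtain ⟨y, hy, hyc, hy8, rfl⟩ := exists_mask_octad ha
  have e1 : pop24 (O0 &&& y) = 0 := by
    rw [← card_inter_dec, Finset.card_eq_zero, ← Finset.disjoint_iff_inter_eq_empty]
    exact hd
  have h := forall_code_mask _ chkT hyc
  rw [popN_eq_pop24] at hy8
  simp only [hy8, e1, beq_self_eq_true, Bool.and_self, Bool.not_true, Bool.false_or,
    List.all_eq_true, Bool.or_eq_true, beq_iff_eq] at h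
  rw [smul_dec c1, compl_union_eq hd, ← dec_full, ← dec_xor, ← dec_xor]
  rcases h c hc with h | h
  · left; rw [h]
  · right; rw [h]

def L30 : List ℕ := [6889680, 4038912, 5538256, 832080, 6656640, 3216208, 5780352, 6100032, 3421328, 6337856, 628112, 5350928, 3704512, 7079696, 337856, 7903248, 1161408, 4536592, 2890176, 7612992, 1903248, 4819776, 2141072, 2460752, 5024896, 1584464, 7409024, 2702848, 4202192, 1351424]

theorem L30_ok : ∀ m ∈ L30, isOct m = true ∧ pop24 (O0 &&& m) = 0 := by decide +kernel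

theorem L30_sepB : ((List.range 24).all fun i => (List.range 24).all fun j =>
    (i == j) || O0.testBit i || O0.testBit j ||
      L30.any (fun m => m.testBit i && !m.testBit j)) = true := by decide +kernel

theorem L30_sep : ∀ i < 24, ∀ j < 24, i ≠ j → O0.testBit i = false → O0.testBit j = false →
    ∃ m ∈ L30, m.testBit i = true ∧ m.testBit j = false := by
  intro i hi j hj hij h1 h2
  have h := List.all_eq_true.mp (List.all_eq_true.mp L30_sepB i (List.mem_range.mpr hi)) j
    (List.mem_range.mpr hj)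
  simp only [h1, h2, Bool.or_false, Bool.or_eq_true, beq_iff_eq, hij, false_or, List.any_eq_true,
    Bool.and_eq_true, Bool.not_eq_true'] at h
  exact h

theorem SEP0 {x y : GolayPt} (hxy : x ≠ y) (hx : x ∉ dec O0) (hy : y ∉ dec O0) :
    ∃ a ∈ octads, Disjoint (dec O0) a ∧ x ∈ a ∧ y ∉ a := by
  rw [mem_dec] at hx hy
  obtain ⟨m, hm, h1, h2⟩ := L30_sep (idx x) (idx_lt x) (idx y) (idx_lt y)
    (fun h => hxy (idx_injective h)) (by simpa using hx) (by simpa using hy)
  obtain ⟨k1, k2⟩ := L30_ok m hm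
  refine ⟨dec m, dec_mem_octads k1, ?_, mem_dec.mpr h1, ?_⟩
  · rw [Finset.disjoint_iff_inter_eq_empty, ← Finset.card_eq_zero, card_inter_dec, k2]
  · rw [mem_dec, h2]; simp

end Cfsg.Agent.Lib.Helper3_T15a
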