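import Mathlib
import Cfsg.Agent.Lib.Helper3_T15a
import Cfsg.Agent.Lib.Helper3_Fix9

/-!
# helper3: the fifteen trios through an octad
-/

set_option autoImplicit false
set_option linter.unusedSectionVars false
set_option linter.constructorNameAsVariable false

namespace Cfsg.Agent.Lib.Helper3_T15b

open Cfsg Cfsg.Agent.Lib.Helper3_Golay Cfsg.Agent.Lib.Helper3_Golay2 Cfsg.Agent.Lib.Helper3_Golay3
open Cfsg.Agent.Lib.Helper3_M24a Cfsg.Agent.Lib.Helper3_M24c Cfsg.Agent.Lib.Helper3_M24d
open Cfsg.Agent.Lib.Helper3_M24f Cfsg.Agent.Lib.Helper3_Fast Cfsg.Agent.Lib.Helper3_Fix9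
open Cfsg.Agent.Lib.Helper3_OGraph Cfsg.Agent.Lib.Helper3_Oct8b Cfsg.Agent.Lib.Helper3_Sext
open Cfsg.Agent.Lib.Helper3_Orb3 Cfsg.Agent.Lib.Helper3_Sub24 Cfsg.Agent.Lib.Helper3_T15a
open scoped Pointwise

/-- the third octad of the trio -/
def co (o a : Finset GolayPt) : Finset GolayPt := (o ∪ a)ᶜ

theorem ne_of_disj {o a : Finset GolayPt} (ho : o ∈ octads) (hd : Disjoint o a) : o ≠ a := by
  rintro rfl
  have := Finset.disjoint_self_iff_empty o |>.mp hd
  rw [this] at ho
  exact absurd ho.2 (by simp)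

theorem co_mem {o a : Finset GolayPt} (ho : o ∈ octads) (ha : a ∈ octads) (hd : Disjoint o a) :
    co o a ∈ octads := compl_union_mem ho ha hd

theorem disj_co (o a : Finset GolayPt) : Disjoint o (co o a) := by
  rw [Finset.disjoint_left]; intro p hp hq
  exact (Finset.mem_compl.mp hq) (Finset.mem_union_left _ hp)

theorem disj_co' (o a : Finset GolayPt) : Disjoint a (co o a) := by
  rw [Finset.disjoint_left]; intro p hp hq
  exact (Finset.mem_compl.mp hq) (Finset.mem_union_right _ hp)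

theorem co_co {o a : Finset GolayPt} (hd : Disjoint o a) : co o (co o a) = a := by
  ext p
  have : p ∈ o → p ∉ a := fun hp => Finset.disjoint_left.mp hd hp
  simp only [co, Finset.mem_compl, Finset.mem_union]
  tauto

theorem mem_trioOf {o a x : Finset GolayPt} : x ∈ trioOf o a ↔ x = o ∨ x = a ∨ x = co o a := by
  simp [trioOf, co]

theorem trioOf_co {o a : Finset GolayPt} (ho : o ∈ octads) (ha : a ∈ octads)
    (hd : Disjoint o a) : trioOf o (co o a) = trioOf o a :=
  (eq_trioOf (trioOf_mem ho ha hd) (mem_trioOf.mpr (Or.inl rfl))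
    (mem_trioOf.mpr (Or.inr (Or.inr rfl))) (ne_of_disj ho (disj_co o a))).symm

theorem trio_form {T : Finset (Finset GolayPt)} {o : Finset GolayPt} (hT : T ∈ trios)
    (ho : o ∈ T) : ∃ a ∈ octads, Disjoint o a ∧ T = trioOf o a := by
  have hc : 0 < (T.erase o).card := by rw [Finset.card_erase_of_mem ho, hT.1]; norm_num
  obtain ⟨a, ha⟩ := Finset.card_pos.mp hc
  have hne : o ≠ a := (Finset.ne_of_mem_erase ha).symm
  have haT := Finset.mem_of_mem_erase ha
  exact ⟨a, hT.2.1 a haT, hT.2.2 o ho a haT hne, eq_trioOf hT ho haT hne⟩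

theorem smul_co (g : Equiv.Perm GolayPt) (o a : Finset GolayPt) :
    g • co o a = co (g • o) (g • a) := by
  rw [co, co, smul_compl', Finset.smul_finset_union]

theorem smul_trioOf (g : Equiv.Perm GolayPt) (o a : Finset GolayPt) :
    g • trioOf o a = trioOf (g • o) (g • a) := by
  have := smul_co g o a
  rw [co, co] at this
  rw [trioOf, trioOf, Finset.smul_finset_insert, Finset.smul_finset_insert,
    Finset.smul_finset_singleton, this]

theorem inter4 {o a1 a2 : Finset GolayPt} (ho : o ∈ octads) (h1 : a1 ∈ octads)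
    (h2 : a2 ∈ octads) (d1 : Disjoint o a1) (d2 : Disjoint o a2) (n1 : a2 ≠ a1)
    (n2 : a2 ≠ co o a1) : (a1 ∩ a2).card = 4 := by
  have hs := Finset.card_inter_add_card_sdiff a2 a1
  have e : a2 \ a1 = a2 ∩ co o a1 := by
    ext p
    have : p ∈ o → p ∉ a2 := fun hp => Finset.disjoint_left.mp d2 hp
    simp only [co, Finset.mem_sdiff, Finset.mem_inter, Finset.mem_compl, Finset.mem_union]
    tauto
  rw [e, h2.2] at hs
  have c1 := inter_cases h2 h1 n1
  have c2 := inter_cases h2 (co_mem ho h1 d1) n2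
  rw [Finset.inter_comm]
  omega

theorem two_trans {o : Finset GolayPt} (ho : o ∈ octads)
    {T₁ T₂ T₁' T₂' : Finset (Finset GolayPt)} (h1 : T₁ ∈ trios) (h2 : T₂ ∈ trios)
    (h1' : T₁' ∈ trios) (h2' : T₂' ∈ trios) (o1 : o ∈ T₁) (o2 : o ∈ T₂) (o1' : o ∈ T₁')
    (o2' : o ∈ T₂') (hne : T₁ ≠ T₂) (hne' : T₁' ≠ T₂') :
    ∃ g ∈ M24, g • o = o ∧ g • T₁ = T₁' ∧ g • T₂ = T₂' := by
  obtain ⟨a1, ha1, d1, rfl⟩ := trio_form h1 o1
  obtain ⟨a2, ha2, d2, rfl⟩ := trio_form h2 o2
  obtain ⟨b1, hb1, e1, rfl⟩ := trio_form h1' o1'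
  obtain ⟨b2, hb2, e2, rfl⟩ := trio_form h2' o2'
  have key : ∀ a1 a2 : Finset GolayPt, a1 ∈ octads → a2 ∈ octads → Disjoint o a1 →
      Disjoint o a2 → trioOf o a1 ≠ trioOf o a2 → (a1 ∩ a2).card = 4 := by
    intro a1 a2 ha1 ha2 d1 d2 hne
    apply inter4 ho ha1 ha2 d1 d2
    · rintro rfl; exact hne rfl
    · rintro rfl; exact hne (trioOf_co ho ha1 d1).symm
  obtain ⟨k, hk, k1, k2, k3⟩ := triple_nf ha1 ha2 ho (key a1 a2 ha1 ha2 d1 d2 hne) d1 d2
  obtain ⟨l, hl, l1, l2, l3⟩ := triple_nf hb1 hb2 ho (key b1 b2 hb1 hb2 e1 e2 hne') e1 e2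
  have m1 : (l * k⁻¹) • o = o := by
    have : k⁻¹ • o = dec X0 := by rw [← k3, inv_smul_smul]
    rw [mul_smul, this, l3]
  have m2 : (l * k⁻¹) • a1 = b1 := by
    have : k⁻¹ • a1 = dec O0 := by rw [← k1, inv_smul_smul]
    rw [mul_smul, this, l1]
  have m3 : (l * k⁻¹) • a2 = b2 := by
    have : k⁻¹ • a2 = dec M4 := by rw [← k2, inv_smul_smul]
    rw [mul_smul, this, l2]
  refine ⟨l * k⁻¹, M24.mul_mem hl (M24.inv_mem hk), m1, ?_, ?_⟩
  · rw [smul_trioOf, m1, m2]
  · rw [smul_trioOf, m1, m3]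

theorem disj_smul_iff (g : Equiv.Perm GolayPt) (A B : Finset GolayPt) :
    Disjoint (g • A) (g • B) ↔ Disjoint A B := by
  rw [Finset.disjoint_iff_inter_eq_empty, Finset.disjoint_iff_inter_eq_empty,
    ← Finset.smul_finset_inter, Finset.smul_finset_eq_empty]

theorem count30 {o : Finset GolayPt} (ho : o ∈ octads) :
    (octF.filter fun a => Disjoint o a).card = 30 := by
  have h1 : {a : Finset GolayPt | a ∈ octads ∧ Disjoint o a}.ncard = 30 := by
    obtain ⟨g, hg, rfl⟩ := trans_octads O0_mem ho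
    have h2 := ncard_code_set 8 (fun a => Disjoint (dec O0) a) (fun x => pop24 (O0 &&& x) == 0)
      (fun x => by
        rw [Finset.disjoint_iff_inter_eq_empty, ← Finset.card_eq_zero, card_inter_dec, beq_iff_eq])
    have h3 : {a : Finset GolayPt | a ∈ octads ∧ Disjoint (dec O0) a}.ncard =
        {a : Finset GolayPt | a ∈ octads ∧ Disjoint (g • dec O0) a}.ncard := by
      apply ncard_transfer g
      intro a
      change (a ∈ octads ∧ _) ↔ (g • a ∈ octads ∧ _)
      rw [smul_mem_octads_iff hg, disj_smul_iff]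
    rw [← h3]
    refine Eq.trans h2 ?_
    decide +kernel
  rw [← h1, ← Set.ncard_coe_finset]
  congr 1
  ext a
  simp [mem_octF]

theorem count15 {o : Finset GolayPt} (ho : o ∈ octads) :
    {T : Finset (Finset GolayPt) | T ∈ trios ∧ o ∈ T}.ncard = 15 := by
  classical
  set D := octF.filter fun a => Disjoint o a with hD
  have hmem : ∀ a, a ∈ D ↔ a ∈ octads ∧ Disjoint o a := by
    intro a; rw [hD, Finset.mem_filter, mem_octF]
  have hA : {T : Finset (Finset GolayPt) | T ∈ trios ∧ o ∈ T} = ↑(D.image (trioOf o)) := by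
    ext T
    simp only [Set.mem_ofPred_eq, Finset.coe_image, Set.mem_image, Finset.mem_coe]
    constructor
    · rintro ⟨hT, hoT⟩
      obtain ⟨a, ha, hd, rfl⟩ := trio_form hT hoT
      exact ⟨a, (hmem a).mpr ⟨ha, hd⟩, rfl⟩
    · rintro ⟨a, ha, rfl⟩
      obtain ⟨ha, hd⟩ := (hmem a).mp ha
      exact ⟨trioOf_mem ho ha hd, mem_trioOf.mpr (Or.inl rfl)⟩
  rw [hA, Set.ncard_coe_finset]
  have hsum := Finset.card_eq_sum_card_image (trioOf o) D
  have hfib : ∀ T ∈ D.image (trioOf o), (D.filter fun a => trioOf o a = T).card = 2 := by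
    intro T hT
    obtain ⟨a0, ha0, rfl⟩ := Finset.mem_image.mp hT
    obtain ⟨ha, hd⟩ := (hmem a0).mp ha0
    have : (D.filter fun a => trioOf o a = trioOf o a0) = {a0, co o a0} := by
      ext a
      simp only [Finset.mem_filter, Finset.mem_insert, Finset.mem_singleton]
      constructor
      · rintro ⟨haD, he⟩
        obtain ⟨ha', hd'⟩ := (hmem a).mp haD
        have : a ∈ trioOf o a0 := by rw [← he]; exact mem_trioOf.mpr (Or.inr (Or.inl rfl))
        rcases mem_trioOf.mp this with h | h | h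
        · exact absurd h.symm (ne_of_disj ho hd')
        · exact Or.inl h
        · exact Or.inr h
      · rintro (rfl | rfl)
        · exact ⟨ha0, rfl⟩
        · exact ⟨(hmem _).mpr ⟨co_mem ho ha hd, disj_co o a0⟩, trioOf_co ho ha hd⟩
    rw [this, Finset.card_pair (ne_of_disj ha (disj_co' o a0))]
  rw [Finset.sum_const_nat hfib, count30 ho] at hsum
  omega

theorem TA {o : Finset GolayPt} (ho : o ∈ octads) {t : Equiv.Perm GolayPt} (ht : t ∈ M24)
    (hf : ∀ x ∈ o, t x = x) {a : Finset GolayPt} (ha : a ∈ octads) (hd : Disjoint o a) :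
    t • a = a ∨ t • a = co o a := by
  obtain ⟨k, hk, rfl⟩ := trans_octads O0_mem ho
  have ht' : k⁻¹ * t * k ∈ M24 := M24.mul_mem (M24.mul_mem (M24.inv_mem hk) ht) hk
  have hf' : ∀ x ∈ dec O0, (k⁻¹ * t * k) x = x := by
    intro x hx
    rw [Equiv.Perm.mul_apply, Equiv.Perm.mul_apply,
      hf (k x) (Finset.smul_mem_smul_finset (a := k) hx), Equiv.Perm.inv_eq_iff_eq]
  have ha' : k⁻¹ • a ∈ octads := smul_mem_octads (M24.inv_mem hk) ha
  have hd' : Disjoint (dec O0) (k⁻¹ • a) := by
    rw [← disj_smul_iff k, smul_inv_smul]; exact hd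
  have e : t • a = k • ((k⁻¹ * t * k) • (k⁻¹ • a)) := by
    rw [← mul_smul, ← mul_smul]
    congr 1
    group
  rcases TA0 ht' hf' ha' hd' with h | h
  · left; rw [e, h, smul_inv_smul]
  · right; rw [e, h, smul_compl', Finset.smul_finset_union, smul_inv_smul, co]

theorem SEP {o : Finset GolayPt} (ho : o ∈ octads) {x y : GolayPt} (hxy : x ≠ y) (hx : x ∉ o)
    (hy : y ∉ o) : ∃ a ∈ octads, Disjoint o a ∧ x ∈ a ∧ y ∉ a := by
  obtain ⟨k, hk, rfl⟩ := trans_octads O0_mem ho
  obtain ⟨a, ha, hd, h1, h2⟩ := SEP0 (x := k⁻¹ • x) (y := k⁻¹ • y)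
    (fun h => hxy (smul_left_cancel _ h))
    (by rw [Finset.inv_smul_mem_iff]; exact hx) (by rw [Finset.inv_smul_mem_iff]; exact hy)
  refine ⟨k • a, smul_mem_octads hk ha, (disj_smul_iff k _ _).mpr hd, ?_, ?_⟩
  · rw [← Finset.inv_smul_mem_iff]; exact h1
  · rw [← Finset.inv_smul_mem_iff]; exact h2

theorem kernel {o : Finset GolayPt} (ho : o ∈ octads) {g : Equiv.Perm GolayPt} (hg : g ∈ M24)
    (hgo : g • o = o) :
    (∀ T ∈ trios, o ∈ T → g • T = T) ↔ ∀ p ∈ o, g p = p := by
  constructor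
  · intro hall
    -- a point outside
    have hp0 : ∃ p0, p0 ∉ o := by
      by_contra hcon
      push Not at hcon
      have : o = Finset.univ := Finset.eq_univ_iff_forall.mpr hcon
      have h8 := ho.2
      rw [this] at h8
      exact absurd h8 (by decide)
    obtain ⟨p0, hp0⟩ := hp0
    have hout : ∀ (h : Equiv.Perm GolayPt), h • o = o → ∀ x, x ∉ o → h x ∉ o := by
      intro h hh x hx hcon
      rw [← hh] at hcon
      obtain ⟨y, hy, hyx⟩ := Finset.mem_smul_finset.mp hcon
      exact hx (h.injective hyx ▸ hy)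
    obtain ⟨t, ht, htq⟩ := exists_T_map ho hp0 (hout g hgo p0 hp0)
    obtain ⟨ht1, ht2⟩ := mem_T_iff.mp ht
    have hti : ∀ x ∈ o, t⁻¹ x = x := by
      intro x hx
      rw [Equiv.Perm.inv_eq_iff_eq, ht2 x hx]
    have hto : t⁻¹ • o = o := by
      apply Finset.eq_of_subset_of_card_le
      · intro x hx
        obtain ⟨y, hy, rfl⟩ := Finset.mem_smul_finset.mp hx
        rw [Equiv.Perm.smul_def, hti y hy]; exact hy
      · rw [Finset.card_smul_finset]
    set h := t⁻¹ * g with hh
    have hhM : h ∈ M24 := M24.mul_mem (M24.inv_mem ht1) hg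
    have hho : h • o = o := by rw [hh, mul_smul, hgo, hto]
    have hhp : h p0 = p0 := by
      rw [hh, Equiv.Perm.mul_apply, Equiv.Perm.inv_eq_iff_eq, htq]
    -- h maps each octad disjoint from o to itself or its partner
    have hga : ∀ a ∈ octads, Disjoint o a → g • a = a ∨ g • a = co o a := by
      intro a ha hd
      have h1 := hall _ (trioOf_mem ho ha hd) (mem_trioOf.mpr (Or.inl rfl))
      have h2 : g • a ∈ trioOf o a := by
        rw [← h1]
        exact Finset.smul_mem_smul_finset (mem_trioOf.mpr (Or.inr (Or.inl rfl)))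
      rcases mem_trioOf.mp h2 with h3 | h3 | h3
      · exfalso
        rw [← hgo] at h3
        exact ne_of_disj ho hd (smul_left_cancel g h3).symm
      · exact Or.inl h3
      · exact Or.inr h3
    have hha : ∀ a ∈ octads, Disjoint o a → h • a = a ∨ h • a = co o a := by
      intro a ha hd
      rw [hh, mul_smul]
      rcases hga a ha hd with h1 | h1
      · rw [h1]; exact TA ho (M24.inv_mem ht1) hti ha hd
      · rw [h1]
        rcases TA ho (M24.inv_mem ht1) hti (co_mem ho ha hd) (disj_co o a) with h2 | h2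
        · exact Or.inr h2
        · rw [co_co hd] at h2; exact Or.inl h2
    have hfixp : ∀ a ∈ octads, Disjoint o a → p0 ∈ a → h • a = a := by
      intro a ha hd hp
      rcases hha a ha hd with h1 | h1
      · exact h1
      · exfalso
        have : p0 ∈ h • a := by
          have := Finset.smul_mem_smul_finset (a := h) hp
          rwa [Equiv.Perm.smul_def, hhp] at this
        rw [h1] at this
        exact Finset.disjoint_left.mp (disj_co' o a) hp this
    have hfix : ∀ a ∈ octads, Disjoint o a → h • a = a := by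
      intro a ha hd
      by_cases hp : p0 ∈ a
      · exact hfixp a ha hd hp
      · have hpc : p0 ∈ co o a := by
          rw [co, Finset.mem_compl, Finset.mem_union]
          rintro (h | h)
          · exact hp0 h
          · exact hp h
        have h1 := hfixp _ (co_mem ho ha hd) (disj_co o a) hpc
        have h2 := smul_co h o (co o a)
        rw [co_co hd, hho, h1, co_co hd] at h2
        exact h2
    have hpts : ∀ x, x ∉ o → h x = x := by
      intro x hx
      by_contra hne
      obtain ⟨a, ha, hd, h1, h2⟩ := SEP ho (x := x) (y := h x) (fun e => hne e.symm) hx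
        (hout h hho x hx)
      apply h2
      have := Finset.smul_mem_smul_finset (a := h) h1
      rwa [hfix a ha hd] at this
    have hone : h = 1 := by
      by_contra hne
      have h8 := fix_le_eight hhM hne
      have hsub : oᶜ ⊆ Finset.univ.filter fun y => h y = y := by
        intro x hx
        exact Finset.mem_filter.mpr ⟨Finset.mem_univ _, hpts x (Finset.mem_compl.mp hx)⟩
      have := Finset.card_le_card hsub
      rw [Finset.card_compl, ho.2] at this
      have h24 : Fintype.card GolayPt = 24 := by decide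
      omega
    have hgt : g = t := by
      have := congrArg (fun z => t * z) hone
      simpa [hh] using this
    rw [hgt]; exact ht2
  · intro hf T hT hoT
    obtain ⟨a, ha, hd, rfl⟩ := trio_form hT hoT
    rw [smul_trioOf, hgo]
    rcases TA ho hg hf ha hd with h | h
    · rw [h]
    · rw [h, trioOf_co ho ha hd]

theorem main (o : Finset GolayPt) (ho : o ∈ octads) :
    {T : Finset (Finset GolayPt) | T ∈ trios ∧ o ∈ T}.ncard = 15 ∧
    (∀ T₁ T₂ T₁' T₂' : Finset (Finset GolayPt), T₁ ∈ trios → T₂ ∈ trios → T₁' ∈ trios →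
      T₂' ∈ trios → o ∈ T₁ → o ∈ T₂ → o ∈ T₁' → o ∈ T₂' → T₁ ≠ T₂ → T₁' ≠ T₂' →
      ∃ g ∈ M24, g • o = o ∧ g • T₁ = T₁' ∧ g • T₂ = T₂') ∧
    ∀ g ∈ M24, g • o = o → ((∀ T ∈ trios, o ∈ T → g • T = T) ↔ ∀ p ∈ o, g p = p) :=
  ⟨count15 ho, fun _ _ _ _ h1 h2 h3 h4 o1 o2 o3 o4 n1 n2 =>
    two_trans ho h1 h2 h3 h4 o1 o2 o3 o4 n1 n2, fun _ hg hgo => kernel ho hg hgo⟩

end Cfsg.Agent.Lib.Helper3_T15b
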