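import Cfsg.Agent.S1591

set_option autoImplicit false
open Cfsg

namespace Cfsg.Agent.Helper3TG

def W (a0 a1 a2 a3 a4 a5 a6 a7 a8 a9 a10 a11 : ZMod 3) : ArrayPt → ZMod 3 :=
  fun p => (![![a0,a1,a2],![a3,a4,a5],![a6,a7,a8],![a9,a10,a11]] : Fin 4 → Fin 3 → ZMod 3) p.1 p.2

theorem mem_of (z : ArrayPt → ZMod 3) (s : ZMod 3)
    (h1 : ∀ i : Fin 4, ∑ r : ZMod 3, z (i, r) = -s)
    (h2 : ∀ a b : ZMod 3, ∑ i : Fin 4,
      z (i, (a • ![0,1,1,1] + b • ![1,0,1,2] : Fin 4 → ZMod 3) i) = s) :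
    z ∈ ternaryGolayCode := by
  refine ⟨s, h1, ?_⟩
  intro t ht
  obtain ⟨a, b, rfl⟩ := Submodule.mem_span_pair.mp ht
  exact h2 a b

theorem link (c : ArrayPt → (ZMod 3)ˣ)
    (h : ∀ x ∈ ternaryGolayCode, monomialMap 1 c x ∈ ternaryGolayCode)
    (x y : ArrayPt → ZMod 3) (hx : x ∈ ternaryGolayCode) (hy : y ∈ ternaryGolayCode)
    (p q : ArrayPt) (hpq : p ≠ q) (h0 : ∀ r, r ≠ p ∧ r ≠ q → x r * y r = 0)
    (hp : x p * y p ≠ 0) : c p = c q := by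
  have e1 := Cfsg.Agent.S1591.result (monomialMap 1 c x) y (h x hx) hy
  have e2 := Cfsg.Agent.S1591.result x y hx hy
  have hm : ∀ r, monomialMap 1 c x r = (c r : ZMod 3) * x r := fun r => rfl
  rw [Fintype.sum_eq_add p q hpq (by
    intro r hr
    rw [hm, mul_assoc, h0 r hr, mul_zero])] at e1
  rw [Fintype.sum_eq_add p q hpq h0] at e2
  rw [hm, hm] at e1
  have e3 : ((c p : ZMod 3) - (c q : ZMod 3)) * (x p * y p) = 0 := by
    linear_combination e1 - (c q : ZMod 3) * e2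
  rcases mul_eq_zero.mp e3 with h4 | h4
  · exact Units.ext (sub_eq_zero.mp h4)
  · exact absurd h4 hp

end Cfsg.Agent.Helper3TG
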