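import Cfsg.Agent.Lib.Helper3_TG

set_option autoImplicit false
open Cfsg

namespace Cfsg.Agent.Helper3TG

abbrev P6 : Type := ZMod 3 × ZMod 3 × ZMod 3 × ZMod 3 × ZMod 3 × ZMod 3

def enc (a : P6) : ArrayPt → ZMod 3 :=
  match a with
  | (a0, a1, a2, a3, a4, a6) =>
    W a0 a1 a2 a3 a4 (a0 + a1 + a2 + 2 * a3 + 2 * a4) a6 (2 * a1 + a2 + 2 * a3 + a4 + a6)
      (a0 + 2 * a1 + a3 + 2 * a4 + a6) (a0 + 2 * a1 + 2 * a2 + 2 * a3 + 2 * a6)
      (a0 + a2 + a3 + a4 + 2 * a6) (2 * a0 + 2 * a1 + a2 + 2 * a4 + 2 * a6)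

def sf (a : P6) : ZMod 3 := 2 * a.1 + 2 * a.2.1 + 2 * a.2.2.1

def dec (x : ArrayPt → ZMod 3) : P6 := (x (0,0), x (0,1), x (0,2), x (1,0), x (1,1), x (2,0))

theorem dec_enc (a : P6) : dec (enc a) = a := by
  obtain ⟨a0, a1, a2, a3, a4, a6⟩ := a
  rfl

set_option maxRecDepth 100000 in
theorem enc_chk : ∀ a : P6, (∀ i : Fin 4, ∑ r : ZMod 3, enc a (i, r) = -(sf a)) ∧
    (∀ u v : ZMod 3, ∑ i : Fin 4,
      enc a (i, (u • ![0,1,1,1] + v • ![1,0,1,2] : Fin 4 → ZMod 3) i) = sf a) := by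
  decide +kernel

theorem enc_mem (a : P6) : enc a ∈ ternaryGolayCode :=
  mem_of _ (sf a) (enc_chk a).1 (enc_chk a).2

theorem keyeq (z : ArrayPt → ZMod 3) (hz : z ∈ ternaryGolayCode) : ∃ s : ZMod 3,
      (z (0,0) + z (0,1) + z (0,2) = -s) ∧ (z (1,0) + z (1,1) + z (1,2) = -s) ∧
      (z (2,0) + z (2,1) + z (2,2) = -s) ∧ (z (3,0) + z (3,1) + z (3,2) = -s) ∧
      (z (0,0) + z (1,0) + z (2,0) + z (3,0) = s) ∧
      (z (0,1) + z (1,0) + z (2,1) + z (3,2) = s) ∧
      (z (0,0) + z (1,1) + z (2,1) + z (3,1) = s) := by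
  obtain ⟨s, h1, h2⟩ := hz
  have col : ∀ i : Fin 4, z (i,0) + z (i,1) + z (i,2) = -s := by
    intro i
    have := h1 i
    rw [show (Finset.univ : Finset (ZMod 3)) = {0, 1, 2} from by decide] at this
    rw [Finset.sum_insert (by decide), Finset.sum_insert (by decide), Finset.sum_singleton] at this
    rw [← this]; ring
  refine ⟨s, col 0, col 1, col 2, col 3, ?_, ?_, ?_⟩
  · have := h2 0 (Submodule.zero_mem _)
    rw [Fin.sum_univ_four] at this
    exact this
  · have := h2 ![1, 0, 1, 2] (Submodule.subset_span (by simp))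
    rw [Fin.sum_univ_four] at this
    exact this
  · have := h2 ![0, 1, 1, 1] (Submodule.subset_span (by simp))
    rw [Fin.sum_univ_four] at this
    exact this

theorem enc_dec (x : ArrayPt → ZMod 3) (hx : x ∈ ternaryGolayCode) : enc (dec x) = x := by
  obtain ⟨s, h_c0, h_c1, h_c2, h_c3, h_t00, h_t01, h_t10⟩ := keyeq x hx
  have e5 : x (0,0) + x (0,1) + x (0,2) + 2 * x (1,0) + 2 * x (1,1) = x (1,2) := by
    symm
    linear_combination (norm := (ring_nf; reduce_mod_char)) -1 * h_c0 + 1 * h_c1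
  have e7 : 2 * x (0,1) + x (0,2) + 2 * x (1,0) + x (1,1) + x (2,0) = x (2,1) := by
    symm
    linear_combination (norm := (ring_nf; reduce_mod_char)) -1 * h_c0 + 1 * h_c3 + -1 * h_t00 + -1 * h_t01 + -1 * h_t10
  have e8 : x (0,0) + 2 * x (0,1) + x (1,0) + 2 * x (1,1) + x (2,0) = x (2,2) := by
    symm
    linear_combination (norm := (ring_nf; reduce_mod_char)) 1 * h_c2 + -1 * h_c3 + 1 * h_t00 + 1 * h_t01 + 1 * h_t10
  have e9 : x (0,0) + 2 * x (0,1) + 2 * x (0,2) + 2 * x (1,0) + 2 * x (2,0) = x (3,0) := by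
    symm
    linear_combination (norm := (ring_nf; reduce_mod_char)) 1 * h_c0 + 1 * h_t00
  have e10 : x (0,0) + x (0,2) + x (1,0) + x (1,1) + 2 * x (2,0) = x (3,1) := by
    symm
    linear_combination (norm := (ring_nf; reduce_mod_char)) -1 * h_c0 + -1 * h_c3 + 1 * h_t00 + 1 * h_t01 + -1 * h_t10
  have e11 : 2 * x (0,0) + 2 * x (0,1) + x (0,2) + 2 * x (1,1) + 2 * x (2,0) = x (3,2) := by
    symm
    linear_combination (norm := (ring_nf; reduce_mod_char)) -1 * h_c0 + -1 * h_c3 + 1 * h_t00 + -1 * h_t01 + 1 * h_t10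
  funext ⟨i, r⟩
  fin_cases i <;> fin_cases r
  · rfl
  · rfl
  · rfl
  · rfl
  · rfl
  · exact e5
  · rfl
  · exact e7
  · exact e8
  · exact e9
  · exact e10
  · exact e11

theorem enc_inj : Function.Injective enc := fun a b h => by
  rw [← dec_enc a, ← dec_enc b, h]

set_option maxRecDepth 100000 in
theorem wt_chk : ∀ a : P6, (ternarySupport (enc a)).card = 0 ∨ (ternarySupport (enc a)).card = 6 ∨
    (ternarySupport (enc a)).card = 9 ∨ (ternarySupport (enc a)).card = 12 := by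
  decide +kernel

set_option maxRecDepth 100000 in
theorem cnt6 : (Finset.univ.filter fun a : P6 => (ternarySupport (enc a)).card = 6).card = 264 := by
  decide +kernel

set_option maxRecDepth 100000 in
theorem cnt9 : (Finset.univ.filter fun a : P6 => (ternarySupport (enc a)).card = 9).card = 440 := by
  decide +kernel

set_option maxRecDepth 100000 in
theorem cnt12 : (Finset.univ.filter fun a : P6 => (ternarySupport (enc a)).card = 12).card = 24 := by
  decide +kernel

theorem ncard_wt (k : ℕ) : {x : ArrayPt → ZMod 3 | x ∈ ternaryGolayCode ∧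
    (ternarySupport x).card = k}.ncard
    = (Finset.univ.filter fun a : P6 => (ternarySupport (enc a)).card = k).card := by
  have : {x : ArrayPt → ZMod 3 | x ∈ ternaryGolayCode ∧ (ternarySupport x).card = k}
      = enc '' (↑(Finset.univ.filter fun a : P6 => (ternarySupport (enc a)).card = k) : Set P6) := by
    ext x
    simp only [Set.mem_setOf_eq, Set.mem_image, Finset.coe_filter, Finset.mem_univ, true_and]
    constructor
    · rintro ⟨hx, hk⟩
      exact ⟨dec x, by rw [enc_dec x hx]; exact hk, enc_dec x hx⟩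
    · rintro ⟨a, ha, rfl⟩
      exact ⟨enc_mem a, ha⟩
  rw [this, Set.ncard_image_of_injective _ enc_inj, Set.ncard_coe_finset]

theorem card_code : Nat.card ↥ternaryGolayCode = 729 := by
  have e : P6 ≃ ↥ternaryGolayCode :=
    { toFun := fun a => ⟨enc a, enc_mem a⟩
      invFun := fun x => dec x.1
      left_inv := fun a => dec_enc a
      right_inv := fun x => Subtype.ext (enc_dec x.1 x.2) }
  rw [← Nat.card_congr e, Nat.card_eq_fintype_card]
  simp [Fintype.card_prod, ZMod.card]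

end Cfsg.Agent.Helper3TG
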