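import Mathlib
import Cfsg.Agent.Lib.Helper3_M24f

set_option autoImplicit false

namespace Cfsg.Agent.Lib.Helper3_Tri

open Cfsg Cfsg.Agent.Lib.Helper3_Golay Cfsg.Agent.Lib.Helper3_Golay2 Cfsg.Agent.Lib.Helper3_Golay3
open Cfsg.Agent.Lib.Helper3_M24a Cfsg.Agent.Lib.Helper3_M24d Cfsg.Agent.Lib.Helper3_M24f
open Cfsg.Agent.Lib.Helper3_Fast
open scoped Pointwise

theorem smul_toFinset (g : Equiv.Perm GolayPt) (l : List GolayPt) :
    g • l.toFinset = (l.map g).toFinset := by
  ext x
  simp only [Finset.mem_smul_finset, List.mem_toFinset, List.mem_map, Equiv.Perm.smul_def]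

theorem sub_nf {o s : Finset GolayPt} (ho : o ∈ octads) (hs : s ⊆ o) {k : ℕ} (hk : s.card = k)
    (h5 : k ≤ 5) : ∃ g ∈ M24, g • dec O0 = o ∧ g • (baseL.take k).toFinset = s := by
  obtain ⟨l2, a1, a2, a3⟩ := exists_list_of_le (s := o \ s) (n := 5 - k) (by
    rw [Finset.card_sdiff_of_subset hs, ho.2, hk]; omega)
  have hlen : s.toList.length = k := by rw [Finset.length_toList, hk]
  obtain ⟨g, hg, hm, hgo⟩ := octad_nf ho (s.toList ++ l2) (by rw [List.length_append, hlen, a1]; omega)
    (by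
      rw [List.nodup_append]
      refine ⟨s.nodup_toList, a2, ?_⟩
      intro x hx y hy hxy
      subst hxy
      exact (Finset.mem_sdiff.mp (a3 x hy)).2 (Finset.mem_toList.mp hx))
    (by
      intro y hy
      rcases List.mem_append.mp hy with h | h
      · exact hs (Finset.mem_toList.mp h)
      · exact (Finset.mem_sdiff.mp (a3 y h)).1)
  refine ⟨g, hg, hgo, ?_⟩
  rw [smul_toFinset, List.map_take, hm, List.take_left' hlen, Finset.toList_toFinset]

theorem count_std (m : ℕ) :
    {o' : Finset GolayPt | o' ∈ octads ∧ dec O0 ∩ o' = dec m}.ncard =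
      ((Finset.range 4096).filter fun n =>
        (pop24 (fcomb n) == 8 && (pop24 ((O0 &&& fcomb n) ^^^ m) == 0)) = true).card := by
  apply ncard_code_set 8 (fun o' => dec O0 ∩ o' = dec m) (fun x => pop24 ((O0 &&& x) ^^^ m) == 0)
  intro x
  rw [← dec_and, beq_iff_eq, ← popN_eq_pop24, ← card_dec, dec_xor, Finset.card_eq_zero]
  constructor
  · intro h; rw [h]; simp
  · intro h
    exact symmDiff_eq_bot.mp h

theorem e2 : (baseL.take 2).toFinset = dec 8388609 := by decide +kernel
theorem e4 : (baseL.take 4).toFinset = dec 8388615 := by decide +kernel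

theorem count_gen {o s : Finset GolayPt} (ho : o ∈ octads) (hs : s ⊆ o) {k m : ℕ}
    (hk : s.card = k) (h5 : k ≤ 5) (hm : (baseL.take k).toFinset = dec m) :
    {o' : Finset GolayPt | o' ∈ octads ∧ o ∩ o' = s}.ncard =
      ((Finset.range 4096).filter fun n =>
        (pop24 (fcomb n) == 8 && (pop24 ((O0 &&& fcomb n) ^^^ m) == 0)) = true).card := by
  obtain ⟨g, hg, rfl, rfl⟩ := sub_nf ho hs hk h5
  rw [← count_std m, hm]
  symm
  apply ncard_transfer g
  intro o'
  change (o' ∈ octads ∧ _) ↔ (g • o' ∈ octads ∧ _)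
  rw [smul_mem_octads_iff hg, ← Finset.smul_finset_inter, smul_left_cancel_iff]

theorem main (o : Finset GolayPt) (ho : o ∈ octads) (s : Finset GolayPt) (hs : s ⊆ o) :
    (s.card = 2 → {o' : Finset GolayPt | o' ∈ octads ∧ o ∩ o' = s}.ncard = 16) ∧
    (s.card = 4 → {o' : Finset GolayPt | o' ∈ octads ∧ o ∩ o' = s}.ncard = 4) := by
  constructor
  · intro h
    rw [count_gen ho hs h (by norm_num) e2]
    decide +kernel
  · intro h
    rw [count_gen ho hs h (by norm_num) e4]
    decide +kernel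

end Cfsg.Agent.Lib.Helper3_Tri
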