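import Cfsg.Agent.Lib.Helper4_Control3

set_option autoImplicit false

namespace Cfsg.Agent.Lib.Helper4_Control4

open scoped Pointwise
open Cfsg Cfsg.Agent.Lib.Helper4_Syl Cfsg.Agent.Lib.Helper4_Alperin Cfsg.Agent.Lib.Helper4_Control
  Cfsg.Agent.Lib.Helper4_Control2 Cfsg.Agent.Lib.Helper4_Control3

variable {G : Type*} [Group G] {p : ℕ}

local notation "N(" A ")" => Subgroup.normalizer ((A : Subgroup G) : Set G)

/-- chains of conjugations by allowed steps, staying inside `T` -/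
inductive LChain (St : G → Prop) (T A : Subgroup G) : G → Prop
  | nil : A ≤ T → LChain St T A 1
  | snoc {c y : G} : LChain St T A c → St y → lc (y * c) A ≤ T → LChain St T A (y * c)

theorem LChain.le {St : G → Prop} {T A : Subgroup G} {c : G} (h : LChain St T A c) : A ≤ T := by
  induction h with
  | nil h => exact h
  | snoc _ _ _ ih => exact ih

theorem LChain.lc_le {St : G → Prop} {T A : Subgroup G} {c : G} (h : LChain St T A c) :
    lc c A ≤ T := by
  cases h with
  | nil h => rw [lc_one]; exact h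
  | snoc _ _ h => exact h

theorem LChain.res {St : G → Prop} {T A B : Subgroup G} {c : G} (h : LChain St T A c)
    (hBA : B ≤ A) : LChain St T B c := by
  induction h with
  | nil h => exact LChain.nil (hBA.trans h)
  | snoc _ hy hle ih => exact LChain.snoc ih hy ((lc_mono _ hBA).trans hle)

theorem LChain.trans {St : G → Prop} {T A : Subgroup G} {c d : G} (h : LChain St T A c)
    (h' : LChain St T (lc c A) d) : LChain St T A (d * c) := by
  induction h' with
  | nil _ => rw [one_mul]; exact h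
  | snoc _ hy hle ih =>
    rw [mul_assoc]
    refine LChain.snoc ih hy ?_
    rw [← mul_assoc, lc_mul]; exact hle

theorem LChain.single {St : G → Prop} {T A : Subgroup G} {y : G} (hA : A ≤ T) (hy : St y)
    (hle : lc y A ≤ T) : LChain St T A y := by
  have := LChain.snoc (LChain.nil hA) hy (by rw [mul_one]; exact hle)
  rwa [mul_one] at this

theorem LChain.inv {St : G → Prop} (hSt : ∀ y, St y → St y⁻¹) {T A : Subgroup G} {c : G}
    (h : LChain St T A c) : LChain St T (lc c A) c⁻¹ := by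
  induction h with
  | nil h => rw [inv_one, lc_one]; exact LChain.nil h
  | @snoc c y h1 hy hle ih =>
    rw [mul_inv_rev]
    have h2 : LChain St T (lc (y * c) A) y⁻¹ := by
      apply LChain.single hle (hSt y hy)
      rw [lc_mul, lc_inv_lc]
      exact h1.lc_le
    apply h2.trans
    rw [lc_mul, lc_inv_lc]
    exact ih

/-- conjugation by `c` on `A` is realized by a chain -/
def Real (St : G → Prop) (T A : Subgroup G) (c : G) : Prop := ∃ c', LChain St T A c' ∧ Agree A c' c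

theorem Real.congr {St : G → Prop} {T A : Subgroup G} {c d : G} (h : Real St T A c)
    (hcd : Agree A c d) : Real St T A d := by
  obtain ⟨x, hx, hag⟩ := h
  exact ⟨x, hx, fun a ha => (hag a ha).trans (hcd a ha)⟩

theorem real_fusPred {St : G → Prop} (hSt : ∀ y, St y → St y⁻¹) (T S : Subgroup G) :
    FusPred S (Real St T) where
  trans := by
    rintro A c d - - - ⟨x, hx, hxc⟩ ⟨y, hy, hyd⟩
    rw [← hxc.lc_eq] at hy
    refine ⟨y * x, hx.trans hy, fun a ha => ?_⟩
    have h1 := hxc a ha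
    have h2 := hyd _ (conj_mem_lc (c := c) ha)
    calc y * x * a * (y * x)⁻¹ = y * (x * a * x⁻¹) * y⁻¹ := by group
      _ = d * (c * a * c⁻¹) * d⁻¹ := by rw [h1, h2]
      _ = _ := by group
  inv := by
    rintro A c - - ⟨x, hx, hxc⟩
    refine ⟨x⁻¹, by rw [← hxc.lc_eq]; exact hx.inv hSt, fun b hb => ?_⟩
    have h1 := hxc _ (mem_lc.1 hb)
    have h2 : x * (c⁻¹ * b * c) * x⁻¹ = b := by rw [h1]; group
    calc x⁻¹ * b * x⁻¹⁻¹ = x⁻¹ * (x * (c⁻¹ * b * c) * x⁻¹) * x := by rw [h2, inv_inv]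
      _ = c⁻¹ * b * c⁻¹⁻¹ := by group
  res := by
    rintro A B c hBA - - ⟨x, hx, hxc⟩
    exact ⟨x, hx.res hBA, fun a ha => hxc a (hBA ha)⟩
  bot := by
    intro c
    refine ⟨1, LChain.nil bot_le, fun a ha => ?_⟩
    rw [Subgroup.mem_bot] at ha
    subst ha; simp

/-- explicit form of a chain -/
theorem LChain.explicit {St : G → Prop} {T A : Subgroup G} {c' : G} (h : LChain St T A c') :
    ∃ (n : ℕ) (c : Fin (n + 1) → G), c 0 = 1 ∧ (∀ i : Fin n, St (c i.succ * (c i.castSucc)⁻¹)) ∧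
      (∀ i : Fin (n + 1), lc (c i) A ≤ T) ∧ c (Fin.last n) = c' := by
  induction h with
  | nil h => exact ⟨0, fun _ => 1, rfl, fun i => i.elim0, fun _ => by rw [lc_one]; exact h, rfl⟩
  | @snoc d y _ hy hle ih =>
    obtain ⟨n, c, h0, hstep, hcont, hlast⟩ := ih
    refine ⟨n + 1, Fin.snoc (α := fun _ => G) c (y * d), ?_, ?_, ?_, ?_⟩
    · have : (0 : Fin (n + 2)) = Fin.castSucc (0 : Fin (n + 1)) := rfl
      rw [this, Fin.snoc_castSucc]; exact h0
    · intro i
      induction i using Fin.lastCases with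
      | last =>
        rw [Fin.succ_last, Fin.snoc_last, Fin.snoc_castSucc, hlast]
        simpa using hy
      | cast j =>
        rw [Fin.succ_castSucc, Fin.snoc_castSucc, Fin.snoc_castSucc]
        exact hstep j
    · intro i
      induction i using Fin.lastCases with
      | last => rw [Fin.snoc_last]; exact hle
      | cast j => rw [Fin.snoc_castSucc]; exact hcont j
    · rw [Fin.snoc_last]

theorem LChain.of_explicit {St : G → Prop} {T A : Subgroup G} (n : ℕ) (c : Fin (n + 1) → G)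
    (h0 : c 0 = 1) (hstep : ∀ i : Fin n, St (c i.succ * (c i.castSucc)⁻¹))
    (hcont : ∀ i : Fin (n + 1), lc (c i) A ≤ T) : ∀ i, LChain St T A (c i) := by
  intro i
  induction i using Fin.induction with
  | zero =>
    rw [h0]
    have := hcont 0
    rw [h0, lc_one] at this
    exact LChain.nil this
  | succ j ih =>
    have e : c j.succ = (c j.succ * (c j.castSucc)⁻¹) * c j.castSucc := by group
    rw [e]
    exact LChain.snoc ih (hstep j) (by rw [← e]; exact hcont _)

/-- allowed steps for a set of functors -/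
def StF (𝓦 : Set (Subgroup G → Subgroup G)) (H T : Subgroup G) (y : G) : Prop :=
  ∃ W ∈ 𝓦, y ∈ H ⊓ N(W T)

theorem stF_inv (𝓦 : Set (Subgroup G → Subgroup G)) (H T : Subgroup G) :
    ∀ y, StF 𝓦 H T y → StF 𝓦 H T y⁻¹ := by
  rintro y ⟨W, hW, hy⟩
  exact ⟨W, hW, Subgroup.inv_mem _ hy⟩

/-- control of strong fusion by a set of functors w.r.t. a given Sylow subgroup -/
def FCS (𝓦 : Set (Subgroup G → Subgroup G)) (H T : Subgroup G) : Prop :=
  ∀ A : Subgroup G, A ≤ T → ∀ h ∈ H, lc h A ≤ T → Real (StF 𝓦 H T) T A h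

theorem fcs_iff (𝓦 : Set (Subgroup G → Subgroup G)) (H T : Subgroup G) :
    (∀ (A : Set G) (h : G), h ∈ H → A ⊆ T → (fun a => h * a * h⁻¹) '' A ⊆ T →
      ∃ (n : ℕ) (c : Fin (n + 1) → G), c 0 = 1 ∧
        (∀ i : Fin n, ∃ W ∈ 𝓦,
          c i.succ * (c i.castSucc)⁻¹ ∈ H ⊓ Subgroup.normalizer ((W T : Subgroup G) : Set G)) ∧
        (∀ i : Fin (n + 1), (fun a => c i * a * (c i)⁻¹) '' A ⊆ T) ∧
        ∀ a ∈ A, c (Fin.last n) * a * (c (Fin.last n))⁻¹ = h * a * h⁻¹) ↔ FCS 𝓦 H T := by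
  constructor
  · intro h A hA g hg hgA
    obtain ⟨n, c, h0, hstep, hcont, hlast⟩ := h A g hg hA (lc_le_iff_image.1 hgA)
    exact ⟨c (Fin.last n), LChain.of_explicit n c h0 hstep (fun i => lc_le_iff_image.2 (hcont i)) _,
      hlast⟩
  · intro h A g hg hA hgA
    obtain ⟨c', hc', hag⟩ := h (Subgroup.closure A) ((Subgroup.closure_le T).2 hA) g hg
      (lc_closure_le_iff.2 hgA)
    obtain ⟨n, c, h0, hstep, hcont, hlast⟩ := hc'.explicit
    exact ⟨n, c, h0, hstep, fun i => lc_closure_le_iff.1 (hcont i),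
      fun a ha => by rw [hlast]; exact hag a (Subgroup.subset_closure ha)⟩

theorem LChain.conj {𝓦 : Set (Subgroup G → Subgroup G)} (h𝓦 : ∀ W ∈ 𝓦, IsConjugacyFunctor p W)
    {H T : Subgroup G} (hT : IsPGroup p T) {m : G} (hm : m ∈ H) {A : Subgroup G} {c : G}
    (h : LChain (StF 𝓦 H T) T A c) :
    LChain (StF 𝓦 H (lc m T)) (lc m T) (lc m A) (m * c * m⁻¹) := by
  induction h with
  | nil h =>
    have : m * 1 * m⁻¹ = 1 := by group
    rw [this]; exact LChain.nil (lc_mono m h)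
  | @snoc c y _ hy hle ih =>
    have e : m * (y * c) * m⁻¹ = (m * y * m⁻¹) * (m * c * m⁻¹) := by group
    rw [e]
    refine LChain.snoc ih ?_ ?_
    · obtain ⟨W, hW, hy'⟩ := hy
      exact ⟨W, hW, Subgroup.mem_inf.2 ⟨H.mul_mem (H.mul_mem hm (Subgroup.mem_inf.1 hy').1)
        (H.inv_mem hm), conj_mem_normalizer_functor (h𝓦 W hW) hT m (Subgroup.mem_inf.1 hy').2⟩⟩
    · rw [← e, ← lc_mul]
      have : m * (y * c) * m⁻¹ * m = m * (y * c) := by group
      rw [this, lc_mul]
      exact lc_mono m hle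

theorem FCS.transport {𝓦 : Set (Subgroup G → Subgroup G)} (h𝓦 : ∀ W ∈ 𝓦, IsConjugacyFunctor p W)
    {H T : Subgroup G} (hT : IsPGroup p T) {m : G} (hm : m ∈ H) (h : FCS 𝓦 H T) :
    FCS 𝓦 H (lc m T) := by
  intro A hA g hg hgA
  have hA₀ : lc m⁻¹ A ≤ T := by rw [lc_le_iff, inv_inv]; exact hA
  have hg₀ : m⁻¹ * g * m ∈ H := H.mul_mem (H.mul_mem (H.inv_mem hm) hg) hm
  have e : lc (m⁻¹ * g * m) (lc m⁻¹ A) = lc m⁻¹ (lc g A) := by
    rw [← lc_mul, ← lc_mul]; congr 1; group
  obtain ⟨x, hx, hag⟩ := h (lc m⁻¹ A) hA₀ _ hg₀ (by rw [e, lc_le_iff, inv_inv]; exact hgA)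
  have h1 := hx.conj h𝓦 hT hm
  rw [lc_lc_inv] at h1
  refine ⟨m * x * m⁻¹, h1, ?_⟩
  intro a ha
  have h1 := hag (m⁻¹ * a * m) (by
    have := conj_mem_lc (c := m⁻¹) ha
    rwa [inv_inv] at this)
  calc m * x * m⁻¹ * a * (m * x * m⁻¹)⁻¹ = m * (x * (m⁻¹ * a * m) * x⁻¹) * m⁻¹ := by group
    _ = g * a * g⁻¹ := by rw [h1]; group

theorem familyControlsStrongFusionIn_iff [Finite G] [Fact p.Prime]
    {𝓦 : Set (Subgroup G → Subgroup G)} (h𝓦 : ∀ W ∈ 𝓦, IsConjugacyFunctor p W) (H : Subgroup G) :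
    FamilyControlsStrongFusionIn p 𝓦 H ↔ ∀ T, IsSylIn p T H → FCS 𝓦 H T := by
  unfold FamilyControlsStrongFusionIn
  simp only [fcs_iff]
  exact sylow_transport (fun T m hT hm h => h.transport h𝓦 hT.isPGroup hm)

end Cfsg.Agent.Lib.Helper4_Control4
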