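import Cfsg.Prelude.Def_ConjugacyFunctors

set_option autoImplicit false
open Cfsg

namespace Cfsg.Agent.Lib.Helper4_KInf

variable {P : Type*} [Group P]

theorem upper_anti {Q₁ Q₂ : Subgroup P} (h : Q₁ ≤ Q₂) :
    kUpperStarFamily Q₂ ⊆ kUpperStarFamily Q₁ := by
  intro B hB
  exact ⟨hB.1, (Subgroup.commutator_mono le_rfl h).trans hB.2⟩

theorem lower_anti {Q₁ Q₂ : Subgroup P} (h : Q₁ ≤ Q₂) :
    kLowerStarFamily Q₂ ⊆ kLowerStarFamily Q₁ := by
  intro B hB
  exact ⟨hB.1, h.trans hB.2.1, fun A hA hAQ => hB.2.2 A hA (hAQ.trans h)⟩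

theorem step_mono {Q₁ Q₂ : Subgroup P} (h : Q₁ ≤ Q₂) :
    sSup (kUpperStarFamily (sSup (kLowerStarFamily Q₁))) ≤
      sSup (kUpperStarFamily (sSup (kLowerStarFamily Q₂))) :=
  sSup_le_sSup (upper_anti (sSup_le_sSup (lower_anti h)))

theorem odd_succ_le (n : ℕ) : kSeqOdd P (n + 1) ≤ kSeqOdd P n := by
  induction n with
  | zero => simp [kSeqOdd]
  | succ n ih =>
    show sSup (kUpperStarFamily (sSup (kLowerStarFamily (kSeqOdd P (n+1))))) ≤
      sSup (kUpperStarFamily (sSup (kLowerStarFamily (kSeqOdd P n))))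
    exact step_mono ih

theorem even_le_succ (n : ℕ) : kSeqEven P n ≤ kSeqEven P (n + 1) :=
  sSup_le_sSup (lower_anti (odd_succ_le n))

theorem odd_antitone : Antitone (kSeqOdd P) := antitone_nat_of_succ_le odd_succ_le

theorem even_monotone : Monotone (kSeqEven P) := monotone_nat_of_le_succ even_le_succ

/-- A normal abelian subgroup lies in all the families. -/
theorem normal_abelian_mem_classTwo (A : Subgroup P) (hA : IsMulCommutative ↥A) :
    A ∈ classTwoSubgroups P := by
  show ⁅A, A⁆ ≤ Subgroup.centralizer (A : Set P)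
  have : ⁅A, A⁆ = ⊥ := by
    rw [Subgroup.commutator_eq_bot_iff_le_centralizer]
    intro a ha b hb
    have := hA.is_comm.comm ⟨b, hb⟩ ⟨a, ha⟩
    exact congrArg Subtype.val this
  rw [this]; exact bot_le

theorem abelian_le_centralizer (A : Subgroup P) (hA : IsMulCommutative ↥A) :
    A ≤ Subgroup.centralizer (A : Set P) := by
  intro a ha b hb
  have := hA.is_comm.comm ⟨b, hb⟩ ⟨a, ha⟩
  exact congrArg Subtype.val this

theorem normal_abelian_mem_lower (A : Subgroup P) [A.Normal] (hA : IsMulCommutative ↥A)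
    (Q : Subgroup P) : A ∈ kLowerStarFamily Q := by
  refine ⟨normal_abelian_mem_classTwo A hA, ?_, ?_⟩
  · rw [Subgroup.normalizer_eq_top]; exact le_top
  · intro B _ _ _ _ _
    exact le_inf (Subgroup.commutator_le_left A B) ((Subgroup.commutator_le_left A B).trans (abelian_le_centralizer A hA))

theorem normal_abelian_mem_upper (A : Subgroup P) [A.Normal] (hA : IsMulCommutative ↥A)
    (Q : Subgroup P) : A ∈ kUpperStarFamily Q :=
  ⟨normal_abelian_mem_classTwo A hA,
    le_inf (Subgroup.commutator_le_left A Q) ((Subgroup.commutator_le_left A Q).trans (abelian_le_centralizer A hA))⟩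

theorem normal_abelian_le_even (A : Subgroup P) [A.Normal] (hA : IsMulCommutative ↥A) (n : ℕ) :
    A ≤ kSeqEven P n := le_sSup (normal_abelian_mem_lower A hA _)

theorem normal_abelian_le_odd (A : Subgroup P) [A.Normal] (hA : IsMulCommutative ↥A) (n : ℕ) :
    A ≤ kSeqOdd P n := by
  cases n with
  | zero => simp [kSeqOdd]
  | succ n => exact le_sSup (normal_abelian_mem_upper A hA _)

theorem normal_abelian_le_infLower (A : Subgroup P) [A.Normal] (hA : IsMulCommutative ↥A) :
    A ≤ kInfLower P := (normal_abelian_le_even A hA 0).trans (le_iSup (kSeqEven P) 0)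

theorem normal_abelian_le_infUpper (A : Subgroup P) [A.Normal] (hA : IsMulCommutative ↥A) :
    A ≤ kInfUpper P := le_iInf (normal_abelian_le_odd A hA)

end Cfsg.Agent.Lib.Helper4_KInf
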