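import Mathlib
import Cfsg.Agent.Lib.Helper4_LBal3

set_option autoImplicit false
set_option linter.unusedSectionVars false
set_option linter.unusedVariables false
set_option linter.style.haveILetI false

namespace Cfsg.Agent.Lib.Helper4_LBal4

open Subgroup Cfsg.Agent.Lib.Helper3_Core Cfsg.Agent.Lib.Helper3_Comp Cfsg.Agent.Lib.Helper3_PComp
  Cfsg.Agent.Lib.Helper3_Frat Cfsg.Agent.Lib.Helper4_PComp
  Cfsg.Agent.Lib.Helper4_LBal Cfsg.Agent.Lib.Helper4_LBal2 Cfsg.Agent.Lib.Helper4_LBal3
  Cfsg.Agent.Lib.Helper4_Control Cfsg.Agent.Lib.Helper4_Syl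
open scoped Pointwise commutatorElement

universe u

variable {p : ℕ} [Fact p.Prime] {X : Type u} [Group X] [Finite X]

local notation "N(" A ")" => Subgroup.normalizer ((A : Subgroup X) : Set X)
local notation "C(" A ")" => Subgroup.centralizer ((A : Subgroup X) : Set X)

theorem pcomp_le_normalizer0 (hO : Cfsg.pPrimeCore p X = ⊥)
    {R : Subgroup X} (hR : IsPGroup p R) (hZ : Cfsg.layer X ⊓ C(Cfsg.layer X) ≤ R)
    {K : Subgroup N(R)} (hK : Cfsg.IsPComponent p K) {L : Subgroup X} (hL : Cfsg.IsComponent L) :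
    K.map (N(R)).subtype ≤ N(L) := by
  haveI := layer_normal X
  have hKp : ⁅K, K⁆ = K := IsPComponent.commutator_self hK
  set K' := K.map (N(R)).subtype with hK'
  have hK'p : ⁅K', K'⁆ = K' := by rw [hK', ← Subgroup.map_commutator, hKp]
  have hcen : Cfsg.pCore p X ⊔ R ≤ C(K') :=
    Cfsg.Agent.Lib.Helper3_Local.pCore_le_centralizer_map hR K
      (Cfsg.Agent.Lib.Helper3_Local.pStab_map_of_perfect p _ hKp)
      (fun V hVn hV => Cfsg.Agent.Lib.Helper3_Local.IsPComponent.commutator_of_isPGroup hK hVn hV)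
  have hKR : K' ≤ C(R) := by
    rw [Subgroup.le_centralizer_iff]; exact le_sup_right.trans hcen
  have hTn : ((Cfsg.layer X).subgroupOf N(R)).Normal := inferInstance
  rcases IsPComponent.le_or_commutator_le hK hTn with h | h
  · have h1 : K' ≤ Cfsg.layer X := by
      rw [hK', Subgroup.map_le_iff_le_comap]; exact h
    exact h1.trans (IsComponent.layer_le_normalizer hL)
  · set Wy := (Cfsg.pPrimeCore p N(R)).map (N(R)).subtype with hWy
    have hWyc : (Nat.card Wy).Coprime p :=
      Nat.Coprime.of_dvd_left (Subgroup.card_map_dvd _ _) (pPrimeCore_coprime p _)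
    have hcomm : ∀ k ∈ K', ∀ x ∈ Cfsg.layer X ⊓ N(R), k * x * k⁻¹ * x⁻¹ ∈ Wy := by
      rintro _ ⟨k, hk, rfl⟩ x hx
      have h1 : ⁅k, (⟨x, hx.2⟩ : N(R))⁆ ∈ Cfsg.pPrimeCore p N(R) :=
        h (Subgroup.commutator_mem_commutator hk (Subgroup.mem_subgroupOf.2 hx.1))
      exact ⟨_, h1, by simp [commutatorElement_def]⟩
    apply le_normalizer_of_orbit hR hKR hK'p
    intro k hk
    exact exists_conj_eq hO hR hZ hKR hWyc hcomm hL hk

theorem pcomp_le_normalizer (hO : Cfsg.pPrimeCore p X = ⊥)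
    {R : Subgroup X} (hR : IsPGroup p R)
    {K : Subgroup N(R)} (hK : Cfsg.IsPComponent p K) {L : Subgroup X} (hL : Cfsg.IsComponent L) :
    K.map (N(R)).subtype ≤ N(L) := by
  haveI := layer_normal X
  have hKp : ⁅K, K⁆ = K := IsPComponent.commutator_self hK
  set K' := K.map (N(R)).subtype with hK'
  have hcen : Cfsg.pCore p X ⊔ R ≤ C(K') :=
    Cfsg.Agent.Lib.Helper3_Local.pCore_le_centralizer_map hR K
      (Cfsg.Agent.Lib.Helper3_Local.pStab_map_of_perfect p _ hKp)
      (fun V hVn hV => Cfsg.Agent.Lib.Helper3_Local.IsPComponent.commutator_of_isPGroup hK hVn hV)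
  set Z := Cfsg.layer X ⊓ C(Cfsg.layer X) with hZ
  haveI hZn : Z.Normal := inferInstance
  have hZnil : Group.IsNilpotent Z := by
    letI : CommGroup Z := { (inferInstance : Group Z) with
      mul_comm := fun a b => Subtype.ext ((Subgroup.mem_centralizer_iff.1 b.2.2) a a.2.1) }
    exact CommGroup.isNilpotent
  have hZp : IsPGroup p Z :=
    Cfsg.Agent.Lib.Helper3_Local.isPGroup_of_isNilpotent_of_pPrimeCore_eq_bot hO hZn.isSubnormal hZnil
  have hZO : Z ≤ Cfsg.pCore p X := le_sSup ⟨hZn, hZp⟩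
  set R' := R ⊔ Z with hR'
  have hR'p : IsPGroup p R' := IsPGroup.to_sup_of_normal_right hR hZp
  have hKC : K' ≤ C(R') := by
    rw [Subgroup.le_centralizer_iff]
    exact (sup_le le_sup_right (hZO.trans le_sup_left)).trans hcen
  have hCN : C(R') ≤ N(R) :=
    (Subgroup.centralizer_le (show (R : Set X) ⊆ (R' : Set X) from
      (le_sup_left : R ≤ R ⊔ Z))).trans (Subgroup.centralizer_le_normalizer _)
  have hCN' : C(R') ≤ N(R') := Subgroup.centralizer_le_normalizer _
  have hsn1 : (K'.subgroupOf C(R')).IsSubnormal :=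
    Cfsg.Agent.Lib.Helper3_Local.subnormal_subgroupOf_of_le hCN hK.1
  have hCn : ((C(R')).subgroupOf N(R')).Normal := by
    rw [Subgroup.normal_subgroupOf_iff_le_normalizer hCN']
    exact Cfsg.Agent.Lib.Helper3_Local.le_normalizer_centralizer le_rfl
  have hKN' : K' ≤ N(R') := hKC.trans hCN'
  have hsn2 : (K'.subgroupOf N(R')).IsSubnormal := by
    apply IsSubnormal.trans (K := (C(R')).subgroupOf N(R')) _ _ hCn.isSubnormal
    · intro x hx; exact hKC hx
    · have e := hsn1.map (f := (Subgroup.subgroupOfEquivOfLe hCN').symm.toMonoidHom)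
        (Subgroup.subgroupOfEquivOfLe hCN').symm.surjective
      convert e using 1
      ext x
      constructor
      · intro hx
        exact ⟨Subgroup.subgroupOfEquivOfLe hCN' x, hx, by simp⟩
      · rintro ⟨y, hy, rfl⟩
        exact hy
  have hKK : K'.subgroupOf N(R) = K :=
    Subgroup.comap_map_eq_self_of_injective (N(R)).subtype_injective K
  have htop : Cfsg.IsPComponent p (⊤ : Subgroup K') :=
    top_of_subgroupOf (Subgroup.map_subtype_le K) (hKK.symm ▸ hK)
  have hK2 := subgroupOf_of_top hKN' hsn2 htop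
  have := pcomp_le_normalizer0 hO hR'p le_sup_right hK2 hL
  rwa [Subgroup.map_subgroupOf_eq_of_le hKN'] at this

/-- S1269 -/
theorem preimage_layer_le_normalizer (hO : Cfsg.pPrimeCore p X = ⊥)
    {R : Subgroup X} (hR : IsPGroup p R) {L : Subgroup X} (hL : Cfsg.IsComponent L) :
    ((Cfsg.layer (N(R) ⧸ Cfsg.pPrimeCore p N(R))).comap
      (QuotientGroup.mk' (Cfsg.pPrimeCore p N(R)))).map (N(R)).subtype ≤ N(L) := by
  rw [← map_pLayer, Subgroup.comap_map_eq, QuotientGroup.ker_mk', Subgroup.map_sup]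
  apply sup_le _ (core_le_normalizer_component hO hR hL)
  rw [Subgroup.map_le_iff_le_comap]
  apply sSup_le
  intro K hK
  rw [← Subgroup.map_le_iff_le_comap]
  exact pcomp_le_normalizer hO hR hK hL

end Cfsg.Agent.Lib.Helper4_LBal4
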