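import Mathlib
import Cfsg.Prelude.Def_Local
import Cfsg.Agent.Lib.Helper4_PSol2
import Cfsg.Agent.Lib.Helper1_Coprime

set_option autoImplicit false
set_option linter.unusedSectionVars false
set_option linter.unusedVariables false

namespace Cfsg.Agent.Lib.Helper4_PCompl

open Subgroup Cfsg Cfsg.Agent.Lib.Helper4_Core Cfsg.Agent.Lib.Helper4_PSol
  Cfsg.Agent.Lib.Helper4_PSol2 Cfsg.Agent.Lib.Helper1_SZ Cfsg.Agent.Lib.Helper1_Coprime
open scoped Pointwise

universe u

variable {p : ℕ}

/-- `H` is a `p`-complement -/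
def PC (p : ℕ) {G : Type*} [Group G] (H : Subgroup G) : Prop :=
  (Nat.card H).Coprime p ∧ ∃ n : ℕ, H.index = p ^ n

/-- existence and dominance -/
def ED (p : ℕ) (G : Type*) [Group G] : Prop :=
  (∃ H : Subgroup G, PC p H) ∧ ∀ U H : Subgroup G, (Nat.card U).Coprime p → PC p H →
    ∃ g : G, U.map (MulAut.conj g).toMonoidHom ≤ H

theorem le_of_pc [hp : Fact p.Prime] {G : Type*} [Group G] [Finite G] {H N : Subgroup G}
    (hH : PC p H) (hN : N.Normal) (hc : (Nat.card N).Coprime p) : N ≤ H := by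
  obtain ⟨n, hn⟩ := hH.2
  have h1 : (Nat.card (H ⊔ N : Subgroup G)).Coprime p := card_sup_coprime hN hH.1 hc
  have h2 : H.relIndex (H ⊔ N) ∣ p ^ n := by
    rw [← hn, ← Subgroup.relIndex_mul_index (le_sup_left : H ≤ H ⊔ N)]
    exact Dvd.intro _ rfl
  have h3 : H.relIndex (H ⊔ N) ∣ Nat.card (H ⊔ N : Subgroup G) := Subgroup.relIndex_dvd_card _ _
  have h4 : H.relIndex (H ⊔ N) = 1 :=
    Nat.Coprime.eq_one_of_dvd (Nat.Coprime.coprime_dvd_left h3 (h1.pow_right n)) h2
  exact le_sup_right.trans (Subgroup.relIndex_eq_one.1 h4)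

theorem pc_map [hp : Fact p.Prime] {G : Type*} [Group G] [Finite G] {H : Subgroup G}
    (hH : PC p H) (N : Subgroup G) [N.Normal] : PC p (H.map (QuotientGroup.mk' N)) := by
  refine ⟨Nat.Coprime.coprime_dvd_left (Subgroup.card_map_dvd _ _) hH.1, ?_⟩
  obtain ⟨n, hn⟩ := hH.2
  have h1 : (H.map (QuotientGroup.mk' N)).index ∣ p ^ n := by
    rw [Subgroup.index_map, QuotientGroup.ker_mk',
      MonoidHom.range_eq_top.2 (QuotientGroup.mk'_surjective N), Subgroup.index_top, mul_one, ← hn]
    exact Subgroup.index_dvd_of_le le_sup_left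
  obtain ⟨k, -, hk⟩ := (Nat.dvd_prime_pow hp.out).1 h1
  exact ⟨k, hk⟩

theorem exists_conj_le_sup {G : Type*} [Group G] {U H N : Subgroup G} [N.Normal]
    (h : ∃ g : G ⧸ N, (U.map (QuotientGroup.mk' N)).map (MulAut.conj g).toMonoidHom ≤
      H.map (QuotientGroup.mk' N)) :
    ∃ g : G, U.map (MulAut.conj g).toMonoidHom ≤ H ⊔ N := by
  obtain ⟨gb, hg⟩ := h
  obtain ⟨g, rfl⟩ := QuotientGroup.mk'_surjective N gb
  refine ⟨g, ?_⟩
  rintro _ ⟨u, hu, rfl⟩
  have h1 : QuotientGroup.mk' N (g * u * g⁻¹) ∈ H.map (QuotientGroup.mk' N) := by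
    apply hg
    refine ⟨QuotientGroup.mk' N u, Subgroup.mem_map_of_mem _ hu, ?_⟩
    simp
  rw [← Subgroup.mem_comap, Subgroup.comap_map_eq, QuotientGroup.ker_mk'] at h1
  exact h1

theorem ed_of_pprime [hp : Fact p.Prime] {G : Type*} [Group G] [Finite G] (N : Subgroup G)
    [hN : N.Normal] (hc : (Nat.card N).Coprime p) (h : ED p (G ⧸ N)) : ED p G := by
  obtain ⟨⟨Hb, hHb, n, hn⟩, hD⟩ := h
  constructor
  · refine ⟨Hb.comap (QuotientGroup.mk' N), ?_, n, ?_⟩
    · rw [Cfsg.Agent.Lib.Helper3_PComp.card_comap_of_surjective _ (QuotientGroup.mk'_surjective N),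
        QuotientGroup.ker_mk']
      exact Nat.Coprime.mul_left hc hHb
    · rw [Subgroup.index_comap_of_surjective _ (QuotientGroup.mk'_surjective N), hn]
  · intro U H hU hH
    have hNH : N ≤ H := le_of_pc hH hN hc
    obtain ⟨g, hg⟩ := exists_conj_le_sup (hD (U.map (QuotientGroup.mk' N)) (H.map (QuotientGroup.mk' N))
      (Nat.Coprime.coprime_dvd_left (Subgroup.card_map_dvd _ _) hU) (pc_map hH N))
    exact ⟨g, hg.trans (sup_le le_rfl hNH)⟩

theorem ed_of_p [hp : Fact p.Prime] {G : Type*} [Group G] [Finite G] (N : Subgroup G)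
    [hN : N.Normal] (hNp : IsPGroup p N) (h : ED p (G ⧸ N)) : ED p G := by
  obtain ⟨⟨Hb, hHb, n, hn⟩, hD⟩ := h
  obtain ⟨a, ha⟩ := IsPGroup.iff_card.1 hNp
  have hcopN : ∀ X : Subgroup G, (Nat.card X).Coprime p → (Nat.card X).Coprime (Nat.card N) := by
    intro X hX; rw [ha]; exact hX.pow_right a
  have hcopN' : ∀ m : ℕ, m.Coprime p → m.Coprime (Nat.card N) := by
    intro m hm; rw [ha]; exact hm.pow_right a
  constructor
  · set L := Hb.comap (QuotientGroup.mk' N) with hL
    have hNL : N ≤ L := by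
      conv_lhs => rw [← QuotientGroup.ker_mk' N]
      exact Subgroup.ker_le_comap _ _
    have hcardL : Nat.card L = Nat.card N * Nat.card Hb := by
      rw [hL, Cfsg.Agent.Lib.Helper3_PComp.card_comap_of_surjective _
        (QuotientGroup.mk'_surjective N), QuotientGroup.ker_mk']
    have hrel : N.relIndex L = Nat.card Hb := by
      have h1 := Subgroup.relIndex_mul_relIndex ⊥ N L bot_le hNL
      rw [Subgroup.relIndex_bot_left, Subgroup.relIndex_bot_left, hcardL] at h1
      exact Nat.eq_of_mul_eq_mul_left Nat.card_pos h1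
    obtain ⟨K, hKL, hK⟩ := SZ_rel_exists hNL Subgroup.le_normalizer_of_normal
      (by rw [hrel]; exact (hcopN' _ hHb).symm)
    rw [hrel] at hK
    refine ⟨K, by rw [hK]; exact hHb, a + n, ?_⟩
    have h2 : Nat.card K * K.index = Nat.card K * p ^ (a + n) := by
      rw [Subgroup.card_mul_index, hK, ← Subgroup.card_mul_index L,
        hL, Subgroup.index_comap_of_surjective _ (QuotientGroup.mk'_surjective N), hn, ← hL, hcardL,
        ha, pow_add]
      ring
    exact Nat.eq_of_mul_eq_mul_left Nat.card_pos h2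
  · intro U H hU hH
    obtain ⟨g, hg⟩ := exists_conj_le_sup (hD (U.map (QuotientGroup.mk' N)) (H.map (QuotientGroup.mk' N))
      (Nat.Coprime.coprime_dvd_left (Subgroup.card_map_dvd _ _) hU) (pc_map hH N))
    set U' := U.map (MulAut.conj g).toMonoidHom with hU'
    have hU'c : (Nat.card U').Coprime p :=
      Nat.Coprime.coprime_dvd_left (Subgroup.card_map_dvd _ _) hU
    set X := (U' ⊔ N) ⊓ H with hX
    have hXc : (Nat.card X).Coprime p :=
      Nat.Coprime.coprime_dvd_left (Subgroup.card_dvd_of_le inf_le_right) hH.1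
    have hXN : X ⊔ N = U' ⊔ N := by
      apply le_antisymm (sup_le inf_le_left le_sup_right)
      apply sup_le _ le_sup_right
      intro u hu
      obtain ⟨h', hh', n', hn', rfl⟩ := Subgroup.mem_sup_of_normal_right.1 (hg hu)
      refine Subgroup.mul_mem _ (Subgroup.mem_sup_left ⟨?_, hh'⟩) (Subgroup.mem_sup_right hn')
      have : h' = h' * n' * n'⁻¹ := by group
      rw [this]
      exact Subgroup.mul_mem _ (Subgroup.mem_sup_left hu) (Subgroup.mem_sup_right (N.inv_mem hn'))
    have hr1 : N.relIndex (U' ⊔ N) = Nat.card U' :=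
      relIndex_sup_eq_card_of_disjoint (disjoint_of_coprime_natCard (hcopN _ hU'c))
    have hr2 : N.relIndex (X ⊔ N) = Nat.card X :=
      relIndex_sup_eq_card_of_disjoint (disjoint_of_coprime_natCard (hcopN _ hXc))
    obtain ⟨d, hd, hdX⟩ := conj_of_le_sup (A := X) (D := N) (B := U')
      Subgroup.le_normalizer_of_normal (hcopN _ hXc)
      (Or.inr (Cfsg.Agent.Lib.Helper3_Local.isSolvable_of_isPGroup hNp))
      (by rw [hXN]; exact le_sup_left) (by rw [← hr1, ← hr2, hXN])
    refine ⟨d⁻¹ * g, ?_⟩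
    rintro _ ⟨u, hu, rfl⟩
    have h1 : g * u * g⁻¹ ∈ MulAut.conj d • X := by
      rw [hdX]; exact ⟨u, hu, rfl⟩
    rw [Cfsg.Agent.Lib.Helper1_Basic.mem_conj_smul] at h1
    have e : (MulAut.conj (d⁻¹ * g)).toMonoidHom u = d⁻¹ * (g * u * g⁻¹) * d := by
      show d⁻¹ * g * u * (d⁻¹ * g)⁻¹ = _
      group
    rw [e]
    exact h1.2

theorem ed_aux [hp : Fact p.Prime] : ∀ n : ℕ, ∀ (G : Type u) [Group G] [Finite G], Nat.card G = n →
    IsPSolvable p G → ED p G := by
  intro n
  induction n using Nat.strong_induction_on with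
  | _ n ih =>
    intro G _ _ hn hG
    have hlt : ∀ N : Subgroup G, N.Normal → N ≠ ⊥ → Nat.card (G ⧸ N) < n := by
      intro N _ hN
      rw [← hn, ← Subgroup.index_eq_card, ← Subgroup.card_mul_index N]
      have h1 : 1 < Nat.card N := by
        rw [Subgroup.one_lt_card_iff_ne_bot]; exact hN
      have h2 : 0 < N.index := Nat.pos_of_ne_zero Subgroup.index_ne_zero_of_finite
      nlinarith
    by_cases hO : pPrimeCore p G = ⊥
    · by_cases hP : pCore p G = ⊥
      · have h1 := hall_higman hG hO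
        rw [hP] at h1
        have h2 : ∀ x : G, x = 1 := by
          intro x
          have : x ∈ centralizer (((⊥ : Subgroup G) : Subgroup G) : Set G) := by
            rw [Subgroup.mem_centralizer_iff]
            intro y hy
            rw [SetLike.mem_coe, Subgroup.mem_bot] at hy
            rw [hy]; simp
          exact Subgroup.mem_bot.1 (h1 this)
        constructor
        · refine ⟨⊤, ?_, 0, by simp⟩
          have : Nat.card (⊤ : Subgroup G) = 1 := by
            rw [Subgroup.card_top]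
            haveI : Subsingleton G := ⟨fun a b => by rw [h2 a, h2 b]⟩
            exact Nat.card_of_subsingleton 1
          rw [this]; exact Nat.coprime_one_left p
        · intro U H _ _
          refine ⟨1, fun x _ => ?_⟩
          rw [h2 x]; exact H.one_mem
      · exact ed_of_p (pCore p G) (pCore_isPGroup p G)
          (ih _ (hlt _ inferInstance hP) _ rfl
            (isPSolvable_of_surjective hp.out _ (QuotientGroup.mk'_surjective _) hG))
    · exact ed_of_pprime (pPrimeCore p G) (pPrimeCore_coprime p)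
        (ih _ (hlt _ inferInstance hO) _ rfl
          (isPSolvable_of_surjective hp.out _ (QuotientGroup.mk'_surjective _) hG))

theorem ed_of_isPSolvable [hp : Fact p.Prime] {G : Type u} [Group G] [Finite G]
    (hG : IsPSolvable p G) : ED p G := ed_aux _ G rfl hG

end Cfsg.Agent.Lib.Helper4_PCompl
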