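import Mathlib
import Cfsg.Prelude.Def_Local
import Cfsg.Agent.Lib.Helper4_PSol2

set_option autoImplicit false
set_option linter.unusedSectionVars false
set_option linter.unusedVariables false

namespace Cfsg.Agent.Lib.Helper4_PLen

open Subgroup Cfsg Cfsg.Agent.Lib.Helper4_CharP Cfsg.Agent.Lib.Helper4_CharP2
  Cfsg.Agent.Lib.Helper4_Core Cfsg.Agent.Lib.Helper4_PSol Cfsg.Agent.Lib.Helper4_PCons
  Cfsg.Agent.Lib.Helper4_PSol2

universe u

variable {p : ℕ}

theorem ups_succ_even (p : ℕ) (G : Type*) [Group G] (n : ℕ) (h : Even n) :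
    (Cfsg.upperPSeries p G (n + 1)).1 =
      (Cfsg.pPrimeCore p (G ⧸ (Cfsg.upperPSeries p G n).1)).comap (QuotientGroup.mk' _) := by
  rw [Cfsg.upperPSeries]
  simp only [h, if_true]

theorem ups_succ_odd (p : ℕ) (G : Type*) [Group G] (n : ℕ) (h : ¬ Even n) :
    (Cfsg.upperPSeries p G (n + 1)).1 =
      (Cfsg.pCore p (G ⧸ (Cfsg.upperPSeries p G n).1)).comap (QuotientGroup.mk' _) := by
  rw [Cfsg.upperPSeries]
  simp only [h, if_false]

theorem pPrimeCore_quot_comap {G : Type u} [Group G] [Finite G] (N : Subgroup G) [N.Normal] :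
    pPrimeCore p (G ⧸ (pPrimeCore p (G ⧸ N)).comap (QuotientGroup.mk' N)) = ⊥ := by
  set M := (pPrimeCore p (G ⧸ N)).comap (QuotientGroup.mk' N) with hM
  have hNM : N ≤ M := by
    rw [hM]
    conv_lhs => rw [← QuotientGroup.ker_mk' N]
    exact Subgroup.ker_le_comap _ _
  have hmap : M.map (QuotientGroup.mk' N) = pPrimeCore p (G ⧸ N) :=
    Subgroup.map_comap_eq_self_of_surjective (QuotientGroup.mk'_surjective N) _
  have e1 := QuotientGroup.quotientQuotientEquivQuotient N M hNM
  have e2 := QuotientGroup.quotientMulEquivOfEq hmap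
  exact Cfsg.Agent.Lib.Helper3_Local.pPrimeCore_eq_bot_of_equiv (e2.symm.trans e1)
    (Cfsg.Agent.Lib.Helper3_PComp.pPrimeCore_quotient_eq_bot p (G ⧸ N))

theorem pPrimeCore_quot_odd {G : Type u} [Group G] [Finite G] (k : ℕ) :
    pPrimeCore p (G ⧸ (upperPSeries p G (2 * k + 1)).1) = ⊥ := by
  have h := ups_succ_even p G (2 * k) (even_two_mul k)
  have e := QuotientGroup.quotientMulEquivOfEq h
  exact Cfsg.Agent.Lib.Helper3_Local.pPrimeCore_eq_bot_of_equiv e.symm
    (pPrimeCore_quot_comap (upperPSeries p G (2 * k)).1)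

theorem map_even_succ {G : Type u} [Group G] (k : ℕ) :
    (upperPSeries p G (2 * k + 2)).1.map (QuotientGroup.mk' (upperPSeries p G (2 * k + 1)).1) =
      pCore p (G ⧸ (upperPSeries p G (2 * k + 1)).1) := by
  rw [ups_succ_odd p G (2 * k + 1) (by simp [Nat.even_add_one])]
  exact Subgroup.map_comap_eq_self_of_surjective (QuotientGroup.mk'_surjective _) _

theorem centralizer_factor_le [hp : Fact p.Prime] {G : Type u} [Group G] [Finite G]
    (hsol : IsPSolvable p G) (k : ℕ) :
    centralizer ((((upperPSeries p G (2 * k + 2)).1.map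
      (QuotientGroup.mk' (upperPSeries p G (2 * k + 1)).1)) :
        Subgroup (G ⧸ (upperPSeries p G (2 * k + 1)).1)) : Set (G ⧸ (upperPSeries p G (2 * k + 1)).1))
      ≤ (upperPSeries p G (2 * k + 2)).1.map (QuotientGroup.mk' (upperPSeries p G (2 * k + 1)).1) := by
  rw [map_even_succ]
  exact hall_higman (isPSolvable_of_surjective hp.out _ (QuotientGroup.mk'_surjective _) hsol)
    (pPrimeCore_quot_odd k)

end Cfsg.Agent.Lib.Helper4_PLen
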