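import Mathlib
import Cfsg.Prelude.Def_KGroupFacts

set_option autoImplicit false
set_option linter.unusedSectionVars false
set_option linter.unusedVariables false

namespace Cfsg.Agent.Lib.Helper4_Stem4

open scoped commutatorElement

universe u v

theorem comm_congr_center {P : Type*} [Group P] (a b c d : P) (h1 : a * b⁻¹ ∈ Subgroup.center P)
    (h2 : c * d⁻¹ ∈ Subgroup.center P) : ⁅a, c⁆ = ⁅b, d⁆ := by
  have e1 : ∀ w, w * (a * b⁻¹) = (a * b⁻¹) * w := Subgroup.mem_center_iff.1 h1
  have e2 : ∀ w, w * (c * d⁻¹) = (c * d⁻¹) * w := Subgroup.mem_center_iff.1 h2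
  have ha : a = (a * b⁻¹) * b := by group
  have hc : c = (c * d⁻¹) * d := by group
  generalize a * b⁻¹ = z at *
  generalize c * d⁻¹ = w at *
  subst ha hc
  rw [commutatorElement_def, commutatorElement_def]
  have e3 : z * b * (w * d) = (z * w) * (b * d) := by
    calc z * b * (w * d) = z * (b * w) * d := by group
      _ = z * (w * b) * d := by rw [e2 b]
      _ = _ := by group
  have e4 : (z * b)⁻¹ * (w * d)⁻¹ = (b⁻¹ * d⁻¹) * (z * w)⁻¹ := by
    have e6 : (w * d) * (z * b) = (z * w) * (d * b) := by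
      calc (w * d) * (z * b) = w * (d * z) * b := by group
        _ = w * (z * d) * b := by rw [e1 d]
        _ = (w * z) * (d * b) := by group
        _ = _ := by rw [e1 w]
    calc (z * b)⁻¹ * (w * d)⁻¹ = ((w * d) * (z * b))⁻¹ := by group
      _ = ((z * w) * (d * b))⁻¹ := by rw [e6]
      _ = _ := by group
  have e5 : ∀ v, v * (z * w) = (z * w) * v := by
    intro v
    calc v * (z * w) = (v * z) * w := by group
      _ = z * (v * w) := by rw [e1 v]; group
      _ = z * (w * v) := by rw [e2 v]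
      _ = _ := by group
  calc z * b * (w * d) * (z * b)⁻¹ * (w * d)⁻¹ = (z * b * (w * d)) * ((z * b)⁻¹ * (w * d)⁻¹) := by
        group
    _ = (z * w) * (b * d) * ((b⁻¹ * d⁻¹) * (z * w)⁻¹) := by rw [e3, e4]
    _ = ((z * w) * (b * d * b⁻¹ * d⁻¹)) * (z * w)⁻¹ := by group
    _ = ((b * d * b⁻¹ * d⁻¹) * (z * w)) * (z * w)⁻¹ := by rw [e5]
    _ = _ := by group

theorem perfect_core {P : Type u} {G : Type v} [Group P] [Group G] [Finite G]
    (hGtop : commutator G = ⊤) (pr : P →* G) (hpr : Function.Surjective pr)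
    (hprc : pr.ker ≤ Subgroup.center P) :
    Finite (commutator P) ∧ commutator (commutator P) = ⊤ ∧
      Function.Surjective (pr.comp (commutator P).subtype) ∧
      (pr.comp (commutator P).subtype).ker ≤ Subgroup.center (commutator P) := by
  have hcz : ∀ x y : P, pr x = pr y → x * y⁻¹ ∈ Subgroup.center P := by
    intro x y h
    apply hprc
    rw [MonoidHom.mem_ker, map_mul, map_inv, h, mul_inv_cancel]
  obtain ⟨s, hs⟩ := hpr.hasRightInverse
  have : Finite (commutatorSet P) := by
    apply Set.Finite.to_subtype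
    apply (Set.finite_range (fun gh : G × G => ⁅s gh.1, s gh.2⁆)).subset
    rintro _ ⟨x, y, rfl⟩
    refine ⟨(pr x, pr y), ?_⟩
    exact comm_congr_center _ _ _ _ (hcz _ _ (hs _)) (hcz _ _ (hs _))
  have hmap : (commutator P).map pr = ⊤ := by
    rw [commutator_def, Subgroup.map_commutator, Subgroup.map_top_of_surjective pr hpr,
      ← commutator_def, hGtop]
  have hlift : ∀ x : P, ∃ d ∈ commutator P, pr d = pr x := by
    intro x
    have : pr x ∈ (commutator P).map pr := by rw [hmap]; trivial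
    obtain ⟨d, hd, hdx⟩ := this
    exact ⟨d, hd, hdx⟩
  have hDperf : ⁅commutator P, commutator P⁆ = commutator P := by
    apply le_antisymm (Subgroup.commutator_le_left _ _)
    conv_lhs => rw [commutator_def]
    rw [Subgroup.commutator_le]
    intro x _ y _
    obtain ⟨d, hd, hdx⟩ := hlift x
    obtain ⟨d', hd', hdy⟩ := hlift y
    rw [comm_congr_center x d y d' (hcz _ _ hdx.symm) (hcz _ _ hdy.symm)]
    exact Subgroup.commutator_mem_commutator hd hd'
  refine ⟨inferInstance, Group.isPerfect_def.1 (Subgroup.isPerfect_iff.2 hDperf), ?_, ?_⟩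
  · intro g
    obtain ⟨x, rfl⟩ := hpr g
    obtain ⟨d, hd, hdx⟩ := hlift x
    exact ⟨⟨d, hd⟩, hdx⟩
  · intro x hx
    have : x.1 ∈ Subgroup.center P := hprc hx
    rw [Subgroup.mem_center_iff] at this ⊢
    intro y
    exact Subtype.ext (this y.1)

theorem hom_unique {D : Type u} {X : Type v} {Q : Type*} [Group D] [Group X] [Group Q]
    (hD : commutator D = ⊤) (ξ : X →* Q) (hξc : ξ.ker ≤ Subgroup.center X) (η₁ η₂ : D →* X)
    (h : ξ.comp η₁ = ξ.comp η₂) : η₁ = η₂ := by
  have hz : ∀ d, η₁ d * (η₂ d)⁻¹ ∈ Subgroup.center X := by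
    intro d
    apply hξc
    have := DFunLike.congr_fun h d
    simp only [MonoidHom.comp_apply] at this
    rw [MonoidHom.mem_ker, map_mul, map_inv, this, mul_inv_cancel]
  have hle : commutator D ≤ MonoidHom.eqLocus η₁ η₂ := by
    rw [commutator_def, Subgroup.commutator_le]
    intro g _ h _
    show η₁ ⁅g, h⁆ = η₂ ⁅g, h⁆
    rw [map_commutatorElement, map_commutatorElement]
    exact comm_congr_center _ _ _ _ (hz g) (hz h)
  ext d
  exact hle (hD ▸ Subgroup.mem_top d)

theorem exists_universal {Q : Type u} [Group Q] [Finite Q] (hQ : Group.IsPerfect Q) :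
    ∃ (G : Type u) (_ : Group G) (_ : Finite G) (π : G →* Q), Group.IsPerfect G ∧
      Function.Surjective π ∧ π.ker ≤ Subgroup.center G ∧
      ∀ (X : Type u) [Group X] (ξ : X →* Q), Function.Surjective ξ → ξ.ker ≤ Subgroup.center X →
        ∃! η : G →* X, ξ.comp η = π := by
  have hQtop : commutator Q = ⊤ := Group.isPerfect_def.1 hQ
  let φ : FreeGroup Q →* Q := FreeGroup.lift id
  have hφ : Function.Surjective φ := fun q => ⟨FreeGroup.of q, by simp [φ]⟩
  let N : Subgroup (FreeGroup Q) := ⁅(⊤ : Subgroup (FreeGroup Q)), φ.ker⁆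
  have hNn : N.Normal := inferInstance
  have hNle : N ≤ φ.ker := Subgroup.commutator_le_right _ _
  let pr : FreeGroup Q ⧸ N →* Q := QuotientGroup.lift N φ hNle
  have hpr : Function.Surjective pr := fun q => by
    obtain ⟨f, rfl⟩ := hφ q
    exact ⟨QuotientGroup.mk f, rfl⟩
  have hprc : pr.ker ≤ Subgroup.center (FreeGroup Q ⧸ N) := by
    intro x hx
    obtain ⟨f, rfl⟩ := QuotientGroup.mk_surjective x
    have hf : f ∈ φ.ker := hx
    rw [Subgroup.mem_center_iff]
    intro y
    obtain ⟨g, rfl⟩ := QuotientGroup.mk_surjective y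
    have h1 : ⁅g, f⁆ ∈ N := Subgroup.commutator_mem_commutator (Subgroup.mem_top g) hf
    have h2 : (QuotientGroup.mk' N) ⁅g, f⁆ = 1 := (QuotientGroup.eq_one_iff _).2 h1
    rw [map_commutatorElement, commutatorElement_eq_one_iff_commute] at h2
    exact h2
  obtain ⟨hfin, hperf, hsurj, hcen⟩ := perfect_core hQtop pr hpr hprc
  refine ⟨commutator (FreeGroup Q ⧸ N), inferInstance, hfin,
    pr.comp (commutator (FreeGroup Q ⧸ N)).subtype, Group.isPerfect_def.2 hperf, hsurj, hcen, ?_⟩
  intro X _ ξ hξ hξc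
  obtain ⟨t, ht⟩ := hξ.hasRightInverse
  let ψ : FreeGroup Q →* X := FreeGroup.lift t
  have hψ : ξ.comp ψ = φ := by
    ext q
    simp [ψ, φ, ht q]
  have hψN : N ≤ ψ.ker := by
    show ⁅(⊤ : Subgroup (FreeGroup Q)), φ.ker⁆ ≤ ψ.ker
    rw [Subgroup.commutator_le]
    intro g _ r hr
    rw [MonoidHom.mem_ker, map_commutatorElement, commutatorElement_eq_one_iff_commute]
    have : ψ r ∈ Subgroup.center X := hξc (by
      have h1 := DFunLike.congr_fun hψ r
      simp only [MonoidHom.comp_apply] at h1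
      rw [MonoidHom.mem_ker, h1]
      exact hr)
    exact Subgroup.mem_center_iff.1 this _
  let ψ' : FreeGroup Q ⧸ N →* X := QuotientGroup.lift N ψ hψN
  have hψ' : ξ.comp ψ' = pr := by
    apply MonoidHom.ext
    intro x
    obtain ⟨f, rfl⟩ := QuotientGroup.mk_surjective x
    exact DFunLike.congr_fun hψ f
  refine ⟨ψ'.comp (commutator (FreeGroup Q ⧸ N)).subtype, ?_, ?_⟩
  · show ξ.comp (ψ'.comp _) = _
    rw [← MonoidHom.comp_assoc, hψ']
  · intro η hη
    apply hom_unique hperf ξ hξc
    rw [hη, ← MonoidHom.comp_assoc, hψ']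

end Cfsg.Agent.Lib.Helper4_Stem4
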