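import Mathlib
import Cfsg.Prelude.Def_KGroupFacts
import Cfsg.Agent.Lib.Helper4_Stem4

set_option autoImplicit false
set_option linter.unusedSectionVars false
set_option linter.unusedVariables false
set_option linter.style.haveILetI false

namespace Cfsg.Agent.Lib.Helper4_Schur

open scoped commutatorElement
open Cfsg.Agent.Lib.Helper4_Stem4

universe u v w

/-- splitting lemma: a homomorphism from an abelian group to a free abelian group of finite rank
has a complement to its kernel. -/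
theorem split {T W ι : Type*} [Group T] (hcomm : ∀ a b : T, a * b = b * a) [CommGroup W] [Finite ι]
    (b : Module.Basis ι ℤ (Additive W)) (f : T →* W) :
    ∃ C : Subgroup T, C ⊓ f.ker = ⊥ ∧ ∀ t : T, ∃ c ∈ C, t * c⁻¹ ∈ f.ker := by
  letI : CommGroup T := { (inferInstance : Group T) with mul_comm := hcomm }
  let fa : Additive T →ₗ[ℤ] Additive W := (MonoidHom.toAdditive f).toIntLinearMap
  have hfa : ∀ t : T, fa (Additive.ofMul t) = Additive.ofMul (f t) := fun t => rfl
  let N : Submodule ℤ (Additive W) := LinearMap.range fa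
  obtain ⟨n, ⟨bN⟩⟩ := Submodule.nonempty_basis_of_pid b N
  haveI : Module.Free ℤ N := Module.Free.of_basis bN
  obtain ⟨s, hs⟩ := Module.projective_lifting_property fa.rangeRestrict LinearMap.id
    fa.surjective_rangeRestrict
  have hs' : ∀ x : N, fa (s x) = (x : Additive W) := by
    intro x
    have := LinearMap.congr_fun hs x
    exact congrArg Subtype.val this
  let C : Subgroup T :=
    { carrier := {t | ∃ x : N, s x = Additive.ofMul t}
      mul_mem' := by
        rintro a b ⟨x, hx⟩ ⟨y, hy⟩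
        exact ⟨x + y, by rw [map_add, hx, hy]; rfl⟩
      one_mem' := ⟨0, by rw [map_zero]; rfl⟩
      inv_mem' := by
        rintro a ⟨x, hx⟩
        exact ⟨-x, by rw [map_neg, hx]; rfl⟩ }
  refine ⟨C, ?_, ?_⟩
  · rw [eq_bot_iff]
    rintro t ⟨⟨x, hx⟩, ht⟩
    rw [Subgroup.mem_bot]
    have h1 := hs' x
    rw [hx, hfa, (MonoidHom.mem_ker).1 ht] at h1
    have h2 : x = 0 := Subtype.ext h1.symm
    rw [h2, map_zero] at hx
    exact (Additive.ofMul.injective hx).symm
  · intro t
    refine ⟨Additive.toMul (s (fa.rangeRestrict (Additive.ofMul t))), ⟨_, rfl⟩, ?_⟩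
    have h1 := hs' (fa.rangeRestrict (Additive.ofMul t))
    have h2 : f (Additive.toMul (s (fa.rangeRestrict (Additive.ofMul t)))) = f t := h1
    rw [MonoidHom.mem_ker, map_mul, map_inv, h2, mul_inv_cancel]

section defs
variable (Q : Type u) [Group Q]

def phi : FreeGroup Q →* Q := FreeGroup.lift id

theorem phi_surjective : Function.Surjective (phi Q) := fun q => ⟨FreeGroup.of q, by simp [phi]⟩

def NN : Subgroup (FreeGroup Q) := ⁅(⊤ : Subgroup (FreeGroup Q)), (phi Q).ker⁆

instance NN_normal : (NN Q).Normal := by unfold NN; infer_instance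

abbrev E := FreeGroup Q ⧸ NN Q

def pr : E Q →* Q := QuotientGroup.lift (NN Q) (phi Q) (Subgroup.commutator_le_right _ _)

theorem pr_mk (f : FreeGroup Q) : pr Q (QuotientGroup.mk f) = phi Q f := rfl

theorem pr_surjective : Function.Surjective (pr Q) := fun q => by
  obtain ⟨f, rfl⟩ := phi_surjective Q q
  exact ⟨QuotientGroup.mk f, rfl⟩

theorem pr_ker_le_center : (pr Q).ker ≤ Subgroup.center (E Q) := by
  intro x hx
  obtain ⟨f, rfl⟩ := QuotientGroup.mk_surjective x
  have hf : f ∈ (phi Q).ker := hx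
  rw [Subgroup.mem_center_iff]
  intro y
  obtain ⟨g, rfl⟩ := QuotientGroup.mk_surjective y
  have h1 : ⁅g, f⁆ ∈ NN Q := Subgroup.commutator_mem_commutator (Subgroup.mem_top g) hf
  have h2 : (QuotientGroup.mk' (NN Q)) ⁅g, f⁆ = 1 := (QuotientGroup.eq_one_iff _).2 h1
  rw [map_commutatorElement, commutatorElement_eq_one_iff_commute] at h2
  exact h2

variable {Q}

theorem exists_lift {X : Type v} [Group X] (ξ : X →* Q) (hξ : Function.Surjective ξ)
    (hξc : ξ.ker ≤ Subgroup.center X) : ∃ ψ : E Q →* X, ξ.comp ψ = pr Q := by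
  obtain ⟨t, ht⟩ := hξ.hasRightInverse
  let ψ : FreeGroup Q →* X := FreeGroup.lift t
  have hψ : ξ.comp ψ = phi Q := by
    ext q
    simp [ψ, phi, ht q]
  have hψN : NN Q ≤ ψ.ker := by
    show ⁅(⊤ : Subgroup (FreeGroup Q)), (phi Q).ker⁆ ≤ ψ.ker
    rw [Subgroup.commutator_le]
    intro g _ r hr
    rw [MonoidHom.mem_ker, map_commutatorElement, commutatorElement_eq_one_iff_commute]
    have : ψ r ∈ Subgroup.center X := hξc (by
      have h1 := DFunLike.congr_fun hψ r
      simp only [MonoidHom.comp_apply] at h1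
      rw [MonoidHom.mem_ker, h1]
      exact hr)
    exact Subgroup.mem_center_iff.1 this _
  refine ⟨QuotientGroup.lift (NN Q) ψ hψN, ?_⟩
  apply MonoidHom.ext
  intro x
  obtain ⟨f, rfl⟩ := QuotientGroup.mk_surjective x
  exact DFunLike.congr_fun hψ f

variable (Q)

def rho : E Q →* Abelianization (FreeGroup Q) :=
  QuotientGroup.lift (NN Q) Abelianization.of (by
    rw [Abelianization.ker_of, commutator_def]
    exact Subgroup.commutator_mono le_rfl le_top)

theorem rho_ker : (rho Q).ker = commutator (E Q) := by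
  apply le_antisymm
  · intro x hx
    obtain ⟨f, rfl⟩ := QuotientGroup.mk_surjective x
    have hf : f ∈ (Abelianization.of : FreeGroup Q →* _).ker := hx
    rw [Abelianization.ker_of] at hf
    have h1 : QuotientGroup.mk' (NN Q) f ∈ (commutator (FreeGroup Q)).map (QuotientGroup.mk' (NN Q)) :=
      Subgroup.mem_map_of_mem _ hf
    rw [commutator_def, Subgroup.map_commutator] at h1
    rw [commutator_def]
    exact Subgroup.commutator_mono le_top le_top h1
  · rw [commutator_def, Subgroup.commutator_le]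
    intro a _ b _
    rw [MonoidHom.mem_ker, map_commutatorElement, commutatorElement_eq_one_iff_commute]
    exact Commute.all _ _

def M : Subgroup (E Q) := (pr Q).ker ⊓ commutator (E Q)

theorem finite_commutator [Finite Q] : Finite (commutator (E Q)) := by
  have hcz : ∀ x y : E Q, pr Q x = pr Q y → x * y⁻¹ ∈ Subgroup.center (E Q) := by
    intro x y h
    apply pr_ker_le_center
    rw [MonoidHom.mem_ker, map_mul, map_inv, h, mul_inv_cancel]
  obtain ⟨s, hs⟩ := (pr_surjective Q).hasRightInverse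
  have : Finite (commutatorSet (E Q)) := by
    apply Set.Finite.to_subtype
    apply (Set.finite_range (fun gh : Q × Q => ⁅s gh.1, s gh.2⁆)).subset
    rintro _ ⟨x, y, rfl⟩
    refine ⟨(pr Q x, pr Q y), ?_⟩
    exact comm_congr_center _ _ _ _ (hcz _ _ (hs _)) (hcz _ _ (hs _))
  infer_instance

instance finite_M [Finite Q] : Finite (M Q) := by
  haveI := finite_commutator Q
  exact Finite.of_injective (Subgroup.inclusion (inf_le_right : M Q ≤ commutator (E Q)))
    (Subgroup.inclusion_injective _)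

theorem normal_of_le_ker {C : Subgroup (E Q)} (h : C ≤ (pr Q).ker) : C.Normal := by
  constructor
  intro c hc g
  have := (Subgroup.mem_center_iff.1 (pr_ker_le_center Q (h hc))) g
  rw [this, mul_inv_cancel_right]
  exact hc

theorem exists_compl [Finite Q] (T : Subgroup (E Q)) (hT : T ≤ (pr Q).ker) :
    ∃ C : Subgroup (E Q), C ≤ T ∧ C ⊓ commutator (E Q) = ⊥ ∧
      ∀ t ∈ T, ∃ c ∈ C, t * c⁻¹ ∈ commutator (E Q) := by
  have hcomm : ∀ a b : T, a * b = b * a := by
    intro a b
    apply Subtype.ext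
    exact (Subgroup.mem_center_iff.1 (pr_ker_le_center Q (hT b.2))) a.1
  obtain ⟨C₀, h1, h2⟩ := split (W := Abelianization (FreeGroup Q)) hcomm (FreeAbelianGroup.basis Q)
    ((rho Q).comp T.subtype)
  refine ⟨C₀.map T.subtype, Subgroup.map_subtype_le _, ?_, ?_⟩
  · rw [eq_bot_iff]
    rintro _ ⟨⟨c, hc, rfl⟩, hc2⟩
    rw [← rho_ker] at hc2
    have h3 : c ∈ C₀ ⊓ ((rho Q).comp T.subtype).ker := ⟨hc, hc2⟩
    rw [h1, Subgroup.mem_bot] at h3
    rw [h3]
    exact one_mem _
  · intro t ht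
    obtain ⟨c, hc, hc2⟩ := h2 ⟨t, ht⟩
    refine ⟨c.1, ⟨c, hc, rfl⟩, ?_⟩
    rw [← rho_ker]
    exact hc2

variable {Q}

/-- the image of `M` in a central extension. -/
theorem map_M {X : Type v} [Group X] (ξ : X →* Q) (hξc : ξ.ker ≤ Subgroup.center X)
    (ψ : E Q →* X) (hψ : ξ.comp ψ = pr Q) : (M Q).map ψ = ξ.ker ⊓ commutator X := by
  have hψ' : ∀ e, ξ (ψ e) = pr Q e := fun e => DFunLike.congr_fun hψ e
  apply le_antisymm
  · rintro _ ⟨m, hm, rfl⟩
    refine ⟨?_, ?_⟩
    · show ψ m ∈ ξ.ker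
      rw [MonoidHom.mem_ker, hψ']; exact hm.1
    · have h1 : ψ m ∈ (commutator (E Q)).map ψ := Subgroup.mem_map_of_mem _ hm.2
      rw [commutator_def, Subgroup.map_commutator] at h1
      rw [commutator_def]
      exact Subgroup.commutator_mono le_top le_top h1
  · have hle : commutator X ≤ (commutator (E Q)).map ψ := by
      rw [commutator_def, Subgroup.commutator_le]
      intro x _ y _
      obtain ⟨e₁, he₁⟩ := pr_surjective Q (ξ x)
      obtain ⟨e₂, he₂⟩ := pr_surjective Q (ξ y)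
      have h1 : x * (ψ e₁)⁻¹ ∈ Subgroup.center X := hξc (by
        rw [MonoidHom.mem_ker, map_mul, map_inv, hψ', he₁, mul_inv_cancel])
      have h2 : y * (ψ e₂)⁻¹ ∈ Subgroup.center X := hξc (by
        rw [MonoidHom.mem_ker, map_mul, map_inv, hψ', he₂, mul_inv_cancel])
      rw [comm_congr_center x (ψ e₁) y (ψ e₂) h1 h2, ← map_commutatorElement]
      exact Subgroup.mem_map_of_mem _ (Subgroup.commutator_mem_commutator (Subgroup.mem_top _)
        (Subgroup.mem_top _))
    rintro k ⟨hk1, hk2⟩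
    obtain ⟨e, he, rfl⟩ := hle hk2
    refine ⟨e, ⟨?_, he⟩, rfl⟩
    show e ∈ (pr Q).ker
    rw [MonoidHom.mem_ker, ← hψ']
    exact hk1

/-- for a stem extension the lift is surjective. -/
theorem lift_surjective {X : Type v} [Group X] (ξ : X →* Q) (hξ : Cfsg.IsStemExtension ξ)
    (ψ : E Q →* X) (hψ : ξ.comp ψ = pr Q) : Function.Surjective ψ := by
  have hψ' : ∀ e, ξ (ψ e) = pr Q e := fun e => DFunLike.congr_fun hψ e
  have hM := map_M ξ hξ.2.1 ψ hψ
  rw [inf_eq_left.2 hξ.2.2] at hM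
  intro x
  obtain ⟨e, he⟩ := pr_surjective Q (ξ x)
  have h1 : x * (ψ e)⁻¹ ∈ ξ.ker := by
    rw [MonoidHom.mem_ker, map_mul, map_inv, hψ', he, mul_inv_cancel]
  rw [← hM] at h1
  obtain ⟨m, -, hm⟩ := h1
  exact ⟨m * e, by rw [map_mul, hm]; group⟩

/-- the kernel of a stem extension is an image of `M`. -/
theorem exists_surj_ker {X : Type v} [Group X] (ξ : X →* Q) (hξ : Cfsg.IsStemExtension ξ) :
    ∃ π : M Q →* ξ.ker, Function.Surjective π := by
  obtain ⟨ψ, hψ⟩ := exists_lift ξ hξ.1 hξ.2.1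
  have hM := map_M ξ hξ.2.1 ψ hψ
  rw [inf_eq_left.2 hξ.2.2] at hM
  refine ⟨(ψ.comp (M Q).subtype).codRestrict ξ.ker (fun m => by
    rw [← hM]; exact Subgroup.mem_map_of_mem _ m.2), ?_⟩
  rintro ⟨k, hk⟩
  rw [← hM] at hk
  obtain ⟨m, hm, rfl⟩ := hk
  exact ⟨⟨m, hm⟩, rfl⟩

variable (Q)

theorem cover_of_compl [Finite Q] (C : Subgroup (E Q)) [C.Normal] (hle : C ≤ (pr Q).ker)
    (h1 : C ⊓ commutator (E Q) = ⊥)
    (h2 : ∀ r ∈ (pr Q).ker, ∃ c ∈ C, r * c⁻¹ ∈ commutator (E Q)) :
    Cfsg.IsStemExtension (QuotientGroup.lift C (pr Q) hle) ∧ Finite (E Q ⧸ C) ∧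
      Nonempty ((QuotientGroup.lift C (pr Q) hle).ker ≃* M Q) := by
  set σ := QuotientGroup.lift C (pr Q) hle with hσ
  have hσmk : ∀ e : E Q, σ (QuotientGroup.mk' C e) = pr Q e := fun e => rfl
  have hrep : ∀ x ∈ σ.ker, ∃ m ∈ M Q, QuotientGroup.mk' C m = x := by
    intro x hx
    obtain ⟨r, rfl⟩ := QuotientGroup.mk'_surjective C x
    have hr : r ∈ (pr Q).ker := hx
    obtain ⟨c, hc, hc2⟩ := h2 r hr
    refine ⟨r * c⁻¹, ⟨(pr Q).ker.mul_mem hr ((pr Q).ker.inv_mem (hle hc)), hc2⟩, ?_⟩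
    have hc1 : QuotientGroup.mk' C c = 1 := (QuotientGroup.eq_one_iff c).2 hc
    rw [map_mul, map_inv, hc1, inv_one, mul_one]
  have hstem : Cfsg.IsStemExtension σ := by
    refine ⟨?_, ?_, ?_⟩
    · intro q
      obtain ⟨e, rfl⟩ := pr_surjective Q q
      exact ⟨QuotientGroup.mk' C e, rfl⟩
    · intro x hx
      obtain ⟨m, hm, rfl⟩ := hrep x hx
      rw [Subgroup.mem_center_iff]
      intro y
      obtain ⟨e, rfl⟩ := QuotientGroup.mk'_surjective C y
      rw [← map_mul, ← map_mul, (Subgroup.mem_center_iff.1 (pr_ker_le_center Q hm.1)) e]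
    · intro x hx
      obtain ⟨m, hm, rfl⟩ := hrep x hx
      have h3 : QuotientGroup.mk' C m ∈ (commutator (E Q)).map (QuotientGroup.mk' C) :=
        Subgroup.mem_map_of_mem _ hm.2
      rw [commutator_def, Subgroup.map_commutator] at h3
      rw [commutator_def]
      exact Subgroup.commutator_mono le_top le_top h3
  let g : M Q →* σ.ker := ((QuotientGroup.mk' C).comp (M Q).subtype).codRestrict σ.ker (fun m => m.2.1)
  have hg : Function.Bijective g := by
    constructor
    · rw [injective_iff_map_eq_one]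
      intro m hm
      have h3 : QuotientGroup.mk' C m.1 = 1 := congrArg Subtype.val hm
      have h4 : m.1 ∈ C := (QuotientGroup.eq_one_iff m.1).1 h3
      have h5 : m.1 ∈ C ⊓ commutator (E Q) := ⟨h4, m.2.2⟩
      rw [h1, Subgroup.mem_bot] at h5
      exact Subtype.ext h5
    · rintro ⟨x, hx⟩
      obtain ⟨m, hm, rfl⟩ := hrep x hx
      exact ⟨⟨m, hm⟩, rfl⟩
  let eg := MulEquiv.ofBijective g hg
  refine ⟨hstem, ?_, ⟨eg.symm⟩⟩
  haveI : Finite σ.ker := Finite.of_equiv _ eg.toEquiv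
  haveI : Finite ((E Q ⧸ C) ⧸ σ.ker) :=
    Finite.of_equiv _ (QuotientGroup.quotientKerEquivOfSurjective σ hstem.1).symm.toEquiv
  exact Finite.of_subgroup_quotient σ.ker

/-- existence of a Schur cover with kernel `M`. -/
theorem exists_cover [Finite Q] : ∃ (Γ : Type u) (_ : Group Γ) (_ : Finite Γ) (σ : Γ →* Q),
    Cfsg.IsStemExtension σ ∧ Nonempty (σ.ker ≃* M Q) := by
  obtain ⟨C, hC, h1, h2⟩ := exists_compl Q (pr Q).ker le_rfl
  haveI := normal_of_le_ker Q hC
  obtain ⟨h3, h4, h5⟩ := cover_of_compl Q C hC h1 h2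
  exact ⟨E Q ⧸ C, inferInstance, h4, _, h3, h5⟩

variable {Q}

/-- any group that is the Schur multiplier is isomorphic to `M`. -/
theorem equiv_M [Finite Q] {A : Type v} [CommGroup A] (hA : Cfsg.HasSchurMultiplier Q A) :
    Nonempty (A ≃* M Q) := by
  obtain ⟨Γ₀, _, _, σ₀, hσ₀, ⟨e₀⟩⟩ := exists_cover Q
  obtain ⟨π₁, hπ₁⟩ := hA.2 Γ₀ σ₀ hσ₀
  obtain ⟨Γ, _, _, σ, hσ, ⟨e⟩⟩ := hA.1
  obtain ⟨π₂, hπ₂⟩ := exists_surj_ker σ hσ
  let a : A →* M Q := e₀.toMonoidHom.comp π₁
  have ha : Function.Surjective a := e₀.surjective.comp hπ₁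
  let b : M Q →* A := e.toMonoidHom.comp π₂
  have hb : Function.Surjective b := e.surjective.comp hπ₂
  haveI : Finite A := Finite.of_surjective b hb
  have hinj : Function.Injective a := by
    have h1 : Function.Surjective (b ∘ a) := hb.comp ha
    have h2 : Function.Injective (b ∘ a) := Finite.injective_iff_surjective.2 h1
    exact h2.of_comp
  exact ⟨MulEquiv.ofBijective a ⟨hinj, ha⟩⟩


end defs

end Cfsg.Agent.Lib.Helper4_Schur
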