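import Mathlib
import Cfsg.Prelude.Def_KGroupFacts

set_option autoImplicit false
set_option linter.unusedSectionVars false
set_option linter.unusedVariables false

namespace Cfsg.Agent.Lib.Helper4_Stem3

open scoped commutatorElement

universe u

/-- The central extension of `G` by `R` with bilinear cocycle `a(g) b(h)`. -/
@[ext] structure Tw {G : Type u} [Group G] {R : Type} [CommRing R] (a b : G → R) where
  fst : G
  snd : R

variable {G : Type u} [Group G] {R : Type} [CommRing R] {a b : G → R}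

/-- additivity hypothesis -/
class IsAdd (a : G → R) : Prop where
  map_mul : ∀ g h, a (g * h) = a g + a h

theorem IsAdd.map_one (a : G → R) [h : IsAdd a] : a 1 = 0 := by
  have := h.map_mul 1 1
  rw [mul_one] at this
  linear_combination -this

theorem IsAdd.map_inv (a : G → R) [h : IsAdd a] (g : G) : a g⁻¹ = - a g := by
  have := h.map_mul g⁻¹ g
  rw [inv_mul_cancel, IsAdd.map_one a] at this
  linear_combination -this

instance : Mul (Tw a b) := ⟨fun x y => ⟨x.fst * y.fst, x.snd + y.snd + a x.fst * b y.fst⟩⟩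
instance : Inv (Tw a b) := ⟨fun x => ⟨x.fst⁻¹, -x.snd + a x.fst * b x.fst⟩⟩
instance : One (Tw a b) := ⟨⟨1, 0⟩⟩

instance [IsAdd a] [IsAdd b] : Group (Tw a b) :=
  Group.ofLeftAxioms (G := Tw a b)
    (by
      intro x y z
      apply Tw.ext
      · exact mul_assoc _ _ _
      · show x.snd + y.snd + a x.fst * b y.fst + z.snd + a (x.fst * y.fst) * b z.fst =
          x.snd + (y.snd + z.snd + a y.fst * b z.fst) + a x.fst * b (y.fst * z.fst)
        rw [IsAdd.map_mul (a := a), IsAdd.map_mul (a := b)]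
        ring)
    (by
      intro x
      apply Tw.ext
      · exact one_mul _
      · show 0 + x.snd + a 1 * b x.fst = x.snd
        rw [IsAdd.map_one a]
        ring)
    (by
      intro x
      apply Tw.ext
      · exact inv_mul_cancel _
      · show -x.snd + a x.fst * b x.fst + x.snd + a x.fst⁻¹ * b x.fst = 0
        rw [IsAdd.map_inv a]
        ring)

variable [IsAdd a] [IsAdd b]

theorem mul_fst (x y : Tw a b) : (x * y).fst = x.fst * y.fst := rfl
theorem mul_snd (x y : Tw a b) : (x * y).snd = x.snd + y.snd + a x.fst * b y.fst := rfl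
theorem one_fst : (1 : Tw a b).fst = 1 := rfl
theorem one_snd : (1 : Tw a b).snd = 0 := rfl

def proj (a b : G → R) [IsAdd a] [IsAdd b] : Tw a b →* G := MonoidHom.mk' Tw.fst (fun _ _ => rfl)

theorem proj_apply (x : Tw a b) : proj a b x = x.fst := rfl

def incl (a b : G → R) [IsAdd a] [IsAdd b] : Multiplicative R →* Tw a b :=
  MonoidHom.mk' (fun c => ⟨1, Multiplicative.toAdd c⟩) (by
    intro c d
    apply Tw.ext
    · exact (mul_one _).symm
    · show Multiplicative.toAdd (c * d) = Multiplicative.toAdd c + Multiplicative.toAdd d + a 1 * b 1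
      rw [IsAdd.map_one a]
      simp)

theorem incl_apply (c : Multiplicative R) : incl a b c = ⟨1, Multiplicative.toAdd c⟩ := rfl

theorem proj_surjective : Function.Surjective (proj a b) := fun g => ⟨⟨g, 0⟩, rfl⟩

theorem mem_ker_iff (x : Tw a b) : x ∈ (proj a b).ker ↔ x.fst = 1 := Iff.rfl

theorem ker_le_center : (proj a b).ker ≤ Subgroup.center (Tw a b) := by
  intro x hx
  rw [mem_ker_iff] at hx
  rw [Subgroup.mem_center_iff]
  intro y
  apply Tw.ext
  · rw [mul_fst, mul_fst, hx, mul_one, one_mul]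
  · rw [mul_snd, mul_snd, hx, IsAdd.map_one a, IsAdd.map_one b]
    ring

def kerEquiv (a b : G → R) [IsAdd a] [IsAdd b] : (proj a b).ker ≃* Multiplicative R where
  toFun x := Multiplicative.ofAdd x.1.snd
  invFun c := ⟨incl a b c, rfl⟩
  left_inv x := by
    apply Subtype.ext
    apply Tw.ext
    · exact ((mem_ker_iff _).1 x.2).symm
    · rfl
  right_inv c := rfl
  map_mul' x y := by
    have hx : x.1.fst = 1 := (mem_ker_iff _).1 x.2
    show Multiplicative.ofAdd (x.1 * y.1).snd = _
    rw [mul_snd, hx, IsAdd.map_one a, zero_mul, add_zero]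
    rfl

instance [Finite G] [Finite R] : Finite (Tw a b) :=
  Finite.of_injective (fun x : Tw a b => (x.fst, x.snd)) (by
    intro x y h
    have h1 := congrArg Prod.fst h
    have h2 := congrArg Prod.snd h
    exact Tw.ext h1 h2)

theorem commutator_eq (hG : ∀ g h : G, g * h = h * g) (x y : Tw a b) :
    ⁅x, y⁆ = ⟨1, a x.fst * b y.fst - a y.fst * b x.fst⟩ := by
  rw [commutatorElement_def, mul_inv_eq_iff_eq_mul, mul_inv_eq_iff_eq_mul]
  apply Tw.ext
  · rw [mul_fst, mul_fst, mul_fst, one_mul, hG]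
  · rw [mul_snd, mul_snd, mul_snd, mul_fst, one_mul, IsAdd.map_one a]
    ring

theorem isStem {n : ℕ} {a b : G → ZMod n} [IsAdd a] [IsAdd b] (hG : ∀ g h : G, g * h = h * g)
    (g h : G) (hgh : a g * b h - a h * b g = 1) : Cfsg.IsStemExtension (proj a b) := by
  refine ⟨proj_surjective, ker_le_center, ?_⟩
  intro x hx
  have h1 : incl a b (Multiplicative.ofAdd 1) ∈ commutator (Tw a b) := by
    have h2 := commutator_eq hG (⟨g, 0⟩ : Tw a b) ⟨h, 0⟩
    simp only [hgh] at h2
    rw [incl_apply, toAdd_ofAdd, ← h2]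
    exact Subgroup.commutator_mem_commutator (Subgroup.mem_top _) (Subgroup.mem_top _)
  obtain ⟨k, hk⟩ := ZMod.intCast_surjective x.snd
  have h3 : x = (incl a b (Multiplicative.ofAdd 1)) ^ k := by
    rw [← map_zpow, ← ofAdd_zsmul, zsmul_one, hk, incl_apply, toAdd_ofAdd]
    apply Tw.ext
    · exact (mem_ker_iff _).1 hx
    · rfl
  rw [h3]
  exact Subgroup.zpow_mem _ h1 k

section upper

variable {Γ : Type*} {Q : Type*} [Group Γ] [Group Q]

theorem ker_le_zpowers (σ : Γ →* Q) (hσ : Cfsg.IsStemExtension σ) (x y : Q) (hxy : Commute x y)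
    (hgen : ∀ g : Q, ∃ i j : ℤ, g = x ^ i * y ^ j) (X Y : Γ) (hX : σ X = x) (hY : σ Y = y) :
    σ.ker ≤ Subgroup.zpowers ⁅X, Y⁆ := by
  have hk0 : ⁅X, Y⁆ ∈ Subgroup.center Γ := hσ.2.1 (by
    rw [MonoidHom.mem_ker, map_commutatorElement, hX, hY, commutatorElement_eq_one_iff_commute]
    exact hxy)
  have hTn : (Subgroup.zpowers ⁅X, Y⁆).Normal := by
    constructor
    rintro _ ⟨i, rfl⟩ g
    refine ⟨i, ?_⟩
    have := Subgroup.mem_center_iff.1 (Subgroup.zpow_mem _ hk0 i) g
    simp only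
    rw [this]
    group
  let π := QuotientGroup.mk' (Subgroup.zpowers ⁅X, Y⁆)
  have cz : ∀ z ∈ Subgroup.center Γ, ∀ w, Commute (π z) (π w) := by
    intro z hz w
    show π z * π w = π w * π z
    rw [← map_mul, ← map_mul, Subgroup.mem_center_iff.1 hz w]
  have cXY : Commute (π X) (π Y) := by
    rw [← commutatorElement_eq_one_iff_commute, ← map_commutatorElement]
    exact (QuotientGroup.eq_one_iff _).2 (Subgroup.mem_zpowers _)
  have hform : ∀ g : Γ, ∃ z ∈ Subgroup.center Γ, ∃ i j : ℤ, g = z * (X ^ i * Y ^ j) := by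
    intro g
    obtain ⟨i, j, hij⟩ := hgen (σ g)
    refine ⟨g * (X ^ i * Y ^ j)⁻¹, hσ.2.1 ?_, i, j, by group⟩
    rw [MonoidHom.mem_ker, map_mul, map_inv, map_mul, map_zpow, map_zpow, hX, hY, hij,
      mul_inv_cancel]
  have hcomm : ∀ g h : Γ, Commute (π g) (π h) := by
    intro g h
    obtain ⟨z, hz, i, j, rfl⟩ := hform g
    obtain ⟨z', hz', k, l, rfl⟩ := hform h
    have cuv : Commute (π (X ^ i * Y ^ j)) (π (X ^ k * Y ^ l)) := by
      rw [map_mul, map_mul, map_zpow, map_zpow, map_zpow, map_zpow]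
      exact (((Commute.refl _).zpow_zpow i k).mul_right (cXY.zpow_zpow i l)).mul_left
        ((cXY.symm.zpow_zpow j k).mul_right ((Commute.refl _).zpow_zpow j l))
    rw [map_mul, map_mul π z']
    exact ((cz z hz z').mul_right (cz z hz _)).mul_left ((cz z' hz' _).symm.mul_right cuv)
  have hle : commutator Γ ≤ Subgroup.zpowers ⁅X, Y⁆ := by
    rw [commutator_def, Subgroup.commutator_le]
    intro g _ h _
    rw [← QuotientGroup.eq_one_iff]
    have : π ⁅g, h⁆ = 1 := by
      rw [map_commutatorElement, commutatorElement_eq_one_iff_commute]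
      exact hcomm g h
    exact this
  exact hσ.2.2.trans hle

theorem commutator_pow_eq_one (X Y : Γ) (hc : ⁅X, Y⁆ ∈ Subgroup.center Γ) (n : ℕ)
    (hY : Y ^ n ∈ Subgroup.center Γ) : ⁅X, Y⁆ ^ n = 1 := by
  have h1 : X * Y * X⁻¹ = ⁅X, Y⁆ * Y := by rw [commutatorElement_def]; group
  have h2 : (X * Y * X⁻¹) ^ n = Y ^ n := by
    rw [conj_pow, Subgroup.mem_center_iff.1 hY X]
    group
  have h3 : Commute ⁅X, Y⁆ Y := (Subgroup.mem_center_iff.1 hc Y).symm
  rw [h1, h3.mul_pow] at h2
  exact mul_eq_right.1 h2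

theorem exists_surj {K : Type*} [Group K] (k : K) (n : ℕ) [NeZero n] (hk : k ^ n = 1)
    (hgen : ∀ x : K, x ∈ Subgroup.zpowers k) :
    ∃ π : Multiplicative (ZMod n) →* K, Function.Surjective π := by
  refine ⟨MonoidHom.mk' (fun c => k ^ (Multiplicative.toAdd c).val) ?_, ?_⟩
  · intro c d
    rw [toAdd_mul, ZMod.val_add, ← pow_eq_pow_mod _ hk, pow_add]
  · intro x
    obtain ⟨i, rfl⟩ := hgen x
    refine ⟨Multiplicative.ofAdd (i : ZMod n), ?_⟩
    show k ^ (i : ZMod n).val = k ^ i
    rw [← zpow_natCast, ZMod.val_intCast, ← zpow_eq_zpow_emod' _ hk]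

end upper

end Cfsg.Agent.Lib.Helper4_Stem3
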