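import Mathlib
import Cfsg.Prelude.Def_ClassicalGeometry

set_option autoImplicit false

namespace Cfsg.Agent.Lib.Helper5_GLPar

open Matrix

variable {F : Type*} [Field F]

theorem gl_inv_mulVec {ι : Type} [Fintype ι] [DecidableEq ι] (g : Matrix.GeneralLinearGroup ι F)
    (v : ι → F) : ((g⁻¹ : Matrix.GeneralLinearGroup ι F) : Matrix ι ι F) *ᵥ
      ((g : Matrix ι ι F) *ᵥ v) = v := by
  rw [Matrix.mulVec_mulVec, ← Units.val_mul, inv_mul_cancel, Units.val_one, Matrix.one_mulVec]

theorem gl_mulVec_inv {ι : Type} [Fintype ι] [DecidableEq ι] (g : Matrix.GeneralLinearGroup ι F)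
    (v : ι → F) : (g : Matrix ι ι F) *ᵥ
      (((g⁻¹ : Matrix.GeneralLinearGroup ι F) : Matrix ι ι F) *ᵥ v) = v := by
  rw [Matrix.mulVec_mulVec, ← Units.val_mul, mul_inv_cancel, Units.val_one, Matrix.one_mulVec]

/-- over a finite field, mapping a set into itself is enough -/
theorem mem_stab_of_maps [Finite F] {ι : Type} [Fintype ι] [DecidableEq ι]
    (g : Matrix.GeneralLinearGroup ι F) (W : Set (ι → F))
    (h : ∀ v ∈ W, (g : Matrix ι ι F) *ᵥ v ∈ W) :
    g ∈ Cfsg.stabilizing (Cfsg.glToMat ι F) W := by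
  let φ : W → W := fun v => ⟨_, h v.1 v.2⟩
  have hinj : Function.Injective φ := by
    intro a b hab
    have h1 : (g : Matrix ι ι F) *ᵥ a.1 = (g : Matrix ι ι F) *ᵥ b.1 := congrArg Subtype.val hab
    apply Subtype.ext
    rw [← gl_inv_mulVec g a.1, h1, gl_inv_mulVec]
  have hsurj := Finite.injective_iff_surjective.1 hinj
  intro v
  constructor
  · exact h v
  · intro hv
    obtain ⟨w, hw⟩ := hsurj ⟨_, hv⟩
    have h1 : (g : Matrix ι ι F) *ᵥ w.1 = (g : Matrix ι ι F) *ᵥ v := congrArg Subtype.val hw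
    have h2 : w.1 = v := by rw [← gl_inv_mulVec g w.1, h1, gl_inv_mulVec]
    rw [← h2]
    exact w.2

/-- the coordinate subspace -/
def Wk (F : Type*) [Field F] (n k : ℕ) : Set (Fin n → F) := {v | ∀ i : Fin n, k ≤ (i : ℕ) → v i = 0}

theorem mem_stab_iff [Finite F] (n k : ℕ) (g : Matrix.GeneralLinearGroup (Fin n) F) :
    g ∈ Cfsg.stabilizing (Cfsg.glToMat (Fin n) F) (Wk F n k) ↔
      ∀ i j : Fin n, k ≤ (i : ℕ) → (j : ℕ) < k → (g : Matrix (Fin n) (Fin n) F) i j = 0 := by
  constructor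
  · intro hg i j hi hj
    have h1 := (hg (Pi.single j 1)).1 (by
      intro i' hi'
      rw [Pi.single_apply, if_neg]
      intro h
      subst h
      omega) i hi
    change ((g : Matrix (Fin n) (Fin n) F) *ᵥ Pi.single j 1) i = 0 at h1
    rw [Matrix.mulVec_single_one] at h1
    exact h1
  · intro h
    apply mem_stab_of_maps
    intro v hv i hi
    rw [Matrix.mulVec, dotProduct]
    apply Finset.sum_eq_zero
    intro j _
    by_cases hj : (j : ℕ) < k
    · rw [h i j hi hj, zero_mul]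
    · rw [hv j (not_lt.1 hj), mul_zero]

end Cfsg.Agent.Lib.Helper5_GLPar
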