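import Mathlib
import Cfsg.Prelude.Def_GeometricClasses
import Cfsg.Agent.Lib.Helper1_SL
import Cfsg.Agent.Lib.Helper5_GLPar

set_option autoImplicit false

namespace Cfsg.Agent.Lib.Helper5_GLTv

open Matrix Cfsg.Agent.Lib.Helper5_GLPar

variable {F : Type*} [Field F] {ι : Type} [Fintype ι] [DecidableEq ι]

/-- the matrix of `v ↦ v + φ(v) x` -/
def tvM (x φ : ι → F) : Matrix ι ι F := 1 + vecMulVec x φ

theorem tvM_mulVec (x φ v : ι → F) : tvM x φ *ᵥ v = v + (φ ⬝ᵥ v) • x := by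
  rw [tvM, add_mulVec, one_mulVec, vecMulVec_mulVec, op_smul_eq_smul]

theorem det_tvM (x φ : ι → F) (h : φ ⬝ᵥ x = 0) : (tvM x φ).det = 1 := by
  rw [tvM, vecMulVec_eq Unit, det_one_add_replicateCol_mul_replicateRow, h, add_zero]

noncomputable def tv (x φ : ι → F) (h : φ ⬝ᵥ x = 0) : Matrix.GeneralLinearGroup ι F :=
  Matrix.GeneralLinearGroup.mkOfDetNeZero (tvM x φ) (by rw [det_tvM x φ h]; exact one_ne_zero)

theorem tv_mulVec (x φ : ι → F) (h : φ ⬝ᵥ x = 0) (v : ι → F) :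
    (tv x φ h : Matrix ι ι F) *ᵥ v = v + (φ ⬝ᵥ v) • x := tvM_mulVec x φ v

theorem mem_SL_iff (g : Matrix.GeneralLinearGroup ι F) :
    g ∈ Cfsg.Geo.specialLinear ι F ↔ (g : Matrix ι ι F).det = 1 := by
  unfold Cfsg.Geo.specialLinear
  rw [MonoidHom.mem_ker, Units.ext_iff]
  rfl

theorem tv_mem_SL (x φ : ι → F) (h : φ ⬝ᵥ x = 0) : tv x φ h ∈ Cfsg.Geo.specialLinear ι F := by
  rw [mem_SL_iff]
  exact det_tvM x φ h

theorem exists_dual (S : Submodule F (ι → F)) (y : ι → F) (hy : y ∉ S) :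
    ∃ ψ : ι → F, (∀ s ∈ S, ψ ⬝ᵥ s = 0) ∧ ψ ⬝ᵥ y = 1 := by
  obtain ⟨f, hfy, hf⟩ := Submodule.exists_le_ker_of_notMem hy
  have key : ∀ v : ι → F, (fun i => (f y)⁻¹ * f (Pi.single i 1)) ⬝ᵥ v = (f y)⁻¹ * f v := by
    intro v
    conv_rhs => rw [LinearMap.pi_apply_eq_sum_univ f v]
    rw [dotProduct, Finset.mul_sum]
    apply Finset.sum_congr rfl
    intro i _
    have : (fun j => if i = j then (1 : F) else 0) = Pi.single i 1 := by
      funext j
      rw [Pi.single_apply]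
      simp only [eq_comm]
    rw [this, smul_eq_mul]
    ring
  refine ⟨fun i => (f y)⁻¹ * f (Pi.single i 1), fun s hs => ?_, ?_⟩
  · rw [key, LinearMap.mem_ker.1 (hf hs), mul_zero]
  · rw [key, inv_mul_cancel₀ hfy]

theorem tv_mem_stab_of_mem [Finite F] (W : Submodule F (ι → F)) (x φ : ι → F) (h : φ ⬝ᵥ x = 0)
    (hx : x ∈ W) : tv x φ h ∈ Cfsg.Geo.subspaceStabilizer W := by
  apply mem_stab_of_maps
  intro v hv
  rw [tv_mulVec]
  exact W.add_mem hv (W.smul_mem _ hx)

theorem tv_mem_stab_of_perp [Finite F] (W : Submodule F (ι → F)) (x φ : ι → F) (h : φ ⬝ᵥ x = 0)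
    (hφ : ∀ w ∈ W, φ ⬝ᵥ w = 0) : tv x φ h ∈ Cfsg.Geo.subspaceStabilizer W := by
  apply mem_stab_of_maps
  intro v hv
  rw [tv_mulVec, hφ v hv, zero_smul, add_zero]
  exact hv

theorem tv_not_mem_stab (W : Submodule F (ι → F)) (x φ : ι → F) (h : φ ⬝ᵥ x = 0)
    (hx : x ∉ W) (u : ι → F) (hu : u ∈ W) (hφ : φ ⬝ᵥ u ≠ 0) :
    tv x φ h ∉ Cfsg.Geo.subspaceStabilizer W := by
  intro hmem
  have h1 : (tv x φ h : Matrix ι ι F) *ᵥ u ∈ W := (hmem u).1 hu
  rw [tv_mulVec] at h1
  have h2 : (φ ⬝ᵥ u) • x ∈ W := by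
    have := W.sub_mem h1 hu
    rwa [add_sub_cancel_left] at this
  exact hx ((W.smul_mem_iff hφ).1 h2)

/-- a subgroup of `SL` containing all transvections is `SL` -/
theorem eq_SL_of_tv (H : Subgroup (Matrix.GeneralLinearGroup ι F))
    (hH : H ≤ Cfsg.Geo.specialLinear ι F) (h : ∀ (x φ : ι → F) (hx : φ ⬝ᵥ x = 0), tv x φ hx ∈ H) :
    H = Cfsg.Geo.specialLinear ι F := by
  apply le_antisymm hH
  intro M hM
  rw [mem_SL_iff] at hM
  rcases subsingleton_or_nontrivial ι with hι | hι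
  · have : M = 1 := by
      apply Units.ext
      ext i j
      have hij : i = j := Subsingleton.elim i j
      subst hij
      rcases isEmpty_or_nonempty ι with he | he
      · exact (he.false i).elim
      · have : Unique ι := ⟨⟨i⟩, fun a => Subsingleton.elim _ _⟩
        rw [det_unique] at hM
        have hd : (default : ι) = i := Subsingleton.elim _ _
        rw [hd] at hM
        rw [hM]; simp
    rw [this]; exact H.one_mem
  · have key : ∃ g ∈ H, (g : Matrix ι ι F) = ((⟨M.1, hM⟩ : Matrix.SpecialLinearGroup ι F) : Matrix ι ι F) := by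
      apply Cfsg.Agent.Lib.Helper1_SL.transvection_induction
        (fun A : Matrix.SpecialLinearGroup ι F => ∃ g ∈ H, (g : Matrix ι ι F) = (A : Matrix ι ι F))
      · intro i j hij c
        have h0 : (Pi.single j c : ι → F) ⬝ᵥ (Pi.single i 1 : ι → F) = 0 := by
          rw [single_dotProduct, Pi.single_apply, if_neg hij.symm, mul_zero]
        refine ⟨tv (Pi.single i 1) (Pi.single j c) h0, h _ _ _, ?_⟩
        rw [Matrix.SpecialLinearGroup.transvection_coe]
        change tvM _ _ = _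
        rw [tvM]
        congr 1
        ext a b
        simp only [vecMulVec_apply, Pi.single_apply, Matrix.single_apply]
        by_cases ha : a = i <;> by_cases hb : b = j <;>
          simp [ha, hb, Ne.symm (a := a) (b := i), Ne.symm (a := b) (b := j)]
      · rintro A B ⟨a, ha, haA⟩ ⟨b, hb, hbB⟩
        exact ⟨a * b, H.mul_mem ha hb, by
          rw [Units.val_mul, haA, hbB, Matrix.SpecialLinearGroup.coe_mul]⟩
    obtain ⟨g, hg, hgM⟩ := key
    have : g = M := Units.ext hgM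
    rw [← this]; exact hg

end Cfsg.Agent.Lib.Helper5_GLTv
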