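import Mathlib
import Cfsg.Prelude.Def_GeometricClasses
import Cfsg.Agent.Lib.Helper5_GLTv

set_option autoImplicit false

namespace Cfsg.Agent.Lib.Helper5_AltOver

open Matrix Cfsg.Agent.Lib.Helper5_GLTv Cfsg.Agent.Lib.Helper5_GLPar

variable {F : Type*} [Field F] {ι : Type} [Fintype ι] [DecidableEq ι]

theorem skew (B : (ι → F) →ₗ[F] (ι → F) →ₗ[F] F) (halt : ∀ v, B v v = 0) (u v : ι → F) :
    B u v = - B v u := by
  have h := halt (u + v)
  simp only [map_add, LinearMap.add_apply, halt, zero_add, add_zero] at h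
  linear_combination h

theorem sep (B : (ι → F) →ₗ[F] (ι → F) →ₗ[F] F) (hnd : ∀ v, (∀ x, B x v = 0) → v = 0)
    (a b : ι → F) (h : ∀ l : F, a ≠ l • b) : ∃ v, B v b = 0 ∧ B v a = 1 := by
  suffices H : ∃ v, B v b = 0 ∧ B v a ≠ 0 by
    obtain ⟨v, h1, h2⟩ := H
    exact ⟨(B v a)⁻¹ • v, by simp [h1], by simp [h2]⟩
  by_contra hcon
  push Not at hcon
  by_cases hb : ∀ x, B x b = 0
  · apply h 0
    rw [zero_smul]
    exact hnd a (fun x => hcon x (hb x))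
  · push Not at hb
    obtain ⟨w, hw⟩ := hb
    apply h (B w a / B w b)
    rw [← sub_eq_zero]
    apply hnd
    intro x
    have h1 := hcon (x - (B x b / B w b) • w) (by
      simp only [map_sub, map_smul, LinearMap.sub_apply, LinearMap.smul_apply, smul_eq_mul]
      rw [div_mul_cancel₀ _ hw, sub_self])
    simp only [map_sub, map_smul, LinearMap.sub_apply, LinearMap.smul_apply, smul_eq_mul] at h1 ⊢
    linear_combination h1

theorem both (B : (ι → F) →ₗ[F] (ι → F) →ₗ[F] F) (hnd : ∀ v, (∀ x, B x v = 0) → v = 0)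
    (y z z' : ι → F) (hz : ∀ l : F, z ≠ l • y) (hz' : ∀ l : F, z' ≠ l • y) :
    ∃ w, B w y = 0 ∧ B w z ≠ 0 ∧ B w z' ≠ 0 := by
  obtain ⟨w1, h1, h1'⟩ := sep B hnd z y hz
  obtain ⟨w2, h2, h2'⟩ := sep B hnd z' y hz'
  by_cases c1 : B w1 z' = 0
  · by_cases c2 : B w2 z = 0
    · exact ⟨w1 + w2, by simp [h1, h2], by simp [h1', c2], by simp [c1, h2']⟩
    · exact ⟨w2, h2, c2, by rw [h2']; exact one_ne_zero⟩
  · exact ⟨w1, h1, by rw [h1']; exact one_ne_zero, c1⟩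

/-- `M` contains the transvection `v ↦ v + B(v,b) a` -/
def P (B : (ι → F) →ₗ[F] (ι → F) →ₗ[F] F) (M : Subgroup (Matrix.GeneralLinearGroup ι F))
    (a b : ι → F) : Prop :=
  ∃ g ∈ M, ∀ v, (g : Matrix ι ι F) *ᵥ v = v + B v b • a

theorem P_conj (B : (ι → F) →ₗ[F] (ι → F) →ₗ[F] F) (M : Subgroup (Matrix.GeneralLinearGroup ι F))
    (h : Matrix.GeneralLinearGroup ι F) (hM : h ∈ M)
    (hiso : ∀ u v, B ((h : Matrix ι ι F) *ᵥ u) ((h : Matrix ι ι F) *ᵥ v) = B u v) (a b : ι → F)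
    (hP : P B M a b) : P B M ((h : Matrix ι ι F) *ᵥ a) ((h : Matrix ι ι F) *ᵥ b) := by
  obtain ⟨g, hg, hgv⟩ := hP
  refine ⟨h * g * h⁻¹, M.mul_mem (M.mul_mem hM hg) (M.inv_mem hM), fun v => ?_⟩
  rw [Units.val_mul, Units.val_mul, ← mulVec_mulVec, ← mulVec_mulVec, hgv, mulVec_add, mulVec_smul,
    gl_mulVec_inv]
  congr 2
  rw [← hiso, gl_mulVec_inv]

theorem st_iso (B : (ι → F) →ₗ[F] (ι → F) →ₗ[F] F) (halt : ∀ v, B v v = 0) (t : Matrix ι ι F)
    (d : ι → F) (c : F) (ht : ∀ v, t *ᵥ v = v + B v (c • d) • d) (u v : ι → F) :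
    B (t *ᵥ u) (t *ᵥ v) = B u v := by
  rw [ht, ht]
  simp only [map_add, map_smul, LinearMap.add_apply, LinearMap.smul_apply, smul_eq_mul, halt]
  rw [skew B halt d v]
  ring

theorem move1 (B : (ι → F) →ₗ[F] (ι → F) →ₗ[F] F) (halt : ∀ v, B v v = 0)
    (M : Subgroup (Matrix.GeneralLinearGroup ι F)) (hM0 : ∀ d (c : F), P B M d (c • d))
    (u u' : ι → F) (h : B u u' ≠ 0) :
    ∃ t ∈ M, (∀ a b, B ((t : Matrix ι ι F) *ᵥ a) ((t : Matrix ι ι F) *ᵥ b) = B a b) ∧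
      (t : Matrix ι ι F) *ᵥ u = u' ∧ ∀ x, B x u = B x u' → (t : Matrix ι ι F) *ᵥ x = x := by
  obtain ⟨t, htM, ht⟩ := hM0 (u - u') (B u u')⁻¹
  refine ⟨t, htM, st_iso B halt _ _ _ ht, ?_, fun x hx => ?_⟩
  · rw [ht]
    simp only [map_sub, map_smul, smul_eq_mul, halt, zero_sub, mul_neg]
    rw [inv_mul_cancel₀ h, neg_smul, one_smul]
    abel
  · rw [ht]
    simp only [map_sub, map_smul, smul_eq_mul, hx, sub_self, mul_zero, zero_smul, add_zero]

theorem move (B : (ι → F) →ₗ[F] (ι → F) →ₗ[F] F) (halt : ∀ v, B v v = 0)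
    (hnd : ∀ v, (∀ x, B x v = 0) → v = 0)
    (M : Subgroup (Matrix.GeneralLinearGroup ι F)) (hM0 : ∀ d (c : F), P B M d (c • d))
    (y u u' : ι → F) (hu : ∀ l : F, u ≠ l • y) (hu' : ∀ l : F, u' ≠ l • y)
    (h1 : B u y = 0) (h2 : B u' y = 0) :
    ∃ t ∈ M, (∀ a b, B ((t : Matrix ι ι F) *ᵥ a) ((t : Matrix ι ι F) *ᵥ b) = B a b) ∧
      (t : Matrix ι ι F) *ᵥ u = u' ∧ (t : Matrix ι ι F) *ᵥ y = y := by
  have h1' : B y u = 0 := by rw [skew B halt, h1, neg_zero]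
  have h2' : B y u' = 0 := by rw [skew B halt, h2, neg_zero]
  by_cases h : B u u' = 0
  · obtain ⟨w, hwy, hwu, hwu'⟩ := both B hnd y u u' hu hu'
    have hyw : B y w = 0 := by rw [skew B halt, hwy, neg_zero]
    obtain ⟨t1, ht1, i1, m1, f1⟩ := move1 B halt M hM0 u w (by
      rw [skew B halt]; exact neg_ne_zero.2 hwu)
    obtain ⟨t2, ht2, i2, m2, f2⟩ := move1 B halt M hM0 w u' hwu'
    refine ⟨t2 * t1, M.mul_mem ht2 ht1, fun a b => ?_, ?_, ?_⟩
    · rw [Units.val_mul, ← mulVec_mulVec, ← mulVec_mulVec, i2, i1]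
    · rw [Units.val_mul, ← mulVec_mulVec, m1, m2]
    · rw [Units.val_mul, ← mulVec_mulVec, f1 y (by rw [h1', hyw]), f2 y (by rw [hyw, h2'])]
  · obtain ⟨t, ht, i, m, f⟩ := move1 B halt M hM0 u u' h
    exact ⟨t, ht, i, m, f y (by rw [h1', h2'])⟩

theorem all_tv (B : (ι → F) →ₗ[F] (ι → F) →ₗ[F] F) (halt : ∀ v, B v v = 0)
    (hnd : ∀ v, (∀ x, B x v = 0) → v = 0)
    (M : Subgroup (Matrix.GeneralLinearGroup ι F)) (hM0 : ∀ d (c : F), P B M d (c • d))
    (y0 z : ι → F) (hz : ∀ l : F, z ≠ l • y0) (hzy : B z y0 = 0) (hy0 : y0 ≠ 0)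
    (hP : P B M y0 z) : ∀ a b, B a b = 0 → P B M a b := by
  have hQ : ∀ b, B b y0 = 0 → P B M y0 b := by
    intro b hb
    by_cases hbl : ∃ l : F, b = l • y0
    · obtain ⟨l, rfl⟩ := hbl
      exact hM0 y0 l
    · push Not at hbl
      obtain ⟨t, ht, i, m, f⟩ := move B halt hnd M hM0 y0 z b hz hbl hzy hb
      have := P_conj B M t ht i y0 z hP
      rwa [m, f] at this
  intro a b hab
  by_cases ha : a = 0
  · subst ha
    exact ⟨1, M.one_mem, fun v => by simp⟩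
  · obtain ⟨t, ht, i, m, -⟩ := move B halt hnd M hM0 0 y0 a (by simpa using hy0) (by simpa using ha)
      (by simp) (by simp)
    have h1 : B (((t⁻¹ : Matrix.GeneralLinearGroup ι F) : Matrix ι ι F) *ᵥ b) y0 = 0 := by
      rw [← i, gl_mulVec_inv, m, skew B halt, hab, neg_zero]
    have := P_conj B M t ht i y0 _ (hQ _ h1)
    rwa [m, gl_mulVec_inv] at this

theorem rep (B : (ι → F) →ₗ[F] (ι → F) →ₗ[F] F) (hnd : ∀ v, (∀ x, B x v = 0) → v = 0)
    (ψ : (ι → F) →ₗ[F] F) : ∃ z, ∀ v, B v z = ψ v := by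
  have hinj : Function.Injective B.flip := by
    rw [injective_iff_map_eq_zero]
    intro v hv
    apply hnd
    intro x
    have := LinearMap.congr_fun hv x
    simpa using this
  have hsurj := (LinearMap.injective_iff_surjective_of_finrank_eq_finrank
    (Subspace.dual_finrank_eq (K := F) (V := ι → F)).symm).1 hinj
  obtain ⟨z, hz⟩ := hsurj ψ
  exact ⟨z, fun v => by rw [← hz]; rfl⟩

theorem sim_of_perp (B : (ι → F) →ₗ[F] (ι → F) →ₗ[F] F) (halt : ∀ v, B v v = 0)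
    (hnd : ∀ v, (∀ x, B x v = 0) → v = 0) (g : Matrix.GeneralLinearGroup ι F)
    (x0 : ι → F) (hx0 : x0 ≠ 0)
    (h : ∀ x y, B x y = 0 → B ((g : Matrix ι ι F) *ᵥ x) ((g : Matrix ι ι F) *ᵥ y) = 0) :
    ∃ c : Fˣ, ∀ u v, B ((g : Matrix ι ι F) *ᵥ u) ((g : Matrix ι ι F) *ᵥ v) = (c : F) * B u v := by
  have hl : ∀ x, ∃ l : F, ∀ y,
      B ((g : Matrix ι ι F) *ᵥ x) ((g : Matrix ι ι F) *ᵥ y) = l * B x y := by
    intro x
    by_cases hx : ∀ w, B x w = 0
    · exact ⟨0, fun y => by rw [zero_mul]; exact h x y (hx y)⟩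
    · push Not at hx
      obtain ⟨w, hw⟩ := hx
      refine ⟨B ((g : Matrix ι ι F) *ᵥ x) ((g : Matrix ι ι F) *ᵥ w) / B x w, fun y => ?_⟩
      have h1 := h x (y - (B x y / B x w) • w) (by
        simp only [map_sub, map_smul, smul_eq_mul]
        rw [div_mul_cancel₀ _ hw, sub_self])
      rw [mulVec_sub, mulVec_smul, map_sub, map_smul, smul_eq_mul, sub_eq_zero] at h1
      rw [h1]
      ring
  have hcmp : ∀ (a b : ι → F) (la lb : F),
      (∀ y, B ((g : Matrix ι ι F) *ᵥ a) ((g : Matrix ι ι F) *ᵥ y) = la * B a y) →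
      (∀ y, B ((g : Matrix ι ι F) *ᵥ b) ((g : Matrix ι ι F) *ᵥ y) = lb * B b y) →
      B a b ≠ 0 → la = lb := by
    intro a b la lb ha hb hab
    have h1 := ha b
    have h2 := hb a
    rw [skew B halt ((g : Matrix ι ι F) *ᵥ b), skew B halt b a, h1] at h2
    apply mul_right_cancel₀ hab
    linear_combination -h2
  obtain ⟨l0, hl0⟩ := hl x0
  have hall : ∀ x y, B ((g : Matrix ι ι F) *ᵥ x) ((g : Matrix ι ι F) *ᵥ y) = l0 * B x y := by
    intro x y
    by_cases hx : x = 0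
    · subst hx
      simp
    · obtain ⟨w, -, hw1, hw2⟩ := both B hnd 0 x0 x (by simpa using hx0) (by simpa using hx)
      obtain ⟨lw, hlw⟩ := hl w
      obtain ⟨lx, hlx⟩ := hl x
      have e1 := hcmp w x0 lw l0 hlw hl0 hw1
      have e2 := hcmp w x lw lx hlw hlx hw2
      rw [hlx, ← e2, e1]
  have hl0ne : l0 ≠ 0 := by
    rintro rfl
    apply hx0
    have h0 : (g : Matrix ι ι F) *ᵥ x0 = 0 := by
      apply hnd
      intro x
      rw [skew B halt, ← gl_mulVec_inv g x, hall, zero_mul, neg_zero]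
    rw [← gl_inv_mulVec g x0, h0, mulVec_zero]
  exact ⟨Units.mk0 l0 hl0ne, hall⟩

theorem overgroup (B : (ι → F) →ₗ[F] (ι → F) →ₗ[F] F) (halt : ∀ v, B v v = 0)
    (hnd : ∀ v, (∀ x, B x v = 0) → v = 0) (x0 : ι → F) (hx0 : x0 ≠ 0)
    (M : Subgroup (Matrix.GeneralLinearGroup ι F)) (hM0 : ∀ d (c : F), P B M d (c • d))
    (g : Matrix.GeneralLinearGroup ι F) (hgM : g ∈ M)
    (hg : ¬ ∃ c : Fˣ, ∀ u v,
      B ((g : Matrix ι ι F) *ᵥ u) ((g : Matrix ι ι F) *ᵥ v) = (c : F) * B u v) :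
    ∀ a b, B a b = 0 → P B M a b := by
  obtain ⟨x, y, hxy, hgxy⟩ : ∃ x y, B x y = 0 ∧
      B ((g : Matrix ι ι F) *ᵥ x) ((g : Matrix ι ι F) *ᵥ y) ≠ 0 := by
    by_contra hc
    push Not at hc
    exact hg (sim_of_perp B halt hnd g x0 hx0 hc)
  obtain ⟨z, hz⟩ := rep B hnd ((B.flip x).comp
    (Matrix.mulVecLin ((g⁻¹ : Matrix.GeneralLinearGroup ι F) : Matrix ι ι F)))
  have hz' : ∀ v, B v z = B (((g⁻¹ : Matrix.GeneralLinearGroup ι F) : Matrix ι ι F) *ᵥ v) x :=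
    fun v => by rw [hz]; rfl
  apply all_tv B halt hnd M hM0 ((g : Matrix ι ι F) *ᵥ x) z
  · intro l hl
    have h1 := hz' ((g : Matrix ι ι F) *ᵥ y)
    rw [gl_inv_mulVec, hl, map_smul, smul_eq_mul] at h1
    have hyx : B y x = 0 := by rw [skew B halt, hxy, neg_zero]
    have hgyx : B ((g : Matrix ι ι F) *ᵥ y) ((g : Matrix ι ι F) *ᵥ x) ≠ 0 := by
      rw [skew B halt]; exact neg_ne_zero.2 hgxy
    rw [hyx] at h1
    have hl0 : l = 0 := (mul_eq_zero.1 h1).resolve_right hgyx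
    have hx0' : x = 0 := by
      apply hnd
      intro u
      have := hz' ((g : Matrix ι ι F) *ᵥ u)
      rw [gl_inv_mulVec, hl, hl0, zero_smul, map_zero] at this
      exact this.symm
    apply hgxy
    rw [hx0', mulVec_zero, map_zero, LinearMap.zero_apply]
  · rw [skew B halt, hz', gl_inv_mulVec, halt, neg_zero]
  · intro h0
    apply hgxy
    rw [h0, map_zero, LinearMap.zero_apply]
  · obtain ⟨t, ht, htv⟩ := hM0 x 1
    refine ⟨g * t * g⁻¹, M.mul_mem (M.mul_mem hgM ht) (M.inv_mem hgM), fun v => ?_⟩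
    rw [Units.val_mul, Units.val_mul, ← mulVec_mulVec, ← mulVec_mulVec, htv, mulVec_add, mulVec_smul,
      gl_mulVec_inv, one_smul, hz']

theorem exists_tv (B : (ι → F) →ₗ[F] (ι → F) →ₗ[F] F) (a b : ι → F) (h : B a b = 0) :
    ∃ g : Matrix.GeneralLinearGroup ι F, g ∈ Cfsg.Geo.specialLinear ι F ∧
      ∀ v, (g : Matrix ι ι F) *ᵥ v = v + B v b • a := by
  have key : ∀ v : ι → F, (fun i => B (Pi.single i 1) b) ⬝ᵥ v = B v b := by
    intro v
    have h1 := LinearMap.pi_apply_eq_sum_univ (B.flip b) v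
    rw [LinearMap.flip_apply] at h1
    rw [h1, dotProduct]
    apply Finset.sum_congr rfl
    intro i _
    have : (fun j => if i = j then (1 : F) else 0) = Pi.single i 1 := by
      funext j
      rw [Pi.single_apply]
      simp only [eq_comm]
    rw [this, smul_eq_mul, LinearMap.flip_apply, mul_comm]
  refine ⟨tv a (fun i => B (Pi.single i 1) b) (by rw [key]; exact h), tv_mem_SL _ _ _, fun v => ?_⟩
  rw [tv_mulVec, key]

theorem eq_SL (B : (ι → F) →ₗ[F] (ι → F) →ₗ[F] F)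
    (hnd : ∀ v, (∀ x, B x v = 0) → v = 0)
    (M : Subgroup (Matrix.GeneralLinearGroup ι F)) (hM : M ≤ Cfsg.Geo.specialLinear ι F)
    (h : ∀ a b, B a b = 0 → P B M a b) : M = Cfsg.Geo.specialLinear ι F := by
  apply eq_SL_of_tv M hM
  intro x φ hx
  obtain ⟨b, hb⟩ := rep B hnd
    { toFun := fun v => φ ⬝ᵥ v
      map_add' := dotProduct_add φ
      map_smul' := fun c v => by simp [dotProduct_smul] }
  have hb' : ∀ v, B v b = φ ⬝ᵥ v := hb
  obtain ⟨g, hg, hgv⟩ := h x b (by rw [hb', hx])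
  have : g = tv x φ hx := by
    apply Units.ext
    apply Matrix.toLin'.injective
    apply LinearMap.ext
    intro v
    rw [Matrix.toLin'_apply, Matrix.toLin'_apply, hgv, tv_mulVec, hb']
  rw [← this]
  exact hg

end Cfsg.Agent.Lib.Helper5_AltOver
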