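import Mathlib

set_option autoImplicit false

namespace Cfsg.Agent.Lib.Helper5_CharpolyAeval

open Polynomial Matrix

variable {n : Type*} [Fintype n] [DecidableEq n]

theorem det_add_scalar {L : Type*} [CommRing L] (A : Matrix n n L) (a : L) :
    (A + algebraMap L (Matrix n n L) a).det = (-1) ^ Fintype.card n * A.charpoly.eval (-a) := by
  rw [Matrix.eval_charpoly]
  have : A + algebraMap L (Matrix n n L) a = -(scalar n (-a) - A) := by
    rw [Matrix.algebraMap_eq_diagonal]
    ext i j
    by_cases h : i = j
    · subst h; simp
    · simp [h]
  rw [this, Matrix.det_neg]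

theorem det_aeval_of_splits {L : Type*} [CommRing L] (A B : Matrix n n L) (h : A.charpoly = B.charpoly)
    (g : L[X]) (hg : g.Splits) : (aeval A g).det = (aeval B g).det := by
  unfold Polynomial.Splits at hg
  induction hg using Submonoid.closure_induction with
  | mem x hx =>
    rcases hx with ⟨a, rfl⟩ | ⟨a, rfl⟩
    · simp [Matrix.algebraMap_eq_diagonal]
    · simp only [map_add, aeval_X, aeval_C]
      rw [det_add_scalar, det_add_scalar, h]
  | one => simp
  | mul x y _ _ hx hy => rw [map_mul, map_mul, Matrix.det_mul, Matrix.det_mul, hx, hy]

theorem map_aeval {F L : Type*} [CommRing F] [CommRing L] (j : F →+* L) (A : Matrix n n F) (f : F[X]) :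
    (aeval A f).map j = aeval (A.map j) (f.map j) := by
  have := Polynomial.map_aeval_eq_aeval_map (R := F) (S := Matrix n n F) (T := L) (U := Matrix n n L)
    (φ := j) (ψ := j.mapMatrix) (by
      ext a i k
      simp only [RingHom.comp_apply, Matrix.algebraMap_eq_diagonal, RingHom.mapMatrix_apply, Matrix.map_apply]
      by_cases h : i = k
      · subst h; simp
      · simp [h]) f A
  exact this

/-- the characteristic polynomial of `f(A)` only depends on that of `A` -/
theorem charpoly_aeval_congr {F : Type*} [Field F] (A B : Matrix n n F) (h : A.charpoly = B.charpoly) (f : F[X]) :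
    (aeval A f).charpoly = (aeval B f).charpoly := by
  let L := AlgebraicClosure (FractionRing F[X])
  let i : F[X] →+* L := algebraMap F[X] L
  have hi : Function.Injective i := by
    have : i = (algebraMap (FractionRing F[X]) L).comp (algebraMap F[X] (FractionRing F[X])) :=
      IsScalarTower.algebraMap_eq _ _ _
    rw [this]
    exact (algebraMap (FractionRing F[X]) L).injective.comp (IsFractionRing.injective F[X] (FractionRing F[X]))
  let j : F →+* L := i.comp C
  let g : L[X] := C (i X) - f.map j
  have key : ∀ M : Matrix n n F, i (aeval M f).charpoly = (aeval (M.map j) g).det := by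
    intro M
    rw [Matrix.charpoly, RingHom.map_det]
    congr 1
    simp only [g, map_sub, aeval_C]
    rw [← map_aeval]
    ext a b
    simp only [RingHom.mapMatrix_apply, Matrix.map_apply, charmatrix_apply, map_sub, Matrix.sub_apply,
      Matrix.algebraMap_eq_diagonal, j, RingHom.comp_apply]
    by_cases hab : a = b
    · subst hab; simp
    · simp [hab]
  apply hi
  rw [key, key]
  apply det_aeval_of_splits _ _ _ _ (IsAlgClosed.splits g)
  rw [Matrix.charpoly_map, Matrix.charpoly_map, h]

end Cfsg.Agent.Lib.Helper5_CharpolyAeval
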