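import Mathlib

set_option autoImplicit false

namespace Cfsg.Agent.Lib.Helper5_RegUnip

open Module

variable {K V : Type*} [Field K] [AddCommGroup V] [Module K V] [FiniteDimensional K V]

theorem finrank_ker_pow_succ_le (f : End K V) (k : ℕ) :
    finrank K (LinearMap.ker (f ^ (k + 1))) ≤ finrank K (LinearMap.ker (f ^ k)) + finrank K (LinearMap.ker f) := by
  set Kk := LinearMap.ker (f ^ (k + 1)) with hKk
  let φ : Kk →ₗ[K] V := (f ^ k) ∘ₗ Kk.subtype
  have h1 := LinearMap.finrank_range_add_finrank_ker φ
  have h2 : finrank K (LinearMap.range φ) ≤ finrank K (LinearMap.ker f) := by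
    apply Submodule.finrank_mono
    rintro _ ⟨⟨v, hv⟩, rfl⟩
    simp only [φ, LinearMap.coe_comp, Function.comp, Submodule.subtype_apply, LinearMap.mem_ker]
    rw [hKk, LinearMap.mem_ker, pow_succ'] at hv
    exact hv
  have h3 : finrank K (LinearMap.ker φ) ≤ finrank K (LinearMap.ker (f ^ k)) := by
    rw [← Submodule.finrank_map_subtype_eq Kk (LinearMap.ker φ)]
    apply Submodule.finrank_mono
    rintro _ ⟨v, hv, rfl⟩
    simpa [φ] using hv
  omega

theorem finrank_ker_pow_le (f : End K V) (k : ℕ) :
    finrank K (LinearMap.ker (f ^ k)) ≤ k * finrank K (LinearMap.ker f) := by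
  induction k with
  | zero => simp [Module.End.one_eq_id, LinearMap.ker_id]
  | succ n ih =>
    have := finrank_ker_pow_succ_le f n
    rw [Nat.succ_mul]
    omega

theorem invariant_le_ker_pow (f : End K V) (n : ℕ) (hnil : f ^ n = 0)
    (W : Submodule K V) (hW : ∀ v ∈ W, f v ∈ W) : W ≤ LinearMap.ker (f ^ finrank K W) := by
  intro w hw
  have hr : (f.restrict hW) ^ n = 0 := by
    rw [Module.End.pow_restrict n hW]
    ext ⟨v, hv⟩
    simp [LinearMap.restrict_apply, hnil]
  have h1 := Module.End.ker_pow_le_ker_pow_finrank (f.restrict hW) n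
  rw [hr, LinearMap.ker_zero] at h1
  have h2 : (⟨w, hw⟩ : W) ∈ LinearMap.ker ((f.restrict hW) ^ finrank K W) := h1 trivial
  rw [LinearMap.mem_ker, Module.End.pow_restrict _ hW] at h2
  have h3 := congrArg Subtype.val h2
  simpa [LinearMap.restrict_apply] using h3

theorem invariant_eq_ker_pow (f : End K V) (n : ℕ) (hnil : f ^ n = 0)
    (hker : finrank K (LinearMap.ker f) ≤ 1)
    (W : Submodule K V) (hW : ∀ v ∈ W, f v ∈ W) : W = LinearMap.ker (f ^ finrank K W) := by
  apply Submodule.eq_of_le_of_finrank_le (invariant_le_ker_pow f n hnil W hW)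
  calc finrank K (LinearMap.ker (f ^ finrank K W)) ≤ finrank K W * finrank K (LinearMap.ker f) := finrank_ker_pow_le f _
    _ ≤ finrank K W * 1 := Nat.mul_le_mul_left _ hker
    _ = finrank K W := mul_one _

theorem mulVecLin_pow {m : Type*} [Fintype m] [DecidableEq m] (A : Matrix m m K) (k : ℕ) :
    Matrix.mulVecLin (A ^ k) = (Matrix.mulVecLin A : End K (m → K)) ^ k := by
  induction k with
  | zero => simp [Module.End.one_eq_id]
  | succ n ih => rw [pow_succ, pow_succ, Matrix.mulVecLin_mul, ih]; rfl

theorem finrank_ker_mulVecLin {m : Type*} [Fintype m] [DecidableEq m] (A : Matrix m m K) :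
    finrank K (LinearMap.ker (Matrix.mulVecLin A)) = Fintype.card m - A.rank := by
  have := LinearMap.finrank_range_add_finrank_ker (Matrix.mulVecLin A)
  rw [Module.finrank_fintype_fun_eq_card] at this
  unfold Matrix.rank
  omega

end Cfsg.Agent.Lib.Helper5_RegUnip

namespace Cfsg.Agent.Lib.Helper5_RegUnip

open Module

variable {K V : Type*} [Field K] [AddCommGroup V] [Module K V] [FiniteDimensional K V]

theorem range_pow_eq_ker_pow (f : End K V) (hnil : f ^ finrank K V = 0)
    (hker : finrank K (LinearMap.ker f) ≤ 1) (d : ℕ) (hd : d ≤ finrank K V) :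
    LinearMap.range (f ^ (finrank K V - d)) = LinearMap.ker (f ^ d) := by
  apply Submodule.eq_of_le_of_finrank_le
  · rintro _ ⟨x, rfl⟩
    rw [LinearMap.mem_ker, ← Module.End.mul_apply, ← pow_add, Nat.add_sub_cancel' hd, hnil]
    rfl
  · have h1 := LinearMap.finrank_range_add_finrank_ker (f ^ (finrank K V - d))
    have h2 := finrank_ker_pow_le f (finrank K V - d)
    have h3 := finrank_ker_pow_le f d
    have h4 : (finrank K V - d) * finrank K (LinearMap.ker f) ≤ finrank K V - d := by
      calc _ ≤ (finrank K V - d) * 1 := Nat.mul_le_mul_left _ hker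
        _ = _ := mul_one _
    have h5 : d * finrank K (LinearMap.ker f) ≤ d := by
      calc _ ≤ d * 1 := Nat.mul_le_mul_left _ hker
        _ = _ := mul_one _
    omega

end Cfsg.Agent.Lib.Helper5_RegUnip
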