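import Mathlib
import Cfsg.Agent.Lib.Helper5_RegUnip

set_option autoImplicit false

namespace Cfsg.Agent.Lib.Helper5_Cyclic

open Module Polynomial Cfsg.Agent.Lib.Helper5_RegUnip

variable {K V : Type*} [Field K] [AddCommGroup V] [Module K V] [FiniteDimensional K V]

theorem exists_cyclic (f : End K V) (hn : 1 ≤ finrank K V) (hker : finrank K (LinearMap.ker f) ≤ 1) :
    ∃ e : V, (f ^ (finrank K V - 1)) e ≠ 0 := by
  by_contra hcon
  push_neg at hcon
  have htop : LinearMap.ker (f ^ (finrank K V - 1)) = ⊤ := by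
    rw [eq_top_iff]; intro v _; exact hcon v
  have h1 := finrank_ker_pow_le f (finrank K V - 1)
  rw [htop, finrank_top] at h1
  have h2 : (finrank K V - 1) * finrank K (LinearMap.ker f) ≤ finrank K V - 1 := by
    calc _ ≤ (finrank K V - 1) * 1 := Nat.mul_le_mul_left _ hker
      _ = _ := mul_one _
  omega

theorem cyclic_surj (f : End K V) (hnil : f ^ finrank K V = 0) (hker : finrank K (LinearMap.ker f) ≤ 1)
    (e : V) (he : (f ^ (finrank K V - 1)) e ≠ 0) (v : V) : ∃ p : K[X], aeval f p e = v := by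
  let Φ : K[X] →ₗ[K] V := (LinearMap.applyₗ e) ∘ₗ (aeval f).toLinearMap
  have hΦ : ∀ p, Φ p = aeval f p e := fun p => rfl
  set S := LinearMap.range Φ with hS
  have hinv : ∀ x ∈ S, f x ∈ S := by
    rintro _ ⟨p, rfl⟩
    refine ⟨X * p, ?_⟩
    rw [hΦ, hΦ, map_mul, aeval_X]; rfl
  have heS : e ∈ S := ⟨1, by rw [hΦ]; simp⟩
  have hSeq := invariant_eq_ker_pow f _ hnil hker S hinv
  have hdim : finrank K S = finrank K V := by
    by_contra hne
    have hle : finrank K S ≤ finrank K V := Submodule.finrank_le S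
    have hlt : finrank K S ≤ finrank K V - 1 := by omega
    apply he
    rw [hSeq] at heS
    have hsplit : finrank K V - 1 = (finrank K V - 1 - finrank K S) + finrank K S := by omega
    rw [hsplit, pow_add, Module.End.mul_apply, LinearMap.mem_ker.1 heS, map_zero]
  have htop : S = ⊤ := Submodule.eq_top_of_finrank_eq hdim
  have : v ∈ S := by rw [htop]; trivial
  obtain ⟨p, hp⟩ := this
  exact ⟨p, hp⟩

theorem commute_injective (f : End K V) (hn : 1 ≤ finrank K V) (hnil : f ^ finrank K V = 0)
    (hker : finrank K (LinearMap.ker f) ≤ 1)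
    (e : V) (g0 : End K V) (hc : Commute g0 f) (hv : (f ^ (finrank K V - 1)) (g0 e) ≠ 0) :
    Function.Injective g0 := by
  rw [← LinearMap.ker_eq_bot]
  have hinv : ∀ x ∈ LinearMap.ker g0, f x ∈ LinearMap.ker g0 := by
    intro x hx
    rw [LinearMap.mem_ker] at hx ⊢
    have : g0 (f x) = f (g0 x) := by
      rw [← Module.End.mul_apply, hc.eq, Module.End.mul_apply]
    rw [this, hx, map_zero]
  have hSeq := invariant_eq_ker_pow f _ hnil hker _ hinv
  by_contra hne
  have hpos : 1 ≤ finrank K (LinearMap.ker g0) := by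
    rw [Nat.one_le_iff_ne_zero]
    intro h0
    exact hne (Submodule.finrank_eq_zero.1 h0)
  apply hv
  have h1 : (f ^ (finrank K V - 1)) e ∈ LinearMap.ker g0 := by
    rw [hSeq, LinearMap.mem_ker, ← Module.End.mul_apply, ← pow_add]
    have hsplit : finrank K (LinearMap.ker g0) + (finrank K V - 1) = (finrank K (LinearMap.ker g0) - 1) + finrank K V := by omega
    rw [hsplit, pow_add, hnil, mul_zero]; rfl
  have h2 : (f ^ (finrank K V - 1)) (g0 e) = g0 ((f ^ (finrank K V - 1)) e) := by
    rw [← Module.End.mul_apply, ← Module.End.mul_apply, (hc.pow_right _).eq]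
  rw [h2, LinearMap.mem_ker.1 h1]

theorem finrank_ker_pow_pred (f : End K V) (hn : 1 ≤ finrank K V) (hnil : f ^ finrank K V = 0)
    (hker : finrank K (LinearMap.ker f) ≤ 1) :
    finrank K (LinearMap.ker (f ^ (finrank K V - 1))) = finrank K V - 1 := by
  have h1 := range_pow_eq_ker_pow f hnil hker (finrank K V - 1) (by omega)
  have h2 : finrank K V - (finrank K V - 1) = 1 := by omega
  rw [h2, pow_one] at h1
  rw [← h1]
  have h3 := LinearMap.finrank_range_add_finrank_ker f
  have h4 := finrank_ker_pow_le f (finrank K V - 1)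
  rw [← h1] at h4
  have h5 : (finrank K V - 1) * finrank K (LinearMap.ker f) ≤ finrank K V - 1 := by
    calc _ ≤ (finrank K V - 1) * 1 := Nat.mul_le_mul_left _ hker
      _ = _ := mul_one _
  omega

theorem card_compl [Fintype K] (f : End K V) (hn : 1 ≤ finrank K V) (hnil : f ^ finrank K V = 0)
    (hker : finrank K (LinearMap.ker f) ≤ 1) :
    Nat.card {v : V // (f ^ (finrank K V - 1)) v ≠ 0} = (Fintype.card K - 1) * Fintype.card K ^ (finrank K V - 1) := by
  classical
  haveI : Finite V := Module.finite_of_finite K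
  haveI : Fintype V := Fintype.ofFinite V
  have h1 : Nat.card {v : V // (f ^ (finrank K V - 1)) v ≠ 0} = Nat.card V - Nat.card (LinearMap.ker (f ^ (finrank K V - 1))) := by
    rw [Nat.card_eq_fintype_card, Nat.card_eq_fintype_card, Nat.card_eq_fintype_card]
    rw [Fintype.card_subtype_compl (fun v => (f ^ (finrank K V - 1)) v = 0)]
    rfl
  rw [h1, Module.natCard_eq_pow_finrank (K := K) (V := V),
    Module.natCard_eq_pow_finrank (K := K) (V := LinearMap.ker (f ^ (finrank K V - 1))),
    finrank_ker_pow_pred f hn hnil hker, Nat.card_eq_fintype_card]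
  obtain ⟨m, hm⟩ : ∃ m, finrank K V = m + 1 := ⟨finrank K V - 1, by omega⟩
  rw [hm, Nat.add_sub_cancel, pow_succ, Nat.sub_mul, one_mul, mul_comm]

end Cfsg.Agent.Lib.Helper5_Cyclic
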