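import Mathlib

set_option autoImplicit false

namespace Cfsg.Agent.Lib.Helper5_QF

open Module MvPolynomial

variable {F : Type*} [Field F]

/-- Chevalley-Warning for quadratic forms given by a matrix. -/
theorem exists_zero_matrix [Fintype F] {n : ℕ} (hn : 3 ≤ n) (M : Matrix (Fin n) (Fin n) F) :
    ∃ c : Fin n → F, c ≠ 0 ∧ ∑ i, ∑ j, M i j * c i * c j = 0 := by
  classical
  obtain ⟨p, hp⟩ := CharP.exists F
  haveI : Fact p.Prime := ⟨CharP.char_is_prime F p⟩
  let P : MvPolynomial (Fin n) F := ∑ i, ∑ j, C (M i j) * X i * X j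
  have hdeg : P.totalDegree < Fintype.card (Fin n) := by
    rw [Fintype.card_fin]
    refine lt_of_le_of_lt ?_ (show 2 < n by omega)
    apply MvPolynomial.totalDegree_finsetSum_le
    intro i _
    apply MvPolynomial.totalDegree_finsetSum_le
    intro j _
    refine (MvPolynomial.totalDegree_mul _ _).trans ?_
    have h1 := MvPolynomial.totalDegree_mul (C (M i j)) (X i : MvPolynomial (Fin n) F)
    rw [MvPolynomial.totalDegree_C, MvPolynomial.totalDegree_X] at h1
    rw [MvPolynomial.totalDegree_X]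
    omega
  have h1 := char_dvd_card_solutions p hdeg
  have heval : ∀ c : Fin n → F, eval c P = ∑ i, ∑ j, M i j * c i * c j := by
    intro c
    simp [P]
  have h0 : eval (0 : Fin n → F) P = 0 := by
    rw [heval]; simp
  have hpos : 0 < Fintype.card { x : Fin n → F // eval x P = 0 } := Fintype.card_pos_iff.2 ⟨⟨0, h0⟩⟩
  have h2 : 1 < Fintype.card { x : Fin n → F // eval x P = 0 } :=
    lt_of_lt_of_le (Fact.out : p.Prime).one_lt (Nat.le_of_dvd hpos h1)
  obtain ⟨⟨c, hc⟩, hne⟩ := Fintype.exists_ne_of_one_lt_card h2 ⟨0, h0⟩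
  refine ⟨c, fun h => hne (Subtype.ext h), ?_⟩
  rw [← heval]; exact hc

theorem exists_isotropic [Finite F] {V : Type*} [AddCommGroup V] [Module F V] [FiniteDimensional F V]
    (Q : QuadraticForm F V) (hV : 3 ≤ finrank F V) : ∃ v : V, v ≠ 0 ∧ Q v = 0 := by
  classical
  haveI : Fintype F := Fintype.ofFinite F
  let b := finBasis F V
  let A : LinearMap.BilinForm F V := Q.toBilin b
  have hA : ∀ x, Q x = A x x := by
    intro x
    have := QuadraticMap.toQuadraticMap_toBilin Q b
    conv_lhs => rw [← this]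
    rfl
  obtain ⟨c, hc0, hc⟩ := exists_zero_matrix hV (LinearMap.BilinForm.toMatrix b A)
  refine ⟨b.equivFun.symm c, ?_, ?_⟩
  · intro h
    apply hc0
    have := congrArg b.equivFun h
    rwa [LinearEquiv.apply_symm_apply, map_zero] at this
  · rw [hA, LinearMap.BilinForm.apply_eq_dotProduct_toMatrix_mulVec b A]
    have hr : ∀ i, b.repr (b.equivFun.symm c) i = c i := by
      intro i
      have := congrFun (b.equivFun.apply_symm_apply c) i
      rwa [Basis.equivFun_apply] at this
    simp only [dotProduct, Matrix.mulVec, hr, Finset.mul_sum]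
    rw [← hc]
    apply Finset.sum_congr rfl
    intro i _
    apply Finset.sum_congr rfl
    intro j _
    ring

section Hyp

variable {V : Type*} [AddCommGroup V] [Module F V] (Q : QuadraticForm F V)

/-- a system of mutually orthogonal hyperbolic pairs. -/
structure Hyp {ι : Type*} (e f : ι → V) : Prop where
  qe : ∀ i, Q (e i) = 0
  qf : ∀ i, Q (f i) = 0
  ef : ∀ i, Q.polarBilin (e i) (f i) = 1
  ef' : ∀ i j, i ≠ j → Q.polarBilin (e i) (f j) = 0
  ee : ∀ i j, Q.polarBilin (e i) (e j) = 0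
  ff : ∀ i j, Q.polarBilin (f i) (f j) = 0

theorem pb_comm (x y : V) : Q.polarBilin x y = Q.polarBilin y x := by
  simp only [QuadraticMap.polarBilin_apply_apply]
  exact QuadraticMap.polar_comm Q x y

theorem map_add' (x y : V) : Q (x + y) = Q x + Q y + Q.polarBilin x y := by
  simp only [QuadraticMap.polarBilin_apply_apply, QuadraticMap.polar]
  ring

/-- the orthogonal complement of a hyperbolic system. -/
def perp {ι : Type*} (e f : ι → V) : Submodule F V :=
  ⨅ i, (LinearMap.ker (Q.polarBilin (e i)) ⊓ LinearMap.ker (Q.polarBilin (f i)))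

theorem mem_perp {ι : Type*} (e f : ι → V) (x : V) :
    x ∈ perp Q e f ↔ ∀ i, Q.polarBilin (e i) x = 0 ∧ Q.polarBilin (f i) x = 0 := by
  simp [perp, Submodule.mem_iInf]

variable {Q}
variable {ι : Type*} [Fintype ι] {e f : ι → V}

theorem Hyp.fe (h : Hyp Q e f) (i : ι) : Q.polarBilin (f i) (e i) = 1 := by
  rw [pb_comm, h.ef]

theorem Hyp.fe' (h : Hyp Q e f) (i j : ι) (hij : i ≠ j) : Q.polarBilin (f i) (e j) = 0 := by
  rw [pb_comm, h.ef' j i hij.symm]

theorem Hyp.e_sum_e (h : Hyp Q e f) (c : ι → F) (j : ι) : Q.polarBilin (e j) (∑ i, c i • e i) = 0 := by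
  simp [map_sum, h.ee]

theorem Hyp.f_sum_f (h : Hyp Q e f) (c : ι → F) (j : ι) : Q.polarBilin (f j) (∑ i, c i • f i) = 0 := by
  simp [map_sum, h.ff]

theorem Hyp.e_sum_f (h : Hyp Q e f) (c : ι → F) (j : ι) : Q.polarBilin (e j) (∑ i, c i • f i) = c j := by
  classical
  rw [map_sum, Finset.sum_eq_single j]
  · rw [map_smul, h.ef, smul_eq_mul, mul_one]
  · intro i _ hij
    rw [map_smul, h.ef' j i hij.symm, smul_zero]
  · simp

theorem Hyp.f_sum_e (h : Hyp Q e f) (c : ι → F) (j : ι) : Q.polarBilin (f j) (∑ i, c i • e i) = c j := by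
  classical
  rw [map_sum, Finset.sum_eq_single j]
  · rw [map_smul, h.fe, smul_eq_mul, mul_one]
  · intro i _ hij
    rw [map_smul, h.fe' j i hij.symm, smul_zero]
  · simp

/-- projection to the orthogonal complement. -/
theorem Hyp.proj_mem (h : Hyp Q e f) (x : V) :
    x - ∑ i, Q.polarBilin (f i) x • e i - ∑ i, Q.polarBilin (e i) x • f i ∈ perp Q e f := by
  rw [mem_perp]
  intro j
  constructor
  · rw [map_sub, map_sub, h.e_sum_e, h.e_sum_f]; ring
  · rw [map_sub, map_sub, h.f_sum_e, h.f_sum_f]; ring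

theorem Hyp.perp_nondeg (h : Hyp Q e f) (hQ : Q.polarBilin.Nondegenerate) (x : V) (hx : x ∈ perp Q e f)
    (hx0 : ∀ y ∈ perp Q e f, Q.polarBilin x y = 0) : x = 0 := by
  apply hQ.1
  intro z
  have h1 := hx0 _ (h.proj_mem z)
  rw [mem_perp] at hx
  rw [map_sub, map_sub, map_sum, map_sum] at h1
  have h2 : ∑ i, Q.polarBilin x (Q.polarBilin (f i) z • e i) = 0 := by
    apply Finset.sum_eq_zero
    intro i _
    rw [map_smul, pb_comm Q x, (hx i).1, smul_zero]
  have h3 : ∑ i, Q.polarBilin x (Q.polarBilin (e i) z • f i) = 0 := by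
    apply Finset.sum_eq_zero
    intro i _
    rw [map_smul, pb_comm Q x, (hx i).2, smul_zero]
  rw [h2, h3, sub_zero, sub_zero] at h1
  exact h1

theorem Hyp.finrank_perp [FiniteDimensional F V] (h : Hyp Q e f) :
    finrank F (perp Q e f) + 2 * Fintype.card ι = finrank F V := by
  let φ : V →ₗ[F] (ι → F) × (ι → F) :=
    LinearMap.prod (LinearMap.pi fun i => Q.polarBilin (e i)) (LinearMap.pi fun i => Q.polarBilin (f i))
  have hφ : ∀ x, φ x = (fun i => Q.polarBilin (e i) x, fun i => Q.polarBilin (f i) x) := fun _ => rfl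
  have hker : LinearMap.ker φ = perp Q e f := by
    ext x
    rw [LinearMap.mem_ker, hφ, mem_perp, Prod.mk_eq_zero]
    constructor
    · rintro ⟨h1, h2⟩ i
      exact ⟨congrFun h1 i, congrFun h2 i⟩
    · intro h1
      exact ⟨funext fun i => (h1 i).1, funext fun i => (h1 i).2⟩
  have hsurj : LinearMap.range φ = ⊤ := by
    rw [LinearMap.range_eq_top]
    rintro ⟨a, b⟩
    refine ⟨∑ i, a i • f i + ∑ i, b i • e i, ?_⟩
    rw [hφ]
    ext j
    · simp only [map_add]; rw [h.e_sum_f, h.e_sum_e, add_zero]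
    · simp only [map_add]; rw [h.f_sum_f, h.f_sum_e, zero_add]
  have h1 := LinearMap.finrank_range_add_finrank_ker φ
  rw [hker, hsurj, finrank_top, Module.finrank_prod] at h1
  simp only [Module.finrank_fintype_fun_eq_card] at h1
  omega

theorem pb_self (x : V) : Q.polarBilin x x = 2 * Q x := by
  rw [QuadraticMap.polarBilin_apply_apply, QuadraticMap.polar_self]
  simp [two_mul]

omit [Fintype ι] in
theorem exists_partner (W : Submodule F V) (hW : ∀ x ∈ W, (∀ y ∈ W, Q.polarBilin x y = 0) → x = 0)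
    (v : V) (hv : v ∈ W) (hv0 : v ≠ 0) (hQv : Q v = 0) : ∃ w ∈ W, Q w = 0 ∧ Q.polarBilin v w = 1 := by
  obtain ⟨u, hu, hvu⟩ : ∃ u ∈ W, Q.polarBilin v u ≠ 0 := by
    by_contra hcon
    push Not at hcon
    exact hv0 (hW v hv hcon)
  obtain ⟨u', hu'W, h1⟩ : ∃ u' ∈ W, Q.polarBilin v u' = 1 :=
    ⟨(Q.polarBilin v u)⁻¹ • u, W.smul_mem _ hu, by rw [map_smul, smul_eq_mul, inv_mul_cancel₀ hvu]⟩
  refine ⟨u' + (-Q u') • v, W.add_mem hu'W (W.smul_mem _ hv), ?_, ?_⟩
  · rw [map_add', QuadraticMap.map_smul, hQv, map_smul, pb_comm Q u' v, h1]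
    simp
  · rw [map_add, map_smul, pb_self, hQv, h1]
    simp

omit [Fintype ι] in
theorem Hyp.extend (h : Hyp Q e f) (v w : V) (hv : v ∈ perp Q e f) (hw : w ∈ perp Q e f) (hQv : Q v = 0)
    (hQw : Q w = 0) (hvw : Q.polarBilin v w = 1) :
    Hyp Q (fun o : Option ι => o.elim v e) (fun o : Option ι => o.elim w f) := by
  rw [mem_perp] at hv hw
  constructor
  · rintro (_ | i)
    · exact hQv
    · exact h.qe i
  · rintro (_ | i)
    · exact hQw
    · exact h.qf i
  · rintro (_ | i)
    · exact hvw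
    · exact h.ef i
  · rintro (_ | i) (_ | j) hij
    · exact absurd rfl hij
    · show Q.polarBilin v (f j) = 0
      rw [pb_comm]; exact (hv j).2
    · exact (hw i).1
    · exact h.ef' i j (fun hh => hij (by rw [hh]))
  · rintro (_ | i) (_ | j)
    · show Q.polarBilin v v = 0
      rw [pb_self, hQv, mul_zero]
    · show Q.polarBilin v (e j) = 0
      rw [pb_comm]; exact (hv j).1
    · exact (hv i).1
    · exact h.ee i j
  · rintro (_ | i) (_ | j)
    · show Q.polarBilin w w = 0
      rw [pb_self, hQw, mul_zero]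
    · show Q.polarBilin w (f j) = 0
      rw [pb_comm]; exact (hw j).2
    · exact (hw i).2
    · exact h.ff i j

end Hyp

section Witt

variable {V : Type*} [AddCommGroup V] [Module F V] [FiniteDimensional F V] (Q : QuadraticForm F V)

theorem witt_aux (hQ : Q.polarBilin.Nondegenerate) (d : ℕ) :
    ∀ (ι : Type) (_ : Fintype ι) (e f : ι → V), Hyp Q e f → finrank F (perp Q e f) = d →
      ∃ (κ : Type) (_ : Fintype κ) (e' f' : κ → V), Hyp Q e' f' ∧ ∀ x ∈ perp Q e' f', Q x = 0 → x = 0 := by
  induction d using Nat.strong_induction_on with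
  | _ d ih =>
    intro ι _ e f h hd
    by_cases han : ∀ x ∈ perp Q e f, Q x = 0 → x = 0
    · exact ⟨ι, inferInstance, e, f, h, han⟩
    · push Not at han
      obtain ⟨v, hv, hQv, hv0⟩ := han
      obtain ⟨w, hw, hQw, hvw⟩ := exists_partner (perp Q e f) (h.perp_nondeg hQ) v hv hv0 hQv
      have h' := h.extend v w hv hw hQv hQw hvw
      have h1 := h.finrank_perp
      have h2 := h'.finrank_perp
      rw [Fintype.card_option] at h2
      exact ih _ (by omega) (Option ι) inferInstance _ _ h' rfl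

/-- Witt decomposition. -/
theorem witt (hQ : Q.polarBilin.Nondegenerate) :
    ∃ (κ : Type) (_ : Fintype κ) (e f : κ → V), Hyp Q e f ∧ ∀ x ∈ perp Q e f, Q x = 0 → x = 0 := by
  apply witt_aux Q hQ _ Empty inferInstance (fun x => x.elim) (fun x => x.elim) _ rfl
  constructor <;> intro i <;> exact i.elim

theorem finrank_le_two_of_anisotropic [Finite F] (W : Submodule F V) (hW : ∀ x ∈ W, Q x = 0 → x = 0) :
    finrank F W ≤ 2 := by
  by_contra hcon
  obtain ⟨v, hv0, hv⟩ := exists_isotropic (Q.comp W.subtype) (by omega)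
  apply hv0
  apply Subtype.ext
  exact hW v.1 v.2 hv

theorem Hyp.reindex {ι κ : Type*} {e f : ι → V} (h : Hyp Q e f) (σ : κ ≃ ι) : Hyp Q (e ∘ σ) (f ∘ σ) := by
  constructor
  · intro i; exact h.qe _
  · intro i; exact h.qf _
  · intro i; exact h.ef _
  · intro i j hij; exact h.ef' _ _ (fun hh => hij (σ.injective hh))
  · intro i j; exact h.ee _ _
  · intro i j; exact h.ff _ _

theorem perp_reindex {ι κ : Type*} (e f : ι → V) (σ : κ ≃ ι) : perp Q (e ∘ σ) (f ∘ σ) = perp Q e f := by
  ext x
  rw [mem_perp, mem_perp]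
  constructor
  · intro h i
    have := h (σ.symm i)
    simpa using this
  · intro h i
    exact h (σ i)

/-- Witt decomposition, indexed by `Fin k`. -/
theorem witt_fin (hQ : Q.polarBilin.Nondegenerate) :
    ∃ (k : ℕ) (e f : Fin k → V), Hyp Q e f ∧ ∀ x ∈ perp Q e f, Q x = 0 → x = 0 := by
  obtain ⟨κ, _, e, f, h, han⟩ := witt Q hQ
  refine ⟨Fintype.card κ, e ∘ (Fintype.equivFin κ).symm, f ∘ (Fintype.equivFin κ).symm, h.reindex Q _, ?_⟩
  rw [perp_reindex]
  exact han

theorem Hyp.linearIndependent {ι κ : Type*} [Fintype ι] [Fintype κ] {e f : ι → V} (h : Hyp Q e f) (g : κ → V)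
    (hg : ∀ k, g k ∈ perp Q e f) (hli : LinearIndependent F g) :
    LinearIndependent F (Sum.elim (Sum.elim e f) g) := by
  rw [Fintype.linearIndependent_iff] at hli ⊢
  intro c hc
  rw [Fintype.sum_sum_type, Fintype.sum_sum_type] at hc
  simp only [Sum.elim_inl, Sum.elim_inr] at hc
  have hperp : ∑ k, c (Sum.inr k) • g k ∈ perp Q e f :=
    Submodule.sum_mem _ fun k _ => Submodule.smul_mem _ _ (hg k)
  rw [mem_perp] at hperp
  have h1 : ∀ j, c (Sum.inl (Sum.inl j)) = 0 := by
    intro j
    have := congrArg (Q.polarBilin (f j)) hc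
    rw [map_add, map_add, h.f_sum_e (fun i => c (Sum.inl (Sum.inl i))), h.f_sum_f, (hperp j).2, map_zero] at this
    simpa using this
  have h2 : ∀ j, c (Sum.inl (Sum.inr j)) = 0 := by
    intro j
    have := congrArg (Q.polarBilin (e j)) hc
    rw [map_add, map_add, h.e_sum_e, h.e_sum_f (fun i => c (Sum.inl (Sum.inr i))), (hperp j).1, map_zero] at this
    simpa using this
  have h3 : ∑ k, c (Sum.inr k) • g k = 0 := by
    simpa [h1, h2] using hc
  have h4 := hli _ h3
  rintro ((j | j) | k)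
  · exact h1 j
  · exact h2 j
  · exact h4 k

/-- an anisotropic plane (indeed any space of dimension at least two without isotropic vectors) represents `1`. -/
theorem exists_eq_one [Finite F] (W : Submodule F V) (hW : ∀ x ∈ W, Q x = 0 → x = 0) (hdim : 2 ≤ finrank F W) :
    ∃ x ∈ W, Q x = 1 := by
  let Q' : QuadraticForm F (W × F) := QuadraticMap.prod (Q.comp W.subtype) (-QuadraticMap.sq)
  have hd : 3 ≤ finrank F (W × F) := by
    rw [Module.finrank_prod, Module.finrank_self]; omega
  obtain ⟨⟨w, z⟩, hne, hz⟩ := exists_isotropic Q' hd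
  have hz' : Q w.1 - z * z = 0 := by
    have : Q' (w, z) = Q w.1 + -(z * z) := rfl
    rw [this] at hz
    linear_combination hz
  have hz0 : z ≠ 0 := by
    rintro rfl
    apply hne
    have : w = 0 := Subtype.ext (hW w.1 w.2 (by simpa using hz'))
    rw [this]; rfl
  refine ⟨z⁻¹ • w.1, W.smul_mem _ w.2, ?_⟩
  rw [QuadraticMap.map_smul, sub_eq_zero.1 hz', smul_eq_mul]
  field_simp

theorem plane_basis [Finite F] (W : Submodule F V) (hW : ∀ x ∈ W, Q x = 0 → x = 0)
    (hND : ∀ x ∈ W, (∀ y ∈ W, Q.polarBilin x y = 0) → x = 0) (hdim : finrank F W = 2) :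
    ∃ x ∈ W, ∃ y ∈ W, Q x = 1 ∧ Q.polarBilin x y = 1 ∧ (∀ t : F, t ^ 2 + t + Q y ≠ 0) ∧
      LinearIndependent F ![x, y] := by
  obtain ⟨x, hxW, hQx⟩ := exists_eq_one Q W hW (by omega)
  have hx0 : x ≠ 0 := by
    rintro rfl
    rw [map_zero] at hQx
    exact zero_ne_one hQx
  obtain ⟨u, hu, hxu⟩ : ∃ u ∈ W, Q.polarBilin x u ≠ 0 := by
    by_contra hcon
    push Not at hcon
    exact hx0 (hND x hxW hcon)
  obtain ⟨y1, hy1W, hy1⟩ : ∃ u' ∈ W, Q.polarBilin x u' = 1 :=
    ⟨(Q.polarBilin x u)⁻¹ • u, W.smul_mem _ hu, by rw [map_smul, smul_eq_mul, inv_mul_cancel₀ hxu]⟩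
  have hlt : F ∙ x < W := by
    refine lt_of_le_of_ne ((Submodule.span_singleton_le_iff_mem x W).2 hxW) ?_
    intro heq
    have h1 : finrank F (F ∙ x) = 1 := finrank_span_singleton hx0
    rw [heq, hdim] at h1
    omega
  obtain ⟨z0, hz0W, hz0⟩ := SetLike.exists_of_lt hlt
  obtain ⟨y, hyW, hxy, hy⟩ : ∃ y ∈ W, Q.polarBilin x y = 1 ∧ y ∉ F ∙ x := by
    by_cases h1 : y1 ∈ F ∙ x
    · refine ⟨(1 - Q.polarBilin x z0) • y1 + z0, W.add_mem (W.smul_mem _ hy1W) hz0W, ?_, ?_⟩
      · rw [map_add, map_smul, hy1]; simp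
      · intro h2
        apply hz0
        have := (F ∙ x).sub_mem h2 ((F ∙ x).smul_mem (1 - Q.polarBilin x z0) h1)
        simpa using this
    · exact ⟨y1, hy1W, hy1, h1⟩
  refine ⟨x, hxW, y, hyW, hQx, hxy, ?_, ?_⟩
  · intro t ht
    have h1 : Q (t • x + y) = t ^ 2 + t + Q y := by
      rw [map_add', QuadraticMap.map_smul, hQx, map_smul, LinearMap.smul_apply, hxy]
      simp only [smul_eq_mul, mul_one]
      ring
    have h2 := hW _ (W.add_mem (W.smul_mem t hxW) hyW) (by rw [h1, ht])
    apply hy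
    have h3 : y = (-t) • x := by
      rw [neg_smul]
      exact eq_neg_of_add_eq_zero_right h2
    rw [h3]
    exact Submodule.smul_mem _ _ (Submodule.mem_span_singleton_self x)
  · rw [LinearIndependent.pair_iff]
    intro s t hst
    have ht : t = 0 := by
      by_contra ht
      apply hy
      have h3 : y = (-(t⁻¹ * s)) • x := by
        have h4 : t • y = (-s) • x := by
          rw [neg_smul]
          exact eq_neg_of_add_eq_zero_right hst
        calc y = t⁻¹ • (t • y) := by rw [smul_smul, inv_mul_cancel₀ ht, one_smul]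
          _ = _ := by rw [h4, smul_smul]; congr 1; ring
      rw [h3]
      exact Submodule.smul_mem _ _ (Submodule.mem_span_singleton_self x)
    subst ht
    rw [zero_smul, add_zero] at hst
    exact ⟨(smul_eq_zero.1 hst).resolve_right hx0, rfl⟩

omit [FiniteDimensional F V] in
/-- two quadratic forms agreeing on a basis, with polar forms agreeing on the basis, are equal. -/
theorem ext_of_basis {ι : Type*} (b : Basis ι F V) (Q Q' : QuadraticForm F V)
    (hpol : ∀ s t, Q.polarBilin (b s) (b t) = Q'.polarBilin (b s) (b t)) (hb : ∀ i, Q (b i) = Q' (b i)) : Q = Q' := by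
  have hpol0 : Q.polarBilin = Q'.polarBilin := by
    apply b.ext
    intro s
    apply b.ext
    intro t
    exact hpol s t
  have hpol' : ∀ x y, Q.polarBilin x y = Q'.polarBilin x y := by
    intro x y
    rw [hpol0]
  let S : Submodule F V :=
    { carrier := {x | Q x = Q' x}
      add_mem' := by
        intro x y hx hy
        show Q (x + y) = Q' (x + y)
        rw [map_add', map_add', hpol' x y, show Q x = Q' x from hx, show Q y = Q' y from hy]
      zero_mem' := by
        show Q 0 = Q' 0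
        simp
      smul_mem' := by
        intro a x hx
        show Q (a • x) = Q' (a • x)
        rw [QuadraticMap.map_smul, QuadraticMap.map_smul, show Q x = Q' x from hx] }
  have hS : S = ⊤ := by
    rw [eq_top_iff, ← b.span_eq, Submodule.span_le]
    rintro _ ⟨i, rfl⟩
    exact hb i
  ext x
  have : x ∈ S := by rw [hS]; trivial
  exact this

/-- representing an arbitrary nonzero scalar. -/
theorem exists_eq [Finite F] (W : Submodule F V) (hW : ∀ x ∈ W, Q x = 0 → x = 0) (hdim : 2 ≤ finrank F W)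
    (c : F) : ∃ x ∈ W, Q x = c := by
  let Q' : QuadraticForm F (W × F) := QuadraticMap.prod (Q.comp W.subtype) ((-c) • QuadraticMap.sq)
  have hd : 3 ≤ finrank F (W × F) := by
    rw [Module.finrank_prod, Module.finrank_self]; omega
  obtain ⟨⟨w, z⟩, hne, hz⟩ := exists_isotropic Q' hd
  have hz' : Q w.1 - c * (z * z) = 0 := by
    have : Q' (w, z) = Q w.1 + (-c) * (z * z) := rfl
    rw [this] at hz
    linear_combination hz
  have hz0 : z ≠ 0 := by
    rintro rfl
    apply hne
    have : w = 0 := Subtype.ext (hW w.1 w.2 (by simpa using hz'))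
    rw [this]; rfl
  refine ⟨z⁻¹ • w.1, W.smul_mem _ w.2, ?_⟩
  rw [QuadraticMap.map_smul, sub_eq_zero.1 hz', smul_eq_mul]
  field_simp

theorem Hyp.exists_similarity {ι κ : Type*} [Fintype ι] [Fintype κ] {e f : ι → V} (h : Hyp Q e f)
    (hQ : Q.polarBilin.Nondegenerate) (g g' : κ → V)
    (hg : ∀ k, g k ∈ perp Q e f) (hg' : ∀ k, g' k ∈ perp Q e f) (hli : LinearIndependent F g)
    (hne : Nonempty ((ι ⊕ ι) ⊕ κ))
    (hcard : Fintype.card ((ι ⊕ ι) ⊕ κ) = finrank F V) (c : F) (hc : c ≠ 0) (h1 : ∀ k, Q (g' k) = c * Q (g k))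
    (h2 : ∀ k l, Q.polarBilin (g' k) (g' l) = c * Q.polarBilin (g k) (g l)) :
    ∃ φ : V ≃ₗ[F] V, ∀ v, Q (φ v) = c * Q v := by
  have hli' := h.linearIndependent Q g hg hli
  let b := basisOfLinearIndependentOfCardEqFinrank hli' hcard
  have hb : ∀ s, b s = Sum.elim (Sum.elim e f) g s := fun s => by simp [b]
  let φ : V →ₗ[F] V := b.constr F (Sum.elim (Sum.elim (fun i => c • e i) f) g')
  have hφ : ∀ s, φ (b s) = Sum.elim (Sum.elim (fun i => c • e i) f) g' s := fun s => Basis.constr_basis b F _ s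
  have hg1 : ∀ k i, Q.polarBilin (e i) (g k) = 0 ∧ Q.polarBilin (f i) (g k) = 0 := fun k => (mem_perp Q e f _).1 (hg k)
  have hg1' : ∀ k i, Q.polarBilin (e i) (g' k) = 0 ∧ Q.polarBilin (f i) (g' k) = 0 := fun k => (mem_perp Q e f _).1 (hg' k)
  have key : Q.comp φ = c • Q := by
    apply ext_of_basis b
    · intro s t
      have hl : (Q.comp φ).polarBilin (b s) (b t) = Q.polarBilin (φ (b s)) (φ (b t)) := by
        simp [QuadraticMap.polarBilin_apply_apply, QuadraticMap.polar]
      have hr : (c • Q).polarBilin (b s) (b t) = c * Q.polarBilin (b s) (b t) := by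
        simp [QuadraticMap.polarBilin_apply_apply, QuadraticMap.polar]
        ring
      rw [hl, hr, hφ, hφ, hb, hb]
      rcases s with (i | i) | k <;> rcases t with (j | j) | l <;> simp only [Sum.elim_inl, Sum.elim_inr]
      · rw [map_smul, map_smul, LinearMap.smul_apply, h.ee]; simp
      · rw [map_smul, LinearMap.smul_apply, smul_eq_mul]
      · rw [map_smul, LinearMap.smul_apply, (hg1 l i).1, (hg1' l i).1]; simp
      · rw [map_smul, smul_eq_mul]
      · rw [h.ff]; simp
      · rw [(hg1 l i).2, (hg1' l i).2]; simp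
      · rw [map_smul, pb_comm, (hg1' k j).1, pb_comm, (hg1 k j).1]; simp
      · rw [pb_comm, (hg1' k j).2, pb_comm, (hg1 k j).2]; simp
      · exact h2 k l
    · intro s
      show Q (φ (b s)) = c * Q (b s)
      rw [hφ, hb]
      rcases s with (i | i) | k <;> simp only [Sum.elim_inl, Sum.elim_inr]
      · rw [QuadraticMap.map_smul, h.qe]; simp
      · rw [h.qf]; simp
      · exact h1 k
  have key' : ∀ v, Q (φ v) = c * Q v := fun v => by
    have := congrArg (fun q : QuadraticForm F V => q v) key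
    exact this
  have hpol : ∀ u v, Q.polarBilin (φ u) (φ v) = c * Q.polarBilin u v := by
    intro u v
    simp only [QuadraticMap.polarBilin_apply_apply, QuadraticMap.polar, ← map_add, key']
    ring
  have hinj : Function.Injective φ := by
    rw [← LinearMap.ker_eq_bot, LinearMap.ker_eq_bot']
    intro v hv
    apply hQ.1
    intro u
    have := hpol v u
    rw [hv, map_zero, LinearMap.zero_apply] at this
    exact (mul_eq_zero.1 this.symm).resolve_left hc
  exact ⟨LinearEquiv.ofInjectiveEndo φ hinj, fun v => key' v⟩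

end Witt

end Cfsg.Agent.Lib.Helper5_QF
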