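import Mathlib
import Cfsg.Agent.Lib.Helper5_QF

set_option autoImplicit false

namespace Cfsg.Agent.Lib.Helper5_QFIndex

open Module Cfsg.Agent.Lib.Helper5_QF

variable {F : Type*} [Field F]

/-- two subspaces of `F^ι` orthogonal for the dot product have dimensions adding up to at most `|ι|`. -/
theorem finrank_add_le_of_dot {ι : Type*} [Fintype ι] (P R : Submodule F (ι → F))
    (h : ∀ p ∈ P, ∀ r ∈ R, r ⬝ᵥ p = 0) : finrank F P + finrank F R ≤ Fintype.card ι := by
  classical
  let B : LinearMap.BilinForm F (ι → F) := Matrix.toBilin' (1 : Matrix ι ι F)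
  have hB : B.Nondegenerate := LinearMap.BilinForm.nondegenerate_toBilin'_of_det_ne_zero' _ (by simp)
  have hBa : ∀ x y, B x y = x ⬝ᵥ y := by
    intro x y
    simp [B, Matrix.toBilin'_apply']
  have hle : P ≤ B.orthogonal R := by
    intro p hp
    rw [LinearMap.BilinForm.mem_orthogonal_iff]
    intro r hr
    show B r p = 0
    rw [hBa]
    exact h p hp r hr
  have h1 := Submodule.finrank_mono hle
  rw [LinearMap.BilinForm.finrank_orthogonal hB] at h1
  have h2 : finrank F R ≤ finrank F (ι → F) := Submodule.finrank_le R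
  simp only [Module.finrank_fintype_fun_eq_card] at h1 h2
  omega

variable {V : Type*} [AddCommGroup V] [Module F V] [FiniteDimensional F V] (Q : QuadraticForm F V)

theorem Q_sum_e {ι : Type*} [Fintype ι] {e f : ι → V} (h : Hyp Q e f) (a : ι → F) : Q (∑ i, a i • e i) = 0 := by
  classical
  have : ∀ s : Finset ι, Q (∑ i ∈ s, a i • e i) = 0 := by
    intro s
    induction s using Finset.induction_on with
    | empty => simp
    | insert j s hj ih =>
      rw [Finset.sum_insert hj, map_add', ih, QuadraticMap.map_smul, h.qe, map_smul, LinearMap.smul_apply, map_sum]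
      simp [h.ee]
  exact this _

/-- The Witt index bound. -/
theorem finrank_le_of_singular {ι : Type*} [Fintype ι] {e f : ι → V} (h : Hyp Q e f)
    (han : ∀ x ∈ perp Q e f, Q x = 0 → x = 0) (U : Submodule F V) (hU : ∀ u ∈ U, Q u = 0) :
    finrank F U ≤ Fintype.card ι := by
  let ψ : V →ₗ[F] (ι → F) := LinearMap.pi fun i => Q.polarBilin (e i)
  let χ : V →ₗ[F] (ι → F) := LinearMap.pi fun i => Q.polarBilin (f i)
  have hψ : ∀ x i, ψ x i = Q.polarBilin (e i) x := fun _ _ => rfl
  have hχ : ∀ x i, χ x i = Q.polarBilin (f i) x := fun _ _ => rfl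
  set K : Submodule F V := U ⊓ LinearMap.ker ψ with hK
  -- elements of K are combinations of the e's
  have hKe : ∀ u ∈ K, u = ∑ i, χ u i • e i := by
    intro u hu
    have hu1 : ∀ i, Q.polarBilin (e i) u = 0 := by
      intro i
      have := congrFun (LinearMap.mem_ker.1 hu.2) i
      exact this
    have hp := h.proj_mem u
    simp only [hu1, zero_smul, Finset.sum_const_zero, sub_zero] at hp
    set w := u - ∑ i, Q.polarBilin (f i) u • e i with hw
    have hu2 : u = ∑ i, Q.polarBilin (f i) u • e i + w := by rw [hw]; abel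
    have hQu : Q u = 0 := hU u hu.1
    rw [hu2, map_add', Q_sum_e Q h] at hQu
    have h3 : Q.polarBilin (∑ i, Q.polarBilin (f i) u • e i) w = 0 := by
      rw [map_sum, LinearMap.sum_apply]
      apply Finset.sum_eq_zero
      intro i _
      rw [map_smul, LinearMap.smul_apply, ((mem_perp Q e f w).1 hp i).1, smul_zero]
    rw [h3, zero_add, add_zero] at hQu
    have hw0 := han w hp hQu
    rw [hw0, add_zero] at hu2
    exact hu2
  have hiso : ∀ u ∈ U, ∀ u' ∈ U, Q.polarBilin u' u = 0 := by
    intro u hu u' hu'
    have := map_add' Q u' u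
    rw [hU _ (U.add_mem hu' hu), hU u hu, hU u' hu'] at this
    simpa using this.symm
  have hdot : finrank F (U.map ψ) + finrank F (K.map χ) ≤ Fintype.card ι := by
    apply finrank_add_le_of_dot
    rintro _ ⟨u, hu, rfl⟩ _ ⟨u', hu', rfl⟩
    have h1 := hiso u hu u' hu'.1
    rw [hKe u' hu', map_sum, LinearMap.sum_apply] at h1
    rw [← h1]
    simp only [dotProduct, map_smul, LinearMap.smul_apply, smul_eq_mul, hψ]
  have h1 := LinearMap.finrank_range_add_finrank_ker (ψ.domRestrict U)
  rw [LinearMap.range_domRestrict, LinearMap.ker_domRestrict] at h1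
  have h2 : finrank F ((LinearMap.ker ψ).comap U.subtype) = finrank F K := by
    rw [← Submodule.finrank_map_subtype_eq, Submodule.map_comap_subtype]
  have h3 : finrank F (K.map χ) = finrank F K := by
    rw [← LinearMap.range_domRestrict]
    apply LinearMap.finrank_range_of_inj
    rw [← LinearMap.ker_eq_bot, LinearMap.ker_eq_bot']
    intro u hu
    apply Subtype.ext
    have hu' : χ u.1 = 0 := hu
    rw [hKe u.1 u.2, hu']
    simp
  omega

end Cfsg.Agent.Lib.Helper5_QFIndex
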