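import Mathlib
import Cfsg.Prelude.Def_Classical
import Cfsg.Agent.Lib.Helper5_QFIndex

set_option autoImplicit false

namespace Cfsg.Agent.Lib.Helper5_QFStd

open Module Cfsg.Agent.Lib.Helper5_QF Cfsg.Agent.Lib.Helper5_QFIndex

variable (m : ℕ) (F : Type*) [Field F]

/-- the bilinear form `Σ u_i v_i'`. -/
def aPlus : LinearMap.BilinForm F (Fin m ⊕ Fin m → F) :=
  LinearMap.mk₂ F (fun u v => ∑ i : Fin m, u (.inl i) * v (.inr i))
    (by intro u u' v; simp [add_mul, Finset.sum_add_distrib])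
    (by intro c u v; simp [Finset.mul_sum, mul_assoc])
    (by intro u v v'; simp [mul_add, Finset.sum_add_distrib])
    (by intro c u v; simp [Finset.mul_sum, mul_left_comm])

def qPlus : QuadraticForm F (Fin m ⊕ Fin m → F) := (aPlus m F).toQuadraticMap

theorem qPlus_apply (v : Fin m ⊕ Fin m → F) : qPlus m F v = Cfsg.quadFormPlus m F v := rfl

theorem qPlus_polar (u v : Fin m ⊕ Fin m → F) :
    (qPlus m F).polarBilin u v = ∑ i : Fin m, (u (.inl i) * v (.inr i) + v (.inl i) * u (.inr i)) := by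
  rw [QuadraticMap.polarBilin_apply_apply, qPlus, LinearMap.BilinMap.polar_toQuadraticMap, Finset.sum_add_distrib]
  rfl

def eP (i : Fin m) : Fin m ⊕ Fin m → F := Pi.single (Sum.inl i) 1
def fP (i : Fin m) : Fin m ⊕ Fin m → F := Pi.single (Sum.inr i) 1

theorem polar_eP (i : Fin m) (v : Fin m ⊕ Fin m → F) : (qPlus m F).polarBilin (eP m F i) v = v (.inr i) := by
  rw [qPlus_polar]
  simp [eP, Pi.single_apply]

theorem polar_fP (i : Fin m) (v : Fin m ⊕ Fin m → F) : (qPlus m F).polarBilin (fP m F i) v = v (.inl i) := by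
  rw [qPlus_polar]
  simp [fP, Pi.single_apply]

theorem hypPlus : Hyp (qPlus m F) (eP m F) (fP m F) := by
  constructor
  · intro i; rw [qPlus_apply]; simp [Cfsg.quadFormPlus, eP]
  · intro i; rw [qPlus_apply]; simp [Cfsg.quadFormPlus, fP]
  · intro i; rw [polar_eP]; simp [fP]
  · intro i j hij; rw [polar_eP]; simp [fP, hij]
  · intro i j; rw [polar_eP]; simp [eP]
  · intro i j; rw [polar_fP]; simp [fP]

theorem perpPlus (x : Fin m ⊕ Fin m → F) (hx : x ∈ perp (qPlus m F) (eP m F) (fP m F)) : x = 0 := by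
  rw [mem_perp] at hx
  funext s
  rcases s with i | i
  · have := (hx i).2; rwa [polar_fP] at this
  · have := (hx i).1; rwa [polar_eP] at this

/-- the embedding of the first half. -/
def inlMap (α β : Type*) : (α → F) →ₗ[F] (α ⊕ β → F) where
  toFun a := Sum.elim a 0
  map_add' a b := by funext s; rcases s with i | i <;> simp
  map_smul' c a := by funext s; rcases s with i | i <;> simp

theorem inlMap_injective (α β : Type*) : Function.Injective (inlMap F α β) := by
  intro a b h
  funext i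
  exact congrFun h (Sum.inl i)

theorem finrank_range_inlMap (α β : Type*) [Fintype α] : finrank F (LinearMap.range (inlMap F α β)) = Fintype.card α := by
  rw [LinearMap.finrank_range_of_inj (inlMap_injective F α β)]
  simp

variable (a b : F)

def aMinus : LinearMap.BilinForm F ((Fin m ⊕ Fin m) ⊕ Fin 2 → F) :=
  LinearMap.mk₂ F (fun u v => (∑ i : Fin m, u (.inl (.inl i)) * v (.inl (.inr i))) +
      (u (.inr 0) * v (.inr 0) + a * u (.inr 0) * v (.inr 1) + b * (u (.inr 1) * v (.inr 1))))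
    (by intro u u' v; simp [add_mul, mul_add, Finset.sum_add_distrib]; ring)
    (by
      intro c u v
      simp only [Pi.smul_apply, smul_eq_mul, mul_add, Finset.mul_sum]
      congr 1
      · exact Finset.sum_congr rfl fun i _ => by ring
      · ring)
    (by intro u v v'; simp [mul_add, Finset.sum_add_distrib]; ring)
    (by
      intro c u v
      simp only [Pi.smul_apply, smul_eq_mul, mul_add, Finset.mul_sum]
      congr 1
      · exact Finset.sum_congr rfl fun i _ => by ring
      · ring)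

def qMinus : QuadraticForm F ((Fin m ⊕ Fin m) ⊕ Fin 2 → F) := (aMinus m F a b).toQuadraticMap

theorem qMinus_apply (v : (Fin m ⊕ Fin m) ⊕ Fin 2 → F) : qMinus m F a b v = Cfsg.quadFormMinus m F a b v := by
  show (∑ i : Fin m, v (.inl (.inl i)) * v (.inl (.inr i))) +
      (v (.inr 0) * v (.inr 0) + a * v (.inr 0) * v (.inr 1) + b * (v (.inr 1) * v (.inr 1))) = _
  unfold Cfsg.quadFormMinus
  ring

theorem qMinus_polar (u v : (Fin m ⊕ Fin m) ⊕ Fin 2 → F) :
    (qMinus m F a b).polarBilin u v =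
      (∑ i : Fin m, (u (.inl (.inl i)) * v (.inl (.inr i)) + v (.inl (.inl i)) * u (.inl (.inr i)))) +
      (2 * u (.inr 0) * v (.inr 0) + a * (u (.inr 0) * v (.inr 1) + u (.inr 1) * v (.inr 0)) + 2 * b * u (.inr 1) * v (.inr 1)) := by
  rw [QuadraticMap.polarBilin_apply_apply, qMinus, LinearMap.BilinMap.polar_toQuadraticMap, Finset.sum_add_distrib]
  show (∑ i : Fin m, u (.inl (.inl i)) * v (.inl (.inr i))) +
      (u (.inr 0) * v (.inr 0) + a * u (.inr 0) * v (.inr 1) + b * (u (.inr 1) * v (.inr 1))) +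
      ((∑ i : Fin m, v (.inl (.inl i)) * u (.inl (.inr i))) +
      (v (.inr 0) * u (.inr 0) + a * v (.inr 0) * u (.inr 1) + b * (v (.inr 1) * u (.inr 1)))) = _
  ring

def eM (i : Fin m) : (Fin m ⊕ Fin m) ⊕ Fin 2 → F := Pi.single (Sum.inl (Sum.inl i)) 1
def fM (i : Fin m) : (Fin m ⊕ Fin m) ⊕ Fin 2 → F := Pi.single (Sum.inl (Sum.inr i)) 1

theorem polar_eM (i : Fin m) (v : (Fin m ⊕ Fin m) ⊕ Fin 2 → F) :
    (qMinus m F a b).polarBilin (eM m F i) v = v (.inl (.inr i)) := by
  rw [qMinus_polar]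
  simp [eM, Pi.single_apply]

theorem polar_fM (i : Fin m) (v : (Fin m ⊕ Fin m) ⊕ Fin 2 → F) :
    (qMinus m F a b).polarBilin (fM m F i) v = v (.inl (.inl i)) := by
  rw [qMinus_polar]
  simp [fM, Pi.single_apply]

theorem hypMinus : Hyp (qMinus m F a b) (eM m F) (fM m F) := by
  constructor
  · intro i; rw [qMinus_apply]; simp [Cfsg.quadFormMinus, eM]
  · intro i; rw [qMinus_apply]; simp [Cfsg.quadFormMinus, fM]
  · intro i; rw [polar_eM]; simp [fM]
  · intro i j hij; rw [polar_eM]; simp [fM, hij]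
  · intro i j; rw [polar_eM]; simp [eM]
  · intro i j; rw [polar_fM]; simp [fM]

theorem perpMinus (hab : ∀ z₁ z₂ : F, z₁ ^ 2 + a * z₁ * z₂ + b * z₂ ^ 2 = 0 → z₁ = 0 ∧ z₂ = 0)
    (x : (Fin m ⊕ Fin m) ⊕ Fin 2 → F) (hx : x ∈ perp (qMinus m F a b) (eM m F) (fM m F))
    (hq : qMinus m F a b x = 0) : x = 0 := by
  rw [mem_perp] at hx
  have h1 : ∀ i, x (.inl (.inl i)) = 0 := fun i => by have := (hx i).2; rwa [polar_fM] at this
  have h2 : ∀ i, x (.inl (.inr i)) = 0 := fun i => by have := (hx i).1; rwa [polar_eM] at this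
  rw [qMinus_apply] at hq
  simp only [Cfsg.quadFormMinus, h1, zero_mul, Finset.sum_const_zero, zero_add] at hq
  obtain ⟨h3, h4⟩ := hab _ _ hq
  funext s
  rcases s with (i | i) | j
  · exact h1 i
  · exact h2 i
  · fin_cases j
    · exact h3
    · exact h4

end Cfsg.Agent.Lib.Helper5_QFStd
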