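import Mathlib
import Cfsg.Agent.Lib.Helper5_QFStd

set_option autoImplicit false

namespace Cfsg.Agent.Lib.Helper5_F2Forms

open Module Cfsg.Agent.Lib.Helper5_QF Cfsg.Agent.Lib.Helper5_QFStd

/-- the sign character of `ZMod 2` -/
def sgn (a : ZMod 2) : ℤ := if a = 0 then 1 else -1

theorem sgn_add (a b : ZMod 2) : sgn (a + b) = sgn a * sgn b := by
  revert a b; decide

theorem sgn_zero : sgn 0 = 1 := rfl
theorem sgn_one : sgn 1 = -1 := rfl

theorem add_self_z2 (a : ZMod 2) : a + a = 0 := by revert a; decide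
theorem mul_self_z2 (a : ZMod 2) : a * a = a := by revert a; decide
theorem eq_one_of_ne_zero (a : ZMod 2) (h : a ≠ 0) : a = 1 := by revert a; decide
theorem sub_eq_add_z2 (a b : ZMod 2) : a - b = a + b := by revert a b; decide

variable (m : ℕ)

/-- the ambient space -/
abbrev VV := Fin m ⊕ Fin m → ZMod 2

/-- the polar form of the plus form -/
noncomputable def BB : LinearMap.BilinForm (ZMod 2) (VV m) := (qPlus m (ZMod 2)).polarBilin

theorem BB_apply (u v : VV m) : BB m u v = Cfsg.quadFormPlus m (ZMod 2) (u + v) - Cfsg.quadFormPlus m (ZMod 2) u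
    - Cfsg.quadFormPlus m (ZMod 2) v := rfl

theorem BB_comm (u v : VV m) : BB m u v = BB m v u := pb_comm _ u v

theorem BB_self (u : VV m) : BB m u u = 0 := by
  unfold BB
  rw [pb_self]
  have : (2 : ZMod 2) = 0 := by decide
  rw [this, zero_mul]

theorem BB_nondeg (w : VV m) (hw : ∀ u, BB m u w = 0) : w = 0 := by
  apply perpPlus m (ZMod 2) w
  rw [mem_perp]
  intro i
  exact ⟨hw _, hw _⟩

theorem sum_sgn_BB (w : VV m) (hw : w ≠ 0) : ∑ u : VV m, sgn (BB m u w) = 0 := by
  obtain ⟨u₀, hu₀⟩ : ∃ u₀, BB m u₀ w ≠ 0 := by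
    by_contra hcon
    push Not at hcon
    exact hw (BB_nondeg m w hcon)
  have h1 := eq_one_of_ne_zero _ hu₀
  have h2 : ∑ u : VV m, sgn (BB m u w) = ∑ u : VV m, sgn (BB m (u + u₀) w) :=
    (Equiv.sum_comp (Equiv.addRight u₀) (fun u => sgn (BB m u w))).symm
  have h3 : ∑ u : VV m, sgn (BB m (u + u₀) w) = - ∑ u : VV m, sgn (BB m u w) := by
    rw [← Finset.sum_neg_distrib]
    apply Finset.sum_congr rfl
    intro u _
    rw [map_add, LinearMap.add_apply, h1, sgn_add, sgn_one]; ring
  omega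

/-- functions with the given polarization -/
def IsQ (q : VV m → ZMod 2) : Prop := ∀ u v, q (u + v) = q u + q v + BB m u v

variable {m}

theorem IsQ.zero {q : VV m → ZMod 2} (hq : IsQ m q) : q 0 = 0 := by
  have := hq 0 0
  simp only [add_zero, map_zero] at this
  have h2 := add_self_z2 (q 0)
  rw [h2] at this
  exact this

theorem IsQ.smul {q : VV m → ZMod 2} (hq : IsQ m q) (c : ZMod 2) (w : VV m) : q (c • w) = c * q w := by
  have : c = 0 ∨ c = 1 := by revert c; decide
  rcases this with rfl | rfl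
  · simp [hq.zero]
  · simp

/-- the exponential sum -/
noncomputable def SS (q : VV m → ZMod 2) : ℤ := ∑ v : VV m, sgn (q v)

theorem IsQ.SS_sq {q : VV m → ZMod 2} (hq : IsQ m q) : SS q * SS q = (Fintype.card (VV m) : ℤ) := by
  classical
  unfold SS
  rw [Finset.sum_mul_sum]
  have h1 : ∀ u : VV m, ∑ v : VV m, sgn (q u) * sgn (q v) = ∑ w : VV m, sgn (q w) * sgn (BB m u w) := by
    intro u
    rw [← Equiv.sum_comp (Equiv.addLeft u) (fun v => sgn (q u) * sgn (q v))]
    apply Finset.sum_congr rfl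
    intro w _
    simp only [Equiv.coe_addLeft]
    rw [hq u w, sgn_add, sgn_add]
    have : sgn (q u) * sgn (q u) = 1 := by rw [← sgn_add, add_self_z2]; rfl
    linear_combination (sgn (q w) * sgn (BB m u w)) * this
  rw [Finset.sum_congr rfl (fun u _ => h1 u), Finset.sum_comm]
  have h2 : ∀ w : VV m, ∑ u : VV m, sgn (q w) * sgn (BB m u w) = if w = 0 then (Fintype.card (VV m) : ℤ) else 0 := by
    intro w
    rw [← Finset.mul_sum]
    split_ifs with hw
    · subst hw
      simp [hq.zero, sgn_zero]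
    · rw [sum_sgn_BB m w hw, mul_zero]
  rw [Finset.sum_congr rfl (fun w _ => h2 w)]
  simp

theorem IsQ.SS_ne_zero {q : VV m → ZMod 2} (hq : IsQ m q) : SS q ≠ 0 := by
  intro h
  have := hq.SS_sq
  rw [h] at this
  have h2 : (0 : ℤ) < (Fintype.card (VV m) : ℤ) := by exact_mod_cast Fintype.card_pos
  omega

/-- the translate -/
noncomputable def tr (q : VV m → ZMod 2) (w : VV m) : VV m → ZMod 2 := fun v => q v + BB m v w

theorem IsQ.isQ_tr {q : VV m → ZMod 2} (hq : IsQ m q) (w : VV m) : IsQ m (tr q w) := by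
  intro u v
  simp only [Helper5_F2Forms.tr]
  rw [hq u v, map_add, LinearMap.add_apply]
  ring

theorem IsQ.tr_eq {q : VV m → ZMod 2} (hq : IsQ m q) (w v : VV m) : tr q w v = q (v + w) + q w := by
  simp only [Helper5_F2Forms.tr]
  rw [hq v w]
  have := add_self_z2 (q w)
  linear_combination -this

theorem IsQ.SS_tr {q : VV m → ZMod 2} (hq : IsQ m q) (w : VV m) : SS (tr q w) = sgn (q w) * SS q := by
  unfold SS
  rw [Finset.mul_sum, ← Equiv.sum_comp (Equiv.addRight w) (fun v => sgn (q w) * sgn (q v))]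
  apply Finset.sum_congr rfl
  intro v _
  rw [hq.tr_eq, sgn_add]
  simp only [Equiv.coe_addRight]
  ring

/-- the transvection-like map -/
noncomputable def tv (w : VV m) : VV m →ₗ[ZMod 2] VV m := LinearMap.id + ((BB m).flip w).smulRight w

theorem tv_apply (w v : VV m) : tv w v = v + BB m v w • w := by
  simp [tv]

theorem tv_tv (w v : VV m) : tv w (tv w v) = v := by
  rw [tv_apply, tv_apply, map_add, LinearMap.add_apply, map_smul, LinearMap.smul_apply, BB_self]
  simp only [smul_zero, add_zero]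
  rw [add_assoc, ← add_smul, add_self_z2, zero_smul, add_zero]

noncomputable def tvEquiv (w : VV m) : VV m ≃ₗ[ZMod 2] VV m :=
  LinearEquiv.ofInvolutive (tv w) (tv_tv w)

theorem IsQ.q_tv {q : VV m → ZMod 2} (hq : IsQ m q) (w : VV m) (hw : q w = 0) (v : VV m) :
    q (tvEquiv w v) = tr q w v := by
  show q (Helper5_F2Forms.tv w v) = _
  rw [tv_apply, hq, hq.smul, hw, map_smul, smul_eq_mul, mul_self_z2]
  simp [Helper5_F2Forms.tr]

theorem IsQ.tr_equiv_iff {q : VV m → ZMod 2} (hq : IsQ m q) (w : VV m) :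
    (∃ g : VV m ≃ₗ[ZMod 2] VV m, ∀ v, tr q w v = q (g v)) ↔ q w = 0 := by
  constructor
  · rintro ⟨g, hg⟩
    by_contra hw
    have h1 := eq_one_of_ne_zero _ hw
    have h2 := hq.SS_tr w
    rw [h1, sgn_one] at h2
    have h3 : SS (tr q w) = SS q := by
      unfold SS
      rw [← Equiv.sum_comp g.toEquiv (fun v => sgn (q v))]
      apply Finset.sum_congr rfl
      intro v _
      rw [hg]; rfl
    have := hq.SS_ne_zero
    omega
  · intro hw
    exact ⟨tvEquiv w, fun v => (hq.q_tv w hw v).symm⟩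

end Cfsg.Agent.Lib.Helper5_F2Forms
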