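import Mathlib
import Cfsg.Agent.Lib.Helper5_FieldExt

set_option autoImplicit false

namespace Cfsg.Agent.Lib.Helper5_FieldExt2

open Module Polynomial Cfsg.Agent.Lib.Helper5_FieldExt

variable {F K : Type*} [Field F] [Fintype F] [Field K] [Fintype K] [Algebra F K]

/-- a quadratic polynomial without roots over `F` has a root in the quadratic extension -/
theorem exists_root (h2 : finrank F K = 2) (a b : F) (hab : ∀ t : F, t ^ 2 - a * t + b ≠ 0) :
    ∃ ω : K, ω ^ 2 - algebraMap F K a * ω + algebraMap F K b = 0 := by
  let f : F[X] := X ^ 2 - C a * X + C b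
  have hdeg : f.natDegree = 2 := by
    simp only [f]
    compute_degree!
  have hmonic : f.Monic := by
    simp only [f]
    monicity!
  have hirr : Irreducible f := by
    rw [Polynomial.Monic.irreducible_iff_roots_eq_zero_of_degree_le_three hmonic (by omega) (by omega)]
    rw [Multiset.eq_zero_iff_forall_notMem]
    intro t ht
    rw [Polynomial.mem_roots hmonic.ne_zero] at ht
    apply hab t
    simpa [f] using ht
  haveI : Fact (Irreducible f) := ⟨hirr⟩
  have hfr : finrank F (AdjoinRoot f) = 2 := by
    rw [(AdjoinRoot.powerBasis hmonic.ne_zero).finrank, AdjoinRoot.powerBasis_dim, hdeg]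
  obtain ⟨φ⟩ := FiniteField.nonempty_algHom_of_finrank_dvd (F := F) (K := AdjoinRoot f) (L := K) (by rw [hfr, h2])
  refine ⟨φ (AdjoinRoot.root f), ?_⟩
  have h1 : aeval (AdjoinRoot.root f) f = 0 := by
    rw [AdjoinRoot.aeval_eq, AdjoinRoot.mk_self]
  have h3 := congrArg φ h1
  rw [← Polynomial.aeval_algHom_apply, map_zero] at h3
  have e : ∀ y : K, aeval y f = y ^ 2 - algebraMap F K a * y + algebraMap F K b := by
    intro y; simp [f]
  rw [e] at h3
  exact h3

theorem exists_trace_norm (h2 : finrank F K = 2) (a b : F) (hab : ∀ t : F, t ^ 2 - a * t + b ≠ 0) :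
    ∃ ω : K, ω + conj (F := F) ω = algebraMap F K a ∧ ω * conj (F := F) ω = algebraMap F K b ∧
      ∀ c : F, algebraMap F K c ≠ ω := by
  obtain ⟨ω, hω⟩ := exists_root h2 a b hab
  have hnot : ∀ c : F, algebraMap F K c ≠ ω := by
    rintro c rfl
    apply hab c
    apply (algebraMap F K).injective
    simpa using hω
  have hω' : conj (F := F) ω ^ 2 - algebraMap F K a * conj (F := F) ω + algebraMap F K b = 0 := by
    have := congrArg (conj (F := F)) hω
    simpa only [map_add, map_sub, map_mul, map_pow, AlgHom.commutes, map_zero] using this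
  have hne : ω - conj (F := F) ω ≠ 0 := by
    intro h
    obtain ⟨c, hc⟩ := mem_range_of_conj_eq (F := F) ω (sub_eq_zero.1 h).symm
    exact hnot c hc
  have hsum : ω + conj (F := F) ω = algebraMap F K a := by
    have : (ω - conj (F := F) ω) * (ω + conj (F := F) ω - algebraMap F K a) = 0 := by
      linear_combination hω - hω'
    rcases mul_eq_zero.1 this with h | h
    · exact absurd h hne
    · exact sub_eq_zero.1 h
  refine ⟨ω, hsum, ?_, hnot⟩
  linear_combination ω * hsum - hω

end Cfsg.Agent.Lib.Helper5_FieldExt2
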