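import Mathlib

set_option autoImplicit false

namespace Cfsg.Agent.Lib.Helper5_FormCount

open Module

section general

variable {F : Type*} [Field F] [Fintype F] {V : Type*} [AddCommGroup V] [Module F V]
  [FiniteDimensional F V]

/-- fibres of a surjective linear map -/
theorem card_fiber {W : Type*} [AddCommGroup W] [Module F W] [FiniteDimensional F W]
    (L : V →ₗ[F] W) (hL : Function.Surjective L) (c : W) :
    Nat.card {y : V // L y = c} = Fintype.card F ^ (finrank F V - finrank F W) := by
  obtain ⟨y0, hy0⟩ := hL c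
  have e : {y : V // L y = c} ≃ LinearMap.ker L :=
    { toFun := fun y => ⟨y.1 - y0, by rw [LinearMap.mem_ker, map_sub, y.2, hy0, sub_self]⟩
      invFun := fun z => ⟨z.1 + y0, by rw [map_add, LinearMap.mem_ker.1 z.2, hy0, zero_add]⟩
      left_inv := fun y => Subtype.ext (by simp)
      right_inv := fun z => Subtype.ext (by simp) }
  rw [Nat.card_congr e, Module.natCard_eq_pow_finrank (K := F), Nat.card_eq_fintype_card]
  congr 1
  have := LinearMap.finrank_range_add_finrank_ker L
  rw [LinearMap.range_eq_top.2 hL, finrank_top] at this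
  omega

theorem pi_surjective (b : LinearMap.BilinForm F V) (hb : ∀ x, (∀ y, b x y = 0) → x = 0)
    {κ : Type*} [Fintype κ] (u : κ → V) (hu : LinearIndependent F u) :
    Function.Surjective (LinearMap.pi (fun i => b (u i)) : V →ₗ[F] (κ → F)) := by
  classical
  rw [← LinearMap.dualMap_injective_iff, injective_iff_map_eq_zero]
  intro ψ hψ
  have h1 : ∀ y, ψ (LinearMap.pi (fun i => b (u i)) y) = 0 := fun y => LinearMap.congr_fun hψ y
  have h2 : ∑ i, ψ (Pi.single i 1) • u i = 0 := by
    apply hb
    intro y
    have := h1 y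
    rw [LinearMap.pi_apply_eq_sum_univ] at this
    rw [map_sum, LinearMap.sum_apply, ← this]
    apply Finset.sum_congr rfl
    intro i _
    rw [map_smul, LinearMap.smul_apply, smul_eq_mul, smul_eq_mul, LinearMap.pi_apply, mul_comm]
    congr 2
    funext j
    simp [Pi.single_apply, eq_comm]
  have h3 := Fintype.linearIndependent_iff.1 hu _ h2
  apply LinearMap.ext
  intro x
  rw [LinearMap.pi_apply_eq_sum_univ, LinearMap.zero_apply]
  apply Finset.sum_eq_zero
  intro i _
  have : (fun j => if i = j then (1 : F) else 0) = Pi.single i 1 := by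
    funext j
    simp [Pi.single_apply, eq_comm]
  rw [this, h3 i, smul_zero]

theorem card_solutions (b : LinearMap.BilinForm F V) (hb : ∀ x, (∀ y, b x y = 0) → x = 0)
    {κ : Type*} [Fintype κ] (u : κ → V) (hu : LinearIndependent F u) (c : κ → F) :
    Nat.card {y : V // ∀ i, b (u i) y = c i} =
      Fintype.card F ^ (finrank F V - Fintype.card κ) := by
  have e : {y : V // ∀ i, b (u i) y = c i} ≃
      {y : V // (LinearMap.pi (fun i => b (u i)) : V →ₗ[F] (κ → F)) y = c} :=
    Equiv.subtypeEquivRight (fun y => by rw [funext_iff]; rfl)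
  rw [Nat.card_congr e, card_fiber _ (pi_surjective b hb u hu), Module.finrank_fintype_fun_eq_card]

end general

/-- counting tuples by adding one entry at a time -/
theorem card_snoc {α : Type*} [Finite α] {k : ℕ} (P : (Fin k → α) → Prop)
    (Q : (Fin k → α) → α → Prop) (P' : (Fin (k + 1) → α) → Prop)
    (h : ∀ e y, P' (Fin.snoc e y) ↔ P e ∧ Q e y) (N : ℕ)
    (hN : ∀ e, P e → Nat.card {y // Q e y} = N) :
    Nat.card {e' // P' e'} = Nat.card {e // P e} * N := by
  classical
  have e : {e' // P' e'} ≃ Σ e : {e // P e}, {y // Q e.1 y} :=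
    { toFun := fun e' =>
        have h1 : P (Fin.init e'.1) ∧ Q (Fin.init e'.1) (e'.1 (Fin.last k)) := by
          rw [← h, Fin.snoc_init_self]; exact e'.2
        ⟨⟨Fin.init e'.1, h1.1⟩, ⟨e'.1 (Fin.last k), h1.2⟩⟩
      invFun := fun p => ⟨Fin.snoc p.1.1 p.2.1, (h _ _).2 ⟨p.1.2, p.2.2⟩⟩
      left_inv := fun e' => Subtype.ext (Fin.snoc_init_self _)
      right_inv := by
        rintro ⟨⟨e, he⟩, ⟨y, hy⟩⟩
        refine Sigma.subtype_ext (Subtype.ext ?_) ?_
        · exact Fin.init_snoc (α := fun _ => α) y e
        · change (Fin.snoc e y : Fin (k + 1) → α) (Fin.last k) = y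
          exact Fin.snoc_last (α := fun _ => α) y e }
  have : Fintype {e // P e} := Fintype.ofFinite _
  rw [Nat.card_congr e, Nat.card_sigma, Finset.sum_congr rfl (fun a _ => hN a.1 a.2),
    Finset.sum_const, Finset.card_univ, Nat.card_eq_fintype_card, smul_eq_mul]

end Cfsg.Agent.Lib.Helper5_FormCount
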