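import Mathlib
import Cfsg.Prelude.Def_Characters
import Cfsg.Prelude.Def_ParabolicCharacters
import Cfsg.Agent.Lib.Helper5_IndCoset
import Cfsg.Agent.Lib.CharMore
import Cfsg.Agent.Lib.CharLinear

set_option autoImplicit false

namespace Cfsg.Agent.Lib.Helper5_GL2Char

open Cfsg Matrix Cfsg.Agent.Lib.CharInd Cfsg.Agent.Lib.Helper5_IndCoset
open scoped ComplexConjugate

variable {F : Type*} [Field F]

theorem mem_BB (g : GL (Fin 2) F) :
    g ∈ upperTriangularGL 2 F ↔ (g : Matrix (Fin 2) (Fin 2) F) 1 0 = 0 := by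
  constructor
  · intro h
    exact h (by decide : (id (0 : Fin 2)) < id (1 : Fin 2))
  · intro h i j hij
    fin_cases i <;> fin_cases j <;> first | exact h | exact absurd hij (by decide)

/-- make an element of `GL₂` -/
noncomputable def mk2 (a b c d : F) (h : a * d - b * c ≠ 0) : GL (Fin 2) F :=
  Matrix.GeneralLinearGroup.mkOfDetNeZero !![a, b; c, d] (by rw [Matrix.det_fin_two_of]; exact h)

theorem mk2_val (a b c d : F) (h : a * d - b * c ≠ 0) :
    (mk2 a b c d h : Matrix (Fin 2) (Fin 2) F) = !![a, b; c, d] := rfl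

/-- coset representatives of the Borel subgroup -/
noncomputable def rep : Option F → GL (Fin 2) F
  | none => 1
  | some t => mk2 t (-1) 1 0 (by simp)

/-- their inverses -/
noncomputable def repInv : Option F → GL (Fin 2) F
  | none => 1
  | some t => mk2 0 1 (-1) t (by simp)

theorem rep_inv (o : Option F) : (rep o)⁻¹ = repInv o := by
  cases o with
  | none => simp [rep, repInv]
  | some t =>
    apply inv_eq_of_mul_eq_one_right
    apply Units.ext
    rw [Units.val_mul]
    simp only [rep, repInv, mk2_val, Units.val_one]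
    ext i j
    fin_cases i <;> fin_cases j <;> simp [Matrix.mul_apply, Fin.sum_univ_two]

theorem eta (M : Matrix (Fin 2) (Fin 2) F) : M = !![M 0 0, M 0 1; M 1 0, M 1 1] := by
  ext i j
  fin_cases i <;> fin_cases j <;> rfl

theorem conj_rep_val (g : GL (Fin 2) F) (t : F) :
    (((rep (some t))⁻¹ * g * rep (some t) : GL (Fin 2) F) : Matrix (Fin 2) (Fin 2) F) =
      !![(g : Matrix (Fin 2) (Fin 2) F) 1 0 * t + (g : Matrix (Fin 2) (Fin 2) F) 1 1, -(g : Matrix (Fin 2) (Fin 2) F) 1 0;
        (g : Matrix (Fin 2) (Fin 2) F) 1 0 * t ^ 2 + ((g : Matrix (Fin 2) (Fin 2) F) 1 1 - (g : Matrix (Fin 2) (Fin 2) F) 0 0) * t - (g : Matrix (Fin 2) (Fin 2) F) 0 1,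
        (g : Matrix (Fin 2) (Fin 2) F) 0 0 - (g : Matrix (Fin 2) (Fin 2) F) 1 0 * t] := by
  rw [rep_inv, Units.val_mul, Units.val_mul]
  simp only [rep, repInv, mk2_val]
  conv_lhs => rw [eta (g : Matrix (Fin 2) (Fin 2) F)]
  ext i j
  fin_cases i <;> fin_cases j <;> simp [Matrix.mul_apply, Fin.sum_univ_two] <;> ring

theorem det_ne_zero (g : GL (Fin 2) F) :
    (g : Matrix (Fin 2) (Fin 2) F) 0 0 * (g : Matrix (Fin 2) (Fin 2) F) 1 1 -
      (g : Matrix (Fin 2) (Fin 2) F) 0 1 * (g : Matrix (Fin 2) (Fin 2) F) 1 0 ≠ 0 := by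
  rw [← Matrix.det_fin_two]
  exact (Matrix.isUnit_iff_isUnit_det _).1 g.isUnit |>.ne_zero

theorem rep_bijective :
    Function.Bijective (fun x : Option F × (upperTriangularGL 2 F) => rep x.1 * (x.2 : GL (Fin 2) F)) := by
  classical
  let ℓ : GL (Fin 2) F → Option F := fun x =>
    if (x : Matrix (Fin 2) (Fin 2) F) 1 0 = 0 then none
    else some ((x : Matrix (Fin 2) (Fin 2) F) 0 0 / (x : Matrix (Fin 2) (Fin 2) F) 1 0)
  have hℓ : ∀ (o : Option F) (b : upperTriangularGL 2 F), ℓ (rep o * (b : GL (Fin 2) F)) = o := by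
    intro o b
    have hb := (mem_BB _).1 b.2
    have hdet := det_ne_zero (b : GL (Fin 2) F)
    rw [hb, mul_zero, sub_zero] at hdet
    have hb0 : ((b : GL (Fin 2) F) : Matrix (Fin 2) (Fin 2) F) 0 0 ≠ 0 := left_ne_zero_of_mul hdet
    cases o with
    | none => simp [ℓ, rep, hb]
    | some t =>
      have h1 : ((rep (some t) * (b : GL (Fin 2) F) : GL (Fin 2) F) : Matrix (Fin 2) (Fin 2) F) 1 0 =
          ((b : GL (Fin 2) F) : Matrix (Fin 2) (Fin 2) F) 0 0 := by
        rw [Units.val_mul]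
        simp [rep, mk2_val, Matrix.mul_apply, Fin.sum_univ_two]
      have h2 : ((rep (some t) * (b : GL (Fin 2) F) : GL (Fin 2) F) : Matrix (Fin 2) (Fin 2) F) 0 0 =
          t * ((b : GL (Fin 2) F) : Matrix (Fin 2) (Fin 2) F) 0 0 := by
        rw [Units.val_mul]
        simp [rep, mk2_val, Matrix.mul_apply, Fin.sum_univ_two, hb]
      simp only [ℓ, h1, h2, hb0, if_false]
      rw [mul_div_assoc, div_self hb0, mul_one]
  constructor
  · rintro ⟨o, b⟩ ⟨o', b'⟩ h
    simp only at h
    have h1 : o = o' := by rw [← hℓ o b, h, hℓ]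
    subst h1
    have h2 : (b : GL (Fin 2) F) = b' := mul_left_cancel h
    rw [Subtype.ext h2]
  · intro x
    have hmem : (rep (ℓ x))⁻¹ * x ∈ upperTriangularGL 2 F := by
      rw [mem_BB, rep_inv]
      by_cases hx : (x : Matrix (Fin 2) (Fin 2) F) 1 0 = 0
      · simp [ℓ, hx, repInv]
      · simp only [ℓ, hx, if_false, repInv]
        rw [Units.val_mul]
        simp only [mk2_val, Matrix.mul_apply, Fin.sum_univ_two]
        simp
        field_simp
        ring
    exact ⟨(ℓ x, ⟨_, hmem⟩), by simp⟩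

/-- the linear character of the Borel subgroup -/
noncomputable def lam (α β : MulChar F ℂ) : (upperTriangularGL 2 F) → ℂ :=
  fun b => α (((b : Matrix.GeneralLinearGroup (Fin 2) F) : Matrix (Fin 2) (Fin 2) F) 0 0) *
    β (((b : Matrix.GeneralLinearGroup (Fin 2) F) : Matrix (Fin 2) (Fin 2) F) 1 1)

theorem BB_diag_ne (b : upperTriangularGL 2 F) :
    ((b : GL (Fin 2) F) : Matrix (Fin 2) (Fin 2) F) 0 0 ≠ 0 ∧ ((b : GL (Fin 2) F) : Matrix (Fin 2) (Fin 2) F) 1 1 ≠ 0 := by
  have hb := (mem_BB _).1 b.2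
  have hdet := det_ne_zero (b : GL (Fin 2) F)
  rw [hb, mul_zero, sub_zero] at hdet
  exact ⟨left_ne_zero_of_mul hdet, right_ne_zero_of_mul hdet⟩

theorem BB_mul_00 (b b' : upperTriangularGL 2 F) :
    (((b * b' : upperTriangularGL 2 F) : GL (Fin 2) F) : Matrix (Fin 2) (Fin 2) F) 0 0 =
      ((b : GL (Fin 2) F) : Matrix (Fin 2) (Fin 2) F) 0 0 * ((b' : GL (Fin 2) F) : Matrix (Fin 2) (Fin 2) F) 0 0 := by
  have hb := (mem_BB _).1 b'.2
  rw [Subgroup.coe_mul, Units.val_mul, Matrix.mul_apply, Fin.sum_univ_two, hb, mul_zero, add_zero]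

theorem BB_mul_11 (b b' : upperTriangularGL 2 F) :
    (((b * b' : upperTriangularGL 2 F) : GL (Fin 2) F) : Matrix (Fin 2) (Fin 2) F) 1 1 =
      ((b : GL (Fin 2) F) : Matrix (Fin 2) (Fin 2) F) 1 1 * ((b' : GL (Fin 2) F) : Matrix (Fin 2) (Fin 2) F) 1 1 := by
  have hb := (mem_BB _).1 b.2
  rw [Subgroup.coe_mul, Units.val_mul, Matrix.mul_apply, Fin.sum_univ_two, hb, zero_mul, zero_add]

/-- `lam` as a homomorphism -/
noncomputable def lamHom (α β : MulChar F ℂ) : (upperTriangularGL 2 F) →* ℂˣ where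
  toFun b := Units.mk0 (lam α β b) (by
    unfold lam
    exact mul_ne_zero (MulChar.apply_ne_zero_iff.2 (BB_diag_ne b).1.isUnit)
      (MulChar.apply_ne_zero_iff.2 (BB_diag_ne b).2.isUnit))
  map_one' := by
    apply Units.ext
    simp [lam]
  map_mul' b b' := by
    apply Units.ext
    simp only [Units.val_mk0, Units.val_mul, lam]
    rw [BB_mul_00, BB_mul_11, map_mul, map_mul]
    ring

theorem lamHom_apply (α β : MulChar F ℂ) (b : upperTriangularGL 2 F) : ((lamHom α β b : ℂˣ) : ℂ) = lam α β b := rfl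

theorem lam_isCharacter (α β : MulChar F ℂ) : IsCharacter (upperTriangularGL 2 F) (lam α β) :=
  Cfsg.Agent.Lib.CharLinear.isCharacter_hom (lamHom α β)

theorem lam_isClassFunction (α β : MulChar F ℂ) : IsClassFunction (upperTriangularGL 2 F) (lam α β) :=
  Cfsg.Agent.Lib.CharBasic.isClassFunction_of_isCharacter (lam_isCharacter α β)

open scoped Classical in
theorem extend_lam (α β : MulChar F ℂ) (x : GL (Fin 2) F) :
    extendByZero (upperTriangularGL 2 F) (lam α β) x =
      if (x : Matrix (Fin 2) (Fin 2) F) 1 0 = 0 then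
        α ((x : Matrix (Fin 2) (Fin 2) F) 0 0) * β ((x : Matrix (Fin 2) (Fin 2) F) 1 1) else 0 := by
  by_cases h : (x : Matrix (Fin 2) (Fin 2) F) 1 0 = 0
  · rw [if_pos h, extendByZero_mem _ _ ((mem_BB x).2 h)]
    rfl
  · rw [if_neg h, extendByZero_not_mem]
    rwa [mem_BB]

/-- the principal series -/
noncomputable def ps [Fintype F] [DecidableEq F] (α β : MulChar F ℂ) : GL (Fin 2) F → ℂ :=
  indFun (upperTriangularGL 2 F) (lam α β)

theorem ps_apply [Fintype F] [DecidableEq F] (α β : MulChar F ℂ) (g : GL (Fin 2) F) :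
    ps α β g = (if (g : Matrix (Fin 2) (Fin 2) F) 1 0 = 0 then
        α ((g : Matrix (Fin 2) (Fin 2) F) 0 0) * β ((g : Matrix (Fin 2) (Fin 2) F) 1 1) else 0) +
      ∑ t : F, if (g : Matrix (Fin 2) (Fin 2) F) 1 0 * t ^ 2 + ((g : Matrix (Fin 2) (Fin 2) F) 1 1 - (g : Matrix (Fin 2) (Fin 2) F) 0 0) * t - (g : Matrix (Fin 2) (Fin 2) F) 0 1 = 0 then
        α ((g : Matrix (Fin 2) (Fin 2) F) 1 0 * t + (g : Matrix (Fin 2) (Fin 2) F) 1 1) *
          β ((g : Matrix (Fin 2) (Fin 2) F) 0 0 - (g : Matrix (Fin 2) (Fin 2) F) 1 0 * t) else 0 := by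
  unfold ps
  rw [indFun_eq_sum_reps _ rep rep_bijective _ (lam_isClassFunction α β), Fintype.sum_option]
  congr 1
  · rw [extend_lam]
    simp [rep]
  · refine Finset.sum_congr rfl fun t _ => ?_
    rw [extend_lam, conj_rep_val]
    simp

/-- parametrization of the Borel subgroup -/
noncomputable def borelEquiv : Fˣ × Fˣ × F ≃ upperTriangularGL 2 F where
  toFun x := ⟨mk2 x.1 x.2.2 0 x.2.1 (by simp), (mem_BB _).2 rfl⟩
  invFun b := (Units.mk0 _ (BB_diag_ne b).1, Units.mk0 _ (BB_diag_ne b).2,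
    ((b : GL (Fin 2) F) : Matrix (Fin 2) (Fin 2) F) 0 1)
  left_inv x := by
    obtain ⟨a, d, c⟩ := x
    simp only [mk2_val]
    ext <;> simp
  right_inv b := by
    apply Subtype.ext
    apply Units.ext
    simp only [mk2_val, Units.val_mk0]
    conv_rhs => rw [eta ((b : GL (Fin 2) F) : Matrix (Fin 2) (Fin 2) F)]
    rw [(mem_BB _).1 b.2]

theorem borelEquiv_val (a d : Fˣ) (c : F) :
    ((borelEquiv (a, d, c) : GL (Fin 2) F) : Matrix (Fin 2) (Fin 2) F) = !![(a : F), c; 0, (d : F)] := rfl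

theorem card_BB [Fintype F] : Nat.card (upperTriangularGL 2 F) = (Fintype.card F - 1) * ((Fintype.card F - 1) * Fintype.card F) := by
  classical
  rw [← Nat.card_congr (borelEquiv (F := F)), Nat.card_prod, Nat.card_prod, Nat.card_eq_fintype_card,
    Nat.card_eq_fintype_card, Fintype.card_units]

open scoped Classical in
theorem sum_units_mulChar [Fintype F] [Fintype Fˣ] (α α' : MulChar F ℂ) :
    ∑ a : Fˣ, α (a : F) * conj (α' (a : F)) = if α = α' then ((Fintype.card F : ℂ) - 1) else 0 := by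
  let f : Fˣ →* ℂ := ((α * α'⁻¹ : MulChar F ℂ).toMonoidHom).comp (Units.coeHom F)
  have h1 : ∀ a : Fˣ, α (a : F) * conj (α' (a : F)) = f a := by
    intro a
    have : conj (α' (a : F)) = α'⁻¹ (a : F) := MulChar.star_apply' α' a
    rw [this]
    rfl
  rw [Finset.sum_congr rfl fun a _ => h1 a, sum_hom_units]
  have h2 : f = 1 ↔ α = α' := by
    constructor
    · intro h
      have h3 : α * α'⁻¹ = 1 := by
        rw [MulChar.eq_one_iff]
        intro a
        exact DFunLike.congr_fun h a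
      exact mul_inv_eq_one.1 h3
    · rintro rfl
      ext a
      show (α * α⁻¹ : MulChar F ℂ) (a : F) = 1
      rw [mul_inv_cancel, MulChar.one_apply_coe]
  have hq : 1 ≤ Fintype.card F := Fintype.card_pos
  by_cases h : α = α'
  · have hcard : Fintype.card Fˣ = Fintype.card F - 1 := by
      rw [← Nat.card_eq_fintype_card, Nat.card_units, Nat.card_eq_fintype_card]
    rw [if_pos (h2.2 h), if_pos h, hcard]
    push_cast [hq]
    ring
  · rw [if_neg (fun h' => h (h2.1 h')), if_neg h, Nat.cast_zero]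

theorem ps_isCharacter [Fintype F] [DecidableEq F] (α β : MulChar F ℂ) : IsCharacter (GL (Fin 2) F) (ps α β) :=
  isCharacter_indFun _ _ (lam_isCharacter α β)

theorem ps_isClassFunction [Fintype F] [DecidableEq F] (α β : MulChar F ℂ) : IsClassFunction (GL (Fin 2) F) (ps α β) :=
  indFun_isClassFunction _ _

theorem ps_borel [Fintype F] [DecidableEq F] (α β : MulChar F ℂ) (a d : Fˣ) (c : F) :
    ps α β (borelEquiv (a, d, c) : GL (Fin 2) F) = α (a : F) * β (d : F) +
      ∑ t : F, if c = ((d : F) - a) * t then α (d : F) * β (a : F) else 0 := by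
  rw [ps_apply, borelEquiv_val]
  simp only [Matrix.of_apply, Matrix.cons_val', Matrix.cons_val_zero, Matrix.cons_val_one, Matrix.cons_val_fin_one]
  simp only [if_true, zero_mul, zero_add, sub_zero]
  congr 1
  refine Finset.sum_congr rfl fun t _ => ?_
  by_cases h : c = ((d : F) - a) * t
  · rw [if_pos h, if_pos (by rw [h, sub_self])]
  · rw [if_neg h, if_neg (fun h' => h (sub_eq_zero.1 h').symm)]

theorem ite_arith (Q q : ℂ) (hQ : Q ≠ 0) (hq : q ≠ 0) (P1 P2 P3 P4 : Prop) [Decidable P1] [Decidable P2]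
    [Decidable P3] [Decidable P4] [Decidable (P1 ∧ P2)] [Decidable (P3 ∧ P4)] :
    (Q * (Q * q))⁻¹ * (q * ((if P1 then Q else 0) * (if P2 then Q else 0)) +
      q * ((if P3 then Q else 0) * (if P4 then Q else 0))) =
      (if P1 ∧ P2 then 1 else 0) + (if P3 ∧ P4 then 1 else 0) := by
  by_cases h1 : P1 <;> by_cases h2 : P2 <;> by_cases h3 : P3 <;> by_cases h4 : P4 <;>
    simp [h1, h2, h3, h4] <;> field_simp <;> norm_num

open scoped Classical in
/-- the inner products of the principal series -/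
theorem inner_ps [Fintype F] [DecidableEq F] (α β α' β' : MulChar F ℂ) :
    classInner (ps α β) (ps α' β') = (if α = α' ∧ β = β' then 1 else 0) + (if α = β' ∧ β = α' then 1 else 0) := by
  haveI : Fintype (upperTriangularGL 2 F) := Fintype.ofFinite _
  unfold ps
  rw [frobenius_reciprocity _ _ _ (indFun_isClassFunction _ _)]
  unfold classInner
  rw [← (borelEquiv (F := F)).sum_comp, card_BB]
  have hq : 1 ≤ Fintype.card F := Fintype.card_pos
  have hq2 : 2 ≤ Fintype.card F := Fintype.one_lt_card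
  have key : ∀ x : Fˣ × Fˣ × F, lam α β (borelEquiv x) * conj (indFun (upperTriangularGL 2 F) (lam α' β') (borelEquiv x : GL (Fin 2) F)) =
      (α (x.1 : F) * conj (α' (x.1 : F))) * (β (x.2.1 : F) * conj (β' (x.2.1 : F))) +
      ∑ t : F, if x.2.2 = ((x.2.1 : F) - x.1) * t then
        (α (x.1 : F) * conj (β' (x.1 : F))) * (β (x.2.1 : F) * conj (α' (x.2.1 : F))) else 0 := by
    rintro ⟨a, d, c⟩
    have := ps_borel α' β' a d c
    unfold ps at this
    rw [this]
    have h1 : lam α β (borelEquiv (a, d, c)) = α (a : F) * β (d : F) := by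
      unfold lam
      rw [borelEquiv_val]
      simp
    rw [h1, map_add, map_mul, map_sum, mul_add, Finset.mul_sum]
    congr 1
    · ring
    · refine Finset.sum_congr rfl fun t _ => ?_
      simp only
      split_ifs
      · rw [map_mul]; ring
      · simp
  rw [Finset.sum_congr rfl fun x _ => key x, Finset.sum_add_distrib, Fintype.sum_prod_type, Fintype.sum_prod_type]
  simp only [Fintype.sum_prod_type]
  have e1 : ∀ (a d : Fˣ), ∑ c : F, ∑ t : F, (if c = ((d : F) - a) * t then
        (α (a : F) * conj (β' (a : F))) * (β (d : F) * conj (α' (d : F))) else 0) =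
      (Fintype.card F : ℂ) * ((α (a : F) * conj (β' (a : F))) * (β (d : F) * conj (α' (d : F)))) := by
    intro a d
    rw [Finset.sum_comm]
    simp only [Finset.sum_ite_eq', Finset.mem_univ, if_true, Finset.sum_const, Finset.card_univ, nsmul_eq_mul]
  simp only [e1, Finset.sum_const, Finset.card_univ, nsmul_eq_mul]
  simp only [← Finset.mul_sum, ← Finset.sum_mul]
  rw [sum_units_mulChar, sum_units_mulChar, sum_units_mulChar, sum_units_mulChar]
  have hq1 : ((Fintype.card F : ℂ) - 1) ≠ 0 := by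
    have : (Fintype.card F : ℂ) ≠ 1 := by
      exact_mod_cast (by omega : Fintype.card F ≠ 1)
    exact sub_ne_zero.2 this
  have hq0 : (Fintype.card F : ℂ) ≠ 0 := by exact_mod_cast (by omega : Fintype.card F ≠ 0)
  push_cast [hq]
  exact ite_arith _ _ hq1 hq0 _ _ _ _

end Cfsg.Agent.Lib.Helper5_GL2Char
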