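import Mathlib
import Cfsg.Agent.Lib.Helper5_GL2Char
import Cfsg.Agent.Lib.CharQuot
import Cfsg.Agent.Lib.CharIto
import Cfsg.Agent.Lib.CharKer
import Cfsg.Agent.Lib.CharIntegral
import Cfsg.Agent.S2330

set_option autoImplicit false

namespace Cfsg.Agent.Lib.Helper5_GL2Class

open Cfsg Matrix Cfsg.Agent.Lib.CharInd Cfsg.Agent.Lib.Helper5_GL2Char Cfsg.Agent.Lib.CharBasic
  Cfsg.Agent.Lib.CharOrtho Cfsg.Agent.Lib.CharComplete Cfsg.Agent.Lib.CharMore
open scoped ComplexConjugate

variable {F : Type*} [Field F]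

noncomputable instance [Fintype F] : Fintype (MulChar F ℂ) := Fintype.ofFinite _

theorem card_mulChar [Fintype F] : Fintype.card (MulChar F ℂ) = Fintype.card F - 1 := by
  rw [← Nat.card_eq_fintype_card, MulChar.card_eq_card_units_of_hasEnoughRootsOfUnity, Nat.card_units,
    Nat.card_eq_fintype_card]

open scoped Classical in
/-- dual orthogonality -/
theorem sum_mulChar_apply [Fintype F] (x : Fˣ) :
    ∑ α : MulChar F ℂ, α (x : F) = if x = 1 then ((Fintype.card F : ℂ) - 1) else 0 := by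
  have hq : 1 ≤ Fintype.card F := Fintype.card_pos
  by_cases hx : x = 1
  · subst hx
    rw [if_pos rfl]
    simp only [Units.val_one, map_one, Finset.sum_const, Finset.card_univ, card_mulChar, nsmul_eq_mul, mul_one]
    push_cast [hq]
    ring
  · rw [if_neg hx]
    have hx' : (x : F) ≠ 1 := fun h => hx (Units.ext h)
    obtain ⟨χ0, hχ0⟩ := MulChar.exists_apply_ne_one_of_hasEnoughRootsOfUnity F ℂ hx'
    have h1 : ∑ α : MulChar F ℂ, α (x : F) = χ0 (x : F) * ∑ α : MulChar F ℂ, α (x : F) := by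
      rw [Finset.mul_sum, ← Equiv.sum_comp (Equiv.mulLeft χ0)]
      rfl
    have h2 : (1 - χ0 (x : F)) * ∑ α : MulChar F ℂ, α (x : F) = 0 := by
      rw [sub_mul, one_mul, ← h1, sub_self]
    exact (mul_eq_zero.1 h2).resolve_left (sub_ne_zero.2 (Ne.symm hχ0))

open scoped Classical in
theorem sum_mulChar_mul_conj [Fintype F] (a a0 : Fˣ) :
    ∑ α : MulChar F ℂ, α (a : F) * conj (α (a0 : F)) = if a = a0 then ((Fintype.card F : ℂ) - 1) else 0 := by
  have h1 : ∀ α : MulChar F ℂ, α (a : F) * conj (α (a0 : F)) = α ((a * a0⁻¹ : Fˣ) : F) := by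
    intro α
    have : conj (α (a0 : F)) = α⁻¹ (a0 : F) := MulChar.star_apply' α a0
    rw [this, MulChar.inv_apply', Units.val_mul, map_mul, Units.val_inv_eq_inv_val]
  rw [Finset.sum_congr rfl fun α _ => h1 α, sum_mulChar_apply]
  simp only [mul_inv_eq_one]

/-- twisted sums of the multiplicities in the principal series -/
theorem sum_inner_ps [Fintype F] [DecidableEq F] (χ : GL (Fin 2) F → ℂ) (hχ : IsClassFunction (GL (Fin 2) F) χ)
    (a0 d0 : Fˣ) :
    ∑ α : MulChar F ℂ, ∑ β : MulChar F ℂ, conj (α (a0 : F)) * conj (β (d0 : F)) * classInner (ps α β) χ =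
      (Fintype.card F : ℂ)⁻¹ * ∑ c : F, conj (χ (borelEquiv (a0, d0, c) : GL (Fin 2) F)) := by
  classical
  haveI : Fintype (upperTriangularGL 2 F) := Fintype.ofFinite _
  have hq : 1 ≤ Fintype.card F := Fintype.card_pos
  have hq2 : 2 ≤ Fintype.card F := Fintype.one_lt_card
  set K : ℂ := ((Fintype.card F : ℂ) - 1)⁻¹ * (((Fintype.card F : ℂ) - 1)⁻¹ * (Fintype.card F : ℂ)⁻¹) with hK
  have h1 : ∀ α β : MulChar F ℂ, classInner (ps α β) χ =
      K * ∑ x : Fˣ × Fˣ × F, α (x.1 : F) * β (x.2.1 : F) * conj (χ (borelEquiv x : GL (Fin 2) F)) := by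
    intro α β
    unfold ps
    rw [frobenius_reciprocity _ _ _ hχ]
    unfold classInner
    rw [← (borelEquiv (F := F)).sum_comp, card_BB]
    push_cast [hq]
    rw [mul_inv, mul_inv]
    rfl
  simp only [h1]
  have h2 : ∑ α : MulChar F ℂ, ∑ β : MulChar F ℂ, conj (α (a0 : F)) * conj (β (d0 : F)) *
      (K * ∑ x : Fˣ × Fˣ × F, α (x.1 : F) * β (x.2.1 : F) * conj (χ (borelEquiv x : GL (Fin 2) F))) =
      K * ∑ x : Fˣ × Fˣ × F, (∑ α : MulChar F ℂ, α (x.1 : F) * conj (α (a0 : F))) *
          (∑ β : MulChar F ℂ, β (x.2.1 : F) * conj (β (d0 : F))) * conj (χ (borelEquiv x : GL (Fin 2) F)) := by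
    have h3 : ∀ α β : MulChar F ℂ, conj (α (a0 : F)) * conj (β (d0 : F)) *
      (K * ∑ x : Fˣ × Fˣ × F, α (x.1 : F) * β (x.2.1 : F) * conj (χ (borelEquiv x : GL (Fin 2) F))) =
      ∑ x : Fˣ × Fˣ × F, conj (α (a0 : F)) * conj (β (d0 : F)) *
          (K * (α (x.1 : F) * β (x.2.1 : F) * conj (χ (borelEquiv x : GL (Fin 2) F)))) := by
      intro α β
      rw [Finset.mul_sum, Finset.mul_sum]
    simp only [h3]
    rw [Finset.mul_sum]
    calc _ = ∑ α : MulChar F ℂ, ∑ x : Fˣ × Fˣ × F, ∑ β : MulChar F ℂ, conj (α (a0 : F)) * conj (β (d0 : F)) *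
          (K * (α (x.1 : F) * β (x.2.1 : F) * conj (χ (borelEquiv x : GL (Fin 2) F)))) :=
          Finset.sum_congr rfl fun α _ => Finset.sum_comm
      _ = ∑ x : Fˣ × Fˣ × F, ∑ α : MulChar F ℂ, ∑ β : MulChar F ℂ, conj (α (a0 : F)) * conj (β (d0 : F)) *
          (K * (α (x.1 : F) * β (x.2.1 : F) * conj (χ (borelEquiv x : GL (Fin 2) F)))) := Finset.sum_comm
      _ = _ := by
          refine Finset.sum_congr rfl fun x _ => ?_
          rw [Finset.sum_mul_sum, Finset.sum_mul, Finset.mul_sum]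
          refine Finset.sum_congr rfl fun α _ => ?_
          rw [Finset.sum_mul, Finset.mul_sum]
          refine Finset.sum_congr rfl fun β _ => ?_
          ring
  rw [h2]
  simp only [sum_mulChar_mul_conj]
  have hq1 : ((Fintype.card F : ℂ) - 1) ≠ 0 := by
    have : (Fintype.card F : ℂ) ≠ 1 := by exact_mod_cast (by omega : Fintype.card F ≠ 1)
    exact sub_ne_zero.2 this
  rw [Fintype.sum_prod_type]
  simp only [Fintype.sum_prod_type]
  rw [Finset.sum_eq_single a0, Finset.sum_eq_single d0]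
  · simp only [if_true]
    rw [← Finset.mul_sum, hK]
    field_simp
  · intro d _ hd
    simp [hd]
  · simp
  · intro a _ ha
    simp [ha]
  · simp

/-- upper unipotent elements -/
noncomputable def uu (c : F) : GL (Fin 2) F := mk2 1 c 0 1 (by simp)

theorem uu_val (c : F) : (uu c : Matrix (Fin 2) (Fin 2) F) = !![1, c; 0, 1] := rfl

theorem uu_zero : uu (0 : F) = 1 := by
  apply Units.ext
  rw [uu_val, Units.val_one]
  ext i j
  fin_cases i <;> fin_cases j <;> simp

theorem borelEquiv_one_one (c : F) : (borelEquiv ((1 : Fˣ), (1 : Fˣ), c) : GL (Fin 2) F) = uu c := by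
  apply Units.ext
  rw [borelEquiv_val, uu_val]
  simp

theorem isConj_uu (c : F) (hc : c ≠ 0) : IsConj (uu (1 : F)) (uu c) := by
  rw [isConj_iff]
  refine ⟨mk2 c 0 0 1 (by simpa using hc), ?_⟩
  rw [mul_inv_eq_iff_eq_mul]
  apply Units.ext
  rw [Units.val_mul, Units.val_mul, uu_val, uu_val, mk2_val]
  ext i j
  fin_cases i <;> fin_cases j <;> simp [Matrix.mul_apply, Fin.sum_univ_two]

theorem class_uu (χ : GL (Fin 2) F → ℂ) (hχ : IsClassFunction (GL (Fin 2) F) χ) (c : F) (hc : c ≠ 0) :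
    χ (uu c) = χ (uu 1) := by
  obtain ⟨x, hx⟩ := isConj_iff.1 (isConj_uu c hc)
  rw [← hx, hχ]

theorem sum_uu [Fintype F] [DecidableEq F] (χ : GL (Fin 2) F → ℂ) (hχ : IsClassFunction (GL (Fin 2) F) χ) :
    ∑ c : F, χ (uu c) = χ 1 + ((Fintype.card F : ℂ) - 1) * χ (uu 1) := by
  rw [← Finset.add_sum_erase _ _ (Finset.mem_univ (0 : F)), uu_zero]
  congr 1
  rw [Finset.sum_congr rfl fun c hc => class_uu χ hχ c (Finset.ne_of_mem_erase hc), Finset.sum_const,
    Finset.card_erase_of_mem (Finset.mem_univ _), Finset.card_univ, nsmul_eq_mul]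
  have hq : 1 ≤ Fintype.card F := Fintype.card_pos
  push_cast [hq]
  ring

/-- the numerical invariants of an irreducible character -/
theorem exists_jm [Fintype F] [DecidableEq F] (χ : GL (Fin 2) F → ℂ) (hχ : IsIrrCharacter (GL (Fin 2) F) χ) :
    ∃ j m : ℕ, χ 1 = (j : ℂ) + ((Fintype.card F : ℂ) - 1) * m ∧ χ (uu 1) = (j : ℂ) - m ∧
      ∑ α : MulChar F ℂ, ∑ β : MulChar F ℂ, classInner (ps α β) χ = j := by
  have hq2 : 2 ≤ Fintype.card F := Fintype.one_lt_card
  have hchar := isCharacter_of_isIrr hχ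
  have hcl := isClassFunction_of_isCharacter hchar
  obtain ⟨d, hd0, hd, -⟩ := irr_degree hχ
  choose n hn using fun α β : MulChar F ℂ => classInner_char_nat (ps_isCharacter α β) hchar
  set j : ℕ := ∑ α : MulChar F ℂ, ∑ β : MulChar F ℂ, n α β with hj
  have hJ : ∑ α : MulChar F ℂ, ∑ β : MulChar F ℂ, classInner (ps α β) χ = j := by
    simp only [hn, hj]
    push_cast
    rfl
  have h1 := sum_inner_ps χ hcl 1 1
  simp only [Units.val_one, map_one, one_mul, borelEquiv_one_one] at h1
  rw [hJ, ← map_sum, sum_uu χ hcl, hd] at h1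
  set c := χ (uu 1) with hc
  have hq0 : (Fintype.card F : ℂ) ≠ 0 := by exact_mod_cast (by omega : Fintype.card F ≠ 0)
  have hq1 : ((Fintype.card F : ℂ) - 1) ≠ 0 := by
    have : (Fintype.card F : ℂ) ≠ 1 := by exact_mod_cast (by omega : Fintype.card F ≠ 1)
    exact sub_ne_zero.2 this
  -- q j = d + (q-1) c
  have h2 : (Fintype.card F : ℂ) * j = d + ((Fintype.card F : ℂ) - 1) * c := by
    have h3 := congrArg conj h1
    simp only [map_mul, map_inv₀, Complex.conj_natCast, Complex.conj_conj] at h3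
    rw [h3]
    field_simp
  have hcre : c = (((Fintype.card F : ℝ) * j - d) / ((Fintype.card F : ℝ) - 1) : ℝ) := by
    push_cast
    field_simp
    linear_combination -h2
  have hnorm := Cfsg.Agent.Lib.CharKer.norm_le_degree hchar (uu 1)
  rw [← hc, hd, hcre, Complex.norm_real, Complex.natCast_re, Real.norm_eq_abs] at hnorm
  have hq1r : (0 : ℝ) < (Fintype.card F : ℝ) - 1 := by
    have : (2 : ℝ) ≤ (Fintype.card F : ℝ) := by exact_mod_cast hq2
    linarith
  have hjd : j ≤ d := by
    have h3 := (abs_le.1 hnorm).2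
    rw [div_le_iff₀ hq1r] at h3
    have h4 : (Fintype.card F : ℝ) * j ≤ (Fintype.card F : ℝ) * d := by linarith
    have h5 : (j : ℝ) ≤ d := le_of_mul_le_mul_left h4 (by linarith)
    exact_mod_cast h5
  have hint : IsIntegral ℤ c := by
    obtain ⟨k, ρ, -, hρ⟩ := hχ
    rw [hc, ← hρ]
    exact char_isIntegral ρ _
  have hdiv : (Fintype.card F - 1) ∣ (d - j) := by
    apply Cfsg.Agent.Lib.CharIntegral.dvd_of_isIntegral_div (by omega)
    have h3 : (((d - j : ℕ) : ℂ)) / ((Fintype.card F - 1 : ℕ) : ℂ) = (j : ℂ) - c := by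
      push_cast [hjd, (by omega : 1 ≤ Fintype.card F)]
      rw [div_eq_iff hq1]
      linear_combination -h2
    rw [h3]
    have hjint : IsIntegral ℤ (j : ℂ) := by
      have := isIntegral_algebraMap (R := ℤ) (A := ℂ) (x := (j : ℤ))
      simpa using this
    exact IsIntegral.sub hjint hint
  obtain ⟨m, hm⟩ := hdiv
  have hm' : (d : ℂ) - j = ((Fintype.card F : ℂ) - 1) * m := by
    have : ((d - j : ℕ) : ℂ) = (((Fintype.card F - 1) * m : ℕ) : ℂ) := by rw [hm]
    push_cast [hjd, (by omega : 1 ≤ Fintype.card F)] at this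
    exact this
  refine ⟨j, m, ?_, ?_, hJ⟩
  · rw [hd]; linear_combination hm'
  · have h3 : ((Fintype.card F : ℂ) - 1) * (c - (j - m)) = 0 := by linear_combination -h2 - hm'
    exact sub_eq_zero.1 ((mul_eq_zero.1 h3).resolve_left hq1)

/-- the characters factoring through the determinant -/
noncomputable def detHom (α : MulChar F ℂ) : GL (Fin 2) F →* ℂˣ :=
  α.toUnitHom.comp Matrix.GeneralLinearGroup.det

noncomputable def detChar (α : MulChar F ℂ) : GL (Fin 2) F → ℂ :=
  fun g => α (g : Matrix (Fin 2) (Fin 2) F).det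

theorem detChar_eq (α : MulChar F ℂ) : detChar α = fun g => ((detHom α g : ℂˣ) : ℂ) := by
  funext g
  simp [detChar, detHom, MulChar.coe_toUnitHom]

theorem detChar_isIrr [Finite F] (α : MulChar F ℂ) : IsIrrCharacter (GL (Fin 2) F) (detChar α) := by
  rw [detChar_eq]
  exact Cfsg.Agent.Lib.CharLinear.isIrr_hom (detHom α)

/-- diagonal embedding of the units -/
noncomputable def dgHom : Fˣ →* GL (Fin 2) F where
  toFun a := mk2 a 0 0 1 (by simp)
  map_one' := by
    apply Units.ext
    rw [mk2_val, Units.val_one]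
    ext i j
    fin_cases i <;> fin_cases j <;> simp
  map_mul' a b := by
    apply Units.ext
    rw [mk2_val, Units.val_mul (mk2 _ _ _ _ _), mk2_val, mk2_val]
    ext i j
    fin_cases i <;> fin_cases j <;> simp [Matrix.mul_apply, Fin.sum_univ_two]

theorem dgHom_val (a : Fˣ) : (dgHom a : Matrix (Fin 2) (Fin 2) F) = !![(a : F), 0; 0, 1] := rfl

theorem detChar_injective : Function.Injective (detChar (F := F)) := by
  intro α β h
  apply MulChar.ext
  intro a
  have := congrFun h (dgHom a)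
  simpa [detChar, dgHom_val, Matrix.det_fin_two_of] using this

theorem eq_detChar_of_ker [Finite F] (χ : GL (Fin 2) F → ℂ) (hχ : IsIrrCharacter (GL (Fin 2) F) χ)
    (h : χ (uu 1) = χ 1) : ∃ α : MulChar F ℂ, χ = detChar α := by
  have hchar := isCharacter_of_isIrr hχ
  have hcl := isClassFunction_of_isCharacter hchar
  let K := Cfsg.Agent.Lib.CharQuot.charKer χ hchar
  have hup : ∀ c : F, uu c ∈ K := by
    intro c
    by_cases hc : c = 0
    · rw [hc, uu_zero]; exact K.one_mem
    · show χ (uu c) = χ 1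
      rw [class_uu χ hcl c hc, h]
  have hlow : ∀ c : F, mk2 1 0 c 1 (by simp) ∈ K := by
    intro c
    have h1 : mk2 1 0 c 1 (by simp) = mk2 0 1 1 0 (by simp) * uu c * (mk2 (0 : F) 1 1 0 (by simp))⁻¹ := by
      rw [eq_mul_inv_iff_mul_eq]
      apply Units.ext
      rw [Units.val_mul, Units.val_mul, uu_val, mk2_val, mk2_val]
      ext i j
      fin_cases i <;> fin_cases j <;> simp [Matrix.mul_apply, Fin.sum_univ_two]
    rw [h1]
    exact (Cfsg.Agent.Lib.CharQuot.charKer_normal χ hchar).conj_mem _ (hup c) _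
  have hSL : ∀ s : Matrix.SpecialLinearGroup (Fin 2) F, Matrix.SpecialLinearGroup.toGL s ∈ K := by
    intro s
    induction s using Matrix.SL2.transvection_induction with
    | htransvec i j hij c =>
      fin_cases i <;> fin_cases j
      · exact absurd rfl hij
      · have : Matrix.SpecialLinearGroup.toGL (Matrix.SpecialLinearGroup.transvection hij c) = uu c := by
          apply Units.ext
          show ((Matrix.SpecialLinearGroup.transvection hij c : Matrix.SpecialLinearGroup (Fin 2) F) : Matrix (Fin 2) (Fin 2) F) = _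
          rw [Matrix.SpecialLinearGroup.transvection_coe, uu_val]
          ext i j
          fin_cases i <;> fin_cases j <;> simp [Matrix.single_apply]
        rw [this]; exact hup c
      · have : Matrix.SpecialLinearGroup.toGL (Matrix.SpecialLinearGroup.transvection hij c) = mk2 1 0 c 1 (by simp) := by
          apply Units.ext
          show ((Matrix.SpecialLinearGroup.transvection hij c : Matrix.SpecialLinearGroup (Fin 2) F) : Matrix (Fin 2) (Fin 2) F) = _
          rw [Matrix.SpecialLinearGroup.transvection_coe, mk2_val]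
          ext i j
          fin_cases i <;> fin_cases j <;> simp [Matrix.single_apply]
        rw [this]; exact hlow c
      · exact absurd rfl hij
    | hmul A B hA hB =>
      rw [map_mul]; exact K.mul_mem hA hB
  have hdet1 : ∀ g : GL (Fin 2) F, (g : Matrix (Fin 2) (Fin 2) F).det = 1 → χ g = χ 1 := by
    intro g hg
    have : g = Matrix.SpecialLinearGroup.toGL ⟨(g : Matrix (Fin 2) (Fin 2) F), hg⟩ := Units.ext rfl
    rw [this]
    exact hSL _
  let N : Subgroup (GL (Fin 2) F) := MonoidHom.ker (Matrix.GeneralLinearGroup.det : GL (Fin 2) F →* Fˣ)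
  have hker : ∀ n ∈ N, χ n = χ 1 := by
    intro n hn
    apply hdet1
    have : Matrix.GeneralLinearGroup.det n = 1 := hn
    have h2 := congrArg Units.val this
    simpa using h2
  obtain ⟨χ', hχ', hχχ'⟩ := Cfsg.Agent.Lib.CharQuot.exists_deflate_irr N hχ hker
  have hcomm : ∀ a b : GL (Fin 2) F ⧸ N, a * b = b * a := by
    intro a b
    induction a using QuotientGroup.induction_on with
    | H a =>
      induction b using QuotientGroup.induction_on with
      | H b =>
        rw [← QuotientGroup.mk_mul, ← QuotientGroup.mk_mul, QuotientGroup.eq]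
        show Matrix.GeneralLinearGroup.det _ = 1
        rw [map_mul, map_inv, map_mul, map_mul, mul_comm (Matrix.GeneralLinearGroup.det b), inv_mul_cancel]
  have h1 : χ 1 = 1 := by
    rw [hχχ']
    exact Cfsg.Agent.Lib.CharIto.degree_one_of_comm hcomm hχ'
  refine ⟨MulChar.ofUnitHom ((Cfsg.Agent.Lib.CharLinear.homOfLinear hchar h1).comp dgHom), ?_⟩
  funext g
  set a : Fˣ := Matrix.GeneralLinearGroup.det g with ha
  have h2 : g = dgHom a * ((dgHom a)⁻¹ * g) := by group
  have h3 : χ ((dgHom a)⁻¹ * g) = 1 := by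
    rw [← h1]
    apply hdet1
    have h4 : Matrix.GeneralLinearGroup.det ((dgHom a)⁻¹ * g) = 1 := by
      rw [map_mul, map_inv, ← ha]
      have : Matrix.GeneralLinearGroup.det (dgHom a) = a := by
        apply Units.ext
        simp [dgHom_val, Matrix.det_fin_two_of]
      rw [this, inv_mul_cancel]
    have h5 := congrArg Units.val h4
    simpa using h5
  have h6 : (g : Matrix (Fin 2) (Fin 2) F).det = (a : F) := by simp [ha]
  unfold detChar
  rw [h6, MulChar.ofUnitHom_coe]
  conv_lhs => rw [h2, Cfsg.Agent.Lib.CharLinear.char_mul_of_degree_one hchar h1, h3, mul_one]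
  rfl

/-- the centralizer of a transvection -/
noncomputable def centEquiv : Fˣ × F ≃ Subgroup.centralizer ({uu (1 : F)} : Set (GL (Fin 2) F)) where
  toFun x := ⟨mk2 x.1 x.2 0 x.1 (by simp), by
    rw [Subgroup.mem_centralizer_singleton_iff]
    apply Units.ext
    rw [Units.val_mul, Units.val_mul, uu_val, mk2_val]
    ext i j
    fin_cases i <;> fin_cases j <;> simp [Matrix.mul_apply, Fin.sum_univ_two, add_comm]⟩
  invFun g := (Units.mk0 (((g : GL (Fin 2) F) : Matrix (Fin 2) (Fin 2) F) 0 0) (by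
      have hg := Subgroup.mem_centralizer_singleton_iff.1 g.2
      have h1 := congrArg (fun x : GL (Fin 2) F => (x : Matrix (Fin 2) (Fin 2) F) 0 0) hg
      simp only [Units.val_mul, uu_val, Matrix.mul_apply, Fin.sum_univ_two] at h1
      simp at h1
      have hdet := det_ne_zero (g : GL (Fin 2) F)
      rw [h1, mul_zero, sub_zero] at hdet
      exact left_ne_zero_of_mul hdet), ((g : GL (Fin 2) F) : Matrix (Fin 2) (Fin 2) F) 0 1)
  left_inv x := by
    obtain ⟨a, b⟩ := x
    simp only [mk2_val]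
    ext <;> simp
  right_inv g := by
    apply Subtype.ext
    apply Units.ext
    simp only [mk2_val, Units.val_mk0]
    have hg := Subgroup.mem_centralizer_singleton_iff.1 g.2
    have h1 := congrArg (fun x : GL (Fin 2) F => (x : Matrix (Fin 2) (Fin 2) F) 0 0) hg
    have h2 := congrArg (fun x : GL (Fin 2) F => (x : Matrix (Fin 2) (Fin 2) F) 0 1) hg
    simp only [Units.val_mul, uu_val, Matrix.mul_apply, Fin.sum_univ_two] at h1 h2
    simp at h1 h2
    conv_rhs => rw [eta ((g : GL (Fin 2) F) : Matrix (Fin 2) (Fin 2) F)]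
    rw [h1]
    congr 3
    · have : ((g : GL (Fin 2) F) : Matrix (Fin 2) (Fin 2) F) 0 0 = ((g : GL (Fin 2) F) : Matrix (Fin 2) (Fin 2) F) 1 1 := by
        linear_combination h2
      rw [this]

theorem card_centralizer_uu [Fintype F] :
    Nat.card (Subgroup.centralizer ({uu (1 : F)} : Set (GL (Fin 2) F))) = (Fintype.card F - 1) * Fintype.card F := by
  rw [← Nat.card_congr (centEquiv (F := F)), Nat.card_prod, Nat.card_units, Nat.card_eq_fintype_card]

theorem card_GL2 [Fintype F] : Nat.card (GL (Fin 2) F) =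
    (Fintype.card F ^ 2 - 1) * (Fintype.card F ^ 2 - Fintype.card F) := by
  rw [Matrix.card_GL_field, Fin.prod_univ_two]
  simp

theorem uu_one_ne_one : uu (1 : F) ≠ 1 := by
  intro h
  have := congrArg (fun x : GL (Fin 2) F => (x : Matrix (Fin 2) (Fin 2) F) 0 1) h
  simp [uu_val] at this

section mult
variable [Fintype F] [DecidableEq F]

/-- the multiplicity of the trivial character of the unipotent subgroup -/
noncomputable def jj (χ : IrrCharacter (GL (Fin 2) F)) : ℕ := (exists_jm χ.1 χ.2).choose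

/-- the multiplicity of a nontrivial character of the unipotent subgroup -/
noncomputable def mm (χ : IrrCharacter (GL (Fin 2) F)) : ℕ := (exists_jm χ.1 χ.2).choose_spec.choose

theorem jm_spec (χ : IrrCharacter (GL (Fin 2) F)) :
    (χ : GL (Fin 2) F → ℂ) 1 = (jj χ : ℂ) + ((Fintype.card F : ℂ) - 1) * mm χ ∧
      (χ : GL (Fin 2) F → ℂ) (uu 1) = (jj χ : ℂ) - mm χ ∧
      ∑ α : MulChar F ℂ, ∑ β : MulChar F ℂ, classInner (ps α β) (χ : GL (Fin 2) F → ℂ) = jj χ :=
  (exists_jm χ.1 χ.2).choose_spec.choose_spec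

theorem sum_mm_sq : ∑ χ : IrrCharacter (GL (Fin 2) F), mm χ ^ 2 = Fintype.card F * (Fintype.card F - 1) := by
  have hq2 : 2 ≤ Fintype.card F := Fintype.one_lt_card
  have h1 := sum_sq_degree (G := GL (Fin 2) F)
  have h2 := second_orthogonality_not_conj (1 : GL (Fin 2) F) (uu 1) (by
    rw [isConj_one_right]; exact uu_one_ne_one)
  have h3 := second_orthogonality_conj (uu (1 : F)) (uu 1) (IsConj.refl _)
  rw [card_centralizer_uu] at h3
  rw [card_GL2] at h1
  have hreal : ∀ χ : IrrCharacter (GL (Fin 2) F), conj ((χ : GL (Fin 2) F → ℂ) (uu 1)) = (χ : GL (Fin 2) F → ℂ) (uu 1) := by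
    intro χ
    rw [(jm_spec χ).2.1]
    simp
  simp only [hreal] at h2 h3
  have h4 : ∑ χ : IrrCharacter (GL (Fin 2) F), ((Fintype.card F : ℂ) * mm χ) ^ 2 =
      (((Fintype.card F ^ 2 - 1) * (Fintype.card F ^ 2 - Fintype.card F) : ℕ) : ℂ) +
        (((Fintype.card F - 1) * Fintype.card F : ℕ) : ℂ) := by
    rw [← h1, ← h3]
    have : ∀ χ : IrrCharacter (GL (Fin 2) F), ((Fintype.card F : ℂ) * mm χ) ^ 2 =
        (χ : GL (Fin 2) F → ℂ) 1 ^ 2 - 2 * ((χ : GL (Fin 2) F → ℂ) 1 * (χ : GL (Fin 2) F → ℂ) (uu 1)) +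
          (χ : GL (Fin 2) F → ℂ) (uu 1) * (χ : GL (Fin 2) F → ℂ) (uu 1) := by
      intro χ
      rw [(jm_spec χ).1, (jm_spec χ).2.1]
      ring
    rw [Finset.sum_congr rfl fun χ _ => this χ, Finset.sum_add_distrib, Finset.sum_sub_distrib, ← Finset.mul_sum, h2]
    ring
  have h5 : Fintype.card F ^ 2 * ∑ χ : IrrCharacter (GL (Fin 2) F), mm χ ^ 2 =
      (Fintype.card F ^ 2 - 1) * (Fintype.card F ^ 2 - Fintype.card F) + (Fintype.card F - 1) * Fintype.card F := by
    have : ((Fintype.card F ^ 2 * ∑ χ : IrrCharacter (GL (Fin 2) F), mm χ ^ 2 : ℕ) : ℂ) =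
        (((Fintype.card F ^ 2 - 1) * (Fintype.card F ^ 2 - Fintype.card F) + (Fintype.card F - 1) * Fintype.card F : ℕ) : ℂ) := by
      rw [Nat.cast_add, ← h4]
      push_cast
      rw [Finset.mul_sum]
      refine Finset.sum_congr rfl fun χ _ => ?_
      ring
    exact_mod_cast this
  obtain ⟨t, ht⟩ : ∃ t, Fintype.card F = t + 2 := ⟨Fintype.card F - 2, by omega⟩
  rw [ht] at h5 ⊢
  have e1 : (t + 2) ^ 2 - 1 = t ^ 2 + 4 * t + 3 := by
    have : (t + 2) ^ 2 = t ^ 2 + 4 * t + 3 + 1 := by ring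
    omega
  have e2 : (t + 2) ^ 2 - (t + 2) = t ^ 2 + 3 * t + 2 := by
    have : (t + 2) ^ 2 = t ^ 2 + 3 * t + 2 + (t + 2) := by ring
    omega
  have e3 : t + 2 - 1 = t + 1 := by omega
  rw [e1, e2, e3] at h5
  rw [e3]
  have h6 : (t + 2) ^ 2 * ∑ χ : IrrCharacter (GL (Fin 2) F), mm χ ^ 2 = (t + 2) ^ 2 * ((t + 2) * (t + 1)) := by
    rw [h5]; ring
  exact Nat.eq_of_mul_eq_mul_left (by positivity) h6

theorem mm_eq_zero_iff (χ : IrrCharacter (GL (Fin 2) F)) :
    mm χ = 0 ↔ ∃ α : MulChar F ℂ, (χ : GL (Fin 2) F → ℂ) = detChar α := by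
  have hq2 : 2 ≤ Fintype.card F := Fintype.one_lt_card
  have hq0 : (Fintype.card F : ℂ) ≠ 0 := by exact_mod_cast (by omega : Fintype.card F ≠ 0)
  constructor
  · intro h
    apply eq_detChar_of_ker χ.1 χ.2
    rw [(jm_spec χ).1, (jm_spec χ).2.1, h]
    simp
  · rintro ⟨α, hα⟩
    have h1 := (jm_spec χ).1
    have h2 := (jm_spec χ).2.1
    rw [hα] at h1 h2
    have h3 : detChar α 1 = 1 := by simp [detChar]
    have h4 : detChar α (uu 1) = 1 := by simp [detChar, uu_val, Matrix.det_fin_two_of]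
    rw [h3] at h1
    rw [h4] at h2
    have h5 : (Fintype.card F : ℂ) * mm χ = 0 := by linear_combination h2 - h1
    have h6 : (mm χ : ℂ) = 0 := (mul_eq_zero.1 h5).resolve_left hq0
    exact_mod_cast h6

theorem card_mm_eq_zero :
    (Finset.univ.filter fun χ : IrrCharacter (GL (Fin 2) F) => mm χ = 0).card = Fintype.card F - 1 := by
  classical
  have : (Finset.univ.filter fun χ : IrrCharacter (GL (Fin 2) F) => mm χ = 0) =
      Finset.univ.image (fun α : MulChar F ℂ => (⟨detChar α, detChar_isIrr α⟩ : IrrCharacter (GL (Fin 2) F))) := by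
    ext χ
    simp only [Finset.mem_filter, Finset.mem_univ, true_and, Finset.mem_image]
    rw [mm_eq_zero_iff]
    constructor
    · rintro ⟨α, hα⟩
      exact ⟨α, Subtype.ext hα.symm⟩
    · rintro ⟨α, hα⟩
      exact ⟨α, (congrArg Subtype.val hα).symm⟩
  rw [this, Finset.card_image_of_injective, Finset.card_univ, card_mulChar]
  intro α β h
  exact detChar_injective (congrArg Subtype.val h)

theorem card_irr : Fintype.card (IrrCharacter (GL (Fin 2) F)) = Fintype.card F ^ 2 - 1 := by
  rw [← Nat.card_eq_fintype_card, card_irr_eq_card_conjClasses, Cfsg.Agent.S2330.result]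

/-- multiplicity one -/
theorem mm_le_one (χ : IrrCharacter (GL (Fin 2) F)) : mm χ ≤ 1 := by
  classical
  have hq2 : 2 ≤ Fintype.card F := Fintype.one_lt_card
  have h1 := sum_mm_sq (F := F)
  have h2 := card_mm_eq_zero (F := F)
  have h3 := Finset.card_filter_add_card_filter_not (s := (Finset.univ : Finset (IrrCharacter (GL (Fin 2) F))))
    (fun χ => mm χ = 0)
  rw [h2, Finset.card_univ, card_irr] at h3
  have h4 : ∑ χ : IrrCharacter (GL (Fin 2) F), mm χ ^ 2 =
      ∑ χ ∈ Finset.univ.filter (fun χ : IrrCharacter (GL (Fin 2) F) => ¬ mm χ = 0), mm χ ^ 2 := by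
    rw [Finset.sum_filter]
    refine Finset.sum_congr rfl fun χ _ => ?_
    by_cases h : mm χ = 0
    · simp [h]
    · simp [h]
  have h5 : ∑ χ ∈ Finset.univ.filter (fun χ : IrrCharacter (GL (Fin 2) F) => ¬ mm χ = 0), mm χ ^ 2 =
      ∑ χ ∈ Finset.univ.filter (fun χ : IrrCharacter (GL (Fin 2) F) => ¬ mm χ = 0), (mm χ ^ 2 - 1) +
        (Finset.univ.filter (fun χ : IrrCharacter (GL (Fin 2) F) => ¬ mm χ = 0)).card := by
    rw [Finset.card_eq_sum_ones, ← Finset.sum_add_distrib]
    refine Finset.sum_congr rfl fun χ hχ => ?_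
    have : 1 ≤ mm χ ^ 2 := Nat.one_le_pow _ _ (Nat.pos_of_ne_zero (Finset.mem_filter.1 hχ).2)
    omega
  have h6 : (Finset.univ.filter (fun χ : IrrCharacter (GL (Fin 2) F) => ¬ mm χ = 0)).card =
      Fintype.card F * (Fintype.card F - 1) := by
    obtain ⟨t, ht⟩ : ∃ t, Fintype.card F = t + 2 := ⟨Fintype.card F - 2, by omega⟩
    rw [ht] at h3 ⊢
    have e1 : (t + 2) ^ 2 - 1 = t ^ 2 + 4 * t + 3 := by
      have : (t + 2) ^ 2 = t ^ 2 + 4 * t + 3 + 1 := by ring
      omega
    have e3 : t + 2 - 1 = t + 1 := by omega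
    rw [e1, e3] at h3
    rw [e3]
    have : (t + 2) * (t + 1) = t ^ 2 + 3 * t + 2 := by ring
    omega
  rw [h4, h5, h6] at h1
  have h7 : ∑ χ ∈ Finset.univ.filter (fun χ : IrrCharacter (GL (Fin 2) F) => ¬ mm χ = 0), (mm χ ^ 2 - 1) = 0 := by
    omega
  by_cases h : mm χ = 0
  · omega
  · have h8 := (Finset.sum_eq_zero_iff.1 h7) χ (Finset.mem_filter.2 ⟨Finset.mem_univ _, h⟩)
    by_contra hcon
    have : 2 ≤ mm χ := by omega
    have : 4 ≤ mm χ ^ 2 := by nlinarith
    omega

theorem inner_ps_detChar (α : MulChar F ℂ) : classInner (ps α α) (detChar α) = 1 := by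
  haveI : Fintype (upperTriangularGL 2 F) := Fintype.ofFinite _
  unfold ps
  rw [frobenius_reciprocity _ _ _ (isClassFunction_of_isCharacter (isCharacter_of_isIrr (detChar_isIrr α)))]
  have h1 : (fun h : upperTriangularGL 2 F => detChar α (h : GL (Fin 2) F)) = lam α α := by
    funext b
    unfold detChar lam
    rw [Matrix.det_fin_two, (mem_BB _).1 b.2, mul_zero, sub_zero, map_mul]
  rw [h1]
  exact classInner_irr_self (Cfsg.Agent.Lib.CharLinear.isIrr_hom (lamHom α α))

/-- the Steinberg characters -/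
noncomputable def st (α : MulChar F ℂ) : GL (Fin 2) F → ℂ := ps α α - detChar α

theorem st_isIrr (α : MulChar F ℂ) : IsIrrCharacter (GL (Fin 2) F) (st α) := by
  classical
  have hdet := detChar_isIrr α
  have hcl : IsClassFunction (GL (Fin 2) F) (st α) := by
    intro g h
    unfold st
    rw [Pi.sub_apply, Pi.sub_apply, ps_isClassFunction α α g h,
      isClassFunction_of_isCharacter (isCharacter_of_isIrr hdet) g h]
  have hchar : IsCharacter (GL (Fin 2) F) (st α) := by
    apply isCharacter_of_classInner_nat _ hcl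
    intro ψ
    unfold st
    rw [classInner_sub_left]
    obtain ⟨n, hn⟩ := classInner_char_nat (ps_isCharacter α α) (isCharacter_of_isIrr ψ.2)
    by_cases h : detChar α = ψ
    · refine ⟨0, ?_⟩
      rw [← h, inner_ps_detChar, classInner_irr_self hdet]
      simp
    · refine ⟨n, ?_⟩
      rw [hn, classInner_irr_ne hdet ψ.2 h, sub_zero]
  apply isIrr_of_norm_one hchar
  unfold st
  rw [classInner_sub_left, classInner_sub_right, classInner_sub_right, inner_ps, inner_ps_detChar,
    classInner_irr_self hdet, ← classInner_conj_symm, inner_ps_detChar]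
  simp

/-- the classification of the irreducible characters of `GL₂` -/
theorem classify (χ : GL (Fin 2) F → ℂ) (hχ : IsIrrCharacter (GL (Fin 2) F) χ) :
    (∃ α : MulChar F ℂ, χ = detChar α) ∨ (∃ α : MulChar F ℂ, χ = st α) ∨
      (∃ α β : MulChar F ℂ, α ≠ β ∧ χ = ps α β) ∨
      (χ 1 = (Fintype.card F : ℂ) - 1 ∧ χ (uu 1) = -1 ∧ ∀ α β : MulChar F ℂ, classInner (ps α β) χ = 0) := by
  classical
  obtain ⟨h1, h2, h3⟩ := jm_spec ⟨χ, hχ⟩
  simp only at h1 h2 h3
  have hm := mm_le_one ⟨χ, hχ⟩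
  by_cases hm0 : mm ⟨χ, hχ⟩ = 0
  · left
    exact (mm_eq_zero_iff ⟨χ, hχ⟩).1 hm0
  have hm1 : mm ⟨χ, hχ⟩ = 1 := by omega
  right
  by_cases hall : ∀ α β : MulChar F ℂ, classInner (ps α β) χ = 0
  · right; right
    simp only [hall, Finset.sum_const_zero] at h3
    rw [← h3, hm1] at h1 h2
    refine ⟨by rw [h1]; simp, by rw [h2]; simp, hall⟩
  · push Not at hall
    obtain ⟨α, β, hαβ⟩ := hall
    by_cases hab : α = β
    · subst hab
      left
      refine ⟨α, ?_⟩
      have h4 : ps α α = detChar α + st α := by unfold st; ring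
      rw [h4, classInner_add_left] at hαβ
      by_contra hne
      rw [classInner_irr_ne (st_isIrr α) hχ (fun h => hne h.symm), add_zero] at hαβ
      have h5 : detChar α = χ := by
        by_contra h6
        exact hαβ (classInner_irr_ne (detChar_isIrr α) hχ h6)
      exact hm0 ((mm_eq_zero_iff ⟨χ, hχ⟩).2 ⟨α, h5.symm⟩)
    · right; left
      refine ⟨α, β, hab, ?_⟩
      have hirr : IsIrrCharacter (GL (Fin 2) F) (ps α β) := by
        apply isIrr_of_norm_one (ps_isCharacter α β)
        rw [inner_ps]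
        simp [hab]
      by_contra hne
      exact hαβ (classInner_irr_ne hirr hχ (fun h => hne h.symm))

end mult

end Cfsg.Agent.Lib.Helper5_GL2Class
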