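import Mathlib
import Cfsg.Agent.Lib.Helper5_GL2Class
import Cfsg.Agent.Lib.Helper5_Card
import Cfsg.Agent.S0263

set_option autoImplicit false

namespace Cfsg.Agent.Lib.Helper5_GL2Sylow

open Cfsg Matrix Cfsg.Agent.Lib.Helper5_GL2Char Cfsg.Agent.Lib.Helper5_GL2Class

variable {F : Type*} [Field F]

theorem uu_add (s t : F) : uu (s + t) = uu s * uu t := by
  apply Units.ext
  rw [Units.val_mul, uu_val, uu_val, uu_val]
  ext i j
  fin_cases i <;> fin_cases j <;> simp [Matrix.mul_apply, Fin.sum_univ_two, add_comm]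

/-- the unipotent radical as a homomorphism -/
noncomputable def uuHom : Multiplicative F →* GL (Fin 2) F where
  toFun t := uu (Multiplicative.toAdd t)
  map_one' := uu_zero
  map_mul' s t := uu_add _ _

theorem uuHom_injective : Function.Injective (uuHom : Multiplicative F →* GL (Fin 2) F) := by
  intro s t h
  have := congrArg (fun x : GL (Fin 2) F => (x : Matrix (Fin 2) (Fin 2) F) 0 1) h
  simpa [uuHom, uu_val] using this

/-- the upper unitriangular group -/
noncomputable def UU (F : Type*) [Field F] : Subgroup (GL (Fin 2) F) := (uuHom : Multiplicative F →* GL (Fin 2) F).range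

theorem mem_UU (g : GL (Fin 2) F) : g ∈ UU F ↔ ∃ t : F, g = uu t := by
  constructor
  · rintro ⟨t, rfl⟩
    exact ⟨_, rfl⟩
  · rintro ⟨t, rfl⟩
    exact ⟨Multiplicative.ofAdd t, rfl⟩

theorem card_UU [Fintype F] : Nat.card (UU F) = Fintype.card F := by
  unfold UU
  rw [Nat.card_congr (MonoidHom.ofInjective uuHom_injective).symm.toEquiv, Nat.card_eq_fintype_card]
  exact Fintype.card_multiplicative F

/-- the key computation -/
theorem lower_zero (g : GL (Fin 2) F) (s t : F) (ht : t ≠ 0) (h : uu t * g = g * uu s) :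
    (g : Matrix (Fin 2) (Fin 2) F) 1 0 = 0 := by
  have := congrArg (fun x : GL (Fin 2) F => (x : Matrix (Fin 2) (Fin 2) F) 0 0) h
  simp only [Units.val_mul, uu_val, Matrix.mul_apply, Fin.sum_univ_two] at this
  simp at this
  exact this.resolve_left ht

theorem conj_uu (g : GL (Fin 2) F) (hg : (g : Matrix (Fin 2) (Fin 2) F) 1 0 = 0) (s : F) :
    ∃ t : F, g * uu s * g⁻¹ = uu t := by
  have hdet := det_ne_zero g
  rw [hg, mul_zero, sub_zero] at hdet
  have ha := left_ne_zero_of_mul hdet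
  have hd := right_ne_zero_of_mul hdet
  refine ⟨(g : Matrix (Fin 2) (Fin 2) F) 0 0 * s / (g : Matrix (Fin 2) (Fin 2) F) 1 1, ?_⟩
  rw [mul_inv_eq_iff_eq_mul]
  apply Units.ext
  rw [Units.val_mul, Units.val_mul, uu_val, uu_val]
  ext i j
  fin_cases i <;> fin_cases j <;> simp [Matrix.mul_apply, Fin.sum_univ_two, hg]
  field_simp
  ring

theorem normalizer_UU : Subgroup.normalizer ((UU F : Subgroup (GL (Fin 2) F)) : Set (GL (Fin 2) F)) = upperTriangularGL 2 F := by
  ext g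
  rw [mem_BB, Subgroup.mem_normalizer_iff]
  constructor
  · intro h
    have h1 := (h (uu 1)).1 ((mem_UU _).2 ⟨1, rfl⟩)
    obtain ⟨t, ht⟩ := (mem_UU _).1 h1
    have ht0 : t ≠ 0 := by
      rintro rfl
      rw [uu_zero, mul_inv_eq_one] at ht
      have : uu (1 : F) = 1 := by
        have := mul_left_cancel (ht.trans (mul_one g).symm)
        exact this
      exact uu_one_ne_one this
    apply lower_zero g 1 t ht0
    rw [← ht]; group
  · intro hg x
    constructor
    · intro hx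
      obtain ⟨s, rfl⟩ := (mem_UU _).1 hx
      obtain ⟨t, ht⟩ := conj_uu g hg s
      rw [ht]; exact (mem_UU _).2 ⟨t, rfl⟩
    · intro hx
      obtain ⟨s, hs⟩ := (mem_UU _).1 hx
      have hg' : ((g⁻¹ : GL (Fin 2) F) : Matrix (Fin 2) (Fin 2) F) 1 0 = 0 :=
        (mem_BB _).1 ((upperTriangularGL 2 F).inv_mem ((mem_BB g).2 hg))
      obtain ⟨t, ht⟩ := conj_uu g⁻¹ hg' s
      have : x = uu t := by
        rw [← ht, ← hs]; group
      rw [this]; exact (mem_UU _).2 ⟨t, rfl⟩

variable [Fintype F] (p : ℕ) [Fact p.Prime] [CharP F p]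

theorem exists_sylow : ∃ P : Sylow p (GL (Fin 2) F), (P : Subgroup (GL (Fin 2) F)) = UU F := by
  obtain ⟨n, -, hn⟩ := FiniteField.card F p
  have hpg : IsPGroup p (UU F) := IsPGroup.of_card (n := n) (by rw [card_UU, hn])
  obtain ⟨P, hP⟩ := hpg.exists_le_sylow
  refine ⟨P, ?_⟩
  symm
  apply Subgroup.eq_of_le_of_card_ge hP
  rw [card_UU]
  have := Cfsg.Agent.S0263.result (F := F) rfl p 2 P
  rw [this]; simp

theorem exists_conj (P : Sylow p (GL (Fin 2) F)) :
    ∃ g : GL (Fin 2) F, ∀ x, x ∈ P ↔ ∃ t : F, x = g * uu t * g⁻¹ := by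
  obtain ⟨P₀, hP₀⟩ := exists_sylow (F := F) p
  obtain ⟨g, hg⟩ := MulAction.exists_smul_eq (GL (Fin 2) F) P₀ P
  refine ⟨g, fun x => ?_⟩
  rw [← hg]
  show x ∈ ((g • P₀ : Sylow p (GL (Fin 2) F)) : Subgroup (GL (Fin 2) F)) ↔ _
  rw [Sylow.coe_subgroup_smul, Subgroup.mem_smul_pointwise_iff_exists, hP₀]
  constructor
  · rintro ⟨y, hy, rfl⟩
    obtain ⟨t, rfl⟩ := (mem_UU _).1 hy
    exact ⟨t, rfl⟩
  · rintro ⟨t, rfl⟩
    exact ⟨uu t, (mem_UU _).2 ⟨t, rfl⟩, rfl⟩

theorem card_normalizer (P : Sylow p (GL (Fin 2) F)) :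
    Nat.card (Subgroup.normalizer ((P : Subgroup (GL (Fin 2) F)) : Set (GL (Fin 2) F))) =
      (Fintype.card F - 1) * ((Fintype.card F - 1) * Fintype.card F) := by
  obtain ⟨P₀, hP₀⟩ := exists_sylow (F := F) p
  have h1 : Nat.card (Sylow p (GL (Fin 2) F)) =
      (Subgroup.normalizer ((P : Subgroup (GL (Fin 2) F)) : Set (GL (Fin 2) F))).index := P.card_eq_index_normalizer
  have h2 : Nat.card (Sylow p (GL (Fin 2) F)) =
      (Subgroup.normalizer ((P₀ : Subgroup (GL (Fin 2) F)) : Set (GL (Fin 2) F))).index := P₀.card_eq_index_normalizer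
  have h3 := Subgroup.index_mul_card (Subgroup.normalizer ((P : Subgroup (GL (Fin 2) F)) : Set (GL (Fin 2) F)))
  have h4 := Subgroup.index_mul_card (Subgroup.normalizer ((P₀ : Subgroup (GL (Fin 2) F)) : Set (GL (Fin 2) F)))
  rw [← h1] at h3
  rw [← h2, ← h3] at h4
  have h5 : Nat.card (Sylow p (GL (Fin 2) F)) ≠ 0 := Nat.card_pos.ne'
  have h6 := Nat.eq_of_mul_eq_mul_left (Nat.pos_of_ne_zero h5) h4
  rw [← h6, hP₀, normalizer_UU, card_BB]

end Cfsg.Agent.Lib.Helper5_GL2Sylow
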