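import Cfsg.Agent.Lib.Helper5_GL2Class

set_option autoImplicit false

namespace Cfsg.Agent.Lib.Helper5_GL2Val

open Cfsg Matrix Cfsg.Agent.Lib.CharInd Cfsg.Agent.Lib.Helper5_GL2Char Cfsg.Agent.Lib.CharBasic
  Cfsg.Agent.Lib.Helper5_GL2Class
open scoped ComplexConjugate

variable {F : Type*} [Field F] [Fintype F] [DecidableEq F]

theorem ps_one (α β : MulChar F ℂ) : ps α β 1 = (Fintype.card F : ℂ) + 1 := by
  rw [ps_apply]
  simp
  ring

theorem ps_uu (α β : MulChar F ℂ) : ps α β (uu 1) = 1 := by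
  rw [ps_apply, uu_val]
  simp

theorem ps_diag (α β : MulChar F ℂ) (g : GL (Fin 2) F)
    (h01 : (g : Matrix (Fin 2) (Fin 2) F) 0 1 = 0) (h10 : (g : Matrix (Fin 2) (Fin 2) F) 1 0 = 0)
    (hne : (g : Matrix (Fin 2) (Fin 2) F) 0 0 ≠ (g : Matrix (Fin 2) (Fin 2) F) 1 1) :
    ps α β g = α ((g : Matrix (Fin 2) (Fin 2) F) 0 0) * β ((g : Matrix (Fin 2) (Fin 2) F) 1 1) +
      α ((g : Matrix (Fin 2) (Fin 2) F) 1 1) * β ((g : Matrix (Fin 2) (Fin 2) F) 0 0) := by
  rw [ps_apply, h01, h10]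
  have h : (g : Matrix (Fin 2) (Fin 2) F) 1 1 - (g : Matrix (Fin 2) (Fin 2) F) 0 0 ≠ 0 :=
    sub_ne_zero.2 hne.symm
  simp [h]

theorem ps_elliptic (α β : MulChar F ℂ) (g : GL (Fin 2) F)
    (hg : ∀ (c : F) (v : Fin 2 → F), v ≠ 0 → (g : Matrix (Fin 2) (Fin 2) F).mulVec v ≠ c • v) :
    ps α β g = 0 := by
  rw [ps_apply]
  have h10 : (g : Matrix (Fin 2) (Fin 2) F) 1 0 ≠ 0 := by
    intro h
    apply hg ((g : Matrix (Fin 2) (Fin 2) F) 0 0) ![1, 0] (by simp)
    ext i
    fin_cases i <;> simp [Matrix.mulVec, dotProduct, Fin.sum_univ_two, h]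
  rw [if_neg h10, zero_add]
  apply Finset.sum_eq_zero
  intro t _
  rw [if_neg]
  intro h
  apply hg ((g : Matrix (Fin 2) (Fin 2) F) 1 0 * t + (g : Matrix (Fin 2) (Fin 2) F) 1 1) ![t, 1]
  · intro h0
    have := congrFun h0 1
    simp at this
  · ext i
    fin_cases i
    · simp [Matrix.mulVec, dotProduct, Fin.sum_univ_two]
      linear_combination -h
    · simp [Matrix.mulVec, dotProduct, Fin.sum_univ_two]

theorem detChar_one (α : MulChar F ℂ) : detChar α 1 = 1 := by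
  unfold detChar
  simp

theorem detChar_uu (α : MulChar F ℂ) : detChar α (uu 1) = 1 := by
  unfold detChar
  rw [uu_val, Matrix.det_fin_two]
  simp

theorem norm_mulChar (α : MulChar F ℂ) (x : F) (hx : x ≠ 0) : ‖α x‖ = 1 := by
  have h1 : α x ^ (Fintype.card F - 1) = 1 := by
    rw [← map_pow, FiniteField.pow_card_sub_one_eq_one x hx, map_one]
  have hq : 2 ≤ Fintype.card F := Fintype.one_lt_card
  exact Complex.norm_eq_one_of_pow_eq_one h1 (by omega)

theorem norm_detChar (α : MulChar F ℂ) (g : GL (Fin 2) F) : ‖detChar α g‖ = 1 := by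
  unfold detChar
  apply norm_mulChar
  exact (Matrix.isUnits_det_units g).ne_zero

theorem st_one (α : MulChar F ℂ) : st α 1 = (Fintype.card F : ℂ) := by
  unfold st
  rw [Pi.sub_apply, ps_one, detChar_one]
  ring

theorem st_uu (α : MulChar F ℂ) : st α (uu 1) = 0 := by
  unfold st
  rw [Pi.sub_apply, ps_uu, detChar_uu]
  ring

theorem st_diag (α : MulChar F ℂ) (g : GL (Fin 2) F)
    (h01 : (g : Matrix (Fin 2) (Fin 2) F) 0 1 = 0) (h10 : (g : Matrix (Fin 2) (Fin 2) F) 1 0 = 0)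
    (hne : (g : Matrix (Fin 2) (Fin 2) F) 0 0 ≠ (g : Matrix (Fin 2) (Fin 2) F) 1 1) :
    st α g = detChar α g := by
  unfold st
  rw [Pi.sub_apply, ps_diag α α g h01 h10 hne]
  unfold detChar
  rw [Matrix.det_fin_two, h01, h10, mul_zero, sub_zero, map_mul]
  ring

theorem st_elliptic (α : MulChar F ℂ) (g : GL (Fin 2) F)
    (hg : ∀ (c : F) (v : Fin 2 → F), v ≠ 0 → (g : Matrix (Fin 2) (Fin 2) F).mulVec v ≠ c • v) :
    st α g = - detChar α g := by
  unfold st
  rw [Pi.sub_apply, ps_elliptic α α g hg, zero_sub]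

theorem st_injective : Function.Injective (st (F := F)) := by
  intro α β h
  ext a
  by_cases ha : a = 1
  · rw [ha]; simp
  have h1 := congrFun h (dgHom a)
  have hne : (dgHom a : Matrix (Fin 2) (Fin 2) F) 0 0 ≠ (dgHom a : Matrix (Fin 2) (Fin 2) F) 1 1 := by
    rw [dgHom_val]
    simpa using ha
  rw [st_diag α _ (by rw [dgHom_val]; simp) (by rw [dgHom_val]; simp) hne,
    st_diag β _ (by rw [dgHom_val]; simp) (by rw [dgHom_val]; simp) hne] at h1
  unfold detChar at h1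
  rw [dgHom_val, Matrix.det_fin_two] at h1
  simpa using h1

/-- upper triangular with distinct eigenvalues is conjugate to diagonal -/
theorem isConj_borel (a d : Fˣ) (had : a ≠ d) (c : F) :
    IsConj (borelEquiv (a, d, 0) : GL (Fin 2) F) (borelEquiv (a, d, c) : GL (Fin 2) F) := by
  have h : (a : F) - d ≠ 0 := sub_ne_zero.2 (fun h => had (Units.ext h))
  rw [isConj_iff]
  refine ⟨uu (c / ((d : F) - a)), ?_⟩
  rw [mul_inv_eq_iff_eq_mul]
  apply Units.ext
  rw [Units.val_mul, Units.val_mul, borelEquiv_val, borelEquiv_val, uu_val]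
  have h' : (d : F) - a ≠ 0 := sub_ne_zero.2 (fun h => had (Units.ext h.symm))
  ext i j
  fin_cases i <;> fin_cases j <;> simp [Matrix.mul_apply, Fin.sum_univ_two]
  field_simp
  ring

/-- cuspidal characters vanish on the split regular elements -/
theorem cusp_diag (χ : GL (Fin 2) F → ℂ) (hχ : IsClassFunction (GL (Fin 2) F) χ)
    (hc : ∀ α β : MulChar F ℂ, classInner (ps α β) χ = 0) (g : GL (Fin 2) F)
    (h01 : (g : Matrix (Fin 2) (Fin 2) F) 0 1 = 0) (h10 : (g : Matrix (Fin 2) (Fin 2) F) 1 0 = 0)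
    (hne : (g : Matrix (Fin 2) (Fin 2) F) 0 0 ≠ (g : Matrix (Fin 2) (Fin 2) F) 1 1) : χ g = 0 := by
  have hd := det_ne_zero g
  rw [h01, h10] at hd
  have ha : (g : Matrix (Fin 2) (Fin 2) F) 0 0 ≠ 0 := by
    intro h; rw [h] at hd; simp at hd
  have hd' : (g : Matrix (Fin 2) (Fin 2) F) 1 1 ≠ 0 := by
    intro h; rw [h] at hd; simp at hd
  have hg : g = (borelEquiv (Units.mk0 _ ha, Units.mk0 _ hd', 0) : GL (Fin 2) F) := by
    apply Units.ext
    rw [borelEquiv_val]
    conv_lhs => rw [eta (g : Matrix (Fin 2) (Fin 2) F), h01, h10]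
    rfl
  have h1 := sum_inner_ps χ hχ (Units.mk0 _ ha) (Units.mk0 _ hd')
  simp only [hc, mul_zero, Finset.sum_const_zero] at h1
  have h2 : ∀ c : F, χ (borelEquiv (Units.mk0 _ ha, Units.mk0 _ hd', c) : GL (Fin 2) F) = χ g := by
    intro c
    have := isConj_borel (Units.mk0 _ ha) (Units.mk0 _ hd') (fun h => hne (congrArg Units.val h)) c
    rw [isConj_iff] at this
    obtain ⟨x, hx⟩ := this
    rw [← hx, hχ, ← hg]
  simp only [h2, Finset.sum_const, Finset.card_univ, nsmul_eq_mul] at h1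
  have hq : (Fintype.card F : ℂ) ≠ 0 := by
    have : 0 < Fintype.card F := Fintype.card_pos
    exact_mod_cast this.ne'
  rw [inv_mul_cancel_left₀ hq] at h1
  exact (map_eq_zero _).1 h1.symm

end Cfsg.Agent.Lib.Helper5_GL2Val
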