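import Mathlib
import Cfsg.Agent.Lib.Helper5_FieldExt

set_option autoImplicit false

namespace Cfsg.Agent.Lib.Helper5_Restrict

open Module Cfsg.Agent.Lib.Helper5_FieldExt

variable (F : Type*) {K : Type*} [Field F] [Field K] [Algebra F K]

/-- matrices over `K` acting `F`-linearly -/
def matEnd (ι : Type*) [Fintype ι] [DecidableEq ι] : Matrix ι ι K →* ((ι → K) →ₗ[F] (ι → K)) where
  toFun M := (Matrix.mulVecLin M).restrictScalars F
  map_one' := by
    ext v
    simp
  map_mul' M N := by
    ext v
    simp [Matrix.mulVec_mulVec]

theorem matEnd_apply {ι : Type*} [Fintype ι] [DecidableEq ι] (M : Matrix ι ι K) (v : ι → K) :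
    matEnd F ι M v = M.mulVec v := rfl

theorem matEnd_injective (ι : Type*) [Fintype ι] [DecidableEq ι] : Function.Injective (matEnd F (K := K) ι) := by
  intro M N h
  ext i j
  have := congrFun (congrArg (fun f : (ι → K) →ₗ[F] (ι → K) => f (Pi.single j 1)) h) i
  simpa [matEnd_apply] using this

theorem finrank_fun (ι : Type*) [Fintype ι] [FiniteDimensional F K] : finrank F (ι → K) = Fintype.card ι * finrank F K := by
  rw [Module.finrank_pi_fintype]
  simp

/-- the trace of a `K`-bilinear form -/
noncomputable def trBilin {V : Type*} [AddCommGroup V] [Module K V] [Module F V] [IsScalarTower F K V]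
    (B : LinearMap.BilinForm K V) : LinearMap.BilinForm F V :=
  LinearMap.mk₂ F (fun u v => Algebra.trace F K (B u v))
    (by intro u u' v; simp)
    (by intro c u v; rw [LinearMap.map_smul_of_tower, LinearMap.smul_apply, map_smul])
    (by intro u v v'; simp)
    (by intro c u v; rw [LinearMap.map_smul_of_tower, map_smul])

theorem trBilin_apply {V : Type*} [AddCommGroup V] [Module K V] [Module F V] [IsScalarTower F K V]
    (B : LinearMap.BilinForm K V) (u v : V) : trBilin F B u v = Algebra.trace F K (B u v) := rfl

theorem trBilin_nondeg [Fintype F] [Fintype K] {V : Type*} [AddCommGroup V] [Module K V] [Module F V] [IsScalarTower F K V]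
    (B : LinearMap.BilinForm K V) (hB : B.Nondegenerate) : (trBilin F B).Nondegenerate := by
  constructor
  · intro x hx
    apply hB.1
    intro y
    by_contra h
    obtain ⟨c, hc⟩ := exists_trace_ne_zero (F := F) (B x y) h
    apply hc
    have := hx (c • y)
    rwa [trBilin_apply, map_smul, smul_eq_mul] at this
  · intro y hy
    apply hB.2
    intro x
    by_contra h
    obtain ⟨c, hc⟩ := exists_trace_ne_zero (F := F) (B x y) h
    apply hc
    have := hy (c • x)
    rwa [trBilin_apply, map_smul, LinearMap.smul_apply, smul_eq_mul] at this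

end Cfsg.Agent.Lib.Helper5_Restrict
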