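import Mathlib
import Cfsg.Prelude.Def_Classical
import Cfsg.Agent.Lib.Helper5_Restrict

set_option autoImplicit false

namespace Cfsg.Agent.Lib.Helper5_Herm

open Module Cfsg.Agent.Lib.Helper5_FieldExt Cfsg.Agent.Lib.Helper5_Restrict

variable (F : Type*) {K : Type*} [Field F] [Fintype F] [Field K] [Fintype K] [Algebra F K]

/-- the hermitian form -/
noncomputable def herm {m : ℕ} (u v : Fin m → K) : K := ∑ i, u i * conj (F := F) (v i)

theorem herm_eq {m : ℕ} (u v : Fin m → K) : herm F u v = Cfsg.hermForm m K (Fintype.card F) u v := rfl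

theorem herm_add_left {m : ℕ} (u u' v : Fin m → K) : herm F (u + u') v = herm F u v + herm F u' v := by
  simp [herm, add_mul, Finset.sum_add_distrib]

theorem herm_add_right {m : ℕ} (u v v' : Fin m → K) : herm F u (v + v') = herm F u v + herm F u v' := by
  simp only [herm, Pi.add_apply, map_add, mul_add, Finset.sum_add_distrib]

theorem herm_smul_left {m : ℕ} (c : K) (u v : Fin m → K) : herm F (c • u) v = c * herm F u v := by
  simp [herm, Finset.mul_sum, mul_assoc]

theorem herm_smul_right {m : ℕ} (c : K) (u v : Fin m → K) : herm F u (c • v) = conj (F := F) c * herm F u v := by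
  simp only [herm, Pi.smul_apply, smul_eq_mul, map_mul, Finset.mul_sum]
  apply Finset.sum_congr rfl
  intro i _
  ring

theorem herm_conj (h2 : finrank F K = 2) {m : ℕ} (u v : Fin m → K) : conj (F := F) (herm F u v) = herm F v u := by
  simp only [herm, map_sum, map_mul, conj_conj h2]
  apply Finset.sum_congr rfl
  intro i _
  ring

theorem herm_single_right {m : ℕ} (u : Fin m → K) (i : Fin m) (c : K) :
    herm F u (Pi.single i c) = u i * conj (F := F) c := by
  classical
  unfold herm
  rw [Finset.sum_eq_single i]
  · simp
  · intro j _ hj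
    rw [Pi.single_eq_of_ne hj, map_zero, mul_zero]
  · intro h; exact absurd (Finset.mem_univ i) h

theorem herm_single_left {m : ℕ} (v : Fin m → K) (i : Fin m) (c : K) :
    herm F (Pi.single i c) v = c * conj (F := F) (v i) := by
  classical
  unfold herm
  rw [Finset.sum_eq_single i]
  · simp
  · intro j _ hj
    rw [Pi.single_eq_of_ne hj, zero_mul]
  · intro h; exact absurd (Finset.mem_univ i) h

/-- the `F`-bilinear form `tr (ε h(u,v))` -/
noncomputable def trHerm (ε : K) (m : ℕ) : LinearMap.BilinForm F (Fin m → K) :=
  LinearMap.mk₂ F (fun u v => Algebra.trace F K (ε * herm F u v))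
    (by intro u u' v; rw [herm_add_left, mul_add, map_add])
    (by
      intro c u v
      rw [← algebraMap_smul K c u, herm_smul_left, mul_left_comm, ← Algebra.smul_def, map_smul])
    (by intro u v v'; rw [herm_add_right, mul_add, map_add])
    (by
      intro c u v
      rw [← algebraMap_smul K c v, herm_smul_right, AlgHom.commutes, mul_left_comm, ← Algebra.smul_def, map_smul])

theorem trHerm_apply (ε : K) {m : ℕ} (u v : Fin m → K) : trHerm F ε m u v = Algebra.trace F K (ε * herm F u v) := rfl

theorem trHerm_nondeg (h2 : finrank F K = 2) (ε : K) (hε : ε ≠ 0) (m : ℕ) : (trHerm F ε m).Nondegenerate := by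
  constructor
  · intro x hx
    funext i
    by_contra h
    obtain ⟨c, hc⟩ := exists_trace_ne_zero (F := F) (ε * x i) (mul_ne_zero hε h)
    apply hc
    have := hx (Pi.single i (conj (F := F) c))
    rw [trHerm_apply, herm_single_right, conj_conj h2] at this
    rw [← this]; congr 1; ring
  · intro y hy
    funext i
    by_contra h
    have h' : conj (F := F) (y i) ≠ 0 := by
      intro h0
      apply h
      rw [← conj_conj h2 (y i), h0, map_zero]; rfl
    obtain ⟨c, hc⟩ := exists_trace_ne_zero (F := F) (ε * conj (F := F) (y i)) (mul_ne_zero hε h')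
    apply hc
    have := hy (Pi.single i c)
    rw [trHerm_apply, herm_single_left] at this
    rw [← this]; congr 1; ring

end Cfsg.Agent.Lib.Helper5_Herm
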