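import Mathlib
import Cfsg.Prelude.Def_GeometricClasses
import Cfsg.Agent.S0751
import Cfsg.Agent.S0755
import Cfsg.Agent.Lib.Helper5_GLTv

set_option autoImplicit false

namespace Cfsg.Agent.Lib.Helper5_HermOver

open Matrix Cfsg.Agent.Lib.Helper5_GLTv Cfsg.Agent.Lib.Helper5_GLPar

variable {F : Type*} [Field F] {ι : Type} [Fintype ι] [DecidableEq ι] {σ : F →+* F}

theorem ex_skew (hσ : σ ≠ RingHom.id F) (hσ2 : ∀ a : F, σ (σ a) = a) :
    ∃ k : F, k ≠ 0 ∧ k + σ k = 0 := by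
  obtain ⟨w, hw⟩ : ∃ w, σ w ≠ w := by
    by_contra h
    push Not at h
    exact hσ (RingHom.ext h)
  refine ⟨w - σ w, fun h => hw (sub_eq_zero.1 h).symm, ?_⟩
  rw [map_sub, hσ2]
  ring

theorem ex_tr (hσ : σ ≠ RingHom.id F) : ∃ w : F, w + σ w ≠ 0 := by
  by_contra h
  push Not at h
  apply hσ
  ext d
  have h1 := h 1
  rw [map_one] at h1
  have h2 := h d
  rw [RingHom.id_apply]
  linear_combination h2 - d * h1

theorem ex_eps (hσ : σ ≠ RingHom.id F) (hσ2 : ∀ a : F, σ (σ a) = a) :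
    ∃ e : F, e * σ e = 1 ∧ e ≠ 1 := by
  obtain ⟨w, hw⟩ : ∃ w, σ w ≠ w := by
    by_contra h
    push Not at h
    exact hσ (RingHom.ext h)
  have hw0 : w ≠ 0 := by
    rintro rfl
    exact hw (map_zero σ)
  have hsw0 : σ w ≠ 0 := fun h => hw0 ((map_eq_zero σ).1 h)
  refine ⟨w / σ w, ?_, ?_⟩
  · rw [map_div₀, hσ2]
    field_simp
  · intro h
    rw [div_eq_one_iff_eq hsw0] at h
    exact hw h.symm

theorem dot_eq (B : (ι → F) →ₛₗ[σ] (ι → F) →ₗ[F] F) (b v : ι → F) :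
    (fun i => B b (Pi.single i 1)) ⬝ᵥ v = B b v := by
  have h1 := LinearMap.pi_apply_eq_sum_univ (B b) v
  rw [h1, dotProduct]
  apply Finset.sum_congr rfl
  intro i _
  have : (fun j => if i = j then (1 : F) else 0) = Pi.single i 1 := by
    funext j
    rw [Pi.single_apply]
    simp only [eq_comm]
  rw [this, smul_eq_mul, mul_comm]

theorem rep [Finite F] (B : (ι → F) →ₛₗ[σ] (ι → F) →ₗ[F] F) (hB : B.Nondegenerate) (φ : ι → F) :
    ∃ b, ∀ v, B b v = φ ⬝ᵥ v := by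
  have hinj : Function.Injective (fun (b : ι → F) (i : ι) => B b (Pi.single i 1)) := by
    intro b b' h
    rw [← sub_eq_zero]
    apply hB.1
    intro y
    rw [map_sub, LinearMap.sub_apply, ← dot_eq B b y, ← dot_eq B b' y]
    have h' : (fun i => B b (Pi.single i 1)) = (fun i => B b' (Pi.single i 1)) := h
    rw [h', sub_self]
  obtain ⟨b, hb⟩ := (Finite.injective_iff_surjective.1 hinj) φ
  refine ⟨b, fun v => ?_⟩
  rw [← dot_eq B b v]
  have hb' : (fun i => B b (Pi.single i 1)) = φ := hb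
  rw [hb']

theorem sepN [Finite F] (B : (ι → F) →ₛₗ[σ] (ι → F) →ₗ[F] F) (hS : B.IsSymm) (hB : B.Nondegenerate)
    (S : Submodule F (ι → F)) (a : ι → F) (ha : a ∉ S) :
    ∃ v, (∀ s ∈ S, B s v = 0) ∧ B a v = 1 := by
  obtain ⟨ψ, h1, h2⟩ := exists_dual S a ha
  obtain ⟨v, hv⟩ := rep B hB ψ
  refine ⟨v, fun s hs => ?_, ?_⟩
  · rw [← hS.eq v s, hv, h1 s hs, map_zero]
  · rw [← hS.eq v a, hv, h2, map_one]

theorem exN [Finite F] (hσ : σ ≠ RingHom.id F) (hσ2 : ∀ a : F, σ (σ a) = a)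
    (B : (ι → F) →ₛₗ[σ] (ι → F) →ₗ[F] F) (hS : B.IsSymm) (hB : B.Nondegenerate)
    {k : ℕ} (u : Fin k → ι → F) (hk : 2 * k < Fintype.card ι) (ν : F) (hν : σ ν = ν) :
    ∃ z, (∀ i, B (u i) z = 0) ∧ B z z = ν := by
  classical
  set Pm : (ι → F) →ₗ[F] (Fin k → F) := LinearMap.pi (fun i => B (u i)) with hPm
  have hmemK : ∀ v, v ∈ LinearMap.ker Pm ↔ ∀ i, B (u i) v = 0 := by
    intro v
    rw [LinearMap.mem_ker, hPm]
    constructor
    · intro h i
      exact congrFun h i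
    · intro h
      ext i
      exact h i
  have hdimK : Fintype.card ι ≤ k + Module.finrank F (LinearMap.ker Pm) := by
    have h1 := LinearMap.finrank_range_add_finrank_ker Pm
    have h2 : Module.finrank F (LinearMap.range Pm) ≤ k := by
      have := Submodule.finrank_le (LinearMap.range Pm)
      simpa using this
    rw [Module.finrank_fintype_fun_eq_card] at h1
    omega
  have hdimS : Module.finrank F (Submodule.span F (Set.range u)) ≤ k := by
    have := finrank_range_le_card (R := F) u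
    simpa [Set.finrank] using this
  obtain ⟨a1, ha1K, ha1S⟩ : ∃ a1 ∈ LinearMap.ker Pm, a1 ∉ Submodule.span F (Set.range u) := by
    by_contra hcon
    push Not at hcon
    have hle : LinearMap.ker Pm ≤ Submodule.span F (Set.range u) := hcon
    have := Submodule.finrank_mono hle
    omega
  obtain ⟨b1, hb1, hab⟩ := sepN B hS hB _ a1 ha1S
  have hb1K : b1 ∈ LinearMap.ker Pm := by
    rw [hmemK]
    intro i
    exact hb1 _ (Submodule.subset_span ⟨i, rfl⟩)
  obtain ⟨z0, hz0K, hz0⟩ : ∃ z0 ∈ LinearMap.ker Pm, B z0 z0 ≠ 0 := by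
    by_contra hcon
    push Not at hcon
    have := Cfsg.Agent.S0755.polar hσ B hS (LinearMap.ker Pm) hcon a1 ha1K b1 hb1K
    rw [hab] at this
    exact one_ne_zero this
  by_cases hν0 : ν = 0
  · exact ⟨0, fun i => by simp, by simp [hν0]⟩
  · obtain ⟨x, hx⟩ := Cfsg.Agent.S0755.exists_norm hσ hσ2 (ν / B z0 z0) (div_ne_zero hν0 hz0)
      (by rw [map_div₀, hν, hS.eq])
    refine ⟨x • z0, fun i => ?_, ?_⟩
    · rw [map_smul, (hmemK z0).1 hz0K i, smul_zero]
    · simp only [LinearMap.map_smulₛₗ, LinearMap.smul_apply, map_smul, smul_eq_mul]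
      rw [← mul_assoc, hx, div_mul_cancel₀ _ hz0]

theorem exN4 [Finite F] (hσ : σ ≠ RingHom.id F) (hσ2 : ∀ a : F, σ (σ a) = a)
    (B : (ι → F) →ₛₗ[σ] (ι → F) →ₗ[F] F) (hS : B.IsSymm) (hB : B.Nondegenerate)
    (hn : 8 < Fintype.card ι) (u1 u2 u3 u4 : ι → F) (ν : F) (hν : σ ν = ν) :
    ∃ z, B u1 z = 0 ∧ B u2 z = 0 ∧ B u3 z = 0 ∧ B u4 z = 0 ∧ B z z = ν := by
  obtain ⟨z, hz, hzz⟩ := exN hσ hσ2 B hS hB ![u1, u2, u3, u4] (by omega) ν hν
  exact ⟨z, hz 0, hz 1, hz 2, hz 3, hzz⟩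

theorem flip0 (B : (ι → F) →ₛₗ[σ] (ι → F) →ₗ[F] F) (hS : B.IsSymm) {x y : ι → F} (h : B x y = 0) :
    B y x = 0 := by
  rw [← hS.eq x y, h, map_zero]

theorem flipne (B : (ι → F) →ₛₗ[σ] (ι → F) →ₗ[F] F) (hS : B.IsSymm) {x y : ι → F} (h : B x y ≠ 0) :
    B y x ≠ 0 := fun h' => h (flip0 B hS h')

theorem both [Finite F] (B : (ι → F) →ₛₗ[σ] (ι → F) →ₗ[F] F) (hS : B.IsSymm) (hB : B.Nondegenerate)
    (a b x : ι → F) (hb : ∀ l : F, b ≠ l • a) (hx : ∀ l : F, x ≠ l • a) :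
    ∃ u, B a u = 0 ∧ B b u ≠ 0 ∧ B x u ≠ 0 := by
  have hbS : b ∉ Submodule.span F {a} := by
    intro h
    obtain ⟨l, hl⟩ := Submodule.mem_span_singleton.1 h
    exact hb l hl.symm
  have hxS : x ∉ Submodule.span F {a} := by
    intro h
    obtain ⟨l, hl⟩ := Submodule.mem_span_singleton.1 h
    exact hx l hl.symm
  obtain ⟨w1, h1, h1'⟩ := sepN B hS hB _ b hbS
  obtain ⟨w2, h2, h2'⟩ := sepN B hS hB _ x hxS
  have h1a := h1 a (Submodule.mem_span_singleton_self a)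
  have h2a := h2 a (Submodule.mem_span_singleton_self a)
  by_cases c1 : B x w1 = 0
  · by_cases c2 : B b w2 = 0
    · exact ⟨w1 + w2, by simp [h1a, h2a], by simp [h1', c2], by simp [c1, h2']⟩
    · exact ⟨w2, h2a, c2, by rw [h2']; exact one_ne_zero⟩
  · exact ⟨w1, h1a, by rw [h1']; exact one_ne_zero, c1⟩

/-- an isotropic vector perpendicular to `a`, not perpendicular to `b` and `x` -/
theorem both_iso [Finite F] (hσ : σ ≠ RingHom.id F) (hσ2 : ∀ a : F, σ (σ a) = a)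
    (B : (ι → F) →ₛₗ[σ] (ι → F) →ₗ[F] F) (hS : B.IsSymm) (hB : B.Nondegenerate)
    (hn : 8 < Fintype.card ι)
    (a b x : ι → F) (hb : ∀ l : F, b ≠ l • a) (hx : ∀ l : F, x ≠ l • a) :
    ∃ u, B u u = 0 ∧ B a u = 0 ∧ B b u ≠ 0 ∧ B x u ≠ 0 := by
  obtain ⟨u, h1, h2, h3⟩ := both B hS hB a b x hb hx
  obtain ⟨z, hz1, hz2, hz3, hz4, hzz⟩ := exN4 hσ hσ2 B hS hB hn a b x u (-B u u)
    (by rw [map_neg, hS.eq])
  refine ⟨u + z, ?_, ?_, ?_, ?_⟩
  · simp only [map_add, LinearMap.add_apply, hz4, flip0 B hS hz4, hzz]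
    ring
  · rw [map_add, h1, hz1, add_zero]
  · rw [map_add, hz2, add_zero]; exact h2
  · rw [map_add, hz3, add_zero]; exact h3

/-- an anisotropic vector is a sum of two isotropic ones -/
theorem decomp [Finite F] (hσ : σ ≠ RingHom.id F) (hσ2 : ∀ a : F, σ (σ a) = a)
    (B : (ι → F) →ₛₗ[σ] (ι → F) →ₗ[F] F) (hS : B.IsSymm) (hB : B.Nondegenerate)
    (hn : 8 < Fintype.card ι) (a v : ι → F) (hv : B v v ≠ 0) :
    ∃ x1 x2, B x1 x1 = 0 ∧ B x2 x2 = 0 ∧ (B a v = 0 → B a x1 = 0 ∧ B a x2 = 0) ∧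
      (∀ l : F, x1 ≠ l • a) ∧ (∀ l : F, x2 ≠ l • a) ∧ v = x1 + x2 := by
  obtain ⟨e, he, he1⟩ := ex_eps hσ hσ2
  obtain ⟨z, hz1, hz2, -, -, hzz⟩ := exN4 hσ hσ2 B hS hB hn a v 0 0 (-B v v)
    (by rw [map_neg, hS.eq])
  have hzz0 : B z z ≠ 0 := by rw [hzz]; exact neg_ne_zero.2 hv
  have he0 : e ≠ 0 := by
    rintro rfl
    simp at he
  have hd : e - 1 ≠ 0 := sub_ne_zero.2 he1
  have hsd : σ (e - 1) ≠ 0 := fun h => hd ((map_eq_zero σ).1 h)
  have hzv := flip0 B hS hz2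
  have hza := flip0 B hS hz1
  refine ⟨(e / (e - 1)) • (v + z), (-(1 / (e - 1))) • (v + e • z), ?_, ?_, ?_, ?_, ?_, ?_⟩
  · simp only [map_add, LinearMap.add_apply, map_smul, LinearMap.map_smulₛₗ, LinearMap.smul_apply,
      smul_eq_mul, hz2, hzv, hzz]
    ring
  · simp only [map_add, LinearMap.add_apply, map_smul, LinearMap.map_smulₛₗ, LinearMap.smul_apply,
      smul_eq_mul, hz2, hzv, hzz]
    linear_combination (-(σ (-(1 / (e - 1))) * (-(1 / (e - 1))) * B v v)) * he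
  · intro hav
    constructor
    · simp only [map_add, map_smul, smul_eq_mul, hav, hz1]
      ring
    · simp only [map_add, map_smul, smul_eq_mul, hav, hz1]
      ring
  · intro l hl
    have h1 := congrArg (fun y => B z y) hl
    simp only [map_add, map_smul, smul_eq_mul, hzv, hza, zero_add, mul_zero] at h1
    exact (mul_ne_zero (div_ne_zero he0 hd) hzz0) h1
  · intro l hl
    have h1 := congrArg (fun y => B z y) hl
    simp only [map_add, map_smul, smul_eq_mul, hzv, hza, zero_add, mul_zero] at h1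
    exact (mul_ne_zero (neg_ne_zero.2 (div_ne_zero one_ne_zero hd)) (mul_ne_zero he0 hzz0)) h1
  · funext i
    simp only [Pi.add_apply, Pi.smul_apply, smul_eq_mul]
    field_simp
    ring

/-- closure properties of the relation "the transvection with centre `a` and axis `b^⊥` lies in `M`" -/
structure Sys (B : (ι → F) →ₛₗ[σ] (ι → F) →ₗ[F] F) (R : (ι → F) → (ι → F) → Prop) : Prop where
  sub : ∀ a b b', R a b → R a b' → R a (b - b')
  tv : ∀ (x : ι → F) (k : F), B x x = 0 → k + σ k = 0 → ∀ a b, R a b →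
    R (a + (k * B x a) • x) (b + (k * B x b) • x)

theorem Sys.add {B : (ι → F) →ₛₗ[σ] (ι → F) →ₗ[F] F} {R : (ι → F) → (ι → F) → Prop}
    (h : Sys B R) {a b b' : ι → F} (h1 : R a b) (h2 : R a b') : R a (b + b') := by
  have h3 := h.sub a b' b' h2 h2
  have h4 := h.sub a _ b' h3 h2
  have h5 := h.sub a b _ h1 h4
  have : b - (b' - b' - b') = b + b' := by abel
  rwa [this] at h5

theorem Sys.gp {B : (ι → F) →ₛₗ[σ] (ι → F) →ₗ[F] F} {R : (ι → F) → (ι → F) → Prop}
    (h : Sys B R) {a b x : ι → F} {k : F} (h1 : R a b) (hx : B x x = 0) (hxa : B x a = 0)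
    (hk : k + σ k = 0) : R a ((k * B x b) • x) := by
  have h2 := h.tv x k hx hk a b h1
  rw [hxa, mul_zero, zero_smul, add_zero] at h2
  have h3 := h.sub a _ b h2 h1
  rwa [add_sub_cancel_left] at h3

theorem line [Finite F] (hσ : σ ≠ RingHom.id F) (hσ2 : ∀ a : F, σ (σ a) = a)
    (B : (ι → F) →ₛₗ[σ] (ι → F) →ₗ[F] F) (hS : B.IsSymm) (hB : B.Nondegenerate)
    (hn : 8 < Fintype.card ι) {R : (ι → F) → (ι → F) → Prop} (h : Sys B R)
    (a b x : ι → F) (ha : a ≠ 0) (hR : R a b) (hab : B a b = 0) (hx : B x x = 0) (hax : B a x = 0)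
    (hxb : B x b ≠ 0) (μ : F) : R a (μ • x) := by
  obtain ⟨k0, hk0, hk0s⟩ := ex_skew hσ hσ2
  obtain ⟨w, hw⟩ := ex_tr hσ
  have hxa := flip0 B hS hax
  have hli : LinearIndependent F ![a, x, b] := by
    rw [Fintype.linearIndependent_iff]
    intro g hg
    rw [Fin.sum_univ_three] at hg
    simp only [Matrix.cons_val_zero, Matrix.cons_val_one, Matrix.cons_val] at hg
    have h2 : g 2 = 0 := by
      have := congrArg (fun y => B x y) hg
      simp only [map_add, map_smul, smul_eq_mul, hxa, hx, mul_zero, zero_add, map_zero] at this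
      exact (mul_eq_zero.1 this).resolve_right hxb
    rw [h2, zero_smul, add_zero] at hg
    have h1 : g 1 = 0 := by
      by_contra h1
      apply hxb
      have hx' : x = (-(g 0) / g 1) • a := by
        have : g 1 • x = (-(g 0)) • a := by
          rw [neg_smul]
          exact eq_neg_of_add_eq_zero_right hg
        rw [div_eq_inv_mul, mul_smul, ← this, smul_smul, inv_mul_cancel₀ h1, one_smul]
      rw [hx', LinearMap.map_smulₛₗ, LinearMap.smul_apply, hab, smul_zero]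
    rw [h1, zero_smul, add_zero] at hg
    have h0 : g 0 = 0 := (smul_eq_zero.1 hg).resolve_right ha
    intro i
    fin_cases i
    · exact h0
    · exact h1
    · exact h2
  obtain ⟨u, hu⟩ := Cfsg.Agent.S0751.pi_surjective hσ2 B hB ![a, x, b] hli
    ![0, 1, σ (w * B x b)]
  have hu0 : B a u = 0 := congrFun hu 0
  have hu1 : B x u = 1 := congrFun hu 1
  have hu2 : B b u = σ (w * B x b) := congrFun hu 2
  obtain ⟨z, hz1, hz2, hz3, hz4, hzz⟩ := exN4 hσ hσ2 B hS hB hn a x b u (-B u u)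
    (by rw [map_neg, hS.eq])
  obtain ⟨x', hx'def⟩ : ∃ x', x' = u + z := ⟨_, rfl⟩
  have hx'x' : B x' x' = 0 := by
    rw [hx'def]
    simp only [map_add, LinearMap.add_apply, hz4, flip0 B hS hz4, hzz]
    ring
  have hx'a : B x' a = 0 := by
    apply flip0 B hS
    rw [hx'def, map_add, hu0, hz1, add_zero]
  have hx'b : B x' b = w * B x b := by
    rw [← hS.eq b x', hx'def, map_add, hu2, hz3, add_zero, hσ2]
  have hxx' : B x x' = 1 := by
    rw [hx'def, map_add, hu1, hz2, add_zero]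
  -- the decomposition of `μ`
  set β := B x b with hβ
  set s := (μ / β + σ (μ / β)) / (w + σ w) with hs
  have hss : σ s = s := by
    rw [hs, map_div₀, map_add, map_add, hσ2, hσ2, add_comm (σ (μ / β)), add_comm (σ w)]
  have hk1 : (s / k0) + σ (s / k0) = 0 := by
    rw [map_div₀, hss]
    have : σ k0 = -k0 := by linear_combination hk0s
    rw [this]
    field_simp
    ring
  have hk2 : (μ / β - s * w) + σ (μ / β - s * w) = 0 := by
    rw [map_sub, map_mul, hss]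
    have : s * (w + σ w) = μ / β + σ (μ / β) := by
      rw [hs, div_mul_cancel₀ _ hw]
    linear_combination -this
  have r1 := h.gp hR hx'x' hx'a hk0s
  have r2 := h.gp r1 hx hxa hk1
  have r3 := h.gp hR hx hxa hk2
  have r4 := h.add r2 r3
  rw [hx'b, map_smul, hxx', smul_eq_mul, mul_one, ← add_smul, ← hβ] at r4
  have : s / k0 * (k0 * (w * β)) + (μ / β - s * w) * β = μ := by
    field_simp
    ring
  rwa [this] at r4

theorem iso [Finite F] (hσ : σ ≠ RingHom.id F) (hσ2 : ∀ a : F, σ (σ a) = a)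
    (B : (ι → F) →ₛₗ[σ] (ι → F) →ₗ[F] F) (hS : B.IsSymm) (hB : B.Nondegenerate)
    (hn : 8 < Fintype.card ι) {R : (ι → F) → (ι → F) → Prop} (h : Sys B R)
    (a b : ι → F) (ha : a ≠ 0) (hR : R a b) (hab : B a b = 0) (hb : ∀ l : F, b ≠ l • a)
    (x : ι → F) (hx : B x x = 0) (hax : B a x = 0) (hxa : ∀ l : F, x ≠ l • a) : R a x := by
  by_cases hxb : B x b = 0
  · obtain ⟨x1, h1, h2, h3, h4⟩ := both_iso hσ hσ2 B hS hB hn a b x hb hxa
    have r1 := line hσ hσ2 B hS hB hn h a b x1 ha hR hab h1 h2 (flipne B hS h3) 1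
    rw [one_smul] at r1
    have r2 := line hσ hσ2 B hS hB hn h a x1 x ha r1 h2 hx hax h4 1
    rwa [one_smul] at r2
  · have r1 := line hσ hσ2 B hS hB hn h a b x ha hR hab hx hax hxb 1
    rwa [one_smul] at r1

theorem all [Finite F] (hσ : σ ≠ RingHom.id F) (hσ2 : ∀ a : F, σ (σ a) = a)
    (B : (ι → F) →ₛₗ[σ] (ι → F) →ₗ[F] F) (hS : B.IsSymm) (hB : B.Nondegenerate)
    (hn : 8 < Fintype.card ι) {R : (ι → F) → (ι → F) → Prop} (h : Sys B R)
    (a b : ι → F) (ha : a ≠ 0) (hR : R a b) (hab : B a b = 0) (hb : ∀ l : F, b ≠ l • a)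
    (v : ι → F) (hav : B a v = 0) : R a v := by
  have hA : ∀ v, B a v = 0 → B v v ≠ 0 → R a v := by
    intro v hav hv
    obtain ⟨x1, x2, h1, h2, h3, h4, h5, h6⟩ := decomp hσ hσ2 B hS hB hn a v hv
    obtain ⟨h3a, h3b⟩ := h3 hav
    rw [h6]
    exact h.add (iso hσ hσ2 B hS hB hn h a b ha hR hab hb x1 h1 h3a h4)
      (iso hσ hσ2 B hS hB hn h a b ha hR hab hb x2 h2 h3b h5)
  by_cases hv : B v v = 0
  · by_cases hva : ∀ l : F, v ≠ l • a
    · exact iso hσ hσ2 B hS hB hn h a b ha hR hab hb v hv hav hva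
    · push Not at hva
      obtain ⟨l, hl⟩ := hva
      obtain ⟨w, hw1, -, -, -, hww⟩ := exN4 hσ hσ2 B hS hB hn a 0 0 0 1 (map_one σ)
      have hvw : B v w = 0 := by
        rw [hl, LinearMap.map_smulₛₗ, LinearMap.smul_apply, hw1, smul_zero]
      have r1 := hA (v + w) (by rw [map_add, hav, hw1, add_zero]) (by
        simp only [map_add, LinearMap.add_apply, hv, hvw, flip0 B hS hvw, hww]
        simp)
      have r2 := hA w hw1 (by rw [hww]; exact one_ne_zero)
      have r3 := h.sub a _ _ r1 r2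
      rwa [add_sub_cancel_right] at r3
  · exact hA v hav hv

theorem spread [Finite F] (hσ : σ ≠ RingHom.id F) (hσ2 : ∀ a : F, σ (σ a) = a)
    (B : (ι → F) →ₛₗ[σ] (ι → F) →ₗ[F] F) (hS : B.IsSymm) (hB : B.Nondegenerate)
    (hn : 8 < Fintype.card ι) {R : (ι → F) → (ι → F) → Prop} (h : Sys B R)
    (h' : Sys B (fun a b => R b a))
    (a b : ι → F) (ha : a ≠ 0) (hR : R a b) (hab : B a b = 0) (hb : ∀ l : F, b ≠ l • a)
    (a' v : ι → F) (ha' : a' ≠ 0) (hav : B a' v = 0) : R a' v := by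
  obtain ⟨c, hc1, hc2, -, -, hcc⟩ := exN4 hσ hσ2 B hS hB hn a a' 0 0 1 (map_one σ)
  have hc0 : c ≠ 0 := by
    rintro rfl
    simp at hcc
  have r1 : R a c := all hσ hσ2 B hS hB hn h a b ha hR hab hb c hc1
  have r2 : R a' c := all hσ hσ2 B hS hB hn h' c a hc0 r1 (flip0 B hS hc1) (by
    intro l hl
    have h1 := flip0 B hS hc1
    rw [hl, map_smul, hcc, smul_eq_mul, mul_one] at h1
    apply ha
    rw [hl, h1, zero_smul]) a' (flip0 B hS hc2)
  exact all hσ hσ2 B hS hB hn h a' c ha' r2 hc2 (by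
    intro l hl
    have h1 := hcc
    nth_rewrite 1 [hl] at h1
    rw [LinearMap.map_smulₛₗ, LinearMap.smul_apply, hc2, smul_zero] at h1
    exact zero_ne_one h1) v hav

end Cfsg.Agent.Lib.Helper5_HermOver
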