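import Mathlib
import Cfsg.Agent.Lib.Helper5_QFStd

set_option autoImplicit false

namespace Cfsg.Agent.Lib.Helper5_QFStd2

open Module Cfsg.Agent.Lib.Helper5_QF Cfsg.Agent.Lib.Helper5_QFStd

variable {F : Type*} [Field F] {V : Type*} [AddCommGroup V] [Module F V]

theorem comp_polar {W : Type*} [AddCommGroup W] [Module F W] (Q : QuadraticForm F W) (g : V →ₗ[F] W) (u v : V) :
    (Q.comp g).polarBilin u v = Q.polarBilin (g u) (g v) := by
  simp [QuadraticMap.polarBilin_apply_apply, QuadraticMap.polar]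

theorem equivFun_basis {ι : Type*} [Fintype ι] [DecidableEq ι] (b : Basis ι F V) (s : ι) :
    b.equivFun (b s) = Pi.single s 1 := by
  funext t
  rw [Basis.equivFun_self, Pi.single_apply]
  simp [eq_comm]

/-- a hyperbolic basis identifies the form with the standard plus form -/
theorem plus_of_basis {m : ℕ} (Q : QuadraticForm F V) (b : Basis (Fin m ⊕ Fin m) F V)
    (h0 : ∀ i, Q (b (Sum.inl i)) = 0 ∧ Q (b (Sum.inr i)) = 0)
    (h1 : ∀ i j, QuadraticMap.polar ⇑Q (b (Sum.inl i)) (b (Sum.inr j)) = if i = j then 1 else 0)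
    (h2 : ∀ i j, QuadraticMap.polar ⇑Q (b (Sum.inl i)) (b (Sum.inl j)) = 0 ∧
      QuadraticMap.polar ⇑Q (b (Sum.inr i)) (b (Sum.inr j)) = 0) (v : V) :
    Q v = Cfsg.quadFormPlus m F (b.equivFun v) := by
  have key : Q = (qPlus m F).comp b.equivFun.toLinearMap := by
    apply ext_of_basis b
    · intro s t
      rw [comp_polar]
      simp only [LinearEquiv.coe_coe, equivFun_basis]
      have hh := hypPlus m F
      rcases s with i | i <;> rcases t with j | j
      · rw [QuadraticMap.polarBilin_apply_apply, (h2 i j).1]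
        exact (hh.ee i j).symm
      · rw [QuadraticMap.polarBilin_apply_apply, h1 i j]
        by_cases hij : i = j
        · subst hij; rw [if_pos rfl]; exact (hh.ef i).symm
        · rw [if_neg hij]; exact (hh.ef' i j hij).symm
      · rw [pb_comm, QuadraticMap.polarBilin_apply_apply, h1 j i, pb_comm]
        by_cases hij : j = i
        · subst hij; rw [if_pos rfl]; exact (hh.ef j).symm
        · rw [if_neg hij]; exact (hh.ef' j i hij).symm
      · rw [QuadraticMap.polarBilin_apply_apply, (h2 i j).2]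
        exact (hh.ff i j).symm
    · intro s
      simp only [QuadraticMap.comp_apply, LinearEquiv.coe_coe, equivFun_basis]
      have hh := hypPlus m F
      rcases s with i | i
      · rw [(h0 i).1]; exact (hh.qe i).symm
      · rw [(h0 i).2]; exact (hh.qf i).symm
  rw [key]; rfl

theorem qMinus_inr0 (m : ℕ) (a c : F) : qMinus m F a c (Pi.single (Sum.inr 0) 1) = 1 := by
  rw [qMinus_apply]; simp [Cfsg.quadFormMinus]

theorem qMinus_inr1 (m : ℕ) (a c : F) : qMinus m F a c (Pi.single (Sum.inr 1) 1) = c := by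
  rw [qMinus_apply]; simp [Cfsg.quadFormMinus]

theorem qMinus_polar01 (m : ℕ) (a c : F) :
    (qMinus m F a c).polarBilin (Pi.single (Sum.inr 0) 1) (Pi.single (Sum.inr 1) 1) = a := by
  rw [qMinus_polar]; simp

/-- a basis of minus type identifies the form with the standard minus form -/
theorem minus_of_basis {m : ℕ} (Q : QuadraticForm F V) (b : Basis ((Fin m ⊕ Fin m) ⊕ Fin 2) F V) (a ζ : F)
    (h0 : ∀ i, Q (b (Sum.inl (Sum.inl i))) = 0 ∧ Q (b (Sum.inl (Sum.inr i))) = 0)
    (h1 : ∀ i j, QuadraticMap.polar ⇑Q (b (Sum.inl (Sum.inl i))) (b (Sum.inl (Sum.inr j))) = if i = j then 1 else 0)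
    (h2 : ∀ i j, QuadraticMap.polar ⇑Q (b (Sum.inl (Sum.inl i))) (b (Sum.inl (Sum.inl j))) = 0 ∧
      QuadraticMap.polar ⇑Q (b (Sum.inl (Sum.inr i))) (b (Sum.inl (Sum.inr j))) = 0)
    (h3 : ∀ i (k : Fin 2), QuadraticMap.polar ⇑Q (b (Sum.inl (Sum.inl i))) (b (Sum.inr k)) = 0 ∧
      QuadraticMap.polar ⇑Q (b (Sum.inl (Sum.inr i))) (b (Sum.inr k)) = 0)
    (h4 : Q (b (Sum.inr 0)) = 1) (h5 : QuadraticMap.polar ⇑Q (b (Sum.inr 0)) (b (Sum.inr 1)) = a)
    (h6 : Q (b (Sum.inr 1)) = ζ) (v : V) :
    Q v = Cfsg.quadFormMinus m F a ζ (b.equivFun v) := by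
  have hval : ∀ s, Q (b s) = qMinus m F a ζ (Pi.single s 1) := by
    have hh := hypMinus m F a ζ
    rintro ((i | i) | k)
    · rw [(h0 i).1]; exact (hh.qe i).symm
    · rw [(h0 i).2]; exact (hh.qf i).symm
    · fin_cases k
      · exact h4.trans (qMinus_inr0 m a ζ).symm
      · exact h6.trans (qMinus_inr1 m a ζ).symm
  have key : Q = (qMinus m F a ζ).comp b.equivFun.toLinearMap := by
    apply ext_of_basis b
    · intro s t
      rw [comp_polar]
      simp only [LinearEquiv.coe_coe, equivFun_basis]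
      have hh := hypMinus m F a ζ
      rcases s with (i | i) | k <;> rcases t with (j | j) | l
      · rw [QuadraticMap.polarBilin_apply_apply, (h2 i j).1]
        exact (hh.ee i j).symm
      · rw [QuadraticMap.polarBilin_apply_apply, h1 i j]
        by_cases hij : i = j
        · subst hij; rw [if_pos rfl]; exact (hh.ef i).symm
        · rw [if_neg hij]; exact (hh.ef' i j hij).symm
      · rw [QuadraticMap.polarBilin_apply_apply, (h3 i l).1]
        have := polar_eM m F a ζ i (Pi.single (Sum.inr l) 1)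
        rw [show (Pi.single (Sum.inl (Sum.inl i)) 1 : (Fin m ⊕ Fin m) ⊕ Fin 2 → F) = eM m F i from rfl, this]
        simp
      · rw [pb_comm, QuadraticMap.polarBilin_apply_apply, h1 j i, pb_comm]
        by_cases hij : j = i
        · subst hij; rw [if_pos rfl]; exact (hh.ef j).symm
        · rw [if_neg hij]; exact (hh.ef' j i hij).symm
      · rw [QuadraticMap.polarBilin_apply_apply, (h2 i j).2]
        exact (hh.ff i j).symm
      · rw [QuadraticMap.polarBilin_apply_apply, (h3 i l).2]
        have := polar_fM m F a ζ i (Pi.single (Sum.inr l) 1)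
        rw [show (Pi.single (Sum.inl (Sum.inr i)) 1 : (Fin m ⊕ Fin m) ⊕ Fin 2 → F) = fM m F i from rfl, this]
        simp
      · rw [pb_comm, QuadraticMap.polarBilin_apply_apply, (h3 j k).1, pb_comm]
        have := polar_eM m F a ζ j (Pi.single (Sum.inr k) 1)
        rw [show (Pi.single (Sum.inl (Sum.inl j)) 1 : (Fin m ⊕ Fin m) ⊕ Fin 2 → F) = eM m F j from rfl, this]
        simp
      · rw [pb_comm, QuadraticMap.polarBilin_apply_apply, (h3 j k).2, pb_comm]
        have := polar_fM m F a ζ j (Pi.single (Sum.inr k) 1)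
        rw [show (Pi.single (Sum.inl (Sum.inr j)) 1 : (Fin m ⊕ Fin m) ⊕ Fin 2 → F) = fM m F j from rfl, this]
        simp
      · have h01 : Q.polarBilin (b (Sum.inr 0)) (b (Sum.inr 1)) = (qMinus m F a ζ).polarBilin (Pi.single (Sum.inr 0) 1) (Pi.single (Sum.inr 1) 1) := by
          rw [qMinus_polar01]; exact h5
        fin_cases k <;> fin_cases l
        · show Q.polarBilin (b (Sum.inr 0)) (b (Sum.inr 0)) = (qMinus m F a ζ).polarBilin (Pi.single (Sum.inr 0) 1) (Pi.single (Sum.inr 0) 1)
          rw [pb_self, pb_self, hval]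
        · exact h01
        · show Q.polarBilin (b (Sum.inr 1)) (b (Sum.inr 0)) = (qMinus m F a ζ).polarBilin (Pi.single (Sum.inr 1) 1) (Pi.single (Sum.inr 0) 1)
          rw [pb_comm, h01, pb_comm]
        · show Q.polarBilin (b (Sum.inr 1)) (b (Sum.inr 1)) = (qMinus m F a ζ).polarBilin (Pi.single (Sum.inr 1) 1) (Pi.single (Sum.inr 1) 1)
          rw [pb_self, pb_self, hval]
    · intro s
      simp only [QuadraticMap.comp_apply, LinearEquiv.coe_coe, equivFun_basis]
      exact hval s
  rw [key]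
  exact qMinus_apply m F a ζ _

end Cfsg.Agent.Lib.Helper5_QFStd2
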