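import Mathlib
import Cfsg.Agent.Lib.Helper5_QFStd2
import Cfsg.Agent.Lib.Helper5_QFIndex

set_option autoImplicit false

namespace Cfsg.Agent.Lib.Helper5_QFType

open Module Cfsg.Agent.Lib.Helper5_QF Cfsg.Agent.Lib.Helper5_QFStd Cfsg.Agent.Lib.Helper5_QFStd2
  Cfsg.Agent.Lib.Helper5_QFIndex

variable {F : Type*} [Field F] {V : Type*} [AddCommGroup V] [Module F V] [FiniteDimensional F V]
variable (Q : QuadraticForm F V)

/-- a full hyperbolic system gives a plus-type basis -/
theorem plus_basis_of_hyp {m : ℕ} (hV : finrank F V = 2 * m) {e f : Fin m → V} (h : Hyp Q e f) :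
    ∃ b : Basis (Fin m ⊕ Fin m) F V, (∀ i, b (Sum.inl i) = e i) ∧ (∀ i, b (Sum.inr i) = f i) ∧
      ∀ v, Q v = Cfsg.quadFormPlus m F (b.equivFun v) := by
  rcases Nat.eq_zero_or_pos m with rfl | hm
  · have hsub : Subsingleton V := Module.finrank_zero_iff.1 (by rw [hV])
    refine ⟨Basis.empty V, fun i => i.elim0, fun i => i.elim0, fun v => ?_⟩
    rw [Subsingleton.elim v 0]
    simp [Cfsg.quadFormPlus]
  haveI : Nonempty (Fin m ⊕ Fin m) := ⟨Sum.inl ⟨0, hm⟩⟩
  have hli : LinearIndependent F (Sum.elim e f) := by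
    have := h.linearIndependent Q (fun x : Empty => x.elim) (fun x => x.elim) (linearIndependent_empty_type)
    exact this.comp Sum.inl Sum.inl_injective
  let b := basisOfLinearIndependentOfCardEqFinrank hli (by rw [hV]; simp; ring)
  have hb : ∀ s, b s = Sum.elim e f s := fun s => by simp [b]
  refine ⟨b, fun i => hb _, fun i => hb _, ?_⟩
  apply plus_of_basis Q b
  · intro i
    rw [hb, hb]
    exact ⟨h.qe i, h.qf i⟩
  · intro i j
    rw [hb, hb]
    split_ifs with hij
    · subst hij; exact h.ef i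
    · exact h.ef' i j hij
  · intro i j
    rw [hb, hb, hb, hb]
    exact ⟨h.ee i j, h.ff i j⟩

/-- a nondegenerate form with a large totally singular subspace has plus type -/
theorem exists_hyp_of_singular {m : ℕ} (hV : finrank F V = 2 * m) (hQ : Q.polarBilin.Nondegenerate)
    (U : Submodule F V) (hU : ∀ u ∈ U, Q u = 0) (hdim : m ≤ finrank F U) :
    ∃ e f : Fin m → V, Hyp Q e f := by
  obtain ⟨k, e, f, h, han⟩ := witt_fin Q hQ
  have hd := h.finrank_perp
  rw [Fintype.card_fin, hV] at hd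
  have hle := finrank_le_of_singular Q h han U hU
  rw [Fintype.card_fin] at hle
  obtain rfl : k = m := by omega
  exact ⟨e, f, h⟩

theorem plus_basis_of_singular {m : ℕ} (hV : finrank F V = 2 * m) (hQ : Q.polarBilin.Nondegenerate)
    (U : Submodule F V) (hU : ∀ u ∈ U, Q u = 0) (hdim : m ≤ finrank F U) :
    ∃ b : Basis (Fin m ⊕ Fin m) F V, ∀ v, Q v = Cfsg.quadFormPlus m F (b.equivFun v) := by
  obtain ⟨e, f, h⟩ := exists_hyp_of_singular Q hV hQ U hU hdim
  obtain ⟨b, -, -, hb⟩ := plus_basis_of_hyp Q hV h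
  exact ⟨b, hb⟩

/-- a hyperbolic system together with a plane in its perp gives a minus-type basis -/
theorem minus_basis_of_hyp {k : ℕ} (hV : finrank F V = 2 * k + 2) {e f : Fin k → V} (h : Hyp Q e f)
    (x y : V) (hx : x ∈ perp Q e f) (hy : y ∈ perp Q e f) (hli0 : LinearIndependent F ![x, y]) (a c : F)
    (hQx : Q x = 1) (hxy : Q.polarBilin x y = a) (hQy : Q y = c) :
    ∃ b : Basis ((Fin k ⊕ Fin k) ⊕ Fin 2) F V, ∀ v, Q v = Cfsg.quadFormMinus k F a c (b.equivFun v) := by
  have hg : ∀ j : Fin 2, (![x, y] : Fin 2 → V) j ∈ perp Q e f := by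
    intro j
    fin_cases j
    · exact hx
    · exact hy
  have hli := h.linearIndependent Q ![x, y] hg hli0
  let b := basisOfLinearIndependentOfCardEqFinrank hli (by rw [hV]; simp; omega)
  have hb : ∀ s, b s = Sum.elim (Sum.elim e f) ![x, y] s := fun s => by simp [b]
  refine ⟨b, ?_⟩
  apply minus_of_basis Q b a c
  · intro i
    rw [hb, hb]
    exact ⟨h.qe i, h.qf i⟩
  · intro i j
    rw [hb, hb]
    split_ifs with hij
    · subst hij; exact h.ef i
    · exact h.ef' i j hij
  · intro i j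
    rw [hb, hb, hb, hb]
    exact ⟨h.ee i j, h.ff i j⟩
  · intro i l
    rw [hb, hb, hb]
    exact (mem_perp Q e f _).1 (hg l) i
  · rw [hb]; exact hQx
  · rw [hb, hb]; exact hxy
  · rw [hb]; exact hQy

end Cfsg.Agent.Lib.Helper5_QFType
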