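import Mathlib
import Cfsg.Agent.Lib.Helper5_Herm
import Cfsg.Agent.Lib.Helper5_QFType

set_option autoImplicit false

namespace Cfsg.Agent.Lib.Helper5_HermQ

open Module Cfsg.Agent.Lib.Helper5_FieldExt Cfsg.Agent.Lib.Helper5_Restrict Cfsg.Agent.Lib.Helper5_Herm
  Cfsg.Agent.Lib.Helper5_QF Cfsg.Agent.Lib.Helper5_QFType

variable (F : Type*) {K : Type*} [Field F] [Fintype F] [Field K] [Fintype K] [Algebra F K]

/-- the quadratic form `v ↦ h(v,v)` over `F` -/
noncomputable def nQ (θ : K) (m : ℕ) : QuadraticForm F (Fin m → K) := (trHerm F θ m).toQuadraticMap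

theorem nQ_apply (θ : K) {m : ℕ} (v : Fin m → K) : nQ F θ m v = Algebra.trace F K (θ * herm F v v) := rfl

variable {F}

theorem algebraMap_nQ (h2 : finrank F K = 2) {θ : K} (hθ : Algebra.trace F K θ = 1) {m : ℕ} (v : Fin m → K) :
    algebraMap F K (nQ F θ m v) = herm F v v := by
  rw [nQ_apply, algebraMap_trace h2, map_mul, herm_conj F h2]
  have := algebraMap_trace h2 θ
  rw [hθ, map_one] at this
  linear_combination (-(herm F v v)) * this

theorem nQ_polar (h2 : finrank F K = 2) {θ : K} (hθ : Algebra.trace F K θ = 1) {m : ℕ} (u v : Fin m → K) :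
    (nQ F θ m).polarBilin u v = Algebra.trace F K (herm F u v) := by
  rw [QuadraticMap.polarBilin_apply_apply, nQ, LinearMap.BilinMap.polar_toQuadraticMap, trHerm_apply, trHerm_apply]
  have e : conj (F := F) (θ * herm F v u) = conj (F := F) θ * herm F u v := by rw [map_mul, herm_conj F h2]
  rw [← trace_conj h2 (θ * herm F v u), e, ← map_add, ← add_mul]
  have := algebraMap_trace h2 θ
  rw [hθ, map_one] at this
  rw [← this, one_mul]

theorem nQ_nondeg (h2 : finrank F K = 2) {θ : K} (hθ : Algebra.trace F K θ = 1) (m : ℕ) :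
    (nQ F θ m).polarBilin.Nondegenerate := by
  have : (nQ F θ m).polarBilin = trHerm F 1 m := by
    apply LinearMap.ext₂
    intro u v
    rw [nQ_polar h2 hθ, trHerm_apply, one_mul]
  rw [this]
  exact trHerm_nondeg F h2 1 one_ne_zero m

theorem exists_theta : ∃ θ : K, Algebra.trace F K θ = 1 := Algebra.trace_surjective F K 1

/-- doubling map onto a totally singular subspace -/
noncomputable def dbl (lam : K) (r : ℕ) : (Fin r → K) →ₗ[F] (Fin (r + r) → K) where
  toFun c := Fin.append c (lam • c)
  map_add' c d := by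
    funext i
    refine Fin.addCases (fun i => ?_) (fun i => ?_) i
    · rw [Pi.add_apply, Fin.append_left, Fin.append_left, Fin.append_left]; rfl
    · rw [Pi.add_apply, Fin.append_right, Fin.append_right, Fin.append_right]; simp [mul_add]
  map_smul' a c := by
    funext i
    refine Fin.addCases (fun i => ?_) (fun i => ?_) i
    · rw [Pi.smul_apply, Fin.append_left, Fin.append_left]; rfl
    · rw [Pi.smul_apply, Fin.append_right, Fin.append_right]
      simp only [Pi.smul_apply, smul_eq_mul, RingHom.id_apply]
      rw [Algebra.smul_def, Algebra.smul_def]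
      ring

theorem dbl_apply (lam : K) {r : ℕ} (c : Fin r → K) : dbl (F := F) lam r c = Fin.append c (lam • c) := rfl

theorem dbl_injective (lam : K) (r : ℕ) : Function.Injective (dbl (F := F) lam r) := by
  intro c d h
  funext i
  have := congrFun h (Fin.castAdd r i)
  rwa [dbl_apply, dbl_apply, Fin.append_left, Fin.append_left] at this

theorem herm_dbl {lam : K} (hlam : lam * conj (F := F) lam = algebraMap F K (-1)) {r : ℕ} (c : Fin r → K) :
    herm F (dbl (F := F) lam r c) (dbl (F := F) lam r c) = 0 := by
  unfold herm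
  rw [Fin.sum_univ_add, ← Finset.sum_add_distrib]
  apply Finset.sum_eq_zero
  intro i _
  simp only [dbl_apply, Fin.append_left, Fin.append_right, Pi.smul_apply, smul_eq_mul, map_mul]
  have : lam * conj (F := F) lam = -1 := by rw [hlam]; simp
  linear_combination (c i * conj (F := F) (c i)) * this

/-- the form on an even number of coordinates has a full hyperbolic system -/
theorem exists_hyp_even (h2 : finrank F K = 2) {θ : K} (hθ : Algebra.trace F K θ = 1) (r : ℕ) :
    ∃ e f : Fin (r + r) → (Fin (r + r) → K), Hyp (nQ F θ (r + r)) e f := by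
  obtain ⟨lam, hlam⟩ := exists_norm_eq (F := F) (K := K) h2 (-1)
  apply exists_hyp_of_singular (nQ F θ (r + r)) ?_ (nQ_nondeg h2 hθ _) (LinearMap.range (dbl (F := F) lam r))
  · rintro _ ⟨c, rfl⟩
    apply (algebraMap F K).injective
    rw [algebraMap_nQ h2 hθ, herm_dbl hlam, map_zero]
  · rw [LinearMap.finrank_range_of_inj (dbl_injective lam r), finrank_fun, h2, Fintype.card_fin]
    omega
  · rw [finrank_fun, h2, Fintype.card_fin]; ring

end Cfsg.Agent.Lib.Helper5_HermQ
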