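import Mathlib
import Cfsg.Prelude.Def_GeometricClasses
import Cfsg.Agent.Lib.Helper5_AltOver

set_option autoImplicit false

namespace Cfsg.Agent.Lib.Helper5_OrthOver

open Matrix Cfsg.Agent.Lib.Helper5_GLTv Cfsg.Agent.Lib.Helper5_GLPar

variable {F : Type*} [Field F] {ι : Type} [Fintype ι] [DecidableEq ι]

theorem bin [Fintype F] (hodd : Odd (Fintype.card F)) (α β ν : F) (hα : α ≠ 0) (hβ : β ≠ 0) :
    ∃ s t : F, α * s ^ 2 + β * t ^ 2 = ν := by
  obtain ⟨u, v, huv⟩ := FiniteField.exists_root_sum_quadratic (R := F)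
    (f := Polynomial.C α * Polynomial.X ^ 2 + Polynomial.C 0 * Polynomial.X + Polynomial.C 0)
    (g := Polynomial.C β * Polynomial.X ^ 2 + Polynomial.C 0 * Polynomial.X + Polynomial.C (-ν))
    (Polynomial.degree_quadratic hα) (Polynomial.degree_quadratic hβ) (Nat.odd_iff.1 hodd)
  simp only [Polynomial.eval_pow, Polynomial.eval_X, Polynomial.eval_add, Polynomial.eval_mul,
    Polynomial.eval_C] at huv
  exact ⟨u, v, by linear_combination huv⟩

theorem sepN (B : (ι → F) →ₗ[F] (ι → F) →ₗ[F] F) (hnd : ∀ v, (∀ x, B x v = 0) → v = 0)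
    (S : Submodule F (ι → F)) (a : ι → F) (ha : a ∉ S) :
    ∃ v, (∀ s ∈ S, B s v = 0) ∧ B a v = 1 := by
  obtain ⟨ψ, h1, h2⟩ := exists_dual S a ha
  obtain ⟨v, hv⟩ := Cfsg.Agent.Lib.Helper5_AltOver.rep B hnd
    { toFun := fun v => ψ ⬝ᵥ v
      map_add' := dotProduct_add ψ
      map_smul' := fun c v => by simp [dotProduct_smul] }
  have hv' : ∀ x, B x v = ψ ⬝ᵥ x := hv
  exact ⟨v, fun s hs => by rw [hv']; exact h1 s hs, by rw [hv', h2]⟩

theorem exA (h2 : (2 : F) ≠ 0) (B : (ι → F) →ₗ[F] (ι → F) →ₗ[F] F) (hsym : ∀ u v, B u v = B v u)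
    (hnd : ∀ v, (∀ x, B x v = 0) → v = 0)
    {k : ℕ} (u : Fin k → ι → F) (hk : 2 * k < Fintype.card ι) :
    ∃ z, (∀ i, B (u i) z = 0) ∧ B z z ≠ 0 := by
  classical
  set Pm : (ι → F) →ₗ[F] (Fin k → F) := LinearMap.pi (fun i => B (u i)) with hPm
  have hmemK : ∀ v, v ∈ LinearMap.ker Pm ↔ ∀ i, B (u i) v = 0 := by
    intro v
    rw [LinearMap.mem_ker, hPm]
    constructor
    · intro h i
      exact congrFun h i
    · intro h
      ext i
      exact h i
  have hdimK : Fintype.card ι ≤ k + Module.finrank F (LinearMap.ker Pm) := by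
    have h1 := LinearMap.finrank_range_add_finrank_ker Pm
    have h2 : Module.finrank F (LinearMap.range Pm) ≤ k := by
      have := Submodule.finrank_le (LinearMap.range Pm)
      simpa using this
    rw [Module.finrank_fintype_fun_eq_card] at h1
    omega
  have hdimS : Module.finrank F (Submodule.span F (Set.range u)) ≤ k := by
    have := finrank_range_le_card (R := F) u
    simpa [Set.finrank] using this
  obtain ⟨a1, ha1K, ha1S⟩ : ∃ a1 ∈ LinearMap.ker Pm, a1 ∉ Submodule.span F (Set.range u) := by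
    by_contra hcon
    push Not at hcon
    have hle : LinearMap.ker Pm ≤ Submodule.span F (Set.range u) := hcon
    have := Submodule.finrank_mono hle
    omega
  obtain ⟨b1, hb1, hab⟩ := sepN B hnd _ a1 ha1S
  have hb1K : ∀ i, B (u i) b1 = 0 := fun i => hb1 _ (Submodule.subset_span ⟨i, rfl⟩)
  have ha1K' := (hmemK a1).1 ha1K
  by_contra hcon
  push Not at hcon
  have e1 := hcon a1 ha1K'
  have e2 := hcon b1 hb1K
  have e3 := hcon (a1 + b1) (fun i => by rw [map_add, ha1K' i, hb1K i, add_zero])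
  simp only [map_add, LinearMap.add_apply, e1, e2, hab, hsym b1 a1] at e3
  apply h2
  linear_combination e3

theorem exN [Fintype F] (hodd : Odd (Fintype.card F)) (h2 : (2 : F) ≠ 0)
    (B : (ι → F) →ₗ[F] (ι → F) →ₗ[F] F) (hsym : ∀ u v, B u v = B v u)
    (hnd : ∀ v, (∀ x, B x v = 0) → v = 0)
    {k : ℕ} (u : Fin k → ι → F) (hk : 2 * (k + 1) < Fintype.card ι) (ν : F) :
    ∃ z, (∀ i, B (u i) z = 0) ∧ B z z = ν := by
  obtain ⟨z1, hz1, hz1z⟩ := exA h2 B hsym hnd u (by omega)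
  obtain ⟨z2, hz2, hz2z⟩ := exA h2 B hsym hnd (Fin.cons z1 u : Fin (k + 1) → ι → F) hk
  have h12 : B z1 z2 = 0 := by simpa using hz2 0
  have hz2' : ∀ i, B (u i) z2 = 0 := fun i => by simpa using hz2 i.succ
  obtain ⟨s, t, hst⟩ := bin hodd (B z1 z1) (B z2 z2) ν hz1z hz2z
  refine ⟨s • z1 + t • z2, fun i => ?_, ?_⟩
  · rw [map_add, map_smul, map_smul, hz1 i, hz2' i, smul_zero, smul_zero, add_zero]
  · simp only [map_add, map_smul, LinearMap.add_apply, LinearMap.smul_apply, smul_eq_mul, h12,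
      hsym z2 z1]
    linear_combination hst

theorem exN5 [Fintype F] (hodd : Odd (Fintype.card F)) (h2 : (2 : F) ≠ 0)
    (B : (ι → F) →ₗ[F] (ι → F) →ₗ[F] F) (hsym : ∀ u v, B u v = B v u)
    (hnd : ∀ v, (∀ x, B x v = 0) → v = 0) (hn : 12 < Fintype.card ι)
    (u1 u2 u3 u4 u5 : ι → F) (ν : F) :
    ∃ z, B u1 z = 0 ∧ B u2 z = 0 ∧ B u3 z = 0 ∧ B u4 z = 0 ∧ B u5 z = 0 ∧ B z z = ν := by
  obtain ⟨z, hz, hzz⟩ := exN hodd h2 B hsym hnd ![u1, u2, u3, u4, u5] (by omega) ν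
  exact ⟨z, hz 0, hz 1, hz 2, hz 3, hz 4, hzz⟩

/-- closure properties of the relation "the transvection with centre `a` and axis `b^⊥` lies in `M`" -/
structure Sys (B : (ι → F) →ₗ[F] (ι → F) →ₗ[F] F) (R : (ι → F) → (ι → F) → Prop) : Prop where
  sub : ∀ a b b', R a b → R a b' → R a (b - b')
  sieg : ∀ (x w : ι → F), B x x = 0 → B w w = 0 → B x w = 0 → ∀ a b, R a b →
    R (a + B a w • x - B a x • w) (b + B b w • x - B b x • w)

theorem Sys.add {B : (ι → F) →ₗ[F] (ι → F) →ₗ[F] F} {R : (ι → F) → (ι → F) → Prop}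
    (h : Sys B R) {a b b' : ι → F} (h1 : R a b) (h2 : R a b') : R a (b + b') := by
  have h3 := h.sub a b' b' h2 h2
  have h4 := h.sub a _ b' h3 h2
  have h5 := h.sub a b _ h1 h4
  have : b - (b' - b' - b') = b + b' := by abel
  rwa [this] at h5

theorem Sys.gp {B : (ι → F) →ₗ[F] (ι → F) →ₗ[F] F} {R : (ι → F) → (ι → F) → Prop}
    (h : Sys B R) {a b x w : ι → F} (h1 : R a b) (hx : B x x = 0) (hw : B w w = 0) (hxw : B x w = 0)
    (hax : B a x = 0) (haw : B a w = 0) : R a (B b w • x - B b x • w) := by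
  have h2 := h.sieg x w hx hw hxw a b h1
  rw [hax, haw, zero_smul, zero_smul, add_zero, sub_zero] at h2
  have h3 := h.sub a _ b h2 h1
  have : b + B b w • x - B b x • w - b = B b w • x - B b x • w := by abel
  rwa [this] at h3

theorem step1 [Fintype F] (hodd : Odd (Fintype.card F)) (h2 : (2 : F) ≠ 0)
    (B : (ι → F) →ₗ[F] (ι → F) →ₗ[F] F) (hsym : ∀ u v, B u v = B v u)
    (hnd : ∀ v, (∀ x, B x v = 0) → v = 0) (hn : 12 < Fintype.card ι)
    {R : (ι → F) → (ι → F) → Prop} (h : Sys B R) (a b w : ι → F) (hR : R a b)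
    (hw : B w w = 0) (haw : B a w = 0) (hbw : B b w = 0) (y : ι → F) (hya : B a y = 0)
    (hyw : B w y = 0) (hyb : B b y ≠ 0) : R a w := by
  obtain ⟨u, hudef⟩ : ∃ u, u = (-1 / B b y) • y := ⟨_, rfl⟩
  have hua : B a u = 0 := by rw [hudef, map_smul, hya, smul_zero]
  have huw : B w u = 0 := by rw [hudef, map_smul, hyw, smul_zero]
  have hub : B b u = -1 := by rw [hudef, map_smul, smul_eq_mul, div_mul_cancel₀ _ hyb]
  obtain ⟨z, hz1, hz2, hz3, hz4, -, hzz⟩ := exN5 hodd h2 B hsym hnd hn a w b u 0 (-B u u)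
  have hxx : B (u + z) (u + z) = 0 := by
    simp only [map_add, LinearMap.add_apply, hz4, hsym z u, hzz]
    ring
  have hxw : B (u + z) w = 0 := by
    rw [hsym, map_add, huw, hz2, add_zero]
  have hax : B a (u + z) = 0 := by rw [map_add, hua, hz1, add_zero]
  have hbx : B b (u + z) = -1 := by rw [map_add, hub, hz3, add_zero]
  have r := h.gp hR hxx hw hxw hax haw
  rw [hbw, hbx, zero_smul, zero_sub, neg_smul, one_smul, neg_neg] at r
  exact r

theorem sing [Fintype F] (hodd : Odd (Fintype.card F)) (h2 : (2 : F) ≠ 0)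
    (B : (ι → F) →ₗ[F] (ι → F) →ₗ[F] F) (hsym : ∀ u v, B u v = B v u)
    (hnd : ∀ v, (∀ x, B x v = 0) → v = 0) (hn : 12 < Fintype.card ι)
    {R : (ι → F) → (ι → F) → Prop} (h : Sys B R) (a b : ι → F) (hR : R a b)
    (hb : ∀ l : F, b ≠ l • a) (w' : ι → F) (hw' : B w' w' = 0) (haw' : B a w' = 0) : R a w' := by
  obtain ⟨y0, hy0a, hy0b⟩ := Cfsg.Agent.Lib.Helper5_AltOver.sep B hnd b a hb
  obtain ⟨z1, h11, h12, h13, h14, -, h1z⟩ := exN5 hodd h2 B hsym hnd hn a b w' y0 0 1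
  obtain ⟨z2, h21, h22, h23, h24, h25, h2z⟩ := exN5 hodd h2 B hsym hnd hn a b w' y0 z1 (-1)
  have hww : B (z1 + z2) (z1 + z2) = 0 := by
    simp only [map_add, LinearMap.add_apply, h25, hsym z2 z1, h1z, h2z]
    ring
  have r1 : R a (z1 + z2) := step1 hodd h2 B hsym hnd hn h a b (z1 + z2) hR hww
    (by rw [map_add, h11, h21, add_zero]) (by rw [map_add, h12, h22, add_zero]) y0
    (by rw [hsym, hy0a]) (by rw [hsym, map_add, h14, h24, add_zero])
    (by rw [hsym, hy0b]; exact one_ne_zero)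
  exact step1 hodd h2 B hsym hnd hn h a (z1 + z2) w' r1 hw' haw'
    (by rw [hsym, map_add, h13, h23, add_zero]) z1 h11 h13
    (by rw [map_add, LinearMap.add_apply, h1z, hsym z2 z1, h25, add_zero]; exact one_ne_zero)

theorem all [Fintype F] (hodd : Odd (Fintype.card F)) (h2 : (2 : F) ≠ 0)
    (B : (ι → F) →ₗ[F] (ι → F) →ₗ[F] F) (hsym : ∀ u v, B u v = B v u)
    (hnd : ∀ v, (∀ x, B x v = 0) → v = 0) (hn : 12 < Fintype.card ι)
    {R : (ι → F) → (ι → F) → Prop} (h : Sys B R) (a b : ι → F) (hR : R a b)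
    (hb : ∀ l : F, b ≠ l • a) (v : ι → F) (hav : B a v = 0) : R a v := by
  obtain ⟨z, hz1, hz2, -, -, -, hzz⟩ := exN5 hodd h2 B hsym hnd hn a v 0 0 0 (-B v v)
  have r1 : R a ((1 / 2 : F) • (v + z)) := sing hodd h2 B hsym hnd hn h a b hR hb _ (by
    simp only [map_add, map_smul, LinearMap.add_apply, LinearMap.smul_apply, smul_eq_mul, hz2,
      hsym z v, hzz]
    ring) (by rw [map_smul, map_add, hav, hz1, add_zero, smul_zero])
  have r2 : R a ((1 / 2 : F) • (v - z)) := sing hodd h2 B hsym hnd hn h a b hR hb _ (by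
    simp only [map_sub, map_smul, LinearMap.sub_apply, LinearMap.smul_apply, smul_eq_mul, hz2,
      hsym z v, hzz]
    ring) (by rw [map_smul, map_sub, hav, hz1, sub_zero, smul_zero])
  have r3 := h.add r1 r2
  have : (1 / 2 : F) • (v + z) + (1 / 2 : F) • (v - z) = v := by
    rw [← smul_add, add_add_sub_cancel, ← two_smul F v, smul_smul, one_div, inv_mul_cancel₀ h2,
      one_smul]
  rwa [this] at r3

theorem spread [Fintype F] (hodd : Odd (Fintype.card F)) (h2 : (2 : F) ≠ 0)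
    (B : (ι → F) →ₗ[F] (ι → F) →ₗ[F] F) (hsym : ∀ u v, B u v = B v u)
    (hnd : ∀ v, (∀ x, B x v = 0) → v = 0) (hn : 12 < Fintype.card ι)
    {R : (ι → F) → (ι → F) → Prop} (h : Sys B R) (h' : Sys B (fun a b => R b a))
    (a b : ι → F) (ha : a ≠ 0) (hR : R a b) (hb : ∀ l : F, b ≠ l • a)
    (a' v : ι → F) (hav : B a' v = 0) : R a' v := by
  obtain ⟨c, hc1, hc2, -, -, -, hcc⟩ := exN5 hodd h2 B hsym hnd hn a a' 0 0 0 1
  have r1 : R a c := all hodd h2 B hsym hnd hn h a b hR hb c hc1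
  have r2 : R a' c := all hodd h2 B hsym hnd hn h' c a r1 (by
    intro l hl
    have h1 := hc1
    rw [hl, map_smul, LinearMap.smul_apply, hcc, smul_eq_mul, mul_one] at h1
    apply ha
    rw [hl, h1, zero_smul]) a' (by rw [hsym, hc2])
  exact all hodd h2 B hsym hnd hn h a' c r2 (by
    intro l hl
    have h1 := hcc
    nth_rewrite 1 [hl] at h1
    rw [map_smul, LinearMap.smul_apply, hc2, smul_zero] at h1
    exact zero_ne_one h1) v hav

end Cfsg.Agent.Lib.Helper5_OrthOver
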