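import Mathlib

set_option autoImplicit false
set_option linter.unusedSectionVars false

namespace Cfsg.Agent.Lib.Helper5_PIDUniq

open Submodule

universe u

variable {R : Type u} [CommRing R] [IsDomain R] [IsPrincipalIdealRing R]

/-- cyclic modules -/
abbrev Cyc (a : R) := R ⧸ (R ∙ a)

theorem mk_eq_zero' (a x : R) : (Submodule.Quotient.mk x : Cyc a) = 0 ↔ a ∣ x := by
  rw [Submodule.Quotient.mk_eq_zero]
  exact Ideal.mem_span_singleton

theorem smul_eq_zero_of_dvd {a r : R} (h : a ∣ r) (x : Cyc a) : r • x = 0 := by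
  induction x using Submodule.Quotient.induction_on with
  | H y =>
    rw [← Submodule.Quotient.mk_smul, mk_eq_zero', smul_eq_mul]
    exact Dvd.dvd.mul_right h y

theorem eq_zero_of_coprime {a r : R} (h : IsCoprime r a) (x : Cyc a) (hx : r • x = 0) : x = 0 := by
  obtain ⟨u, v, huv⟩ := h
  have : x = (u * r + v * a) • x := by rw [huv, one_smul]
  rw [this, add_smul, mul_smul, hx, smul_zero, mul_smul, smul_eq_zero_of_dvd (dvd_refl a), smul_zero, add_zero]

theorem smul_mk_eq_zero (a r y : R) : r • (Submodule.Quotient.mk y : Cyc a) = 0 ↔ a ∣ r * y := by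
  rw [← Submodule.Quotient.mk_smul, mk_eq_zero', smul_eq_mul]

/-- the torsion count -/
noncomputable def tcard (N : Type*) [AddCommGroup N] [Module R N] (r : R) : ℕ := Nat.card (torsionBy R N r)

theorem tcard_congr {N N' : Type*} [AddCommGroup N] [Module R N] [AddCommGroup N'] [Module R N'] (φ : N ≃ₗ[R] N')
    (r : R) : tcard N r = tcard N' r := by
  apply Nat.card_congr
  refine φ.toEquiv.subtypeEquiv ?_
  intro x
  rw [mem_torsionBy_iff, mem_torsionBy_iff]
  show _ ↔ r • φ x = 0
  rw [← map_smul, LinearEquiv.map_eq_zero_iff]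

theorem tcard_prod (A B : Type*) [AddCommGroup A] [Module R A] [AddCommGroup B] [Module R B] (r : R) :
    tcard (A × B) r = tcard A r * tcard B r := by
  unfold tcard
  rw [← Nat.card_prod]
  apply Nat.card_congr
  exact
    { toFun := fun x => (⟨x.1.1, congrArg Prod.fst x.2⟩, ⟨x.1.2, congrArg Prod.snd x.2⟩)
      invFun := fun y => ⟨(y.1.1, y.2.1), Prod.ext y.1.2 y.2.2⟩
      left_inv := fun x => rfl
      right_inv := fun y => rfl }

theorem tcard_pos (N : Type*) [AddCommGroup N] [Module R N] [Finite N] (r : R) : 0 < tcard N r :=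
  Nat.card_pos

theorem tcard_zero (N : Type*) [AddCommGroup N] [Module R N] : tcard N (0 : R) = Nat.card N := by
  unfold tcard
  have : torsionBy R N 0 = ⊤ := by
    ext x; simp
  rw [this]
  exact Nat.card_congr (Equiv.Set.univ N)

/-- splitting off a coordinate -/
def splitAt {ι : Type*} [DecidableEq ι] (i : ι) (β : ι → Type*) [∀ j, AddCommGroup (β j)] [∀ j, Module R (β j)] :
    (∀ j, β j) ≃ₗ[R] β i × ∀ j : { j // j ≠ i }, β j :=
  { Equiv.piSplitAt i β with
    map_add' := fun _ _ => rfl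
    map_smul' := fun _ _ => rfl }

theorem eq_of_le_of_card {N : Type*} [AddCommGroup N] [Module R N] [Finite N] {S T : Submodule R N} (h : S ≤ T)
    (hc : Nat.card S = Nat.card T) : S = T := by
  apply SetLike.coe_injective
  apply Set.eq_of_subset_of_ncard_le h _ (Set.toFinite _)
  rw [← Nat.card_coe_set_eq, ← Nat.card_coe_set_eq]
  exact hc.ge

theorem coprime_or_associated {π p : R} (hπ : Irreducible π) (hp : Irreducible p) : IsCoprime π p ∨ Associated p π := by
  by_cases h : π ∣ p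
  · right
    exact (hπ.associated_of_dvd hp h).symm
  · left
    exact (Irreducible.coprime_iff_not_dvd hπ).2 h

theorem pow_dvd_pow_of_assoc {π p : R} (h : Associated p π) {e k : ℕ} (hek : e ≤ k) : p ^ e ∣ π ^ k :=
  (pow_dvd_pow p hek).trans (h.pow_pow (n := k)).dvd

theorem le_of_pow_dvd_pow_of_assoc {π p : R} (hp : Irreducible p) (h : Associated p π) {e k : ℕ} (hd : p ^ e ∣ π ^ k) :
    e ≤ k := by
  have h1 : p ^ e ∣ p ^ k := hd.trans (h.pow_pow (n := k)).symm.dvd
  exact (pow_dvd_pow_iff hp.ne_zero hp.not_isUnit).1 h1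

theorem stable {π p : R} (hπ : Irreducible π) (hp : Irreducible p) {e k : ℕ} (hek : e ≤ k) (x : Cyc (p ^ e)) :
    π ^ k • x = 0 ↔ π ^ (k + 1) • x = 0 := by
  rcases coprime_or_associated hπ hp with h | h
  · constructor
    · intro hx
      rw [eq_zero_of_coprime (h.pow) x hx, smul_zero]
    · intro hx
      rw [eq_zero_of_coprime (h.pow) x hx, smul_zero]
  · constructor
    · intro _; exact smul_eq_zero_of_dvd (pow_dvd_pow_of_assoc h (by omega)) x
    · intro _; exact smul_eq_zero_of_dvd (pow_dvd_pow_of_assoc h hek) x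

theorem main (n : ℕ) : ∀ (ι κ : Type u) [Fintype ι] [Fintype κ] (_ : Fintype.card ι = n)
    (p : ι → R) (_ : ∀ i, Irreducible (p i)) (e : ι → ℕ) (p' : κ → R) (_ : ∀ j, Irreducible (p' j)) (e' : κ → ℕ)
    (_ : ∀ i, Finite (Cyc (p i ^ e i))) (_ : ∀ j, Finite (Cyc (p' j ^ e' j)))
    (_ : ∀ r : R, tcard (∀ i, Cyc (p i ^ e i)) r = tcard (∀ j, Cyc (p' j ^ e' j)) r),
    Nonempty ((∀ i, Cyc (p i ^ e i)) ≃ₗ[R] (∀ j, Cyc (p' j ^ e' j))) := by
  classical
  induction n with
  | zero =>
    intro ι κ _ _ hn p hp e p' hp' e' hf hf' ht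
    have : IsEmpty ι := Fintype.card_eq_zero_iff.1 hn
    have h1 := ht 0
    rw [tcard_zero, tcard_zero] at h1
    have h2 : Nat.card (∀ i, Cyc (p i ^ e i)) = 1 := Nat.card_unique
    rw [h2] at h1
    have h3 : Subsingleton (∀ j, Cyc (p' j ^ e' j)) := (Nat.card_eq_one_iff_unique.1 h1.symm).1
    exact ⟨LinearEquiv.ofSubsingleton _ _⟩
  | succ n ih =>
    intro ι κ _ _ hn p hp e p' hp' e' hf hf' ht
    have hne : Nonempty ι := Fintype.card_pos_iff.1 (by omega)
    obtain ⟨i₀, hi₀⟩ := Finite.exists_max e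
    set π := p i₀ with hπdef
    have hπ : Irreducible π := hp i₀
    by_cases he0 : e i₀ = 0
    · -- everything is trivial
      have hsub : Subsingleton (∀ i, Cyc (p i ^ e i)) := by
        constructor
        intro x y
        funext i
        have hi : e i = 0 := by have := hi₀ i; omega
        have h1 : ∀ z : Cyc (p i ^ e i), z = 0 := by
          intro z
          have := smul_eq_zero_of_dvd (a := p i ^ e i) (r := 1) (by rw [hi, pow_zero]) z
          rwa [one_smul] at this
        rw [h1 (x i), h1 (y i)]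
      have h1 := ht 0
      rw [tcard_zero, tcard_zero] at h1
      have h2 : Nat.card (∀ i, Cyc (p i ^ e i)) = 1 := Nat.card_eq_one_iff_unique.2 ⟨hsub, ⟨0⟩⟩
      rw [h2] at h1
      have h3 : Subsingleton (∀ j, Cyc (p' j ^ e' j)) := (Nat.card_eq_one_iff_unique.1 h1.symm).1
      exact ⟨LinearEquiv.ofSubsingleton _ _⟩
    set e₀ := e i₀ with he₀
    -- (i)
    have hK1 : torsionBy R (∀ i, Cyc (p i ^ e i)) (π ^ e₀) = torsionBy R (∀ i, Cyc (p i ^ e i)) (π ^ (e₀ + 1)) := by
      ext x
      rw [mem_torsionBy_iff, mem_torsionBy_iff, funext_iff, funext_iff]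
      apply forall_congr'
      intro i
      exact stable hπ (hp i) (hi₀ i) (x i)
    -- (ii)
    have hK2 : Nat.card (torsionBy R (∀ i, Cyc (p i ^ e i)) (π ^ (e₀ - 1))) <
        Nat.card (torsionBy R (∀ i, Cyc (p i ^ e i)) (π ^ e₀)) := by
      have hle : torsionBy R (∀ i, Cyc (p i ^ e i)) (π ^ (e₀ - 1)) ≤ torsionBy R (∀ i, Cyc (p i ^ e i)) (π ^ e₀) :=
        torsionBy_le_torsionBy_of_dvd _ _ (pow_dvd_pow _ (by omega))
      apply lt_of_le_of_ne (Nat.card_le_card_of_injective _ (Submodule.inclusion_injective hle))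
      intro hc
      have heq := eq_of_le_of_card hle hc
      have hw : (Pi.single i₀ (Submodule.Quotient.mk 1) : ∀ i, Cyc (p i ^ e i)) ∈
          torsionBy R (∀ i, Cyc (p i ^ e i)) (π ^ e₀) := by
        rw [mem_torsionBy_iff, ← Pi.single_smul, smul_mk_eq_zero _ _ _ |>.2 (by rw [mul_one]), Pi.single_zero]
      rw [← heq, mem_torsionBy_iff] at hw
      have h1 := congrFun hw i₀
      rw [Pi.smul_apply, Pi.single_eq_same, Pi.zero_apply, smul_mk_eq_zero, mul_one] at h1
      have := (pow_dvd_pow_iff hπ.ne_zero hπ.not_isUnit).1 h1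
      omega
    -- transfer
    have hK1' : torsionBy R (∀ j, Cyc (p' j ^ e' j)) (π ^ e₀) = torsionBy R (∀ j, Cyc (p' j ^ e' j)) (π ^ (e₀ + 1)) := by
      apply eq_of_le_of_card (torsionBy_le_torsionBy_of_dvd _ _ (pow_dvd_pow _ (by omega)))
      have a1 := ht (π ^ e₀)
      have a2 := ht (π ^ (e₀ + 1))
      unfold tcard at a1 a2
      rw [← a1, ← a2, hK1]
    obtain ⟨x', hx'1, hx'2⟩ : ∃ x' : (∀ j, Cyc (p' j ^ e' j)), π ^ e₀ • x' = 0 ∧ π ^ (e₀ - 1) • x' ≠ 0 := by
      by_contra hcon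
      push Not at hcon
      have hle : torsionBy R (∀ j, Cyc (p' j ^ e' j)) (π ^ e₀) ≤ torsionBy R (∀ j, Cyc (p' j ^ e' j)) (π ^ (e₀ - 1)) :=
        fun x hx => hcon x hx
      have a1 := ht (π ^ e₀)
      have a2 := ht (π ^ (e₀ - 1))
      unfold tcard at a1 a2
      have := Nat.card_le_card_of_injective _ (Submodule.inclusion_injective hle)
      omega
    obtain ⟨j₀, hj₀⟩ : ∃ j, π ^ (e₀ - 1) • x' j ≠ 0 := by
      by_contra hcon
      push Not at hcon
      exact hx'2 (funext hcon)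
    have hj₀' : π ^ e₀ • x' j₀ = 0 := congrFun hx'1 j₀
    have hassoc : Associated (p' j₀) π := by
      rcases coprime_or_associated hπ (hp' j₀) with h | h
      · exfalso
        apply hj₀
        rw [eq_zero_of_coprime (h.pow) _ hj₀', smul_zero]
      · exact h
    have hge : e₀ ≤ e' j₀ := by
      by_contra hlt
      exact hj₀ (smul_eq_zero_of_dvd (pow_dvd_pow_of_assoc hassoc (by omega)) _)
    have hle : e' j₀ ≤ e₀ := by
      by_contra hlt
      have hy : (Pi.single j₀ (Submodule.Quotient.mk (π ^ (e' j₀ - e₀ - 1))) : ∀ j, Cyc (p' j ^ e' j)) ∈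
          torsionBy R (∀ j, Cyc (p' j ^ e' j)) (π ^ (e₀ + 1)) := by
        rw [mem_torsionBy_iff, ← Pi.single_smul, smul_mk_eq_zero _ _ _ |>.2 (by
          rw [← pow_add]
          exact pow_dvd_pow_of_assoc hassoc (by omega)), Pi.single_zero]
      rw [← hK1', mem_torsionBy_iff] at hy
      have h1 := congrFun hy j₀
      rw [Pi.smul_apply, Pi.single_eq_same, Pi.zero_apply, smul_mk_eq_zero, ← pow_add] at h1
      have := le_of_pow_dvd_pow_of_assoc (hp' j₀) hassoc h1
      omega
    have hee : e' j₀ = e₀ := le_antisymm hle hge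
    -- the common summand
    have hspan : (R ∙ (p i₀ ^ e i₀)) = (R ∙ (p' j₀ ^ e' j₀)) := by
      apply Ideal.span_singleton_eq_span_singleton.2
      rw [hee]
      exact (hassoc.pow_pow (n := e₀)).symm
    let φC : Cyc (p i₀ ^ e i₀) ≃ₗ[R] Cyc (p' j₀ ^ e' j₀) := Submodule.quotEquivOfEq _ _ hspan
    let s1 := splitAt (R := R) i₀ (fun i => Cyc (p i ^ e i))
    let s2 := splitAt (R := R) j₀ (fun j => Cyc (p' j ^ e' j))
    have ht' : ∀ r : R, tcard (∀ i : {i // i ≠ i₀}, Cyc (p i ^ e i)) r = tcard (∀ j : {j // j ≠ j₀}, Cyc (p' j ^ e' j)) r := by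
      intro r
      have a1 := ht r
      rw [tcard_congr s1, tcard_congr s2, tcard_prod, tcard_prod, tcard_congr φC] at a1
      exact Nat.eq_of_mul_eq_mul_left (tcard_pos _ r) a1
    obtain ⟨ψ⟩ := ih {i // i ≠ i₀} {j // j ≠ j₀} (by
      rw [Fintype.card_subtype_compl, Fintype.card_subtype_eq]; omega) (fun i => p i) (fun i => hp i) (fun i => e i)
      (fun j => p' j) (fun j => hp' j) (fun j => e' j) (fun i => hf i) (fun j => hf' j) ht'
    exact ⟨s1.trans ((φC.prodCongr ψ).trans s2.symm)⟩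

/-- finite torsion modules over a PID are determined by their torsion counts -/
theorem equiv_of_tcard {N N' : Type*} [AddCommGroup N] [Module R N] [Module.Finite R N] [Finite N]
    [AddCommGroup N'] [Module R N'] [Module.Finite R N'] [Finite N']
    (hN : Module.IsTorsion R N) (hN' : Module.IsTorsion R N') (ht : ∀ r : R, tcard N r = tcard N' r) :
    Nonempty (N ≃ₗ[R] N') := by
  classical
  obtain ⟨ι, _, p, hp, e, ⟨φ⟩⟩ := Module.equiv_directSum_of_isTorsion hN
  obtain ⟨κ, _, p', hp', e', ⟨φ'⟩⟩ := Module.equiv_directSum_of_isTorsion hN'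
  let ψ : N ≃ₗ[R] (∀ i, Cyc (p i ^ e i)) := φ.trans (DirectSum.linearEquivFunOnFintype R ι (fun i => Cyc (p i ^ e i)))
  let ψ' : N' ≃ₗ[R] (∀ j, Cyc (p' j ^ e' j)) := φ'.trans (DirectSum.linearEquivFunOnFintype R κ (fun j => Cyc (p' j ^ e' j)))
  have hf : ∀ i, Finite (Cyc (p i ^ e i)) := by
    intro i
    apply Finite.of_injective (fun x : Cyc (p i ^ e i) => ψ.symm (Pi.single i x))
    intro x y hxy
    exact Pi.single_injective i (ψ.symm.injective hxy)
  have hf' : ∀ j, Finite (Cyc (p' j ^ e' j)) := by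
    intro j
    apply Finite.of_injective (fun x : Cyc (p' j ^ e' j) => ψ'.symm (Pi.single j x))
    intro x y hxy
    exact Pi.single_injective j (ψ'.symm.injective hxy)
  obtain ⟨χ⟩ := main (Fintype.card ι) ι κ rfl p hp e p' hp' e' hf hf' (by
    intro r
    rw [← tcard_congr ψ, ← tcard_congr ψ', ht])
  exact ⟨ψ.trans (χ.trans ψ'.symm)⟩

end Cfsg.Agent.Lib.Helper5_PIDUniq
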