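import Mathlib
import Cfsg.Agent.Lib.Helper5_QFStd

set_option autoImplicit false

namespace Cfsg.Agent.Lib.Helper5_QFDisc

open Module Cfsg.Agent.Lib.Helper5_QF Cfsg.Agent.Lib.Helper5_QFStd

variable {F : Type*} [Field F]

/-- change of basis for Gram determinants -/
theorem gram_det {V ι κ : Type*} [AddCommGroup V] [Module F V] [Fintype ι] [DecidableEq ι]
    [Fintype κ] [DecidableEq κ] (B : LinearMap.BilinForm F V) (b : Basis ι F V) (c : Basis κ F V) :
    ∃ u : F, u ≠ 0 ∧ (Matrix.of fun i j => B (c i) (c j)).det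
      = u ^ 2 * (Matrix.of fun i j => B (b i) (b j)).det := by
  classical
  let σ : κ ≃ ι := c.indexEquiv b
  let c' : Basis ι F V := c.reindex σ
  have h1 := LinearMap.BilinForm.toMatrix_mul_basis_toMatrix b c' B
  have h2 : (Matrix.of fun i j => B (c i) (c j)).det = (LinearMap.BilinForm.toMatrix c' B).det := by
    have : (Matrix.of fun i j => B (c i) (c j)) = (LinearMap.BilinForm.toMatrix c' B).submatrix σ σ := by
      ext i j
      simp [c', LinearMap.BilinForm.toMatrix_apply]
    rw [this, Matrix.det_submatrix_equiv_self]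
  have h3 : (Matrix.of fun i j => B (b i) (b j)) = LinearMap.BilinForm.toMatrix b B := by
    ext i j
    simp [LinearMap.BilinForm.toMatrix_apply]
  refine ⟨(b.toMatrix c').det, ?_, ?_⟩
  · have : IsUnit (b.toMatrix c').det := by
      have := Basis.invertibleToMatrix b c'
      exact (Matrix.isUnit_iff_isUnit_det _).1 (isUnit_of_invertible _)
    exact this.ne_zero
  · rw [h2, h3, ← h1, Matrix.det_mul, Matrix.det_mul, Matrix.det_transpose]
    ring

theorem isSquare_gram_iff {V ι κ : Type*} [AddCommGroup V] [Module F V] [Fintype ι] [DecidableEq ι]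
    [Fintype κ] [DecidableEq κ] (B : LinearMap.BilinForm F V) (b : Basis ι F V) (c : Basis κ F V) :
    IsSquare (Matrix.of fun i j => B (c i) (c j)).det ↔ IsSquare (Matrix.of fun i j => B (b i) (b j)).det := by
  obtain ⟨u, hu, h⟩ := gram_det B b c
  rw [h]
  constructor
  · rintro ⟨r, hr⟩
    refine ⟨r / u, ?_⟩
    field_simp
    rw [mul_comm, hr]; ring
  · rintro ⟨r, hr⟩
    exact ⟨u * r, by rw [hr]; ring⟩

theorem det_swap_blocks {m : Type*} [Fintype m] [DecidableEq m] :
    (Matrix.fromBlocks (0 : Matrix m m F) (1 : Matrix m m F) (1 : Matrix m m F) (0 : Matrix m m F)).det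
      = (-1) ^ Fintype.card m := by
  have h1 : (Matrix.fromBlocks (1 : Matrix m m F) (1 : Matrix m m F) (0 : Matrix m m F) (1 : Matrix m m F))
      * (Matrix.fromBlocks (0 : Matrix m m F) (1 : Matrix m m F) (1 : Matrix m m F) (0 : Matrix m m F))
      = Matrix.fromBlocks 1 1 1 0 := by
    rw [Matrix.fromBlocks_multiply]; simp
  have h2 : (Matrix.fromBlocks (1 : Matrix m m F) (1 : Matrix m m F) (0 : Matrix m m F) (1 : Matrix m m F)).det = 1 := by
    rw [Matrix.det_fromBlocks_zero₂₁]; simp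
  have h3 : (Matrix.fromBlocks (1 : Matrix m m F) (1 : Matrix m m F) (1 : Matrix m m F) (0 : Matrix m m F)).det = (-1) ^ Fintype.card m := by
    rw [Matrix.det_fromBlocks_one₁₁]; simp [Matrix.det_neg]
  have := congrArg Matrix.det h1
  rw [Matrix.det_mul, h2, one_mul, h3] at this
  exact this

theorem gramPlus (m : ℕ) :
    (Matrix.of fun i j : Fin m ⊕ Fin m => (qPlus m F).polarBilin (Pi.basisFun F _ i) (Pi.basisFun F _ j))
      = Matrix.fromBlocks 0 1 1 0 := by
  ext i j
  rcases i with i | i <;> rcases j with j | j <;>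
    simp only [Matrix.of_apply, qPlus_polar, Pi.basisFun_apply] <;>
    simp [Pi.single_apply, Matrix.one_apply, eq_comm]

theorem isSquare_neg_one_pow [Fintype F] {q : ℕ} (hF : Fintype.card F = q) (hq : Odd q) (m : ℕ) :
    IsSquare ((-1 : F) ^ m) ↔ Even (m * (q - 1) / 2) := by
  obtain ⟨k, rfl⟩ := hq
  have h1 : m * (2 * k + 1 - 1) / 2 = m * k := by
    rw [Nat.add_sub_cancel, mul_left_comm, Nat.mul_div_cancel_left _ (by norm_num)]
  rw [h1, Nat.even_mul]
  have h2 : IsSquare (-1 : F) ↔ Even k := by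
    rw [FiniteField.isSquare_neg_one_iff, hF]
    constructor
    · intro h; by_contra hk
      rw [Nat.not_even_iff_odd] at hk
      obtain ⟨j, rfl⟩ := hk
      omega
    · rintro ⟨j, rfl⟩; omega
  rcases Nat.even_or_odd m with hm | hm
  · simp [hm, hm.neg_one_pow]
  · rw [hm.neg_one_pow, h2]
    simp [Nat.not_even_iff_odd.2 hm]

theorem gramMinus (m : ℕ) (a b : F) :
    (Matrix.of fun i j : (Fin m ⊕ Fin m) ⊕ Fin 2 =>
      (qMinus m F a b).polarBilin (Pi.basisFun F _ i) (Pi.basisFun F _ j))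
      = Matrix.fromBlocks (Matrix.fromBlocks 0 1 1 0) 0 0 !![2, a; a, 2 * b] := by
  ext i j
  rcases i with (i | i) | i <;> rcases j with (j | j) | j <;>
    simp only [Matrix.of_apply, qMinus_polar, Pi.basisFun_apply] <;>
    try simp [Pi.single_apply, Matrix.one_apply, eq_comm]
  fin_cases i <;> fin_cases j <;> simp

theorem det_gramMinus (m : ℕ) (a b : F) :
    (Matrix.of fun i j : (Fin m ⊕ Fin m) ⊕ Fin 2 =>
      (qMinus m F a b).polarBilin (Pi.basisFun F _ i) (Pi.basisFun F _ j)).det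
      = (-1) ^ (m + 1) * (a ^ 2 - 4 * b) := by
  rw [gramMinus, Matrix.det_fromBlocks_zero₂₁, det_swap_blocks, Matrix.det_fin_two_of, Fintype.card_fin]
  ring

theorem det_gramPlus (m : ℕ) :
    (Matrix.of fun i j : Fin m ⊕ Fin m =>
      (qPlus m F).polarBilin (Pi.basisFun F _ i) (Pi.basisFun F _ j)).det = (-1) ^ m := by
  rw [gramPlus, det_swap_blocks, Fintype.card_fin]

theorem not_isSquare_disc (h2 : (2 : F) ≠ 0) (a c : F)
    (hac : ∀ z₁ z₂ : F, z₁ ^ 2 + a * z₁ * z₂ + c * z₂ ^ 2 = 0 → z₁ = 0 ∧ z₂ = 0) :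
    ¬ IsSquare (a ^ 2 - 4 * c) := by
  rintro ⟨d, hd⟩
  have := hac ((-a + d) / 2) 1 (by
    field_simp
    linear_combination (-1 : F) * hd)
  exact one_ne_zero this.2

theorem isSquare_mul_nonsquare [Fintype F] (h2 : (2 : F) ≠ 0) {x y : F} (hx : x ≠ 0) (hy : ¬ IsSquare y) :
    IsSquare (x * y) ↔ ¬ IsSquare x := by
  classical
  have hchar : ringChar F ≠ 2 := by
    intro h
    apply h2
    have := CharP.cast_eq_zero F (ringChar F)
    rw [h] at this
    exact_mod_cast this
  have hy0 : y ≠ 0 := by rintro rfl; exact hy ⟨0, by simp⟩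
  rw [← quadraticChar_one_iff_isSquare (mul_ne_zero hx hy0), ← quadraticChar_one_iff_isSquare hx, map_mul]
  have hyc : quadraticChar F y = -1 := (quadraticChar_neg_one_iff_not_isSquare).2 hy
  rw [hyc]
  rcases quadraticChar_dichotomy hx with h | h <;> rw [h] <;> decide

end Cfsg.Agent.Lib.Helper5_QFDisc
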