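import Mathlib
import Cfsg.Agent.Lib.Helper5_QFDisc

set_option autoImplicit false

namespace Cfsg.Agent.Lib.Helper5_QFDiag

open Module Cfsg.Agent.Lib.Helper5_QF Cfsg.Agent.Lib.Helper5_QFDisc

variable {F : Type*} [Field F] {V : Type*} [AddCommGroup V] [Module F V] [FiniteDimensional F V]
variable (Q : QuadraticForm F V)

/-- a nondegenerate subspace of dimension at least two represents one -/
theorem exists_one [Finite F] (W : Submodule F V)
    (hW : ∀ x ∈ W, (∀ y ∈ W, Q.polarBilin x y = 0) → x = 0) (hdim : 2 ≤ finrank F W) :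
    ∃ x ∈ W, Q x = 1 := by
  by_cases han : ∀ x ∈ W, Q x = 0 → x = 0
  · exact exists_eq_one Q W han hdim
  · push Not at han
    obtain ⟨x, hx, hQx, hx0⟩ := han
    obtain ⟨y, hy, hQy, hxy⟩ := exists_partner W hW x hx hx0 hQx
    exact ⟨x + y, W.add_mem hx hy, by rw [map_add', hQx, hQy, hxy]; simp⟩

/-- the orthogonal complement of a vector inside `W` -/
def cut (W : Submodule F V) (v : V) : Submodule F V := W ⊓ LinearMap.ker (Q.polarBilin v)

theorem mem_cut (W : Submodule F V) (v x : V) : x ∈ cut Q W v ↔ x ∈ W ∧ Q.polarBilin v x = 0 := by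
  simp [cut]

theorem cut_nondeg (h2 : (2 : F) ≠ 0) (W : Submodule F V)
    (hW : ∀ x ∈ W, (∀ y ∈ W, Q.polarBilin x y = 0) → x = 0) (v : V) (hv : v ∈ W) (hQv : Q v ≠ 0) :
    ∀ x ∈ cut Q W v, (∀ y ∈ cut Q W v, Q.polarBilin x y = 0) → x = 0 := by
  intro x hx hxy
  rw [mem_cut] at hx
  apply hW x hx.1
  intro y hy
  have hvv : Q.polarBilin v v ≠ 0 := by rw [pb_self]; exact mul_ne_zero h2 hQv
  have h1 : y - (Q.polarBilin v y / Q.polarBilin v v) • v ∈ cut Q W v := by
    rw [mem_cut]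
    refine ⟨W.sub_mem hy (W.smul_mem _ hv), ?_⟩
    rw [map_sub, map_smul, smul_eq_mul]
    field_simp
    ring
  have h3 := hxy _ h1
  rw [map_sub, map_smul, pb_comm Q x v, hx.2] at h3
  simpa using h3

theorem finrank_cut (h2 : (2 : F) ≠ 0) (W : Submodule F V) (v : V) (hv : v ∈ W) (hQv : Q v ≠ 0) :
    finrank F (cut Q W v) + 1 = finrank F W := by
  have hvv : Q.polarBilin v v ≠ 0 := by rw [pb_self]; exact mul_ne_zero h2 hQv
  let φ : W →ₗ[F] F := (Q.polarBilin v).comp W.subtype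
  have hsurj : LinearMap.range φ = ⊤ := by
    apply LinearMap.range_eq_top.2
    intro c
    refine ⟨(c / Q.polarBilin v v) • ⟨v, hv⟩, ?_⟩
    simp only [φ, map_smul, LinearMap.comp_apply, Submodule.subtype_apply, smul_eq_mul]
    field_simp
  have h1 := LinearMap.finrank_range_add_finrank_ker φ
  rw [hsurj, finrank_top, finrank_self] at h1
  have h3 : finrank F (LinearMap.ker φ) = finrank F (cut Q W v) := by
    have : (LinearMap.ker φ).map W.subtype = cut Q W v := by
      ext x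
      simp only [Submodule.mem_map, LinearMap.mem_ker, mem_cut, φ, LinearMap.comp_apply,
        Submodule.subtype_apply, Subtype.exists, exists_and_right, exists_eq_right]
      constructor
      · rintro ⟨h, h'⟩; exact ⟨h, h'⟩
      · rintro ⟨h, h'⟩; exact ⟨h, h'⟩
    rw [← this]
    exact (LinearEquiv.finrank_eq (Submodule.equivMapOfInjective _ W.injective_subtype _))
  omega

/-- orthogonal "almost orthonormal" system -/
theorem exists_diag [Finite F] (h2 : (2 : F) ≠ 0) (k : ℕ) : ∀ (W : Submodule F V)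
    (_ : ∀ x ∈ W, (∀ y ∈ W, Q.polarBilin x y = 0) → x = 0) (_ : finrank F W = k + 1),
    ∃ (b : Fin k → V) (w : V), (∀ i, b i ∈ W) ∧ w ∈ W ∧ (∀ i, Q (b i) = 1) ∧ Q w ≠ 0 ∧
      (∀ i j, i ≠ j → Q.polarBilin (b i) (b j) = 0) ∧ (∀ i, Q.polarBilin (b i) w = 0) := by
  induction k with
  | zero =>
    intro W hW hdim
    obtain ⟨w, hw0⟩ : ∃ w : W, w ≠ 0 := by
      have : Nontrivial W := Module.nontrivial_of_finrank_pos (R := F) (by omega)
      exact exists_ne 0
    refine ⟨Fin.elim0, w.1, fun i => i.elim0, w.2, fun i => i.elim0, ?_, fun i => i.elim0, fun i => i.elim0⟩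
    intro hQw
    apply hw0
    apply Subtype.ext
    apply hW w.1 w.2
    intro y hy
    obtain ⟨c, hc⟩ := (finrank_eq_one_iff_of_nonzero' w hw0).1 hdim ⟨y, hy⟩
    have : y = c • w.1 := by rw [← Submodule.coe_smul, hc]
    rw [this, map_smul, pb_self, hQw]; simp
  | succ k ih =>
    intro W hW hdim
    obtain ⟨v, hv, hQv⟩ := exists_one Q W hW (by omega)
    have hQv0 : Q v ≠ 0 := by rw [hQv]; exact one_ne_zero
    have hd := finrank_cut Q h2 W v hv hQv0
    obtain ⟨b, w, hb, hw, hQb, hQw, hbb, hbw⟩ := ih (cut Q W v) (cut_nondeg Q h2 W hW v hv hQv0) (by omega)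
    refine ⟨Fin.cons v b, w, ?_, ((mem_cut Q W v w).1 hw).1, ?_, hQw, ?_, ?_⟩
    · intro i
      refine Fin.cases ?_ (fun i => ?_) i
      · simpa using hv
      · simpa using ((mem_cut Q W v _).1 (hb i)).1
    · intro i
      refine Fin.cases ?_ (fun i => ?_) i
      · simpa using hQv
      · simpa using hQb i
    · intro i j
      refine Fin.cases ?_ (fun i => ?_) i <;> refine Fin.cases ?_ (fun j => ?_) j
      · intro h; exact absurd rfl h
      · intro _; simpa using ((mem_cut Q W v _).1 (hb j)).2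
      · intro _
        simp only [Fin.cons_zero, Fin.cons_succ]
        rw [pb_comm]; exact ((mem_cut Q W v _).1 (hb i)).2
      · intro h
        simp only [Fin.cons_succ]
        exact hbb i j (fun h' => h (by rw [h']))
    · intro i
      refine Fin.cases ?_ (fun i => ?_) i
      · simpa using ((mem_cut Q W v _).1 hw).2
      · simpa using hbw i

/-- diagonal basis with entries `1, …, 1, d` -/
theorem exists_diag_basis [Finite F] (h2 : (2 : F) ≠ 0) (k : ℕ) (hQ : Q.polarBilin.Nondegenerate)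
    (hdim : finrank F V = k + 1) :
    ∃ (c : Basis (Fin k ⊕ Unit) F V), (∀ i, Q (c (Sum.inl i)) = 1) ∧ Q (c (Sum.inr ())) ≠ 0 ∧
      (∀ s t, s ≠ t → Q.polarBilin (c s) (c t) = 0) := by
  obtain ⟨b, w, -, -, hQb, hQw, hbb, hbw⟩ := exists_diag Q h2 k ⊤
    (fun x _ hx => hQ.1 x (fun y => hx y trivial)) (by rw [finrank_top, hdim])
  let g : Fin k ⊕ Unit → V := Sum.elim b (fun _ => w)
  have horth : ∀ s t, s ≠ t → Q.polarBilin (g s) (g t) = 0 := by
    rintro (i | i) (j | j) h
    · exact hbb i j (fun h' => h (by rw [h']))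
    · exact hbw i
    · show Q.polarBilin w (b j) = 0
      rw [pb_comm]; exact hbw j
    · exact absurd rfl h
  have hne : ∀ s, Q (g s) ≠ 0 := by
    rintro (i | i)
    · show Q (b i) ≠ 0
      rw [hQb]; exact one_ne_zero
    · exact hQw
  have hli : LinearIndependent F g := by
    apply LinearMap.BilinForm.linearIndependent_of_iIsOrtho (B := Q.polarBilin)
    · intro s t h; exact horth s t h
    · intro s h
      have : Q.polarBilin (g s) (g s) = 0 := h
      rw [pb_self] at this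
      exact (mul_ne_zero h2 (hne s)) this
  let c := basisOfLinearIndependentOfCardEqFinrank hli (by simp [hdim])
  have hc : ∀ s, c s = g s := fun s => by simp [c]
  refine ⟨c, fun i => by rw [hc]; exact hQb i, by rw [hc]; exact hQw, fun s t h => by rw [hc, hc]; exact horth s t h⟩

omit [FiniteDimensional F V] in
theorem det_gram_diag (k : ℕ) (c : Basis (Fin k ⊕ Unit) F V) (h1 : ∀ i, Q (c (Sum.inl i)) = 1)
    (horth : ∀ s t, s ≠ t → Q.polarBilin (c s) (c t) = 0) :
    (Matrix.of fun s t => Q.polarBilin (c s) (c t)).det = 2 ^ (k + 1) * Q (c (Sum.inr ())) := by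
  have : (Matrix.of fun s t => Q.polarBilin (c s) (c t)) = Matrix.diagonal (fun s => 2 * Q (c s)) := by
    ext s t
    by_cases h : s = t
    · subst h; simp [pb_self]
    · rw [Matrix.diagonal_apply_ne _ h]; exact horth s t h
  rw [this, Matrix.det_diagonal, Fintype.prod_sum_type]
  simp [h1]
  ring

theorem exists_isometry [Finite F] (h2 : (2 : F) ≠ 0) (Q₁ Q₂ : QuadraticForm F V)
    (h₁ : Q₁.polarBilin.Nondegenerate) (h₂ : Q₂.polarBilin.Nondegenerate)
    {ι : Type*} [Fintype ι] [DecidableEq ι] (e : Basis ι F V)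
    (hsq : IsSquare ((Matrix.of fun i j => Q₁.polarBilin (e i) (e j)).det *
      (Matrix.of fun i j => Q₂.polarBilin (e i) (e j)).det)) :
    ∃ g : V ≃ₗ[F] V, ∀ v, Q₂ (g v) = Q₁ v := by
  rcases Nat.eq_zero_or_pos (finrank F V) with h0 | hpos
  · have : Subsingleton V := Module.finrank_zero_iff.1 h0
    refine ⟨LinearEquiv.refl F V, fun v => ?_⟩
    rw [Subsingleton.elim v 0]; simp
  obtain ⟨k, hk⟩ : ∃ k, finrank F V = k + 1 := ⟨finrank F V - 1, by omega⟩
  obtain ⟨c₁, h11, h1d, h1o⟩ := exists_diag_basis Q₁ h2 k h₁ hk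
  obtain ⟨c₂, h21, h2d, h2o⟩ := exists_diag_basis Q₂ h2 k h₂ hk
  obtain ⟨u₁, hu₁, e₁⟩ := gram_det Q₁.polarBilin c₁ e
  obtain ⟨u₂, hu₂, e₂⟩ := gram_det Q₂.polarBilin c₂ e
  rw [e₁, e₂, det_gram_diag Q₁ k c₁ h11 h1o, det_gram_diag Q₂ k c₂ h21 h2o] at hsq
  obtain ⟨r, hr⟩ := hsq
  set d₁ := Q₁ (c₁ (Sum.inr ())) with hd₁
  set d₂ := Q₂ (c₂ (Sum.inr ())) with hd₂
  -- d₂ = s² d₁
  obtain ⟨s, hs0, hs⟩ : ∃ s : F, s ≠ 0 ∧ d₂ = s * s * d₁ := by
    refine ⟨r / (u₁ * u₂ * 2 ^ (k + 1) * d₁), ?_, ?_⟩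
    · apply div_ne_zero
      · rintro rfl
        have : u₁ ^ 2 * (2 ^ (k + 1) * d₁) * (u₂ ^ 2 * (2 ^ (k + 1) * d₂)) ≠ 0 := by positivity
        exact this (by rw [hr]; ring)
      · positivity
    · have h2k : (2 : F) ^ (k + 1) ≠ 0 := pow_ne_zero _ h2
      field_simp
      rw [pow_two r, ← hr]; ring
  -- rescaled basis
  let w : Fin k ⊕ Unit → Fˣ := Sum.elim (fun _ => 1) (fun _ => Units.mk0 s hs0)
  let c₁' : Basis (Fin k ⊕ Unit) F V := c₁.unitsSMul w
  have hc' : ∀ t, c₁' t = (w t : F) • c₁ t := fun t => by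
    simp [c₁', Basis.unitsSMul_apply, Units.smul_def]
  let g : V ≃ₗ[F] V := c₁'.equiv c₂ (Equiv.refl _)
  have hg : ∀ t, g (c₁' t) = c₂ t := fun t => by simp [g]
  refine ⟨g, ?_⟩
  have key : Q₂.comp g.toLinearMap = Q₁ := by
    apply ext_of_basis c₁'
    · intro a b
      simp only [QuadraticMap.polarBilin_apply_apply, QuadraticMap.polar, QuadraticMap.comp_apply,
        LinearEquiv.coe_coe, map_add, hg]
      have e1 : Q₂ (c₂ a + c₂ b) - Q₂ (c₂ a) - Q₂ (c₂ b) = Q₂.polarBilin (c₂ a) (c₂ b) := rfl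
      have e2 : Q₁ (c₁' a + c₁' b) - Q₁ (c₁' a) - Q₁ (c₁' b) = Q₁.polarBilin (c₁' a) (c₁' b) := rfl
      rw [e1, e2, hc', hc']
      by_cases hab : a = b
      · subst hab
        rw [pb_self, pb_self, QuadraticMap.map_smul]
        rcases a with i | i
        · simp [w, h11, h21]
        · simp only [w, Sum.elim_inr, Units.val_mk0, smul_eq_mul]
          rw [← hd₁, ← hd₂, hs]
      · rw [h2o a b hab, map_smul, map_smul, LinearMap.smul_apply, h1o a b hab]; simp
    · intro a
      simp only [QuadraticMap.comp_apply, LinearEquiv.coe_coe, hg]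
      rw [hc', QuadraticMap.map_smul]
      rcases a with i | i
      · simp [w, h11, h21]
      · simp only [w, Sum.elim_inr, Units.val_mk0, smul_eq_mul]
        rw [← hd₁, ← hd₂, hs]
  intro v
  rw [← key]; rfl

end Cfsg.Agent.Lib.Helper5_QFDiag
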