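import Mathlib
import Cfsg.Agent.Lib.Helper5_PIDUniq

set_option autoImplicit false

namespace Cfsg.Agent.Lib.Helper5_RankCrit

open Module Polynomial Cfsg.Agent.Lib.Helper5_PIDUniq

variable {F : Type*} [Field F] [Finite F] {V : Type*} [AddCommGroup V] [Module F V] [FiniteDimensional F V]

theorem tcard_aeval (a : V →ₗ[F] V) (f : F[X]) :
    tcard (AEval' a) f = Nat.card (LinearMap.ker (aeval a f)) := by
  apply Nat.card_congr
  refine (AEval'.of a).symm.toEquiv.subtypeEquiv ?_
  intro x
  rw [Submodule.mem_torsionBy_iff, LinearMap.mem_ker]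
  show _ ↔ aeval a f ((AEval'.of a).symm x) = 0
  have h := AEval.of_symm_smul (R := F) (M := V) a f x
  constructor
  · intro hx
    rw [hx, map_zero] at h
    exact h.symm
  · intro hx
    have h2 : (AEval.of F V a).symm (f • x) = 0 := by rw [h]; exact hx
    exact (LinearEquiv.map_eq_zero_iff _).1 h2

/-- conjugacy criterion for endomorphisms over a finite field -/
theorem conj_of_card_ker (a b : V →ₗ[F] V)
    (h : ∀ f : F[X], Nat.card (LinearMap.ker (aeval a f)) = Nat.card (LinearMap.ker (aeval b f))) :
    ∃ φ : V ≃ₗ[F] V, ∀ v, φ (a v) = b (φ v) := by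
  have : Finite V := Module.finite_of_finite F
  have fa : Finite (AEval' a) := Finite.of_equiv V (AEval'.of a).toEquiv
  have fb : Finite (AEval' b) := Finite.of_equiv V (AEval'.of b).toEquiv
  obtain ⟨ψ⟩ := equiv_of_tcard (R := F[X]) (N := AEval' a) (N' := AEval' b)
    (Module.AEval.isTorsion_of_finiteDimensional F V a) (Module.AEval.isTorsion_of_finiteDimensional F V b) (by
      intro f
      rw [tcard_aeval, tcard_aeval, h])
  refine ⟨(AEval'.of a).trans ((ψ.restrictScalars F).trans (AEval'.of b).symm), ?_⟩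
  intro v
  show (AEval'.of b).symm (ψ (AEval'.of a (a v))) = b ((AEval'.of b).symm (ψ (AEval'.of a v)))
  rw [← AEval'.X_smul_of, map_smul, AEval'.of_symm_X_smul]

theorem conj_of_finrank_ker (a b : V →ₗ[F] V)
    (h : ∀ f : F[X], finrank F (LinearMap.ker (aeval a f)) = finrank F (LinearMap.ker (aeval b f))) :
    ∃ φ : V ≃ₗ[F] V, ∀ v, φ (a v) = b (φ v) := by
  apply conj_of_card_ker
  intro f
  rw [Module.natCard_eq_pow_finrank (K := F) (V := LinearMap.ker (aeval a f)),
    Module.natCard_eq_pow_finrank (K := F) (V := LinearMap.ker (aeval b f)), h]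

theorem aeval_toLin' {n : Type*} [Fintype n] [DecidableEq n] (A : Matrix n n F) (f : F[X]) :
    aeval (Matrix.toLin' A) f = Matrix.toLin' (aeval A f) := by
  have := Polynomial.aeval_algHom_apply (Matrix.toLinAlgEquiv' (R := F) (n := n)).toAlgHom A f
  exact this

/-- the rank criterion for conjugacy of matrices over a finite field -/
theorem exists_conj_of_rank {n : Type*} [Fintype n] [DecidableEq n] (A B : Matrix n n F)
    (h : ∀ f : F[X], (aeval A f).rank = (aeval B f).rank) :
    ∃ P : Matrix.GeneralLinearGroup n F, (P : Matrix n n F) * A = B * (P : Matrix n n F) := by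
  obtain ⟨φ, hφ⟩ := conj_of_finrank_ker (Matrix.toLin' A) (Matrix.toLin' B) (by
    intro f
    rw [aeval_toLin', aeval_toLin']
    have h1 := LinearMap.finrank_range_add_finrank_ker (Matrix.toLin' (aeval A f))
    have h2 := LinearMap.finrank_range_add_finrank_ker (Matrix.toLin' (aeval B f))
    have h3 : (aeval A f).rank = finrank F (LinearMap.range (Matrix.toLin' (aeval A f))) := by
      rw [Matrix.rank, Matrix.toLin'_apply']
    have h4 : (aeval B f).rank = finrank F (LinearMap.range (Matrix.toLin' (aeval B f))) := by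
      rw [Matrix.rank, Matrix.toLin'_apply']
    have := h f
    omega)
  let P : Matrix n n F := LinearMap.toMatrix' φ.toLinearMap
  let P' : Matrix n n F := LinearMap.toMatrix' φ.symm.toLinearMap
  have h1 : P * P' = 1 := by
    rw [← LinearMap.toMatrix'_comp]
    simp
  have h2 : P' * P = 1 := by
    rw [← LinearMap.toMatrix'_comp]
    simp
  refine ⟨⟨P, P', h1, h2⟩, ?_⟩
  show P * A = B * P
  apply Matrix.toLin'.injective
  rw [Matrix.toLin'_mul, Matrix.toLin'_mul, Matrix.toLin'_toMatrix']
  apply LinearMap.ext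
  intro v
  exact hφ v

theorem isConj_of_rank {n : Type*} [Fintype n] [DecidableEq n] (A B : Matrix n n F)
    (h : ∀ f : F[X], (aeval A f).rank = (aeval B f).rank) : IsConj A B := by
  obtain ⟨P, hP⟩ := exists_conj_of_rank A B h
  exact ⟨P, hP⟩

end Cfsg.Agent.Lib.Helper5_RankCrit
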