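import Cfsg.Agent.Lib.Helper5_SL2Cliff

set_option autoImplicit false

namespace Cfsg.Agent.Lib.Helper5_SL2Class

open Cfsg Matrix Cfsg.Agent.Lib.CharInd Cfsg.Agent.Lib.Helper5_GL2Char Cfsg.Agent.Lib.CharBasic
  Cfsg.Agent.Lib.Helper5_GL2Class Cfsg.Agent.Lib.Helper5_GL2Val Cfsg.Agent.Lib.Helper5_IndCoset
  Cfsg.Agent.Lib.CharComplete Cfsg.Agent.Lib.Helper5_SL2Res Cfsg.Agent.Lib.CharOrtho Cfsg.Agent.Lib.CharMore
  Cfsg.Agent.Lib.Helper5_SL2Cliff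
open scoped ComplexConjugate

variable {F : Type*} [Field F] [Fintype F] [DecidableEq F]

local notation "SL2" => Matrix.SpecialLinearGroup (Fin 2) F
local notation "toGL" => (Matrix.SpecialLinearGroup.toGL : Matrix.SpecialLinearGroup (Fin 2) F →* GL (Fin 2) F)

/-- cuspidal characters of `GL₂` -/
def IsCusp (χ : GL (Fin 2) F → ℂ) : Prop :=
  IsIrrCharacter (GL (Fin 2) F) χ ∧ χ 1 = (Fintype.card F : ℂ) - 1 ∧ χ (uu 1) = -1 ∧
    ∀ α β : MulChar F ℂ, classInner (ps α β) χ = 0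

/-- the Steinberg character of `SL₂` -/
noncomputable def StS : SL2 → ℂ := res (st 1)

theorem res_twist (γ : MulChar F ℂ) (χ : GL (Fin 2) F → ℂ) : res (detChar γ * χ) = res χ := by
  funext s
  unfold res
  rw [Pi.mul_apply]
  unfold detChar
  rw [toGL_val, s.2, map_one, one_mul]

theorem res_detChar (γ : MulChar F ℂ) : res (detChar γ) = fun _ => 1 := by
  funext s
  unfold res detChar
  rw [toGL_val, s.2, map_one]

theorem res_st (γ : MulChar F ℂ) : res (st γ) = StS := by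
  unfold StS
  rw [← res_twist γ (st 1), twist_st, mul_one]

theorem norm_add (ψ ψ' : SL2 → ℂ) (h : IsIrrCharacter SL2 ψ) (h' : IsIrrCharacter SL2 ψ') (hne : ψ' ≠ ψ) :
    classInner (ψ + ψ') (ψ + ψ') = 2 := by
  rw [classInner_add_left, classInner_add_right, classInner_add_right, classInner_irr_self h,
    classInner_irr_self h', classInner_irr_ne h h' hne.symm, classInner_irr_ne h' h hne]
  norm_num

theorem classifySL (ψ : SL2 → ℂ) (hψ : IsIrrCharacter SL2 ψ) :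
    ψ = (fun _ => 1) ∨ ψ = StS ∨ (∃ μ : MulChar F ℂ, μ ^ 2 ≠ 1 ∧ ψ = II μ) ∨
    (∃ (μ : MulChar F ℂ) (x : GL (Fin 2) F), μ ≠ 1 ∧ μ ^ 2 = 1 ∧ ψ ∘ cj x ≠ ψ ∧ II μ = ψ + ψ ∘ cj x) ∨
    (∃ χ : GL (Fin 2) F → ℂ, IsCusp χ ∧ ψ = res χ) ∨
    (∃ (χ : GL (Fin 2) F → ℂ) (x : GL (Fin 2) F), IsCusp χ ∧ ψ ∘ cj x ≠ ψ ∧ res χ = ψ + ψ ∘ cj x ∧
      ∃ γ : MulChar F ℂ, γ ≠ 1 ∧ γ ^ 2 = 1) := by
  classical
  obtain ⟨χ, hχ, hcase⟩ := structure_thm ψ hψ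
  have hsq : ∀ μ : MulChar F ℂ, μ = μ⁻¹ ↔ μ ^ 2 = 1 := by
    intro μ
    rw [sq, mul_eq_one_iff_eq_inv]
  rcases classify χ hχ with ⟨α, rfl⟩ | ⟨α, rfl⟩ | ⟨α, β, hαβ, rfl⟩ | ⟨h1, h2, h3⟩
  · rcases hcase with ⟨h, -⟩ | ⟨x, -, -, γ, hγ, hγ2⟩
    · left
      rw [h, res_detChar]
    · exfalso
      rw [twist_detChar] at hγ2
      exact hγ (mul_eq_right.1 (detChar_injective hγ2))
  · rcases hcase with ⟨h, -⟩ | ⟨x, -, -, γ, hγ, hγ2⟩
    · right; left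
      rw [h, res_st]
    · exfalso
      rw [twist_st] at hγ2
      exact hγ (mul_eq_right.1 (st_injective hγ2))
  · have hμ : α * β⁻¹ ≠ 1 := fun h => hαβ (mul_inv_eq_one.1 h)
    rw [res_ps] at hcase
    have hn := inner_II (α * β⁻¹) (α * β⁻¹)
    rcases hcase with ⟨h, -⟩ | ⟨x, hx1, hx2, -⟩
    · right; right; left
      refine ⟨α * β⁻¹, ?_, h⟩
      intro h2
      rw [← h, classInner_irr_self hψ, if_pos rfl, if_pos ((hsq _).2 h2)] at hn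
      norm_num at hn
    · right; right; right; left
      refine ⟨α * β⁻¹, x, hμ, ?_, hx1, hx2⟩
      by_contra h2
      rw [hx2, norm_add ψ _ hψ (cj_isIrr ψ hψ x) hx1, if_pos rfl, if_neg (fun h => h2 ((hsq _).1 h))] at hn
      norm_num at hn
  · rcases hcase with ⟨h, -⟩ | ⟨x, hx1, hx2, γ, hγ, hγ2⟩
    · right; right; right; right; left
      exact ⟨χ, ⟨hχ, h1, h2, h3⟩, h⟩
    · right; right; right; right; right
      exact ⟨χ, x, ⟨hχ, h1, h2, h3⟩, hx1, hx2, γ, hγ, sq_eq_one_of_twist γ χ hχ hγ2⟩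

/-- the unipotent elements -/
def uS (c : F) : SL2 := ⟨!![1, c; 0, 1], by rw [Matrix.det_fin_two_of]; ring⟩

theorem uS_val (c : F) : (uS c : Matrix (Fin 2) (Fin 2) F) = !![1, c; 0, 1] := rfl

theorem toGL_uS (c : F) : toGL (uS c) = uu c := Units.ext rfl

theorem res_one (χ : GL (Fin 2) F → ℂ) : res χ 1 = χ 1 := by
  unfold res
  rw [map_one]

theorem res_uS (χ : GL (Fin 2) F → ℂ) (hχ : IsClassFunction (GL (Fin 2) F) χ) (c : F) (hc : c ≠ 0) :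
    res χ (uS c) = χ (uu 1) := by
  unfold res
  rw [toGL_uS, class_uu χ hχ c hc]

theorem II_one (μ : MulChar F ℂ) : II μ 1 = (Fintype.card F : ℂ) + 1 := by
  rw [II_eq_res, res_one, ps_one]

theorem II_uS (μ : MulChar F ℂ) (c : F) (hc : c ≠ 0) : II μ (uS c) = 1 := by
  rw [II_eq_res, res_uS _ (ps_isClassFunction _ _) c hc, ps_uu]

theorem StS_one : (StS : SL2 → ℂ) 1 = (Fintype.card F : ℂ) := by
  unfold StS
  rw [res_one, st_one]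

theorem StS_uS (c : F) (hc : c ≠ 0) : (StS : SL2 → ℂ) (uS c) = 0 := by
  unfold StS
  rw [res_uS _ (isClassFunction_of_isCharacter (isCharacter_of_isIrr (st_isIrr 1))) c hc, st_uu]

theorem StS_isIrr : IsIrrCharacter SL2 (StS : SL2 → ℂ) := by
  classical
  apply isIrr_of_norm_one (res_isCharacter _ (isCharacter_of_isIrr (st_isIrr 1)))
  rw [inner_res]
  simp only [twist_st, mul_one]
  rw [Finset.sum_eq_single 1]
  · exact classInner_irr_self (st_isIrr 1)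
  · intro γ _ hγ
    exact classInner_irr_ne (st_isIrr γ) (st_isIrr 1) (fun h => hγ (st_injective h))
  · intro h; exact absurd (Finset.mem_univ _) h

theorem two_mul_half (ψ f : SL2 → ℂ) (x : GL (Fin 2) F) (h : f = ψ + ψ ∘ cj x) : 2 * ψ 1 = f 1 := by
  rw [h, Pi.add_apply, Function.comp, map_one]
  ring

/-- the classification with twice the degree as a natural number -/
theorem classifySL' (ψ : SL2 → ℂ) (hψ : IsIrrCharacter SL2 ψ) : ∃ d2 : ℕ, 2 * ψ 1 = (d2 : ℂ) ∧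
    ((d2 = 2 ∧ ψ = (fun _ => 1)) ∨ (d2 = 2 * Fintype.card F ∧ ψ = StS) ∨
    (d2 = 2 * Fintype.card F + 2 ∧ ∃ μ : MulChar F ℂ, μ ^ 2 ≠ 1 ∧ ψ = II μ) ∨
    (d2 = Fintype.card F + 1 ∧
      ∃ (μ : MulChar F ℂ) (x : GL (Fin 2) F), μ ≠ 1 ∧ μ ^ 2 = 1 ∧ ψ ∘ cj x ≠ ψ ∧ II μ = ψ + ψ ∘ cj x) ∨
    (d2 + 2 = 2 * Fintype.card F ∧ ∃ χ : GL (Fin 2) F → ℂ, IsCusp χ ∧ ψ = res χ) ∨
    (d2 + 1 = Fintype.card F ∧
      ∃ (χ : GL (Fin 2) F → ℂ) (x : GL (Fin 2) F), IsCusp χ ∧ ψ ∘ cj x ≠ ψ ∧ res χ = ψ + ψ ∘ cj x ∧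
      ∃ γ : MulChar F ℂ, γ ≠ 1 ∧ γ ^ 2 = 1)) := by
  have hq : 2 ≤ Fintype.card F := Fintype.one_lt_card
  rcases classifySL ψ hψ with h | h | ⟨μ, h1, h⟩ | ⟨μ, x, h1, h2, h3, h⟩ | ⟨χ, h1, h⟩ | ⟨χ, x, h1, h2, h, h3⟩
  · exact ⟨2, by rw [h]; norm_num, Or.inl ⟨rfl, h⟩⟩
  · exact ⟨2 * Fintype.card F, by rw [h, StS_one]; push_cast; ring, Or.inr (Or.inl ⟨rfl, h⟩)⟩
  · exact ⟨2 * Fintype.card F + 2, by rw [h, II_one]; push_cast; ring, Or.inr (Or.inr (Or.inl ⟨rfl, μ, h1, h⟩))⟩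
  · exact ⟨Fintype.card F + 1, by rw [two_mul_half ψ _ x h, II_one]; push_cast; ring,
      Or.inr (Or.inr (Or.inr (Or.inl ⟨rfl, μ, x, h1, h2, h3, h⟩)))⟩
  · exact ⟨2 * Fintype.card F - 2, by
      rw [h, res_one, h1.2.1, Nat.cast_sub (by omega)]; push_cast; ring,
      Or.inr (Or.inr (Or.inr (Or.inr (Or.inl ⟨by omega, χ, h1, h⟩))))⟩
  · exact ⟨Fintype.card F - 1, by
      rw [two_mul_half ψ _ x h, res_one, h1.2.1, Nat.cast_sub (by omega)]; push_cast; ring,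
      Or.inr (Or.inr (Or.inr (Or.inr (Or.inr ⟨by omega, χ, x, h1, h2, h, h3⟩))))⟩

end Cfsg.Agent.Lib.Helper5_SL2Class
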