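import Cfsg.Agent.Lib.Helper5_SL2Res
import Cfsg.Agent.Lib.CharClifford

set_option autoImplicit false

namespace Cfsg.Agent.Lib.Helper5_SL2Cliff

open Cfsg Matrix Cfsg.Agent.Lib.CharInd Cfsg.Agent.Lib.Helper5_GL2Char Cfsg.Agent.Lib.CharBasic
  Cfsg.Agent.Lib.Helper5_GL2Class Cfsg.Agent.Lib.Helper5_GL2Val Cfsg.Agent.Lib.Helper5_IndCoset
  Cfsg.Agent.Lib.CharComplete Cfsg.Agent.Lib.Helper5_SL2Res Cfsg.Agent.Lib.CharOrtho Cfsg.Agent.Lib.CharMore
  Cfsg.Agent.Lib.CharClifford Cfsg.Agent.Lib.CharPerm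
open scoped ComplexConjugate

variable {F : Type*} [Field F] [Fintype F] [DecidableEq F]

local notation "SL2" => Matrix.SpecialLinearGroup (Fin 2) F
local notation "toGL" => (Matrix.SpecialLinearGroup.toGL : Matrix.SpecialLinearGroup (Fin 2) F →* GL (Fin 2) F)

theorem twist_isIrr (γ : MulChar F ℂ) (χ : GL (Fin 2) F → ℂ) (hχ : IsIrrCharacter (GL (Fin 2) F) χ) :
    IsIrrCharacter (GL (Fin 2) F) (detChar γ * χ) := by
  apply isIrr_of_norm_one (isCharacter_mul (isCharacter_of_isIrr (detChar_isIrr γ)) (isCharacter_of_isIrr hχ))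
  rw [← classInner_irr_self hχ]
  unfold classInner
  congr 1
  refine Finset.sum_congr rfl fun g _ => ?_
  rw [Pi.mul_apply, map_mul]
  have h1 : detChar γ g * conj (detChar γ g) = 1 := by
    rw [Complex.mul_conj, Complex.normSq_eq_norm_sq, norm_detChar]
    simp
  linear_combination (χ g * conj (χ g)) * h1

instance : IsCyclic (MulChar F ℂ) :=
  isCyclic_of_surjective (MulChar.equiv_rootsOfUnity F ℂ).symm (MulChar.equiv_rootsOfUnity F ℂ).symm.surjective

/-- the scalar matrices -/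
noncomputable def sc (a : Fˣ) : GL (Fin 2) F := Matrix.GeneralLinearGroup.scalar (Fin 2) a

theorem sc_val (a : Fˣ) : (sc a : Matrix (Fin 2) (Fin 2) F) = !![(a : F), 0; 0, (a : F)] := by
  unfold sc
  ext i j
  fin_cases i <;> fin_cases j <;> simp [Matrix.GeneralLinearGroup.scalar]

theorem sc_mem_center (a : Fˣ) : sc a ∈ Subgroup.center (GL (Fin 2) F) := by
  rw [Subgroup.mem_center_iff]
  intro g
  apply Units.ext
  rw [Units.val_mul, Units.val_mul, sc_val]
  conv_lhs => rw [eta (g : Matrix (Fin 2) (Fin 2) F)]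
  conv_rhs => rw [eta (g : Matrix (Fin 2) (Fin 2) F)]
  ext i j
  fin_cases i <;> fin_cases j <;> simp [Matrix.mul_apply, Fin.sum_univ_two, mul_comm]

theorem sq_eq_one_of_twist (γ : MulChar F ℂ) (χ : GL (Fin 2) F → ℂ) (hχ : IsIrrCharacter (GL (Fin 2) F) χ)
    (h : detChar γ * χ = χ) : γ ^ 2 = 1 := by
  rw [MulChar.eq_one_iff]
  intro a
  obtain ⟨ω, hω, h1⟩ := central_mul χ hχ (sc a) (sc_mem_center a)
  have h2 := h1 1
  rw [mul_one] at h2
  have h3 : χ (sc a) ≠ 0 := by
    rw [h2]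
    apply mul_ne_zero
    · intro h0; rw [h0] at hω; simp at hω
    · exact irr_degree_ne_zero hχ
  have h4 := congrFun h (sc a)
  rw [Pi.mul_apply] at h4
  have h5 : detChar γ (sc a) = 1 := by
    apply mul_right_cancel₀ h3
    rw [h4, one_mul]
  unfold detChar at h5
  rw [sc_val, Matrix.det_fin_two_of, mul_zero, sub_zero] at h5
  rw [MulChar.pow_apply_coe, ← map_pow, sq]
  exact h5

open scoped Classical in
theorem norm_res (χ : GL (Fin 2) F → ℂ) (hχ : IsIrrCharacter (GL (Fin 2) F) χ) :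
    classInner (res χ) (res χ) = ((Finset.univ.filter (fun γ : MulChar F ℂ => detChar γ * χ = χ)).card : ℂ) := by
  rw [inner_res]
  have h1 : ∀ γ : MulChar F ℂ, classInner (detChar γ * χ) χ = if detChar γ * χ = χ then 1 else 0 := by
    intro γ
    exact classInner_irr (twist_isIrr γ χ hχ) hχ
  rw [Finset.sum_congr rfl fun γ _ => h1 γ, Finset.sum_boole]

open scoped Classical in
theorem card_twist_le (χ : GL (Fin 2) F → ℂ) (hχ : IsIrrCharacter (GL (Fin 2) F) χ) :
    (Finset.univ.filter (fun γ : MulChar F ℂ => detChar γ * χ = χ)).card ≤ 2 := by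
  refine le_trans (Finset.card_le_card ?_) (IsCyclic.card_pow_eq_one_le (α := MulChar F ℂ) (n := 2) (by norm_num))
  intro γ hγ
  simp only [Finset.mem_filter, Finset.mem_univ, true_and] at hγ ⊢
  exact sq_eq_one_of_twist γ χ hχ hγ

/-- conjugation by an element of `GL₂` -/
noncomputable def cj (x : GL (Fin 2) F) : SL2 ≃* SL2 where
  toFun s := ⟨(x : Matrix (Fin 2) (Fin 2) F) * s * ((x⁻¹ : GL (Fin 2) F) : Matrix (Fin 2) (Fin 2) F), by
    rw [Matrix.det_mul, Matrix.det_mul, s.2, mul_one, ← Matrix.det_mul, ← Units.val_mul, mul_inv_cancel,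
      Units.val_one, Matrix.det_one]⟩
  invFun s := ⟨((x⁻¹ : GL (Fin 2) F) : Matrix (Fin 2) (Fin 2) F) * s * (x : Matrix (Fin 2) (Fin 2) F), by
    rw [Matrix.det_mul, Matrix.det_mul, s.2, mul_one, ← Matrix.det_mul, ← Units.val_mul, inv_mul_cancel,
      Units.val_one, Matrix.det_one]⟩
  left_inv s := by
    apply Subtype.ext
    simp only
    rw [← mul_assoc, ← mul_assoc, ← Units.val_mul, inv_mul_cancel, Units.val_one, one_mul, mul_assoc,
      ← Units.val_mul, inv_mul_cancel, Units.val_one, mul_one]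
  right_inv s := by
    apply Subtype.ext
    simp only
    rw [← mul_assoc, ← mul_assoc, ← Units.val_mul, mul_inv_cancel, Units.val_one, one_mul, mul_assoc,
      ← Units.val_mul, mul_inv_cancel, Units.val_one, mul_one]
  map_mul' s t := by
    apply Subtype.ext
    simp only [Matrix.SpecialLinearGroup.coe_mul]
    have : ((x⁻¹ : GL (Fin 2) F) : Matrix (Fin 2) (Fin 2) F) * (x : Matrix (Fin 2) (Fin 2) F) = 1 := by
      rw [← Units.val_mul, inv_mul_cancel, Units.val_one]
    show (x : Matrix (Fin 2) (Fin 2) F) * ((s : Matrix (Fin 2) (Fin 2) F) * t) * ((x⁻¹ : GL (Fin 2) F) : Matrix (Fin 2) (Fin 2) F) =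
      ((x : Matrix (Fin 2) (Fin 2) F) * (s : Matrix (Fin 2) (Fin 2) F) * ((x⁻¹ : GL (Fin 2) F) : Matrix (Fin 2) (Fin 2) F)) *
      ((x : Matrix (Fin 2) (Fin 2) F) * (t : Matrix (Fin 2) (Fin 2) F) * ((x⁻¹ : GL (Fin 2) F) : Matrix (Fin 2) (Fin 2) F))
    calc (x : Matrix (Fin 2) (Fin 2) F) * ((s : Matrix (Fin 2) (Fin 2) F) * t) * ((x⁻¹ : GL (Fin 2) F) : Matrix (Fin 2) (Fin 2) F)
        = (x : Matrix (Fin 2) (Fin 2) F) * (s : Matrix (Fin 2) (Fin 2) F) * 1 * t * ((x⁻¹ : GL (Fin 2) F) : Matrix (Fin 2) (Fin 2) F) := by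
          simp only [mul_one, mul_assoc]
      _ = _ := by rw [← this]; simp only [mul_assoc]

theorem toGL_cj (x : GL (Fin 2) F) (s : SL2) : toGL (cj x s) = x * toGL s * x⁻¹ := Units.ext rfl

theorem res_cj (χ : GL (Fin 2) F → ℂ) (hχ : IsClassFunction (GL (Fin 2) F) χ) (x : GL (Fin 2) F) :
    res χ ∘ cj x = res χ := by
  funext s
  simp only [Function.comp, res]
  rw [toGL_cj, hχ]

theorem exists_over (ψ : SL2 → ℂ) (hψ : IsIrrCharacter SL2 ψ) :
    ∃ χ : GL (Fin 2) F → ℂ, IsIrrCharacter (GL (Fin 2) F) χ ∧ classInner (res χ) ψ ≠ 0 := by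
  by_contra hcon
  push Not at hcon
  have h1 : classInner (res (Representation.leftRegular ℂ (GL (Fin 2) F)).character) ψ = 0 := by
    rw [regular_expansion]
    have h2 : res (∑ χ : IrrCharacter (GL (Fin 2) F), (χ : GL (Fin 2) F → ℂ) 1 • (χ : GL (Fin 2) F → ℂ)) =
        ∑ χ : IrrCharacter (GL (Fin 2) F), (χ : GL (Fin 2) F → ℂ) 1 • res (χ : GL (Fin 2) F → ℂ) := by
      funext s
      simp [res, Finset.sum_apply]
    rw [h2, classInner_sum_left]
    apply Finset.sum_eq_zero
    intro χ _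
    rw [classInner_smul_left, hcon χ.1 χ.2, mul_zero]
  unfold classInner res at h1
  simp only [regular_char, ite_mul, zero_mul] at h1
  rw [Finset.sum_eq_single 1] at h1
  · rw [map_one, if_pos rfl] at h1
    have hS : (Nat.card SL2 : ℂ) ≠ 0 := by exact_mod_cast Nat.card_pos.ne'
    have hG : (Nat.card (GL (Fin 2) F) : ℂ) ≠ 0 := by exact_mod_cast Nat.card_pos.ne'
    have h3 : conj (ψ 1) ≠ 0 := (map_ne_zero _).2 (irr_degree_ne_zero hψ)
    exact (mul_ne_zero (inv_ne_zero hS) (mul_ne_zero hG h3)) h1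
  · intro s _ hs
    rw [if_neg]
    intro h
    apply hs
    apply toGL_injective
    rw [h, map_one]
  · intro h; exact absurd (Finset.mem_univ _) h

theorem clifford_SL (χ : GL (Fin 2) F → ℂ) (hχ : IsIrrCharacter (GL (Fin 2) F) χ) (ψ₁ ψ₂ : SL2 → ℂ)
    (h₁ : IsIrrCharacter SL2 ψ₁) (h₂ : IsIrrCharacter SL2 ψ₂)
    (e1 : classInner (res χ) ψ₁ ≠ 0) (e2 : classInner (res χ) ψ₂ ≠ 0) : ∃ x, ψ₂ = ψ₁ ∘ cj x := by
  let N : Subgroup (GL (Fin 2) F) := (toGL).range
  have hN : N.Normal := by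
    show (toGL).range.Normal
    rw [Cfsg.Agent.Lib.Helper5_Card.range_toGL_eq_ker_det]
    infer_instance
  let e : SL2 ≃* N := MonoidHom.ofInjective toGL_injective
  haveI : Fintype N := Fintype.ofFinite N
  have key : ∀ ψ : SL2 → ℂ, classInner (fun n : N => χ n) (ψ ∘ e.symm) = classInner (res χ) ψ := by
    intro ψ
    unfold classInner
    rw [Nat.card_congr e.toEquiv, ← e.toEquiv.sum_comp]
    congr 1
    refine Finset.sum_congr rfl fun s _ => ?_
    simp only [Function.comp, MulEquiv.toEquiv_eq_coe, EquivLike.coe_coe, MulEquiv.symm_apply_apply]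
    rfl
  obtain ⟨g, hg⟩ := clifford_conj N hN hχ (isIrr_comp_mulEquiv e.symm h₁) (isIrr_comp_mulEquiv e.symm h₂)
    (by rw [key]; exact e1) (by rw [key]; exact e2)
  refine ⟨g, ?_⟩
  funext s
  have h3 := congrFun hg (e s)
  simp only [Function.comp, MulEquiv.symm_apply_apply, conjFun] at h3
  rw [h3]
  simp only [Function.comp]
  congr 1
  rw [MulEquiv.symm_apply_eq]
  apply Subtype.ext
  exact (toGL_cj g s).symm

theorem res_isCharacter (χ : GL (Fin 2) F → ℂ) (hχ : IsCharacter (GL (Fin 2) F) χ) : IsCharacter SL2 (res χ) :=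
  isCharacter_comp toGL hχ

theorem cj_isIrr (ψ : SL2 → ℂ) (hψ : IsIrrCharacter SL2 ψ) (x : GL (Fin 2) F) : IsIrrCharacter SL2 (ψ ∘ cj x) :=
  isIrr_comp_mulEquiv (cj x) hψ

/-- the structure of the irreducible characters of `SL₂` -/
theorem structure_thm (ψ : SL2 → ℂ) (hψ : IsIrrCharacter SL2 ψ) :
    ∃ χ : GL (Fin 2) F → ℂ, IsIrrCharacter (GL (Fin 2) F) χ ∧
      ((ψ = res χ ∧ ∀ γ : MulChar F ℂ, detChar γ * χ = χ → γ = 1) ∨
        (∃ x, ψ ∘ cj x ≠ ψ ∧ res χ = ψ + ψ ∘ cj x ∧ ∃ γ : MulChar F ℂ, γ ≠ 1 ∧ detChar γ * χ = χ)) := by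
  classical
  obtain ⟨χ, hχ, hne⟩ := exists_over ψ hψ
  refine ⟨χ, hχ, ?_⟩
  have hnorm := norm_res χ hχ
  have hle := card_twist_le χ hχ
  have hchar := res_isCharacter χ (isCharacter_of_isIrr hχ)
  have h1mem : (1 : MulChar F ℂ) ∈ Finset.univ.filter (fun γ : MulChar F ℂ => detChar γ * χ = χ) := by
    simp only [Finset.mem_filter, Finset.mem_univ, true_and]
    funext g
    rw [Pi.mul_apply]
    unfold detChar
    rw [MulChar.one_apply (Matrix.isUnits_det_units g), one_mul]
  have hpos : 1 ≤ (Finset.univ.filter (fun γ : MulChar F ℂ => detChar γ * χ = χ)).card :=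
    Finset.card_pos.2 ⟨1, h1mem⟩
  rcases (by omega : (Finset.univ.filter (fun γ : MulChar F ℂ => detChar γ * χ = χ)).card = 1 ∨
      (Finset.univ.filter (fun γ : MulChar F ℂ => detChar γ * χ = χ)).card = 2) with hc | hc
  · left
    rw [hc, Nat.cast_one] at hnorm
    have hirr := isIrr_of_norm_one hchar hnorm
    constructor
    · by_contra h
      exact hne (classInner_irr_ne hirr hψ (fun h' => h h'.symm))
    · intro γ hγ
      obtain ⟨a, ha⟩ := Finset.card_eq_one.1 hc
      have h2 : γ ∈ Finset.univ.filter (fun γ : MulChar F ℂ => detChar γ * χ = χ) := by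
        simp only [Finset.mem_filter, Finset.mem_univ, true_and]
        exact hγ
      rw [ha, Finset.mem_singleton] at h2 h1mem
      rw [h2, h1mem]
  · right
    rw [hc] at hnorm
    obtain ⟨m, hm⟩ := classInner_char_nat hchar (isCharacter_of_isIrr hψ)
    have hm0 : m ≠ 0 := by
      intro h0
      rw [h0, Nat.cast_zero] at hm
      exact hne hm
    set φ : SL2 → ℂ := res χ - ψ with hφ
    have hcl : IsClassFunction SL2 φ := by
      intro g h
      rw [hφ, Pi.sub_apply, Pi.sub_apply, isClassFunction_of_isCharacter hchar g h,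
        isClassFunction_of_isCharacter (isCharacter_of_isIrr hψ) g h]
    have hφchar : IsCharacter SL2 φ := by
      apply isCharacter_of_classInner_nat _ hcl
      intro θ
      rw [hφ, classInner_sub_left]
      obtain ⟨n, hn⟩ := classInner_char_nat hchar (isCharacter_of_isIrr θ.2)
      by_cases h : ψ = θ
      · refine ⟨m - 1, ?_⟩
        rw [← h, hm, classInner_irr_self hψ, Nat.cast_sub (by omega), Nat.cast_one]
      · refine ⟨n, ?_⟩
        rw [hn, classInner_irr_ne hψ θ.2 h, sub_zero]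
    have hφnorm : classInner φ φ = 3 - 2 * (m : ℂ) := by
      rw [hφ, classInner_sub_left, classInner_sub_right, classInner_sub_right, hnorm, hm,
        classInner_irr_self hψ, ← classInner_conj_symm, hm, Complex.conj_natCast]
      push_cast
      ring
    obtain ⟨k, hk⟩ := classInner_char_nat hφchar hφchar
    have hm1 : m = 1 := by
      rw [hk] at hφnorm
      have h3 : (k : ℂ) + 2 * (m : ℂ) = 3 := by rw [hφnorm]; ring
      have h4 : k + 2 * m = 3 := by exact_mod_cast h3
      omega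
    rw [hm1] at hφnorm hm
    have hφirr : IsIrrCharacter SL2 φ := isIrr_of_norm_one hφchar (by rw [hφnorm]; norm_num)
    have hsum : res χ = ψ + φ := by rw [hφ]; ring
    have hφne : classInner (res χ) φ ≠ 0 := by
      rw [hsum, classInner_add_left, classInner_irr_self hφirr]
      obtain ⟨n, hn⟩ := classInner_char_nat (isCharacter_of_isIrr hψ) hφchar
      rw [hn]
      have : ((n + 1 : ℕ) : ℂ) ≠ 0 := by exact_mod_cast (by omega : n + 1 ≠ 0)
      simpa using this
    obtain ⟨x, hx⟩ := clifford_SL χ hχ ψ φ hψ hφirr hne hφne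
    refine ⟨x, ?_, by rw [← hx]; exact hsum, ?_⟩
    · rw [← hx]
      intro h
      rw [hsum, h, classInner_add_left, classInner_irr_self hψ] at hm
      norm_num at hm
    · obtain ⟨a, b, hab, hs⟩ := Finset.card_eq_two.1 hc
      by_cases ha : a = 1
      · refine ⟨b, fun h => hab (by rw [ha, h]), ?_⟩
        have : b ∈ Finset.univ.filter (fun γ : MulChar F ℂ => detChar γ * χ = χ) := by rw [hs]; simp
        simpa using this
      · refine ⟨a, ha, ?_⟩
        have : a ∈ Finset.univ.filter (fun γ : MulChar F ℂ => detChar γ * χ = χ) := by rw [hs]; simp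
        simpa using this

end Cfsg.Agent.Lib.Helper5_SL2Cliff
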