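import Cfsg.Agent.Lib.Helper5_SL2Odd2

set_option autoImplicit false

namespace Cfsg.Agent.Lib.Helper5_SL2Delta

open Cfsg Matrix Cfsg.Agent.Lib.CharInd Cfsg.Agent.Lib.Helper5_GL2Char Cfsg.Agent.Lib.CharBasic
  Cfsg.Agent.Lib.Helper5_GL2Class Cfsg.Agent.Lib.Helper5_GL2Val Cfsg.Agent.Lib.Helper5_IndCoset
  Cfsg.Agent.Lib.CharComplete Cfsg.Agent.Lib.Helper5_SL2Res Cfsg.Agent.Lib.CharOrtho Cfsg.Agent.Lib.CharMore
  Cfsg.Agent.Lib.Helper5_SL2Cliff Cfsg.Agent.Lib.Helper5_SL2Class Cfsg.Agent.Lib.Helper5_GL2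
  Cfsg.Agent.Lib.Helper5_SL2Odd Cfsg.Agent.Lib.Helper5_SL2Odd2
open scoped ComplexConjugate

variable {F : Type*} [Field F] [Fintype F] [DecidableEq F]

local notation "SL2" => Matrix.SpecialLinearGroup (Fin 2) F
local notation "toGL" => (Matrix.SpecialLinearGroup.toGL : Matrix.SpecialLinearGroup (Fin 2) F →* GL (Fin 2) F)

/-- two nonscalar elements with the same trace are conjugate under `GL₂` -/
theorem exists_cj_of_trace (g h : SL2)
    (hg : ¬ ∃ c : F, (g : Matrix (Fin 2) (Fin 2) F) = c • (1 : Matrix (Fin 2) (Fin 2) F))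
    (hh : ¬ ∃ c : F, (h : Matrix (Fin 2) (Fin 2) F) = c • (1 : Matrix (Fin 2) (Fin 2) F))
    (htr : (g : Matrix (Fin 2) (Fin 2) F).trace = (h : Matrix (Fin 2) (Fin 2) F).trace) :
    ∃ w : GL (Fin 2) F, g = cj w h := by
  have h1 := gl_conj_comp (toGL g) hg
  have h2 := gl_conj_comp (toGL h) hh
  have d1 : Matrix.GeneralLinearGroup.det (toGL g) = 1 := by
    apply Units.ext
    simp
  have d2 : Matrix.GeneralLinearGroup.det (toGL h) = 1 := by
    apply Units.ext
    simp
  rw [d1, toGL_val] at h1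
  rw [d2, toGL_val, ← htr] at h2
  obtain ⟨w, hw⟩ := isConj_iff.1 (h2.symm.trans h1)
  refine ⟨w, ?_⟩
  apply toGL_injective
  rw [toGL_cj, hw]

/-- the central involution -/
def zS : SL2 := ⟨!![-1, 0; 0, -1], by rw [Matrix.det_fin_two_of]; ring⟩

theorem zS_val : (zS : SL2).1 = !![-1, 0; 0, -1] := rfl

theorem zS_mul_val (s : SL2) : ((zS * s : SL2) : Matrix (Fin 2) (Fin 2) F) = - (s : Matrix (Fin 2) (Fin 2) F) := by
  rw [Matrix.SpecialLinearGroup.coe_mul]
  show !![-1, 0; 0, -1] * (s : Matrix (Fin 2) (Fin 2) F) = _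
  ext i j
  fin_cases i <;> fin_cases j <;> simp [Matrix.mul_apply, Fin.sum_univ_two]

theorem zS_mem_center : (zS : SL2) ∈ Subgroup.center SL2 := by
  rw [Subgroup.mem_center_iff]
  intro g
  apply Subtype.ext
  rw [zS_mul_val, Matrix.SpecialLinearGroup.coe_mul]
  show (g : Matrix (Fin 2) (Fin 2) F) * !![-1, 0; 0, -1] = _
  ext i j
  fin_cases i <;> fin_cases j <;> simp [Matrix.mul_apply, Fin.sum_univ_two]

theorem cj_zS_mul (x : GL (Fin 2) F) (s : SL2) : cj x (zS * s) = zS * cj x s := by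
  apply Subtype.ext
  rw [zS_mul_val]
  show (x : Matrix (Fin 2) (Fin 2) F) * ((zS * s : SL2) : Matrix (Fin 2) (Fin 2) F) * _ =
    -((x : Matrix (Fin 2) (Fin 2) F) * (s : Matrix (Fin 2) (Fin 2) F) * _)
  rw [zS_mul_val, mul_neg, neg_mul]

theorem cj_scalar (x : GL (Fin 2) F) (s : SL2) (c : F)
    (h : (s : Matrix (Fin 2) (Fin 2) F) = c • (1 : Matrix (Fin 2) (Fin 2) F)) : cj x s = s := by
  apply Subtype.ext
  show (x : Matrix (Fin 2) (Fin 2) F) * (s : Matrix (Fin 2) (Fin 2) F) * ((x⁻¹ : GL (Fin 2) F) : Matrix (Fin 2) (Fin 2) F) = _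
  rw [h, mul_smul_comm, mul_one, smul_mul_assoc, ← Units.val_mul, mul_inv_cancel, Units.val_one]

section delta

variable (hodd : Odd (Fintype.card F)) (ψ : Matrix.SpecialLinearGroup (Fin 2) F → ℂ)
  (hψ : IsIrrCharacter (Matrix.SpecialLinearGroup (Fin 2) F) ψ) (x : GL (Fin 2) F)
  (hne : ψ ∘ cj x ≠ ψ)

/-- the difference of the two conjugate characters -/
noncomputable def dl (ψ : SL2 → ℂ) (x : GL (Fin 2) F) : SL2 → ℂ := ψ - ψ ∘ cj x

include hψ in
theorem dl_cj_sq (w : GL (Fin 2) F) (hw : IsSquare (w : Matrix (Fin 2) (Fin 2) F).det) :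
    dl ψ x ∘ cj w = dl ψ x := by
  have hcl := isClassFunction_of_isCharacter (isCharacter_of_isIrr hψ)
  have hcl' := isClassFunction_of_isCharacter (isCharacter_of_isIrr (cj_isIrr ψ hψ x))
  have h1 := comp_cj_of_sq ψ hcl w hw
  have h2 := comp_cj_of_sq _ hcl' w hw
  funext s
  have e1 := congrFun h1 s
  have e2 := congrFun h2 s
  simp only [Function.comp, dl, Pi.sub_apply] at e1 e2 ⊢
  rw [e1, e2]

include hψ hne in
theorem dl_cj_nonsq (w : GL (Fin 2) F) (hw : ¬ IsSquare (w : Matrix (Fin 2) (Fin 2) F).det) :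
    dl ψ x ∘ cj w = - dl ψ x := by
  have hcl := isClassFunction_of_isCharacter (isCharacter_of_isIrr hψ)
  have hx := det_nonsq_of_ne ψ hcl x hne
  have h1 := comp_cj_of_nonsq ψ hcl w x hw hx
  have h2 := comp_cj_of_sq ψ hcl (x * w) (by
    rw [Units.val_mul, Matrix.det_mul]
    exact isSquare_mul_of_not hx hw)
  funext s
  have e1 := congrFun h1 s
  have e2 := congrFun h2 s
  simp only [Function.comp, dl, Pi.sub_apply, Pi.neg_apply] at e1 e2 ⊢
  rw [cj_mul] at e2
  rw [e1, e2]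
  ring

/-- the squared absolute value -/
noncomputable def ph (ψ : SL2 → ℂ) (x : GL (Fin 2) F) : SL2 → ℂ := fun g => dl ψ x g * conj (dl ψ x g)

include hψ hne in
theorem ph_cj (w : GL (Fin 2) F) (s : SL2) : ph ψ x (cj w s) = ph ψ x s := by
  unfold ph
  by_cases hw : IsSquare (w : Matrix (Fin 2) (Fin 2) F).det
  · have := congrFun (dl_cj_sq ψ hψ x w hw) s
    simp only [Function.comp] at this
    rw [this]
  · have := congrFun (dl_cj_nonsq ψ hψ x hne w hw) s
    simp only [Function.comp, Pi.neg_apply] at this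
    rw [this, map_neg]
    ring

include hψ hne in
theorem ph_isClassFunction : IsClassFunction SL2 (ph ψ x) := by
  intro g h
  rw [← cj_toGL, ph_cj ψ hψ x hne]

include hψ hodd in
theorem dl_of_disc (g : SL2) (hdisc : (g : Matrix (Fin 2) (Fin 2) F).trace ^ 2 ≠ 4) : dl ψ x g = 0 := by
  have hcl := isClassFunction_of_isCharacter (isCharacter_of_isIrr hψ)
  unfold dl
  rw [Pi.sub_apply, Function.comp, ← class_isConj ψ hcl (cj_conj_of_disc hodd g hdisc x), sub_self]

theorem dl_of_scalar (g : SL2) (c : F)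
    (h : (g : Matrix (Fin 2) (Fin 2) F) = c • (1 : Matrix (Fin 2) (Fin 2) F)) : dl ψ x g = 0 := by
  unfold dl
  rw [Pi.sub_apply, Function.comp, cj_scalar x g c h, sub_self]

include hψ in
theorem ph_zS_mul (s : SL2) : ph ψ x (zS * s) = ph ψ x s := by
  obtain ⟨ω, hω, h1⟩ := central_mul ψ hψ zS zS_mem_center
  have h2 : dl ψ x (zS * s) = ω * dl ψ x s := by
    unfold dl
    simp only [Pi.sub_apply, Function.comp]
    rw [cj_zS_mul, h1, h1]
    ring
  unfold ph
  rw [h2, map_mul]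
  have h3 : ω * conj ω = 1 := by
    rw [Complex.mul_conj, Complex.normSq_eq_norm_sq, hω]
    simp
  linear_combination (dl ψ x s * conj (dl ψ x s)) * h3

include hψ hne in
theorem norm_dl : classInner (dl ψ x) (dl ψ x) = 2 := by
  have hψ' := cj_isIrr ψ hψ x
  unfold dl
  rw [classInner_sub_left, classInner_sub_right, classInner_sub_right, classInner_irr_self hψ,
    classInner_irr_self hψ', classInner_irr_ne hψ hψ' hne.symm, classInner_irr_ne hψ' hψ hne]
  norm_num

theorem uS_not_scalar (c : F) (hc : c ≠ 0) :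
    ¬ ∃ a : F, (uS c : Matrix (Fin 2) (Fin 2) F) = a • (1 : Matrix (Fin 2) (Fin 2) F) := by
  rintro ⟨a, ha⟩
  have := congrFun (congrFun ha 0) 1
  simp [uS_val] at this
  exact hc this

theorem neg_not_scalar (g : SL2)
    (hg : ¬ ∃ c : F, (g : Matrix (Fin 2) (Fin 2) F) = c • (1 : Matrix (Fin 2) (Fin 2) F)) :
    ¬ ∃ c : F, ((zS * g : SL2) : Matrix (Fin 2) (Fin 2) F) = c • (1 : Matrix (Fin 2) (Fin 2) F) := by
  rintro ⟨c, hc⟩
  rw [zS_mul_val] at hc
  exact hg ⟨-c, by rw [neg_smul, ← hc, neg_neg]⟩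

theorem trace_uS (c : F) : (uS c : Matrix (Fin 2) (Fin 2) F).trace = 2 := by
  rw [uS_val, Matrix.trace_fin_two_of]
  norm_num

/-- nonscalar elements of discriminant zero -/
theorem exists_cj_uS (g : SL2)
    (hg : ¬ ∃ c : F, (g : Matrix (Fin 2) (Fin 2) F) = c • (1 : Matrix (Fin 2) (Fin 2) F))
    (hdisc : (g : Matrix (Fin 2) (Fin 2) F).trace ^ 2 = 4) :
    ∃ w : GL (Fin 2) F, g = cj w (uS 1) ∨ g = cj w (zS * uS 1) := by
  have : ((g : Matrix (Fin 2) (Fin 2) F).trace - 2) * ((g : Matrix (Fin 2) (Fin 2) F).trace + 2) = 0 := by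
    linear_combination hdisc
  rcases mul_eq_zero.1 this with h | h
  · obtain ⟨w, hw⟩ := exists_cj_of_trace g (uS 1) hg (uS_not_scalar 1 one_ne_zero) (by
      rw [trace_uS]; linear_combination h)
    exact ⟨w, Or.inl hw⟩
  · obtain ⟨w, hw⟩ := exists_cj_of_trace g (zS * uS 1) hg (neg_not_scalar _ (uS_not_scalar 1 one_ne_zero)) (by
      rw [zS_mul_val, Matrix.trace_neg, trace_uS]; linear_combination h)
    exact ⟨w, Or.inr hw⟩

include hψ hne in
theorem ph_of_unip (g : SL2)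
    (hg : ¬ ∃ c : F, (g : Matrix (Fin 2) (Fin 2) F) = c • (1 : Matrix (Fin 2) (Fin 2) F))
    (hdisc : (g : Matrix (Fin 2) (Fin 2) F).trace ^ 2 = 4) : ph ψ x g = ph ψ x (uS 1) := by
  obtain ⟨w, hw | hw⟩ := exists_cj_uS g hg hdisc
  · rw [hw, ph_cj ψ hψ x hne]
  · rw [hw, ph_cj ψ hψ x hne, ph_zS_mul ψ hψ]

theorem II_one_of_unip (g : SL2)
    (hg : ¬ ∃ c : F, (g : Matrix (Fin 2) (Fin 2) F) = c • (1 : Matrix (Fin 2) (Fin 2) F))
    (hdisc : (g : Matrix (Fin 2) (Fin 2) F).trace ^ 2 = 4) : II (1 : MulChar F ℂ) g = 1 := by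
  have hinv : ∀ (w : GL (Fin 2) F) (s : SL2), II (1 : MulChar F ℂ) (cj w s) = II (1 : MulChar F ℂ) s := by
    intro w s
    rw [II_eq_res]
    exact congrFun (res_cj _ (ps_isClassFunction _ _) w) s
  obtain ⟨w, hw | hw⟩ := exists_cj_uS g hg hdisc
  · rw [hw, hinv, II_uS 1 1 one_ne_zero]
  · rw [hw, hinv, II_eq_res]
    unfold res
    rw [ps_apply, toGL_val, zS_mul_val, uS_val]
    have h1 : (-1 : F) ≠ 0 := by simp
    simp [MulChar.one_apply h1.isUnit]

/-- the Borel subgroup of `SL₂` -/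
noncomputable def borelS : Fˣ × F ≃ ((upperTriangularGL 2 F).comap Matrix.SpecialLinearGroup.toGL :
    Subgroup (Matrix.SpecialLinearGroup (Fin 2) F)) where
  toFun y := ⟨⟨!![(y.1 : F), y.2; 0, ((y.1⁻¹ : Fˣ) : F)], by
      rw [Matrix.det_fin_two_of, mul_zero, sub_zero, ← Units.val_mul, mul_inv_cancel, Units.val_one]⟩,
    (mem_BB _).2 rfl⟩
  invFun b := (Units.mk0 (((b : SL2) : Matrix (Fin 2) (Fin 2) F) 0 0)
      (BB_diag_ne (⟨toGL (b : SL2), b.2⟩ : upperTriangularGL 2 F)).1,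
    ((b : SL2) : Matrix (Fin 2) (Fin 2) F) 0 1)
  left_inv y := by
    obtain ⟨a, c⟩ := y
    ext <;> simp
  right_inv b := by
    apply Subtype.ext
    apply Subtype.ext
    have h10 : ((b : SL2) : Matrix (Fin 2) (Fin 2) F) 1 0 = 0 := (mem_BB (toGL (b : SL2))).1 b.2
    have hdet := (b : SL2).2
    rw [Matrix.det_fin_two, h10, mul_zero, sub_zero] at hdet
    have h11 : (((b : SL2) : Matrix (Fin 2) (Fin 2) F) 0 0)⁻¹ = ((b : SL2) : Matrix (Fin 2) (Fin 2) F) 1 1 :=
      inv_eq_of_mul_eq_one_right hdet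
    show !![((b : SL2) : Matrix (Fin 2) (Fin 2) F) 0 0, ((b : SL2) : Matrix (Fin 2) (Fin 2) F) 0 1; 0,
      (((b : SL2) : Matrix (Fin 2) (Fin 2) F) 0 0)⁻¹] = ((b : SL2) : Matrix (Fin 2) (Fin 2) F)
    conv_rhs => rw [eta2 ((b : SL2) : Matrix (Fin 2) (Fin 2) F), h10]
    rw [h11]

theorem borelS_val (a : Fˣ) (c : F) :
    ((borelS (a, c) : SL2) : Matrix (Fin 2) (Fin 2) F) = !![(a : F), c; 0, ((a⁻¹ : Fˣ) : F)] := rfl

theorem card_borelS : Nat.card ((upperTriangularGL 2 F).comap Matrix.SpecialLinearGroup.toGL :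
    Subgroup (Matrix.SpecialLinearGroup (Fin 2) F)) = (Fintype.card F - 1) * Fintype.card F := by
  rw [← Nat.card_congr (borelS (F := F)), Nat.card_prod, Nat.card_eq_fintype_card,
    Nat.card_eq_fintype_card, Fintype.card_units]

include hodd hψ hne in
theorem ph_borelS (a : Fˣ) (c : F) :
    ph ψ x (borelS (a, c) : SL2) = if (a : F) ^ 2 = 1 ∧ c ≠ 0 then ph ψ x (uS 1) else 0 := by
  have htr : ((borelS (a, c) : SL2) : Matrix (Fin 2) (Fin 2) F).trace = (a : F) + (a : F)⁻¹ := by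
    rw [borelS_val, Matrix.trace_fin_two_of, Units.val_inv_eq_inv_val]
  have ha : (a : F) ≠ 0 := a.ne_zero
  by_cases h1 : (a : F) ^ 2 = 1
  · have hinv : (a : F)⁻¹ = a := by
      field_simp
      rw [← h1]
    by_cases hc : c = 0
    · rw [if_neg (by simp [hc])]
      unfold ph
      rw [dl_of_scalar ψ x _ (a : F) (by
        rw [borelS_val, hc, Units.val_inv_eq_inv_val, hinv]
        ext i j
        fin_cases i <;> fin_cases j <;> simp)]
      simp
    · rw [if_pos ⟨h1, hc⟩]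
      apply ph_of_unip ψ hψ x hne
      · rintro ⟨b, hb⟩
        have := congrFun (congrFun hb 0) 1
        rw [borelS_val] at this
        simp at this
        exact hc this
      · rw [htr, hinv]
        linear_combination 4 * h1
  · rw [if_neg (fun h => h1 h.1)]
    unfold ph
    rw [dl_of_disc hodd ψ hψ x]
    · simp
    · rw [htr]
      intro h
      apply h1
      have h2 : ((a : F) ^ 2 - 1) ^ 2 = 0 := by
        field_simp at h
        linear_combination h
      have h3 := pow_eq_zero_iff (two_ne_zero) |>.1 h2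
      linear_combination h3

include hodd hψ hne in
/-- the key evaluation -/
theorem ph_uS : ph ψ x (uS 1) = (Fintype.card F : ℂ) := by
  classical
  haveI : Fintype ((upperTriangularGL 2 F).comap Matrix.SpecialLinearGroup.toGL :
    Subgroup (Matrix.SpecialLinearGroup (Fin 2) F)) := Fintype.ofFinite _
  have hfr := frobenius_reciprocity ((upperTriangularGL 2 F).comap Matrix.SpecialLinearGroup.toGL :
    Subgroup (Matrix.SpecialLinearGroup (Fin 2) F))
    (fun b => (1 : MulChar F ℂ) (((b : Matrix.SpecialLinearGroup (Fin 2) F) : Matrix (Fin 2) (Fin 2) F) 0 0))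
    (ph ψ x) (ph_isClassFunction ψ hψ x hne)
  have hconj : ∀ g, conj (ph ψ x g) = ph ψ x g := by
    intro g
    unfold ph
    rw [map_mul, Complex.conj_conj, mul_comm]
  have hL : classInner (II (1 : MulChar F ℂ)) (ph ψ x) = 2 := by
    rw [← norm_dl ψ hψ x hne]
    unfold classInner
    congr 1
    refine Finset.sum_congr rfl fun g _ => ?_
    rw [hconj]
    by_cases hdisc : (g : Matrix (Fin 2) (Fin 2) F).trace ^ 2 = 4
    · by_cases hg : ∃ c : F, (g : Matrix (Fin 2) (Fin 2) F) = c • (1 : Matrix (Fin 2) (Fin 2) F)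
      · obtain ⟨c, hc⟩ := hg
        unfold ph
        rw [dl_of_scalar ψ x g c hc]
        simp
      · rw [II_one_of_unip g hg hdisc, one_mul]
        rfl
    · unfold ph
      rw [dl_of_disc hodd ψ hψ x g hdisc]
      simp
  have hq : 2 ≤ Fintype.card F := Fintype.one_lt_card
  have hne1 : (1 : Fˣ) ≠ -1 := by
    intro h
    have h2 := congrArg Units.val h
    rw [Units.val_one, Units.val_neg, Units.val_one] at h2
    exact two_ne hodd (by linear_combination h2)
  have hR : classInner (fun b : ((upperTriangularGL 2 F).comap Matrix.SpecialLinearGroup.toGL :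
      Subgroup (Matrix.SpecialLinearGroup (Fin 2) F)) =>
      (1 : MulChar F ℂ) (((b : Matrix.SpecialLinearGroup (Fin 2) F) : Matrix (Fin 2) (Fin 2) F) 0 0))
      (fun b => ph ψ x b) =
      ((((Fintype.card F - 1) * Fintype.card F : ℕ) : ℂ))⁻¹ * (2 * (((Fintype.card F : ℂ) - 1) * ph ψ x (uS 1))) := by
    unfold classInner
    rw [card_borelS, ← (borelS (F := F)).sum_comp, Fintype.sum_prod_type]
    congr 1
    have h1 : ∀ (a : Fˣ) (c : F), (1 : MulChar F ℂ) (((borelS (a, c) : SL2) : Matrix (Fin 2) (Fin 2) F) 0 0) *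
        conj (ph ψ x (borelS (a, c) : SL2)) = if (a : F) ^ 2 = 1 ∧ c ≠ 0 then ph ψ x (uS 1) else 0 := by
      intro a c
      rw [hconj, ph_borelS hodd ψ hψ x hne, borelS_val]
      simp
    simp only [h1]
    have h2 : ∀ a : Fˣ, ∑ c : F, (if (a : F) ^ 2 = 1 ∧ c ≠ 0 then ph ψ x (uS 1) else 0) =
        if (a : F) ^ 2 = 1 then ((Fintype.card F : ℂ) - 1) * ph ψ x (uS 1) else 0 := by
      intro a
      by_cases ha : (a : F) ^ 2 = 1
      · simp only [ha, true_and, if_true]
        rw [← Finset.sum_filter, Finset.sum_const, Finset.filter_ne', Finset.card_erase_of_mem (Finset.mem_univ _),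
          Finset.card_univ, nsmul_eq_mul, Nat.cast_sub (by omega), Nat.cast_one]
      · simp [ha]
    simp only [h2]
    rw [← Finset.sum_filter, Finset.sum_const]
    have h3 : (Finset.univ.filter (fun a : Fˣ => (a : F) ^ 2 = 1)) = {1, -1} := by
      ext a
      simp only [Finset.mem_filter, Finset.mem_univ, true_and, Finset.mem_insert, Finset.mem_singleton,
        sq_eq_one_iff, Units.ext_iff, Units.val_one, Units.val_neg]
    rw [h3, Finset.card_pair hne1]
    simp
  have hfr' : classInner (II (1 : MulChar F ℂ)) (ph ψ x) = _ := hfr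
  rw [hL, hR] at hfr'
  have c1 : ((Fintype.card F : ℂ) - 1) ≠ 0 := by
    have : ((Fintype.card F - 1 : ℕ) : ℂ) ≠ 0 := by exact_mod_cast (by omega : Fintype.card F - 1 ≠ 0)
    rwa [Nat.cast_sub (by omega), Nat.cast_one] at this
  have c2 : (Fintype.card F : ℂ) ≠ 0 := by exact_mod_cast (by omega : Fintype.card F ≠ 0)
  rw [Nat.cast_mul, Nat.cast_sub (by omega), Nat.cast_one] at hfr'
  field_simp at hfr'
  exact hfr'.symm

include hodd hψ hne in
/-- the square of the difference at the transvection -/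
theorem dl_uS_sq : dl ψ x (uS 1) ^ 2 = (-1 : ℂ) ^ ((Fintype.card F - 1) / 2) * (Fintype.card F : ℂ) := by
  have h1 := ph_uS hodd ψ hψ x hne
  unfold ph at h1
  have hchar := isCharacter_of_isIrr hψ
  have hchar' := isCharacter_of_isIrr (cj_isIrr ψ hψ x)
  have h2 : conj (dl ψ x (uS 1)) = dl ψ x (uS 1)⁻¹ := by
    unfold dl
    rw [Pi.sub_apply, Pi.sub_apply, map_sub, isCharacter_inv hchar, isCharacter_inv hchar']
  have h3 : (uS (1 : F))⁻¹ = cj (dgHom (-1)) (uS 1) := by
    rw [cj_dg_uS]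
    apply inv_eq_of_mul_eq_one_right
    apply Subtype.ext
    rw [Matrix.SpecialLinearGroup.coe_mul, uS_val, uS_val]
    ext i j
    fin_cases i <;> fin_cases j <;> simp [Matrix.mul_apply, Fin.sum_univ_two]
  rw [h2, h3] at h1
  obtain ⟨k, hk⟩ := hodd
  have hk2 : (Fintype.card F - 1) / 2 = k := by omega
  rw [hk2]
  by_cases hsq : IsSquare (-1 : F)
  · have h4 := congrFun (dl_cj_sq ψ hψ x (dgHom (-1)) (by rw [det_dgHom]; simpa using hsq)) (uS 1)
    simp only [Function.comp] at h4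
    rw [h4] at h1
    have h5 := FiniteField.isSquare_neg_one_iff.1 hsq
    have h6 : Even k := by
      rw [Nat.even_iff]; omega
    rw [h6.neg_one_pow, one_mul, sq, h1]
  · have h4 := congrFun (dl_cj_nonsq ψ hψ x hne (dgHom (-1)) (by rw [det_dgHom]; simpa using hsq)) (uS 1)
    simp only [Function.comp, Pi.neg_apply] at h4
    rw [h4] at h1
    have h5 : Fintype.card F % 4 = 3 := by
      by_contra h
      exact hsq (FiniteField.isSquare_neg_one_iff.2 h)
    have h6 : Odd k := by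
      rw [Nat.odd_iff]; omega
    rw [h6.neg_one_pow, sq]
    linear_combination -h1

end delta

end Cfsg.Agent.Lib.Helper5_SL2Delta
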