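import Cfsg.Agent.Lib.Helper5_SL2Class
import Cfsg.Agent.Lib.Helper5_GL2

set_option autoImplicit false

namespace Cfsg.Agent.Lib.Helper5_SL2Odd

open Cfsg Matrix Cfsg.Agent.Lib.CharInd Cfsg.Agent.Lib.Helper5_GL2Char Cfsg.Agent.Lib.CharBasic
  Cfsg.Agent.Lib.Helper5_GL2Class Cfsg.Agent.Lib.Helper5_GL2Val Cfsg.Agent.Lib.Helper5_IndCoset
  Cfsg.Agent.Lib.CharComplete Cfsg.Agent.Lib.Helper5_SL2Res Cfsg.Agent.Lib.CharOrtho Cfsg.Agent.Lib.CharMore
  Cfsg.Agent.Lib.Helper5_SL2Cliff Cfsg.Agent.Lib.Helper5_SL2Class Cfsg.Agent.Lib.Helper5_GL2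
open scoped ComplexConjugate

variable {F : Type*} [Field F] [Fintype F] [DecidableEq F]

local notation "SL2" => Matrix.SpecialLinearGroup (Fin 2) F
local notation "toGL" => (Matrix.SpecialLinearGroup.toGL : Matrix.SpecialLinearGroup (Fin 2) F →* GL (Fin 2) F)

theorem ringChar_ne_two (hodd : Odd (Fintype.card F)) : ringChar F ≠ 2 := by
  intro h
  have := FiniteField.even_card_of_char_two h
  rw [Nat.odd_iff] at hodd
  omega

theorem two_ne (hodd : Odd (Fintype.card F)) : (2 : F) ≠ 0 := Ring.two_ne_zero (ringChar_ne_two hodd)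

theorem isSquare_mul_of_not {a b : F} (ha : ¬ IsSquare a) (hb : ¬ IsSquare b) : IsSquare (a * b) := by
  have ha0 : a ≠ 0 := by rintro rfl; exact ha (IsSquare.zero)
  have hb0 : b ≠ 0 := by rintro rfl; exact hb (IsSquare.zero)
  rw [← quadraticChar_one_iff_isSquare (mul_ne_zero ha0 hb0), map_mul,
    quadraticChar_neg_one_iff_not_isSquare.2 ha, quadraticChar_neg_one_iff_not_isSquare.2 hb]
  norm_num

theorem exists_norm (hodd : Odd (Fintype.card F)) (τ lam : F) (hτ : τ ^ 2 ≠ 4) :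
    ∃ a b : F, a ^ 2 + τ * a * b + b ^ 2 = lam := by
  have h2 := two_ne hodd
  have h4 : (4 : F) ≠ 0 := by
    have : (4 : F) = 2 * 2 := by norm_num
    rw [this]; exact mul_ne_zero h2 h2
  have hD : 1 - τ ^ 2 / 4 ≠ 0 := by
    intro h
    apply hτ
    field_simp at h
    linear_combination -h
  obtain ⟨X, b, hXb⟩ := FiniteField.exists_root_sum_quadratic (R := F)
    (f := Polynomial.X ^ 2) (g := Polynomial.C (1 - τ ^ 2 / 4) * Polynomial.X ^ 2 + Polynomial.C 0 * Polynomial.X + Polynomial.C (-lam))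
    (Polynomial.degree_X_pow 2) (Polynomial.degree_quadratic hD) (Nat.odd_iff.1 hodd)
  simp only [Polynomial.eval_pow, Polynomial.eval_X, Polynomial.eval_add, Polynomial.eval_mul, Polynomial.eval_C] at hXb
  refine ⟨X - τ * b / 2, b, ?_⟩
  field_simp
  field_simp at hXb
  linear_combination hXb

theorem cj_mul (x y : GL (Fin 2) F) (s : SL2) : cj (x * y) s = cj x (cj y s) := by
  apply toGL_injective
  rw [toGL_cj, toGL_cj, toGL_cj]
  group

theorem cj_toGL (t s : SL2) : cj (toGL t) s = t * s * t⁻¹ := by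
  apply toGL_injective
  rw [toGL_cj, map_mul, map_mul, map_inv]

theorem cj_sc (a : Fˣ) (s : SL2) : cj (sc a) s = s := by
  apply toGL_injective
  rw [toGL_cj, ← Subgroup.mem_center_iff.1 (sc_mem_center a) (toGL s), mul_inv_cancel_right]

theorem class_isConj (ψ : SL2 → ℂ) (hψ : IsClassFunction SL2 ψ) {s t : SL2} (h : IsConj s t) : ψ s = ψ t := by
  rw [isConj_iff] at h
  obtain ⟨c, rfl⟩ := h
  rw [hψ]

theorem cj_isConj_of_sq (x : GL (Fin 2) F)
    (h : IsSquare (x : Matrix (Fin 2) (Fin 2) F).det) (s : SL2) : IsConj s (cj x s) := by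
  obtain ⟨a, ha⟩ := h
  have hx0 : (x : Matrix (Fin 2) (Fin 2) F).det ≠ 0 := Matrix.GeneralLinearGroup.det_ne_zero x
  have ha0 : a ≠ 0 := by rintro rfl; rw [mul_zero] at ha; exact hx0 ha
  obtain ⟨t, ht⟩ : ∃ t : SL2, (t : Matrix (Fin 2) (Fin 2) F) = a⁻¹ • (x : Matrix (Fin 2) (Fin 2) F) := by
    refine ⟨⟨a⁻¹ • (x : Matrix (Fin 2) (Fin 2) F), ?_⟩, rfl⟩
    rw [Matrix.det_smul, Fintype.card_fin, ha]
    field_simp
  have hx : x = sc (Units.mk0 a ha0) * toGL t := by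
    apply Units.ext
    rw [Units.val_mul, sc_val, toGL_val, ht]
    conv_lhs => rw [eta (x : Matrix (Fin 2) (Fin 2) F)]
    ext i j
    fin_cases i <;> fin_cases j <;> simp [Matrix.mul_apply, Fin.sum_univ_two, ha0]
  rw [isConj_iff]
  exact ⟨t, by rw [hx, cj_mul, cj_sc, cj_toGL]⟩

theorem det_inv (y : GL (Fin 2) F) :
    ((y⁻¹ : GL (Fin 2) F) : Matrix (Fin 2) (Fin 2) F).det = ((y : Matrix (Fin 2) (Fin 2) F).det)⁻¹ := by
  apply eq_inv_of_mul_eq_one_left
  rw [← Matrix.det_mul, ← Units.val_mul, inv_mul_cancel, Units.val_one, Matrix.det_one]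

theorem cj_isConj_of_nonsq (x y : GL (Fin 2) F)
    (hx : ¬ IsSquare (x : Matrix (Fin 2) (Fin 2) F).det) (hy : ¬ IsSquare (y : Matrix (Fin 2) (Fin 2) F).det)
    (s : SL2) : IsConj (cj y s) (cj x s) := by
  have hy0 : (y : Matrix (Fin 2) (Fin 2) F).det ≠ 0 := Matrix.GeneralLinearGroup.det_ne_zero y
  have h1 : IsSquare ((x * y⁻¹ : GL (Fin 2) F) : Matrix (Fin 2) (Fin 2) F).det := by
    obtain ⟨r, hr⟩ := isSquare_mul_of_not hx hy
    refine ⟨r / (y : Matrix (Fin 2) (Fin 2) F).det, ?_⟩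
    rw [Units.val_mul, Matrix.det_mul, det_inv]
    field_simp
    linear_combination hr
  have h3 := cj_isConj_of_sq _ h1 (cj y s)
  rwa [← cj_mul, inv_mul_cancel_right] at h3

theorem comp_cj_of_sq (ψ : SL2 → ℂ) (hψ : IsClassFunction SL2 ψ) (x : GL (Fin 2) F)
    (h : IsSquare (x : Matrix (Fin 2) (Fin 2) F).det) : ψ ∘ cj x = ψ := by
  funext s
  exact (class_isConj ψ hψ (cj_isConj_of_sq x h s)).symm

theorem comp_cj_of_nonsq (ψ : SL2 → ℂ) (hψ : IsClassFunction SL2 ψ) (x y : GL (Fin 2) F)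
    (hx : ¬ IsSquare (x : Matrix (Fin 2) (Fin 2) F).det) (hy : ¬ IsSquare (y : Matrix (Fin 2) (Fin 2) F).det) :
    ψ ∘ cj x = ψ ∘ cj y := by
  funext s
  exact (class_isConj ψ hψ (cj_isConj_of_nonsq x y hx hy s)).symm

/-- elements with nonzero discriminant: `GL`-conjugates are `SL`-conjugates -/
theorem cj_conj_of_disc (hodd : Odd (Fintype.card F)) (g : SL2)
    (hdisc : (g : Matrix (Fin 2) (Fin 2) F).trace ^ 2 ≠ 4) (x : GL (Fin 2) F) : IsConj g (cj x g) := by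
  have hx0 : (x : Matrix (Fin 2) (Fin 2) F).det ≠ 0 := Matrix.GeneralLinearGroup.det_ne_zero x
  obtain ⟨a, b, hab⟩ := exists_norm hodd (g : Matrix (Fin 2) (Fin 2) F).trace ((x : Matrix (Fin 2) (Fin 2) F).det)⁻¹ hdisc
  have hdet : (a • (1 : Matrix (Fin 2) (Fin 2) F) + b • (g : Matrix (Fin 2) (Fin 2) F)).det =
      ((x : Matrix (Fin 2) (Fin 2) F).det)⁻¹ := by
    rw [← hab, Matrix.trace_fin_two]
    have hg := g.2
    rw [Matrix.det_fin_two] at hg ⊢
    simp only [Matrix.add_apply, Matrix.smul_apply, Matrix.one_apply_eq, smul_eq_mul, mul_one]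
    simp only [Matrix.one_apply_ne (show (0 : Fin 2) ≠ 1 by decide), Matrix.one_apply_ne (show (1 : Fin 2) ≠ 0 by decide),
      mul_zero, zero_add]
    linear_combination (b ^ 2) * hg
  apply sl_conj_of_gl_conj g (cj x g) x (Matrix.GeneralLinearGroup.mkOfDetNeZero _ (by rw [hdet]; exact inv_ne_zero hx0))
    (toGL_cj x g).symm
  · apply Units.ext
    rw [Units.val_mul, Units.val_mul]
    show (a • (1 : Matrix (Fin 2) (Fin 2) F) + b • (g : Matrix (Fin 2) (Fin 2) F)) * (g : Matrix (Fin 2) (Fin 2) F) =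
      (g : Matrix (Fin 2) (Fin 2) F) * (a • (1 : Matrix (Fin 2) (Fin 2) F) + b • (g : Matrix (Fin 2) (Fin 2) F))
    rw [add_mul, mul_add, smul_mul_assoc, smul_mul_assoc, mul_smul_comm, mul_smul_comm, one_mul, mul_one]
  · show (x : Matrix (Fin 2) (Fin 2) F).det * (a • (1 : Matrix (Fin 2) (Fin 2) F) + b • (g : Matrix (Fin 2) (Fin 2) F)).det = 1
    rw [hdet, mul_inv_cancel₀ hx0]

/-- the two classes with the same companion matrix are different -/
theorem not_conj_comp (hodd : Odd (Fintype.card F)) (τ : F) (hτ : τ ^ 2 = 4) (x : GL (Fin 2) F)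
    (hx : ¬ IsSquare (x : Matrix (Fin 2) (Fin 2) F).det) : ¬ IsConj (compSL τ) (cj x (compSL τ)) := by
  intro h
  rw [isConj_iff] at h
  obtain ⟨t, ht⟩ := h
  have h2 := two_ne hodd
  have h1 := congrArg toGL ht
  rw [toGL_cj, map_mul, map_mul, map_inv] at h1
  -- y = x⁻¹ t commutes with the companion matrix
  have h3 : (x⁻¹ * toGL t) * toGL (compSL τ) = toGL (compSL τ) * (x⁻¹ * toGL t) := by
    have : toGL t * toGL (compSL τ) = x * toGL (compSL τ) * x⁻¹ * toGL t := by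
      rw [← h1]; group
    calc (x⁻¹ * toGL t) * toGL (compSL τ) = x⁻¹ * (toGL t * toGL (compSL τ)) := by group
      _ = x⁻¹ * (x * toGL (compSL τ) * x⁻¹ * toGL t) := by rw [this]
      _ = _ := by group
  obtain ⟨y, hy⟩ : ∃ y : GL (Fin 2) F, y = x⁻¹ * toGL t := ⟨_, rfl⟩
  rw [← hy] at h3
  have h4 : (y : Matrix (Fin 2) (Fin 2) F) * comp τ 1 = comp τ 1 * (y : Matrix (Fin 2) (Fin 2) F) :=
    congrArg Units.val h3
  have e00 := congrFun (congrFun h4 0) 0
  have e10 := congrFun (congrFun h4 1) 0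
  simp [Cfsg.Agent.Lib.Helper5_GL2.comp, Matrix.mul_apply, Fin.sum_univ_two] at e00 e10
  have hdet : (y : Matrix (Fin 2) (Fin 2) F).det = ((x : Matrix (Fin 2) (Fin 2) F).det)⁻¹ := by
    rw [hy, Units.val_mul, Matrix.det_mul, det_inv, toGL_val, t.2, mul_one]
  apply hx
  have hsq : IsSquare (y : Matrix (Fin 2) (Fin 2) F).det := by
    refine ⟨((y : Matrix (Fin 2) (Fin 2) F) 0 0 + τ / 2 * (y : Matrix (Fin 2) (Fin 2) F) 1 0), ?_⟩
    rw [Matrix.det_fin_two, e00, e10]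
    field_simp
    linear_combination (-(y : Matrix (Fin 2) (Fin 2) F) 1 0 ^ 2) * hτ
  rw [hdet] at hsq
  simpa using hsq

end Cfsg.Agent.Lib.Helper5_SL2Odd
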