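import Cfsg.Agent.Lib.Helper5_SL2Odd

set_option autoImplicit false

namespace Cfsg.Agent.Lib.Helper5_SL2Odd2

open Cfsg Matrix Cfsg.Agent.Lib.CharInd Cfsg.Agent.Lib.Helper5_GL2Char Cfsg.Agent.Lib.CharBasic
  Cfsg.Agent.Lib.Helper5_GL2Class Cfsg.Agent.Lib.Helper5_GL2Val Cfsg.Agent.Lib.Helper5_IndCoset
  Cfsg.Agent.Lib.CharComplete Cfsg.Agent.Lib.Helper5_SL2Res Cfsg.Agent.Lib.CharOrtho Cfsg.Agent.Lib.CharMore
  Cfsg.Agent.Lib.Helper5_SL2Cliff Cfsg.Agent.Lib.Helper5_SL2Class Cfsg.Agent.Lib.Helper5_GL2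
  Cfsg.Agent.Lib.Helper5_SL2Odd
open scoped ComplexConjugate

/-- a character of norm two is a sum of two distinct irreducible characters -/
theorem norm_two_split {G : Type*} [Group G] [Fintype G] (f : G → ℂ) (hf : IsCharacter G f)
    (h2 : classInner f f = 2) :
    ∃ ψ₁ ψ₂ : G → ℂ, IsIrrCharacter G ψ₁ ∧ IsIrrCharacter G ψ₂ ∧ ψ₁ ≠ ψ₂ ∧ f = ψ₁ + ψ₂ := by
  classical
  obtain ⟨mult, hmult, hsum⟩ := exists_mult hf
  have hex : ∃ ψ : IrrCharacter G, mult ψ ≠ 0 := by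
    by_contra hcon
    push Not at hcon
    have : f = 0 := by
      rw [hsum]
      apply Finset.sum_eq_zero
      intro ψ _
      rw [hcon ψ, Nat.cast_zero, zero_smul]
    rw [this, classInner_zero_left] at h2
    norm_num at h2
  obtain ⟨⟨ψ, hψ⟩, hm0⟩ := hex
  have hm := hmult ⟨ψ, hψ⟩
  simp only at hm
  set m := mult ⟨ψ, hψ⟩ with hmdef
  set φ : G → ℂ := f - ψ with hφ
  have hcl : IsClassFunction G φ := by
    intro g h
    rw [hφ, Pi.sub_apply, Pi.sub_apply, isClassFunction_of_isCharacter hf g h,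
      isClassFunction_of_isCharacter (isCharacter_of_isIrr hψ) g h]
  have hφchar : IsCharacter G φ := by
    apply isCharacter_of_classInner_nat _ hcl
    intro θ
    rw [hφ, classInner_sub_left]
    obtain ⟨n, hn⟩ := classInner_char_nat hf (isCharacter_of_isIrr θ.2)
    by_cases h : ψ = θ
    · refine ⟨m - 1, ?_⟩
      rw [← h, hm, classInner_irr_self hψ, Nat.cast_sub (by omega), Nat.cast_one]
    · refine ⟨n, ?_⟩
      rw [hn, classInner_irr_ne hψ θ.2 h, sub_zero]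
  have hφnorm : classInner φ φ = 3 - 2 * (m : ℂ) := by
    rw [hφ, classInner_sub_left, classInner_sub_right, classInner_sub_right, h2, hm,
      classInner_irr_self hψ, ← classInner_conj_symm, hm, Complex.conj_natCast]
    ring
  obtain ⟨k, hk⟩ := classInner_char_nat hφchar hφchar
  have hm1 : m = 1 := by
    rw [hk] at hφnorm
    have h3 : (k : ℂ) + 2 * (m : ℂ) = 3 := by rw [hφnorm]; ring
    have h4 : k + 2 * m = 3 := by exact_mod_cast h3
    omega
  rw [hm1] at hφnorm hm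
  have hφirr : IsIrrCharacter G φ := isIrr_of_norm_one hφchar (by rw [hφnorm]; norm_num)
  have hsum' : f = ψ + φ := by rw [hφ]; ring
  refine ⟨ψ, φ, hψ, hφirr, ?_, hsum'⟩
  intro h
  rw [hsum', ← h, classInner_add_left, classInner_irr_self hψ] at hm
  norm_num at hm

variable {F : Type*} [Field F] [Fintype F] [DecidableEq F]

local notation "SL2" => Matrix.SpecialLinearGroup (Fin 2) F
local notation "toGL" => (Matrix.SpecialLinearGroup.toGL : Matrix.SpecialLinearGroup (Fin 2) F →* GL (Fin 2) F)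

/-- the quadratic character -/
noncomputable def eta : MulChar F ℂ := (quadraticChar F).ringHomComp (Int.castRingHom ℂ)

theorem eta_sq : (eta : MulChar F ℂ) ^ 2 = 1 :=
  ((quadraticChar_isQuadratic F).comp _).sq_eq_one

theorem eta_ne_one (hodd : Odd (Fintype.card F)) : (eta : MulChar F ℂ) ≠ 1 :=
  (MulChar.ringHomComp_ne_one_iff (RingHom.injective_int _)).2 (quadraticChar_ne_one (ringChar_ne_two hodd))

theorem eq_eta (hodd : Odd (Fintype.card F)) (μ : MulChar F ℂ) (h1 : μ ≠ 1) (h2 : μ ^ 2 = 1) : μ = eta := by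
  classical
  by_contra hne
  have hle := IsCyclic.card_pow_eq_one_le (α := MulChar F ℂ) (n := 2) (by norm_num)
  have hsub : ({1, eta, μ} : Finset (MulChar F ℂ)) ⊆ Finset.univ.filter (fun a : MulChar F ℂ => a ^ 2 = 1) := by
    intro a ha
    simp only [Finset.mem_insert, Finset.mem_singleton] at ha
    simp only [Finset.mem_filter, Finset.mem_univ, true_and]
    rcases ha with rfl | rfl | rfl
    · simp
    · exact eta_sq
    · exact h2
  have h3 : ({1, eta, μ} : Finset (MulChar F ℂ)).card = 3 := by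
    rw [Finset.card_insert_of_notMem, Finset.card_insert_of_notMem, Finset.card_singleton]
    · simp only [Finset.mem_singleton]
      exact fun h => hne h.symm
    · simp only [Finset.mem_insert, Finset.mem_singleton, not_or]
      exact ⟨(eta_ne_one hodd).symm, h1.symm⟩
  have := Finset.card_le_card hsub
  omega

theorem eta_apply_sq {a : F} (ha : a ≠ 0) (h : IsSquare a) : (eta : MulChar F ℂ) a = 1 := by
  unfold eta
  rw [MulChar.ringHomComp_apply, (quadraticChar_one_iff_isSquare ha).2 h]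
  simp

theorem eta_apply_nonsq {a : F} (h : ¬ IsSquare a) : (eta : MulChar F ℂ) a = -1 := by
  unfold eta
  rw [MulChar.ringHomComp_apply, quadraticChar_neg_one_iff_not_isSquare.2 h]
  simp

/-- the splitting of the principal series attached to the quadratic character -/
theorem II_eta_split (hodd : Odd (Fintype.card F)) :
    ∃ (ψ : SL2 → ℂ) (x : GL (Fin 2) F), IsIrrCharacter SL2 ψ ∧ ψ ∘ cj x ≠ ψ ∧ II eta = ψ + ψ ∘ cj x := by
  classical
  have hn := inner_II (eta : MulChar F ℂ) eta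
  have h1 : (eta : MulChar F ℂ) = eta⁻¹ := by
    rw [← mul_eq_one_iff_eq_inv, ← sq, eta_sq]
  rw [if_pos rfl, if_pos h1] at hn
  have hchar : IsCharacter SL2 (II (eta : MulChar F ℂ)) := by
    rw [II_eq_res]
    exact res_isCharacter _ (ps_isCharacter _ _)
  obtain ⟨ψ₁, ψ₂, hψ₁, hψ₂, hne, hsum⟩ := norm_two_split _ hchar (by rw [hn]; norm_num)
  have hirr : IsIrrCharacter (GL (Fin 2) F) (ps (eta : MulChar F ℂ) 1) := by
    apply isIrr_of_norm_one (ps_isCharacter _ _)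
    rw [inner_ps]
    simp [eta_ne_one hodd]
  have e1 : classInner (res (ps (eta : MulChar F ℂ) 1)) ψ₁ ≠ 0 := by
    rw [← II_eq_res, hsum, classInner_add_left, classInner_irr_self hψ₁, classInner_irr_ne hψ₂ hψ₁ hne.symm]
    norm_num
  have e2 : classInner (res (ps (eta : MulChar F ℂ) 1)) ψ₂ ≠ 0 := by
    rw [← II_eq_res, hsum, classInner_add_left, classInner_irr_self hψ₂, classInner_irr_ne hψ₁ hψ₂ hne]
    norm_num
  obtain ⟨x, hx⟩ := clifford_SL _ hirr ψ₁ ψ₂ hψ₁ hψ₂ e1 e2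
  exact ⟨ψ₁, x, hψ₁, by rw [← hx]; exact hne.symm, by rw [← hx]; exact hsum⟩

theorem cj_dg_uS (e : Fˣ) (c : F) : cj (dgHom e) (uS c) = uS (e * c) := by
  apply toGL_injective
  rw [toGL_cj, mul_inv_eq_iff_eq_mul]
  apply Units.ext
  rw [Units.val_mul, Units.val_mul, dgHom_val, toGL_val, toGL_val, uS_val, uS_val]
  ext i j
  fin_cases i <;> fin_cases j <;> simp [Matrix.mul_apply, Fin.sum_univ_two]

theorem det_nonsq_of_ne (ψ : SL2 → ℂ) (hψ : IsClassFunction SL2 ψ) (x : GL (Fin 2) F) (h : ψ ∘ cj x ≠ ψ) :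
    ¬ IsSquare (x : Matrix (Fin 2) (Fin 2) F).det :=
  fun hsq => h (comp_cj_of_sq ψ hψ x hsq)

theorem det_dgHom (e : Fˣ) : (dgHom e : Matrix (Fin 2) (Fin 2) F).det = e := by
  rw [dgHom_val, Matrix.det_fin_two_of]
  ring

/-- replace the conjugating element by a diagonal one -/
theorem comp_cj_eq_dg (ψ : SL2 → ℂ) (hψ : IsClassFunction SL2 ψ) (x : GL (Fin 2) F) (h : ψ ∘ cj x ≠ ψ)
    (e : Fˣ) (he : ¬ IsSquare (e : F)) : ψ ∘ cj x = ψ ∘ cj (dgHom e) :=
  comp_cj_of_nonsq ψ hψ x (dgHom e) (det_nonsq_of_ne ψ hψ x h) (by rw [det_dgHom]; exact he)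

/-- the sum over the unipotent subgroup -/
noncomputable def sumU (ψ : SL2 → ℂ) : ℂ := ∑ c : F, ψ (uS c)

theorem sumU_res (χ : GL (Fin 2) F → ℂ) (hχ : IsClassFunction (GL (Fin 2) F) χ) :
    sumU (res χ) = χ 1 + ((Fintype.card F : ℂ) - 1) * χ (uu 1) := by
  rw [← sum_uu χ hχ]
  unfold sumU res
  simp only [toGL_uS]

theorem sumU_dg (ψ : SL2 → ℂ) (e : Fˣ) : sumU (ψ ∘ cj (dgHom e)) = sumU ψ := by
  unfold sumU
  simp only [Function.comp, cj_dg_uS]
  exact Equiv.sum_comp (Equiv.mulLeft₀ (e : F) e.ne_zero) (fun c => ψ (uS c))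

theorem sumU_half (ψ : SL2 → ℂ) (hψ : IsClassFunction SL2 ψ) (x : GL (Fin 2) F) (hne : ψ ∘ cj x ≠ ψ)
    (f : SL2 → ℂ) (h : f = ψ + ψ ∘ cj x) : 2 * sumU ψ = sumU f := by
  have hx := det_nonsq_of_ne ψ hψ x hne
  have hx0 : (x : Matrix (Fin 2) (Fin 2) F).det ≠ 0 := Matrix.GeneralLinearGroup.det_ne_zero x
  rw [h, comp_cj_eq_dg ψ hψ x hne (Units.mk0 _ hx0) hx]
  have : sumU (ψ + ψ ∘ cj (dgHom (Units.mk0 _ hx0))) = sumU ψ + sumU (ψ ∘ cj (dgHom (Units.mk0 _ hx0))) := by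
    unfold sumU
    simp only [Pi.add_apply]
    rw [Finset.sum_add_distrib]
  rw [this, sumU_dg]
  ring

theorem sumU_table (ψ : SL2 → ℂ) (hψ : IsIrrCharacter SL2 ψ) : ∃ d2 : ℕ, 2 * ψ 1 = (d2 : ℂ) ∧
    ((d2 = 2 ∧ sumU ψ = Fintype.card F) ∨ (d2 = 2 * Fintype.card F ∧ sumU ψ = Fintype.card F) ∨
    (d2 = 2 * Fintype.card F + 2 ∧ sumU ψ = 2 * Fintype.card F) ∨
    (d2 = Fintype.card F + 1 ∧ sumU ψ = Fintype.card F) ∨
    (d2 + 2 = 2 * Fintype.card F ∧ sumU ψ = 0) ∨ (d2 + 1 = Fintype.card F ∧ sumU ψ = 0)) := by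
  obtain ⟨d2, hd, hcase⟩ := classifySL' ψ hψ
  have hcl := isClassFunction_of_isCharacter (isCharacter_of_isIrr hψ)
  refine ⟨d2, hd, ?_⟩
  rcases hcase with ⟨h1, h⟩ | ⟨h1, h⟩ | ⟨h1, μ, -, h⟩ | ⟨h1, μ, x, -, -, h3, h⟩ | ⟨h1, χ, hc, h⟩ | ⟨h1, χ, x, hc, h3, h, -⟩
  · left
    refine ⟨h1, ?_⟩
    rw [h]
    unfold sumU
    simp
  · right; left
    refine ⟨h1, ?_⟩
    rw [h]
    unfold StS
    rw [sumU_res _ (isClassFunction_of_isCharacter (isCharacter_of_isIrr (st_isIrr 1))), st_one, st_uu]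
    ring
  · right; right; left
    refine ⟨h1, ?_⟩
    rw [h, II_eq_res, sumU_res _ (ps_isClassFunction _ _), ps_one, ps_uu]
    ring
  · right; right; right; left
    refine ⟨h1, ?_⟩
    have h4 := sumU_half ψ hcl x h3 _ h
    rw [II_eq_res, sumU_res _ (ps_isClassFunction _ _), ps_one, ps_uu] at h4
    linear_combination h4 / 2
  · right; right; right; right; left
    refine ⟨h1, ?_⟩
    rw [h, sumU_res _ (isClassFunction_of_isCharacter (isCharacter_of_isIrr hc.1)), hc.2.1, hc.2.2.1]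
    ring
  · right; right; right; right; right
    refine ⟨h1, ?_⟩
    have h4 := sumU_half ψ hcl x h3 _ h
    rw [sumU_res _ (isClassFunction_of_isCharacter (isCharacter_of_isIrr hc.1)), hc.2.1, hc.2.2.1] at h4
    linear_combination h4 / 2

theorem sum_ite_eq_sumU (ψ : SL2 → ℂ) :
    (∑ g : SL2, if (g : Matrix (Fin 2) (Fin 2) F) 1 0 = 0 ∧ (g : Matrix (Fin 2) (Fin 2) F) 0 0 = 1 ∧
      (g : Matrix (Fin 2) (Fin 2) F) 1 1 = 1 then ψ g else 0) = sumU ψ := by
  rw [← Finset.sum_filter]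
  symm
  unfold sumU
  refine Finset.sum_bij (fun c _ => uS c) ?_ ?_ ?_ ?_
  · intro c _
    simp [uS_val]
  · intro a _ b _ h
    have := congrArg (fun g : SL2 => (g : Matrix (Fin 2) (Fin 2) F) 0 1) h
    simpa [uS_val] using this
  · intro g hg
    simp only [Finset.mem_filter, Finset.mem_univ, true_and] at hg
    refine ⟨(g : Matrix (Fin 2) (Fin 2) F) 0 1, Finset.mem_univ _, ?_⟩
    apply Subtype.ext
    rw [uS_val]
    conv_rhs => rw [eta2 (g : Matrix (Fin 2) (Fin 2) F), hg.1, hg.2.1, hg.2.2]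
  · intro c _
    rfl

end Cfsg.Agent.Lib.Helper5_SL2Odd2
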