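import Cfsg.Agent.Lib.Helper5_GL2Val
import Cfsg.Agent.Lib.Helper5_Card

set_option autoImplicit false

namespace Cfsg.Agent.Lib.Helper5_SL2Res

open Cfsg Matrix Cfsg.Agent.Lib.CharInd Cfsg.Agent.Lib.Helper5_GL2Char Cfsg.Agent.Lib.CharBasic
  Cfsg.Agent.Lib.Helper5_GL2Class Cfsg.Agent.Lib.Helper5_GL2Val Cfsg.Agent.Lib.Helper5_IndCoset
  Cfsg.Agent.Lib.CharComplete
open scoped ComplexConjugate

section general

/-- central elements act by scalars of norm one -/
theorem central_mul {G : Type*} [Group G] [Finite G] (χ : G → ℂ) (hχ : IsIrrCharacter G χ) (z : G)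
    (hz : z ∈ Subgroup.center G) : ∃ ω : ℂ, ‖ω‖ = 1 ∧ ∀ g, χ (z * g) = ω * χ g := by
  obtain ⟨n, ρ, hρ, rfl⟩ := hχ
  have h1 := schur_commute ρ (ρ z) (fun g => by
    rw [← Module.End.mul_eq_comp, ← Module.End.mul_eq_comp, ← map_mul, ← map_mul,
      Subgroup.mem_center_iff.1 hz g])
  set c := LinearMap.trace ℂ (Fin n → ℂ) (ρ z) / (Module.finrank ℂ (Fin n → ℂ) : ℂ) with hc
  have hpow : ∀ k : ℕ, ρ (z ^ k) = (c ^ k) • LinearMap.id := by
    intro k
    induction k with
    | zero => simp; rfl
    | succ k ih =>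
      rw [pow_succ, map_mul, ih, h1]
      apply LinearMap.ext
      intro v
      simp [pow_succ, smul_smul, mul_comm]
  have hnt : Nontrivial (Fin n → ℂ) := Module.nontrivial_of_finrank_pos (R := ℂ) (finrank_pos_of_irr ρ)
  have hc1 : c ^ orderOf z = 1 := by
    have h2 := hpow (orderOf z)
    rw [pow_orderOf_eq_one, map_one] at h2
    obtain ⟨v, hv⟩ := exists_ne (0 : Fin n → ℂ)
    have h3 := LinearMap.congr_fun h2 v
    simp only [Module.End.one_apply, LinearMap.smul_apply, LinearMap.id_apply] at h3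
    have h4 : (c ^ orderOf z - 1) • v = 0 := by rw [sub_smul, one_smul, ← h3, sub_self]
    exact sub_eq_zero.1 ((smul_eq_zero.1 h4).resolve_right hv)
  refine ⟨c, Complex.norm_eq_one_of_pow_eq_one hc1 (orderOf_pos z).ne', fun g => ?_⟩
  unfold Representation.character
  rw [map_mul, h1, smul_mul_assoc, map_smul, smul_eq_mul]
  rfl

theorem comap_reps {S G : Type*} [Group S] [Group G] (f : S →* G) (hf : Function.Injective f) (H : Subgroup G)
    {ι : Type*} (r : ι → S) (hr : Function.Bijective (fun x : ι × H => f (r x.1) * (x.2 : G))) :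
    Function.Bijective (fun x : ι × (H.comap f) => r x.1 * (x.2 : S)) := by
  constructor
  · rintro ⟨i, h⟩ ⟨j, h'⟩ e
    simp only at e
    have e2 := congrArg f e
    rw [map_mul, map_mul] at e2
    have e3 := @hr.1 (i, ⟨f h, h.2⟩) (j, ⟨f h', h'.2⟩) e2
    simp only [Prod.mk.injEq] at e3
    exact Prod.ext e3.1 (Subtype.ext (hf (congrArg Subtype.val e3.2)))
  · intro s
    obtain ⟨⟨i, h⟩, e⟩ := hr.2 (f s)
    simp only at e
    have h1 : f ((r i)⁻¹ * s) = h := by rw [map_mul, map_inv, ← e, inv_mul_cancel_left]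
    refine ⟨(i, ⟨(r i)⁻¹ * s, ?_⟩), ?_⟩
    · rw [Subgroup.mem_comap, h1]; exact h.2
    · simp

theorem extend_comap {S G : Type*} [Group S] [Group G] (f : S →* G) (H : Subgroup G) (θ : H → ℂ) (s : S) :
    extendByZero (H.comap f) (fun b => θ ⟨f b, b.2⟩) s = extendByZero H θ (f s) := by
  by_cases h : f s ∈ H
  · rw [extendByZero_mem _ _ h, extendByZero_mem _ _ (show s ∈ H.comap f from h)]
  · rw [extendByZero_not_mem _ _ h, extendByZero_not_mem _ _ (show s ∉ H.comap f from h)]

theorem res_indFun {S G : Type*} [Group S] [Group G] [Fintype S] [Fintype G] (f : S →* G)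
    (hf : Function.Injective f) (H : Subgroup G)
    {ι : Type*} [Fintype ι] (r : ι → S) (hr : Function.Bijective (fun x : ι × H => f (r x.1) * (x.2 : G)))
    (θ : H → ℂ) (hθ : IsClassFunction H θ) (s : S) :
    indFun (H.comap f) (fun b => θ ⟨f b, b.2⟩) s = indFun H θ (f s) := by
  rw [indFun_eq_sum_reps H (fun i => f (r i)) hr θ hθ,
    indFun_eq_sum_reps (H.comap f) r (comap_reps f hf H r hr)]
  · refine Finset.sum_congr rfl fun i _ => ?_
    rw [extend_comap, map_mul, map_mul, map_inv]
  · intro g h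
    have := hθ ⟨f g, g.2⟩ ⟨f h, h.2⟩
    simp only
    rw [← this]
    congr 1
    apply Subtype.ext
    simp

end general

variable {F : Type*} [Field F] [Fintype F] [DecidableEq F]

local notation "SL2" => Matrix.SpecialLinearGroup (Fin 2) F
local notation "toGL" => (Matrix.SpecialLinearGroup.toGL : Matrix.SpecialLinearGroup (Fin 2) F →* GL (Fin 2) F)

/-- restriction to `SL₂` -/
noncomputable def res (χ : GL (Fin 2) F → ℂ) : SL2 → ℂ := fun s => χ (toGL s)

theorem toGL_injective : Function.Injective toGL := by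
  intro a b h
  apply Subtype.ext
  exact congrArg Units.val h

theorem toGL_val (s : SL2) : ((toGL s : GL (Fin 2) F) : Matrix (Fin 2) (Fin 2) F) = (s : Matrix (Fin 2) (Fin 2) F) := rfl

theorem sum_det_one (f : GL (Fin 2) F → ℂ) :
    ∑ g : GL (Fin 2) F, (if (g : Matrix (Fin 2) (Fin 2) F).det = 1 then f g else 0) = ∑ s : SL2, f (toGL s) := by
  rw [← Finset.sum_filter]
  symm
  refine Finset.sum_bij (fun s _ => toGL s) ?_ ?_ ?_ ?_
  · intro s _
    simp only [Finset.mem_filter, Finset.mem_univ, true_and]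
    exact s.2
  · intro a _ b _ h
    exact toGL_injective h
  · intro g hg
    simp only [Finset.mem_filter, Finset.mem_univ, true_and] at hg
    exact ⟨⟨g, hg⟩, Finset.mem_univ _, Units.ext rfl⟩
  · intro s _
    rfl

theorem inner_res (χ χ' : GL (Fin 2) F → ℂ) :
    classInner (res χ) (res χ') = ∑ γ : MulChar F ℂ, classInner (detChar γ * χ) χ' := by
  unfold classInner
  rw [← Finset.mul_sum, Finset.sum_comm]
  have h1 : ∀ g : GL (Fin 2) F, ∑ γ : MulChar F ℂ, (detChar γ * χ) g * conj (χ' g) =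
      ((Fintype.card F : ℂ) - 1) * (if (g : Matrix (Fin 2) (Fin 2) F).det = 1 then χ g * conj (χ' g) else 0) := by
    intro g
    simp only [Pi.mul_apply, mul_assoc]
    rw [← Finset.sum_mul]
    unfold detChar
    have h2 := sum_mulChar_apply (Matrix.GeneralLinearGroup.det g)
    rw [Matrix.GeneralLinearGroup.val_det_apply] at h2
    rw [h2]
    by_cases h : (g : Matrix (Fin 2) (Fin 2) F).det = 1
    · rw [if_pos h, if_pos]
      apply Units.ext
      rw [Matrix.GeneralLinearGroup.val_det_apply, h, Units.val_one]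
    · rw [if_neg h, if_neg, zero_mul, mul_zero]
      intro h'
      apply h
      have := congrArg Units.val h'
      rwa [Matrix.GeneralLinearGroup.val_det_apply] at this
  rw [Finset.sum_congr rfl fun g _ => h1 g, ← Finset.mul_sum, sum_det_one (fun g => χ g * conj (χ' g)),
    ← Cfsg.Agent.Lib.Helper5_Card.card_SL_mul 2 (by norm_num)]
  have hq : 2 ≤ Fintype.card F := Fintype.one_lt_card
  have hq' : ((Fintype.card F : ℂ) - 1) ≠ 0 := by
    have : ((Fintype.card F - 1 : ℕ) : ℂ) ≠ 0 := by exact_mod_cast (by omega : Fintype.card F - 1 ≠ 0)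
    rwa [Nat.cast_sub (by omega), Nat.cast_one] at this
  rw [Nat.cast_mul, Nat.cast_sub (by omega), Nat.cast_one, mul_inv, mul_assoc, inv_mul_cancel_left₀ hq']
  rfl

theorem twist_ps (γ α β : MulChar F ℂ) : detChar γ * ps α β = ps (γ * α) (γ * β) := by
  funext g
  rw [Pi.mul_apply, ps_apply, ps_apply, mul_add, Finset.mul_sum]
  unfold detChar
  rw [Matrix.det_fin_two]
  congr 1
  · by_cases h : (g : Matrix (Fin 2) (Fin 2) F) 1 0 = 0
    · rw [if_pos h, if_pos h, h, mul_zero, sub_zero, map_mul, MulChar.mul_apply, MulChar.mul_apply]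
      ring
    · rw [if_neg h, if_neg h, mul_zero]
  · refine Finset.sum_congr rfl fun t _ => ?_
    split_ifs with h
    · have h2 : (g : Matrix (Fin 2) (Fin 2) F) 0 0 * (g : Matrix (Fin 2) (Fin 2) F) 1 1 -
          (g : Matrix (Fin 2) (Fin 2) F) 0 1 * (g : Matrix (Fin 2) (Fin 2) F) 1 0 =
          ((g : Matrix (Fin 2) (Fin 2) F) 1 0 * t + (g : Matrix (Fin 2) (Fin 2) F) 1 1) *
          ((g : Matrix (Fin 2) (Fin 2) F) 0 0 - (g : Matrix (Fin 2) (Fin 2) F) 1 0 * t) := by
        linear_combination ((g : Matrix (Fin 2) (Fin 2) F) 1 0) * h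
      rw [h2, map_mul, MulChar.mul_apply, MulChar.mul_apply]
      ring
    · rw [mul_zero]

theorem twist_detChar (γ α : MulChar F ℂ) : detChar γ * detChar α = detChar (γ * α) := by
  funext g
  rw [Pi.mul_apply]
  unfold detChar
  rw [MulChar.mul_apply]

theorem twist_st (γ α : MulChar F ℂ) : detChar γ * st α = st (γ * α) := by
  unfold st
  rw [mul_sub, twist_ps, twist_detChar]

/-- the representatives in `SL₂` -/
def repS : Option F → SL2
  | none => 1
  | some t => ⟨!![t, -1; 1, 0], by rw [Matrix.det_fin_two_of]; ring⟩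

theorem toGL_repS (o : Option F) : toGL (repS o) = rep o := by
  cases o with
  | none => simp [repS, rep]
  | some t => exact Units.ext rfl

/-- the principal series of `SL₂` -/
noncomputable def II (α : MulChar F ℂ) : SL2 → ℂ :=
  indFun ((upperTriangularGL 2 F).comap Matrix.SpecialLinearGroup.toGL)
    (fun b => α (((b : Matrix.SpecialLinearGroup (Fin 2) F) : Matrix (Fin 2) (Fin 2) F) 0 0))

theorem II_eq_res (α : MulChar F ℂ) : II α = res (ps α 1) := by
  funext s
  unfold res ps II
  rw [← res_indFun toGL toGL_injective (upperTriangularGL 2 F) repS (by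
    simp only [toGL_repS]
    exact rep_bijective) (lam α 1) (lam_isClassFunction α 1) s]
  congr 1
  funext b
  unfold lam
  have := (BB_diag_ne (⟨toGL b, b.2⟩ : upperTriangularGL 2 F)).2
  rw [MulChar.one_apply this.isUnit, mul_one]
  rfl

theorem res_ps (α β : MulChar F ℂ) : res (ps α β) = II (α * β⁻¹) := by
  rw [II_eq_res]
  funext s
  unfold res
  have h1 : ps α β = detChar β * ps (α * β⁻¹) 1 := by
    rw [twist_ps, mul_one, mul_comm α, mul_inv_cancel_left]
  rw [h1, Pi.mul_apply]
  unfold detChar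
  rw [toGL_val, s.2, map_one, one_mul]

open scoped Classical in
theorem inner_II (α β : MulChar F ℂ) :
    classInner (II α) (II β) = (if α = β then 1 else 0) + (if α = β⁻¹ then 1 else 0) := by
  rw [II_eq_res, II_eq_res, inner_res]
  simp only [twist_ps, inner_ps, mul_one]
  rw [Finset.sum_add_distrib]
  congr 1
  · rw [Finset.sum_eq_single 1]
    · simp
    · intro γ _ hγ
      rw [if_neg]
      rintro ⟨-, h⟩
      exact hγ h
    · intro h; exact absurd (Finset.mem_univ _) h
  · rw [Finset.sum_eq_single β]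
    · simp only [and_true]
      congr 1
      rw [eq_iff_iff, mul_comm, mul_eq_one_iff_eq_inv]
    · intro γ _ hγ
      rw [if_neg]
      rintro ⟨-, h⟩
      exact hγ h
    · intro h; exact absurd (Finset.mem_univ _) h

end Cfsg.Agent.Lib.Helper5_SL2Res
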