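import Cfsg.Agent.Lib.Helper5_Semisimple

set_option autoImplicit false

namespace Cfsg.Agent.Lib.Helper5_SSCount

open Polynomial Matrix

variable {F : Type*} [Field F]

/-- the monic polynomial with given lower coefficients -/
noncomputable def PP {n : ℕ} (c : Fin n → F) : F[X] := X ^ n + ∑ i : Fin n, C (c i) * X ^ (i : ℕ)

theorem PP_monic {n : ℕ} (c : Fin n → F) : (PP c).Monic := monic_X_pow_add (degree_sum_fin_lt c)

theorem PP_natDegree {n : ℕ} (c : Fin n → F) : (PP c).natDegree = n := by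
  unfold PP
  rw [natDegree_add_eq_left_of_degree_lt (by rw [degree_X_pow]; exact degree_sum_fin_lt c), natDegree_X_pow]

theorem PP_coeff {n : ℕ} (c : Fin n → F) (i : Fin n) : (PP c).coeff i = c i := by
  unfold PP
  rw [coeff_add, coeff_X_pow, if_neg (by omega), zero_add, finsetSum_coeff]
  simp only [coeff_C_mul, coeff_X_pow]
  rw [Finset.sum_eq_single i]
  · simp
  · intro j _ hj
    rw [if_neg (fun h => hj (Fin.ext h.symm)), mul_zero]
  · intro h; exact absurd (Finset.mem_univ i) h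

theorem PP_injective {n : ℕ} : Function.Injective (PP : (Fin n → F) → F[X]) := by
  intro c d h
  ext i
  rw [← PP_coeff c i, ← PP_coeff d i, h]

theorem eq_PP {n : ℕ} (f : F[X]) (hf : f.Monic) (hn : f.natDegree = n) : f = PP (fun i : Fin n => f.coeff i) := by
  unfold PP
  conv_lhs => rw [hf.as_sum, hn]
  rw [Fin.sum_univ_eq_sum_range (fun i => C (f.coeff i) * X ^ i) n]

theorem exists_charpoly {n : ℕ} (f : F[X]) (hf : f.Monic) (hn : f.natDegree = n) :
    ∃ A : Matrix (Fin n) (Fin n) F, A.charpoly = f := by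
  have hf0 : f ≠ 0 := hf.ne_zero
  let pb := AdjoinRoot.powerBasis hf0
  have hdim : pb.dim = n := by rw [AdjoinRoot.powerBasis_dim, hn]
  refine ⟨Matrix.reindex (finCongr hdim) (finCongr hdim) (Algebra.leftMulMatrix pb.basis pb.gen), ?_⟩
  rw [Matrix.charpoly_reindex, charpoly_leftMulMatrix]
  exact AdjoinRoot.minpoly_powerBasis_gen_of_monic hf hf0

variable [Fintype F]

theorem charpoly_pow_card_pow {n : ℕ} (M : Matrix (Fin n) (Fin n) F) (a : ℕ) :
    (M ^ (Fintype.card F ^ a)).charpoly = M.charpoly := by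
  induction a with
  | zero => simp
  | succ a ih => rw [pow_succ, pow_mul, FiniteField.Matrix.charpoly_pow_card, ih]

/-- a `p'`-element with prescribed characteristic polynomial -/
theorem exists_ss (p : ℕ) [Fact p.Prime] [CharP F p] {n : ℕ} (f : F[X]) (hf : f.Monic) (hn : f.natDegree = n)
    (h0 : f.coeff 0 ≠ 0) :
    ∃ g : GL (Fin n) F, (orderOf g).Coprime p ∧ (g : Matrix (Fin n) (Fin n) F).charpoly = f := by
  classical
  have hp : p.Prime := Fact.out
  obtain ⟨A, hA⟩ := exists_charpoly f hf hn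
  have hdet : A.det ≠ 0 := by
    rw [Matrix.det_eq_sign_charpoly_coeff, hA]
    exact mul_ne_zero (pow_ne_zero _ (by norm_num)) h0
  let g : GL (Fin n) F := Matrix.GeneralLinearGroup.mkOfDetNeZero A hdet
  have hg : (g : Matrix (Fin n) (Fin n) F) = A := rfl
  obtain ⟨a, m, hm, hom⟩ := Nat.exists_eq_pow_mul_and_not_dvd (orderOf_pos g).ne' p hp.ne_one
  obtain ⟨k, hk1, hk⟩ := FiniteField.card F p
  have hdvd : p ^ a ∣ Fintype.card F ^ a := by
    rw [hk]
    exact pow_dvd_pow_of_dvd (dvd_pow_self _ k.ne_zero) a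
  obtain ⟨e, he⟩ := hdvd
  refine ⟨g ^ (Fintype.card F ^ a), ?_, ?_⟩
  · have h1 : (g ^ (Fintype.card F ^ a)) ^ m = 1 := by
      rw [← pow_mul, he, mul_right_comm, ← hom, pow_mul, pow_orderOf_eq_one, one_pow]
    have h2 := orderOf_dvd_of_pow_eq_one h1
    exact Nat.Coprime.coprime_dvd_left h2 ((Nat.Prime.coprime_iff_not_dvd hp).2 hm).symm
  · rw [Units.val_pow_eq_pow_val, charpoly_pow_card_pow, hg, hA]

theorem gl_isConj (p : ℕ) [Fact p.Prime] [CharP F p] {n : ℕ} (g h : GL (Fin n) F) (hg : (orderOf g).Coprime p)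
    (hh : (orderOf h).Coprime p)
    (hc : (g : Matrix (Fin n) (Fin n) F).charpoly = (h : Matrix (Fin n) (Fin n) F).charpoly) : IsConj g h := by
  obtain ⟨P, hP⟩ := Cfsg.Agent.Lib.Helper5_Semisimple.exists_conj _ _
    (Cfsg.Agent.Lib.Helper5_Semisimple.isSemisimple_of_orderOf p g hg)
    (Cfsg.Agent.Lib.Helper5_Semisimple.isSemisimple_of_orderOf p h hh) hc
  rw [isConj_iff]
  refine ⟨P, ?_⟩
  have h1 : P * g = h * P := Units.ext hP
  rw [h1]; group

theorem gl_charpoly_of_isConj {n : ℕ} (g h : GL (Fin n) F) (hc : IsConj g h) :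
    (g : Matrix (Fin n) (Fin n) F).charpoly = (h : Matrix (Fin n) (Fin n) F).charpoly := by
  rw [isConj_iff] at hc
  obtain ⟨x, rfl⟩ := hc
  rw [Units.val_mul, Units.val_mul, Matrix.charpoly_mul_comm, ← mul_assoc, ← Units.val_mul, inv_mul_cancel,
    Units.val_one, one_mul]

end Cfsg.Agent.Lib.Helper5_SSCount
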