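import Mathlib
import Cfsg.Agent.Lib.Helper5_CharpolyAeval
import Cfsg.Agent.Lib.Helper5_RankCrit

set_option autoImplicit false

namespace Cfsg.Agent.Lib.Helper5_Semisimple

open Module Polynomial Cfsg.Agent.Lib.Helper5_CharpolyAeval Cfsg.Agent.Lib.Helper5_RankCrit

variable {F : Type*} [Field F] [Fintype F] {n : Type*} [Fintype n] [DecidableEq n]

theorem isSemisimple_of_pow_eq_one (p : ℕ) [Fact p.Prime] [CharP F p] (A : Matrix n n F) (m : ℕ)
    (hm : m.Coprime p) (hA : A ^ m = 1) : Module.End.IsSemisimple (Matrix.toLin' A) := by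
  have hm0 : (m : F) ≠ 0 := by
    intro h
    have h1 := (CharP.cast_eq_zero_iff F p m).1 h
    have h2 : p ∣ 1 := by
      rw [← Nat.Coprime.gcd_eq_one hm]
      exact Nat.dvd_gcd h1 (dvd_refl p)
    exact (Fact.out : p.Prime).one_lt.ne' (Nat.dvd_one.1 h2)
  have hsep : (X ^ m - C (1 : F)).Separable := Polynomial.separable_X_pow_sub_C 1 hm0 one_ne_zero
  apply Module.End.isSemisimple_of_squarefree_aeval_eq_zero hsep.squarefree
  rw [aeval_toLin']
  simp [hA]

theorem isSemisimple_of_orderOf (p : ℕ) [Fact p.Prime] [CharP F p] (x : Matrix.GeneralLinearGroup n F)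
    (hx : (orderOf x).Coprime p) : Module.End.IsSemisimple (Matrix.toLin' (x : Matrix n n F)) := by
  apply isSemisimple_of_pow_eq_one p _ (orderOf x) hx
  have := congrArg (fun y : Matrix.GeneralLinearGroup n F => (y : Matrix n n F)) (pow_orderOf_eq_one x)
  exact this

theorem finrank_ker_aeval {V : Type*} [AddCommGroup V] [Module F V] [FiniteDimensional F V] (a : V →ₗ[F] V)
    (ha : Module.End.IsSemisimple a) (f : F[X]) :
    finrank F (LinearMap.ker (aeval a f)) = (LinearMap.charpoly (aeval a f)).natTrailingDegree := by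
  rw [← LinearMap.finrank_maxGenEigenspace_zero_eq,
    (ha.aeval f).isFinitelySemisimple.maxGenEigenspace_eq_eigenspace, Module.End.eigenspace_zero]

theorem rank_aeval_eq (A B : Matrix n n F) (hA : Module.End.IsSemisimple (Matrix.toLin' A)) (hB : Module.End.IsSemisimple (Matrix.toLin' B))
    (h : A.charpoly = B.charpoly) (f : F[X]) : (aeval A f).rank = (aeval B f).rank := by
  have h1 := finrank_ker_aeval _ hA f
  have h2 := finrank_ker_aeval _ hB f
  rw [aeval_toLin', Matrix.charpoly_toLin'] at h1 h2
  rw [charpoly_aeval_congr A B h f] at h1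
  have h3 := LinearMap.finrank_range_add_finrank_ker (Matrix.toLin' (aeval A f))
  have h4 := LinearMap.finrank_range_add_finrank_ker (Matrix.toLin' (aeval B f))
  have h5 : (aeval A f).rank = finrank F (LinearMap.range (Matrix.toLin' (aeval A f))) := by
    rw [Matrix.rank, Matrix.toLin'_apply']
  have h6 : (aeval B f).rank = finrank F (LinearMap.range (Matrix.toLin' (aeval B f))) := by
    rw [Matrix.rank, Matrix.toLin'_apply']
  omega

/-- semisimple matrices with the same characteristic polynomial are conjugate -/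
theorem exists_conj (A B : Matrix n n F) (hA : Module.End.IsSemisimple (Matrix.toLin' A)) (hB : Module.End.IsSemisimple (Matrix.toLin' B))
    (h : A.charpoly = B.charpoly) :
    ∃ P : Matrix.GeneralLinearGroup n F, (P : Matrix n n F) * A = B * (P : Matrix n n F) :=
  exists_conj_of_rank A B (rank_aeval_eq A B hA hB h)

end Cfsg.Agent.Lib.Helper5_Semisimple
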