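import Mathlib

set_option autoImplicit false

namespace Cfsg.Agent.Lib.Helper5_SemisimpleDet

open Module Polynomial

variable {F : Type*} [Field F] [Finite F] {V : Type*} [AddCommGroup V] [Module F V] [FiniteDimensional F V]

/-- the determinant is surjective on the commutant of a semisimple endomorphism -/
theorem exists_commuting_det [Nontrivial V] (a : V →ₗ[F] V) (ha : Module.End.IsSemisimple a) (lam : F) :
    ∃ c : V →ₗ[F] V, (∀ v, c (a v) = a (c v)) ∧ LinearMap.det c = lam := by
  have hss : IsSemisimpleModule F[X] (AEval' a) := ha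
  have hfinV : Finite V := Module.finite_of_finite F
  have hfinM : Finite (AEval' a) := Finite.of_equiv V (AEval'.of a).toEquiv
  have hnt : Nontrivial (AEval' a) := (AEval'.of a).symm.toEquiv.nontrivial
  obtain ⟨S, hS⟩ := IsSemisimpleModule.exists_simple_submodule F[X] (AEval' a)
  obtain ⟨S', hS'⟩ := exists_isCompl S
  obtain ⟨I, hI, ⟨e⟩⟩ := isSimpleModule_iff_quot_maximal.1 hS
  letI : Field (F[X] ⧸ I) := Ideal.Quotient.field I
  have hfinK : Finite (F[X] ⧸ I) := Finite.of_equiv S e.toEquiv
  obtain ⟨κ, hκ⟩ := FiniteField.norm_surjective F (F[X] ⧸ I) lam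
  obtain ⟨r, rfl⟩ := Ideal.Quotient.mk_surjective κ
  let E := Submodule.prodEquivOfIsCompl S S' hS'
  let TR : (S × S') →ₗ[F[X]] (S × S') := LinearMap.prodMap (r • LinearMap.id) LinearMap.id
  let cR : AEval' a →ₗ[F[X]] AEval' a := E.toLinearMap ∘ₗ TR ∘ₗ E.symm.toLinearMap
  let c : V →ₗ[F] V := (AEval'.of a).symm.toLinearMap ∘ₗ (cR.restrictScalars F) ∘ₗ (AEval'.of a).toLinearMap
  refine ⟨c, ?_, ?_⟩
  · intro v
    show (AEval'.of a).symm (cR (AEval'.of a (a v))) = a ((AEval'.of a).symm (cR (AEval'.of a v)))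
    rw [← AEval'.X_smul_of, map_smul, AEval'.of_symm_X_smul]
  · have h1 : LinearMap.det c = LinearMap.det (cR.restrictScalars F) :=
      LinearMap.det_conj (cR.restrictScalars F) (AEval'.of a).symm
    let TS : S →ₗ[F] S := ((r • LinearMap.id : S →ₗ[F[X]] S)).restrictScalars F
    have h2 : cR.restrictScalars F = (E.restrictScalars F).toLinearMap ∘ₗ (LinearMap.prodMap TS LinearMap.id) ∘ₗ
        (E.restrictScalars F).symm.toLinearMap := rfl
    have h3 : LinearMap.det (cR.restrictScalars F) = LinearMap.det (LinearMap.prodMap TS (LinearMap.id : S' →ₗ[F] S')) := by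
      rw [h2]
      exact LinearMap.det_conj _ (E.restrictScalars F)
    have hfS : Module.Finite F S := Module.Finite.of_finite
    have hfS' : Module.Finite F S' := Module.Finite.of_finite
    have h4 : LinearMap.det TS = Algebra.norm F (Ideal.Quotient.mk I r) := by
      rw [Algebra.norm_apply]
      have : (Algebra.lmul F (F[X] ⧸ I)) (Ideal.Quotient.mk I r) =
          (e.restrictScalars F).toLinearMap ∘ₗ TS ∘ₗ (e.restrictScalars F).symm.toLinearMap := by
        apply LinearMap.ext
        intro y
        show Ideal.Quotient.mk I r * y = e (r • e.symm y)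
        rw [map_smul, LinearEquiv.apply_symm_apply]
        obtain ⟨z, rfl⟩ := Ideal.Quotient.mk_surjective y
        rfl
      rw [this]
      exact (LinearMap.det_conj _ (e.restrictScalars F)).symm
    rw [h1, h3, LinearMap.det_prodMap, LinearMap.det_id, mul_one, h4, hκ]

end Cfsg.Agent.Lib.Helper5_SemisimpleDet
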