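import Mathlib
import Cfsg.Agent.Lib.Helper5_Semisimple
import Cfsg.Agent.Lib.Helper5_SemisimpleDet

set_option autoImplicit false

namespace Cfsg.Agent.Lib.Helper5_SemisimpleSL

open Module Polynomial Cfsg.Agent.Lib.Helper5_Semisimple Cfsg.Agent.Lib.Helper5_SemisimpleDet

variable {F : Type*} [Field F] [Fintype F] {n : Type*} [Fintype n] [DecidableEq n]

theorem exists_centralizing [Nonempty n] (A : Matrix n n F) (hA : Module.End.IsSemisimple (Matrix.toLin' A))
    (lam : F) (hlam : lam ≠ 0) :
    ∃ C : Matrix.GeneralLinearGroup n F, (C : Matrix n n F) * A = A * (C : Matrix n n F) ∧ (C : Matrix n n F).det = lam := by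
  obtain ⟨c, hc, hdet⟩ := exists_commuting_det (Matrix.toLin' A) hA lam
  have hd : (LinearMap.toMatrix' c).det = lam := by rw [LinearMap.det_toMatrix', hdet]
  refine ⟨Matrix.GeneralLinearGroup.mkOfDetNeZero (LinearMap.toMatrix' c) (by rw [hd]; exact hlam), ?_, hd⟩
  show LinearMap.toMatrix' c * A = A * LinearMap.toMatrix' c
  apply Matrix.toLin'.injective
  rw [Matrix.toLin'_mul, Matrix.toLin'_mul, Matrix.toLin'_toMatrix']
  apply LinearMap.ext
  intro v
  exact hc v

/-- conjugating matrices for semisimple elements can be chosen of determinant one -/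
theorem exists_conj_det_one (A B : Matrix n n F) (hA : Module.End.IsSemisimple (Matrix.toLin' A))
    (P : Matrix.GeneralLinearGroup n F) (hP : (P : Matrix n n F) * A = B * (P : Matrix n n F)) :
    ∃ P' : Matrix.GeneralLinearGroup n F, (P' : Matrix n n F) * A = B * (P' : Matrix n n F) ∧ (P' : Matrix n n F).det = 1 := by
  rcases isEmpty_or_nonempty n with hn | hn
  · exact ⟨P, hP, Matrix.det_isEmpty⟩
  have hdet : (P : Matrix n n F).det ≠ 0 := by
    have := (Matrix.isUnit_iff_isUnit_det _).1 P.isUnit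
    exact this.ne_zero
  obtain ⟨C, hC, hCd⟩ := exists_centralizing A hA ((P : Matrix n n F).det)⁻¹ (inv_ne_zero hdet)
  refine ⟨P * C, ?_, ?_⟩
  · show (P : Matrix n n F) * (C : Matrix n n F) * A = B * ((P : Matrix n n F) * (C : Matrix n n F))
    rw [mul_assoc, hC, ← mul_assoc, hP, mul_assoc]
  · show ((P : Matrix n n F) * (C : Matrix n n F)).det = 1
    rw [Matrix.det_mul, hCd, mul_inv_cancel₀ hdet]

end Cfsg.Agent.Lib.Helper5_SemisimpleSL
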