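import Mathlib
import Cfsg.Agent.Lib.Helper5_Symp
import Cfsg.Agent.Lib.Helper5_FormCount

set_option autoImplicit false

namespace Cfsg.Agent.Lib.Helper5_SympCard

open Module Matrix Cfsg.Agent.Lib.Helper5_Symp Cfsg.Agent.Lib.Helper5_FormCount

variable {F : Type*} [Field F] {m : ℕ}

theorem finrank_V : finrank F (Fin m ⊕ Fin m → F) = 2 * m := by
  rw [Module.finrank_fintype_fun_eq_card, Fintype.card_sum, Fintype.card_fin, two_mul]

theorem hb (x : Fin m ⊕ Fin m → F) (h : ∀ y, sB m F x y = 0) : x = 0 := by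
  apply sB_nondeg
  intro u
  rw [sB_swap, h, neg_zero]

/-- independent isotropic families -/
def IsoP (k : ℕ) (e : Fin k → (Fin m ⊕ Fin m → F)) : Prop :=
  LinearIndependent F e ∧ ∀ i j, sB m F (e i) (e j) = 0

theorem isoP_snoc (k : ℕ) (e : Fin k → (Fin m ⊕ Fin m → F)) (y : Fin m ⊕ Fin m → F) :
    IsoP (k + 1) (Fin.snoc e y : Fin (k + 1) → (Fin m ⊕ Fin m → F)) ↔
      IsoP k e ∧ ((∀ i, sB m F (e i) y = 0) ∧ y ∉ Submodule.span F (Set.range e)) := by
  unfold IsoP
  rw [linearIndependent_finSnoc]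
  constructor
  · rintro ⟨⟨h1, h2⟩, h3⟩
    refine ⟨⟨h1, fun i j => ?_⟩, fun i => ?_, h2⟩
    · have := h3 i.castSucc j.castSucc
      rwa [Fin.snoc_castSucc, Fin.snoc_castSucc] at this
    · have := h3 i.castSucc (Fin.last k)
      rwa [Fin.snoc_castSucc, Fin.snoc_last] at this
  · rintro ⟨⟨h1, h3⟩, h4, h2⟩
    refine ⟨⟨h1, h2⟩, fun i j => ?_⟩
    refine Fin.lastCases ?_ (fun i => ?_) i <;> refine Fin.lastCases ?_ (fun j => ?_) j
    · rw [Fin.snoc_last, sB_self]
    · rw [Fin.snoc_last, Fin.snoc_castSucc, sB_swap, h4, neg_zero]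
    · rw [Fin.snoc_last, Fin.snoc_castSucc, h4]
    · rw [Fin.snoc_castSucc, Fin.snoc_castSucc, h3]

theorem card_iso [Fintype F] (k : ℕ) (hk : k ≤ m) :
    Nat.card {e : Fin k → (Fin m ⊕ Fin m → F) // IsoP k e} =
      ∏ i ∈ Finset.range k, (Fintype.card F ^ (2 * m - i) - Fintype.card F ^ i) := by
  induction k with
  | zero =>
    have : Unique {e : Fin 0 → (Fin m ⊕ Fin m → F) // IsoP 0 e} :=
      ⟨⟨⟨fun i => i.elim0, linearIndependent_empty_type, fun i => i.elim0⟩⟩,
        fun x => Subtype.ext (Subsingleton.elim _ _)⟩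
    rw [Nat.card_unique, Finset.range_zero, Finset.prod_empty]
  | succ k ih =>
    rw [Finset.prod_range_succ, ← ih (by omega)]
    apply card_snoc (IsoP k) _ (IsoP (k + 1)) (isoP_snoc k)
    intro e he
    have hsub : ((Submodule.span F (Set.range e) : Submodule F (Fin m ⊕ Fin m → F)) :
        Set (Fin m ⊕ Fin m → F)) ⊆ {y | ∀ i, sB m F (e i) y = 0} := by
      intro y hy i
      have : Submodule.span F (Set.range e) ≤ LinearMap.ker (sB m F (e i)) := by
        rw [Submodule.span_le]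
        rintro _ ⟨j, rfl⟩
        exact he.2 i j
      exact this hy
    have h1 : Nat.card {y // (∀ i, sB m F (e i) y = 0) ∧ y ∉ Submodule.span F (Set.range e)} =
        ({y | ∀ i, sB m F (e i) y = 0} \
          ((Submodule.span F (Set.range e) : Submodule F (Fin m ⊕ Fin m → F)) :
            Set (Fin m ⊕ Fin m → F))).ncard := by
      rw [← Nat.card_coe_set_eq]
      rfl
    rw [h1, Set.ncard_diff hsub (Set.toFinite _), ← Nat.card_coe_set_eq, ← Nat.card_coe_set_eq]
    congr 1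
    · have := card_solutions (sB m F) hb e he.1 (fun _ => 0)
      rw [finrank_V, Fintype.card_fin] at this
      exact this
    · have h2 : Nat.card (Submodule.span F (Set.range e)) = _ :=
        Module.natCard_eq_pow_finrank (K := F)
      rw [finrank_span_eq_card he.1, Fintype.card_fin, Nat.card_eq_fintype_card (α := F)] at h2
      exact h2

/-- the dual families -/
def FP (e : Fin m → (Fin m ⊕ Fin m → F)) (j : ℕ) (f : Fin j → (Fin m ⊕ Fin m → F)) : Prop :=
  (∀ (i : Fin m) (i' : Fin j), sB m F (e i) (f i') = if (i : ℕ) = (i' : ℕ) then 1 else 0) ∧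
    ∀ i' i'', sB m F (f i') (f i'') = 0

theorem fP_snoc (e : Fin m → (Fin m ⊕ Fin m → F)) (j : ℕ) (f : Fin j → (Fin m ⊕ Fin m → F))
    (y : Fin m ⊕ Fin m → F) :
    FP e (j + 1) (Fin.snoc f y : Fin (j + 1) → (Fin m ⊕ Fin m → F)) ↔
      FP e j f ∧ ((∀ i : Fin m, sB m F (e i) y = if (i : ℕ) = j then 1 else 0) ∧
        ∀ i' : Fin j, sB m F (f i') y = 0) := by
  unfold FP
  constructor
  · rintro ⟨h1, h2⟩
    refine ⟨⟨fun i i' => ?_, fun i' i'' => ?_⟩, fun i => ?_, fun i' => ?_⟩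
    · have := h1 i i'.castSucc
      rwa [Fin.snoc_castSucc] at this
    · have := h2 i'.castSucc i''.castSucc
      rwa [Fin.snoc_castSucc, Fin.snoc_castSucc] at this
    · have := h1 i (Fin.last j)
      rwa [Fin.snoc_last] at this
    · have := h2 i'.castSucc (Fin.last j)
      rwa [Fin.snoc_castSucc, Fin.snoc_last] at this
  · rintro ⟨⟨h1, h2⟩, h3, h4⟩
    refine ⟨fun i i' => ?_, fun i' i'' => ?_⟩
    · refine Fin.lastCases ?_ (fun i' => ?_) i'
      · rw [Fin.snoc_last, h3]; rfl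
      · rw [Fin.snoc_castSucc, h1]; rfl
    · refine Fin.lastCases ?_ (fun i' => ?_) i' <;> refine Fin.lastCases ?_ (fun i'' => ?_) i''
      · rw [Fin.snoc_last, sB_self]
      · rw [Fin.snoc_last, Fin.snoc_castSucc, sB_swap, h4, neg_zero]
      · rw [Fin.snoc_last, Fin.snoc_castSucc, h4]
      · rw [Fin.snoc_castSucc, Fin.snoc_castSucc, h2]

theorem indep_sum (e : Fin m → (Fin m ⊕ Fin m → F)) (he : IsoP m e) (j : ℕ) (hj : j ≤ m)
    (f : Fin j → (Fin m ⊕ Fin m → F)) (hf : FP e j f) : LinearIndependent F (Sum.elim e f) := by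
  rw [Fintype.linearIndependent_iff]
  intro g hg
  rw [Fintype.sum_sum_type] at hg
  simp only [Sum.elim_inl, Sum.elim_inr] at hg
  have hmu : ∀ i' : Fin j, g (Sum.inr i') = 0 := by
    intro i0
    have h1 := congrArg (sB m F (e ⟨i0, by omega⟩)) hg
    rw [map_add, map_sum, map_sum, map_zero] at h1
    simp only [map_smul, he.2, hf.1, smul_eq_mul, mul_zero, Finset.sum_const_zero, zero_add,
      mul_ite, mul_one] at h1
    rw [Finset.sum_eq_single i0] at h1
    · simpa using h1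
    · intro b _ hb
      rw [if_neg]
      intro h
      exact hb (Fin.ext h.symm)
    · intro h; exact absurd (Finset.mem_univ _) h
  have h2 : ∑ i, g (Sum.inl i) • e i = 0 := by
    rw [← hg]
    simp [hmu]
  have h3 := Fintype.linearIndependent_iff.1 he.1 _ h2
  rintro (i | i)
  · exact h3 i
  · exact hmu i

theorem card_F [Fintype F] (e : Fin m → (Fin m ⊕ Fin m → F)) (he : IsoP m e) (j : ℕ) (hj : j ≤ m) :
    Nat.card {f : Fin j → (Fin m ⊕ Fin m → F) // FP e j f} =
      ∏ i ∈ Finset.range j, Fintype.card F ^ (m - i) := by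
  induction j with
  | zero =>
    have : Unique {f : Fin 0 → (Fin m ⊕ Fin m → F) // FP e 0 f} :=
      ⟨⟨⟨fun i => i.elim0, fun _ i => i.elim0, fun i => i.elim0⟩⟩,
        fun x => Subtype.ext (Subsingleton.elim _ _)⟩
    rw [Nat.card_unique, Finset.range_zero, Finset.prod_empty]
  | succ j ih =>
    rw [Finset.prod_range_succ, ← ih (by omega)]
    apply card_snoc (FP e j) _ (FP e (j + 1)) (fP_snoc e j)
    intro f hf
    have h1 := card_solutions (sB m F) hb (Sum.elim e f) (indep_sum e he j (by omega) f hf)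
      (Sum.elim (fun i : Fin m => if (i : ℕ) = j then 1 else 0) (fun _ => 0))
    rw [finrank_V, Fintype.card_sum, Fintype.card_fin, Fintype.card_fin,
      show 2 * m - (m + j) = m - j from by omega] at h1
    rw [← h1]
    apply Nat.card_congr
    apply Equiv.subtypeEquivRight
    intro y
    rw [Sum.forall]
    rfl

theorem indep_of_dual (e f : Fin m → (Fin m ⊕ Fin m → F))
    (h : ∀ i i' : Fin m, sB m F (e i) (f i') = if (i : ℕ) = (i' : ℕ) then 1 else 0) :
    LinearIndependent F e := by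
  rw [Fintype.linearIndependent_iff]
  intro g hg i0
  have h1 := congrArg (fun x => sB m F x (f i0)) hg
  simp only [map_sum, LinearMap.sum_apply, map_smul, LinearMap.smul_apply, h, smul_eq_mul,
    mul_ite, mul_one, mul_zero, map_zero, LinearMap.zero_apply] at h1
  rw [Finset.sum_eq_single i0] at h1
  · simpa using h1
  · intro b _ hb
    rw [if_neg]
    intro h
    exact hb (Fin.ext h)
  · intro h; exact absurd (Finset.mem_univ _) h

theorem form_mulVec (A : Matrix (Fin m ⊕ Fin m) (Fin m ⊕ Fin m) F) (u v : Fin m ⊕ Fin m → F) :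
    sB m F (A *ᵥ u) (A *ᵥ v) = u ⬝ᵥ ((Aᵀ * Matrix.J (Fin m) F * A) *ᵥ v) := by
  rw [sB_apply]
  unfold Cfsg.sympForm
  rw [Matrix.mulVec_mulVec, Matrix.dotProduct_mulVec, Matrix.vecMul_mulVec, ← Matrix.dotProduct_mulVec,
    ← Matrix.mul_assoc]

theorem mem_of_frame (A : Matrix (Fin m ⊕ Fin m) (Fin m ⊕ Fin m) F)
    (h : ∀ a c, sB m F (A *ᵥ Pi.single a 1) (A *ᵥ Pi.single c 1) =
      sB m F (Pi.single a 1) (Pi.single c 1)) : A ∈ Matrix.symplecticGroup (Fin m) F := by
  rw [SymplecticGroup.mem_iff']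
  ext a c
  have h1 := h a c
  rw [form_mulVec, sB_apply] at h1
  unfold Cfsg.sympForm at h1
  simpa [Matrix.mulVec_single_one, single_one_dotProduct] using h1

/-- the frame of a symplectic matrix -/
def FrP (p : (Fin m → (Fin m ⊕ Fin m → F)) × (Fin m → (Fin m ⊕ Fin m → F))) : Prop :=
  IsoP m p.1 ∧ FP p.1 m p.2

theorem frame_of (g : Matrix.symplecticGroup (Fin m) F) :
    FrP (fun i => (g : Matrix (Fin m ⊕ Fin m) (Fin m ⊕ Fin m) F) *ᵥ Pi.single (Sum.inr i) 1,
      fun j => (g : Matrix (Fin m ⊕ Fin m) (Fin m ⊕ Fin m) F) *ᵥ Pi.single (Sum.inl j) 1) := by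
  have h1 : ∀ i i' : Fin m, sB m F
      ((g : Matrix (Fin m ⊕ Fin m) (Fin m ⊕ Fin m) F) *ᵥ Pi.single (Sum.inr i) 1)
      ((g : Matrix (Fin m ⊕ Fin m) (Fin m ⊕ Fin m) F) *ᵥ Pi.single (Sum.inl i') 1) =
        if (i : ℕ) = (i' : ℕ) then 1 else 0 := by
    intro i i'
    rw [sB_mulVec, sB_single_inr, Pi.single_apply]
    simp only [Sum.inl.injEq, Fin.ext_iff]
  refine ⟨⟨indep_of_dual _ _ h1, fun i j => ?_⟩, h1, fun i j => ?_⟩
  · rw [sB_mulVec, sB_single_inr]; simp
  · rw [sB_mulVec, sB_single_inl]; simp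

noncomputable def frameEquiv : Matrix.symplecticGroup (Fin m) F ≃
    {p : (Fin m → (Fin m ⊕ Fin m → F)) × (Fin m → (Fin m ⊕ Fin m → F)) // FrP p} where
  toFun g := ⟨_, frame_of g⟩
  invFun p := ⟨Matrix.of (fun r c => Sum.elim p.1.2 p.1.1 c r), by
    obtain ⟨⟨e, f⟩, ⟨he1, he2⟩, hf1, hf2⟩ := p
    apply mem_of_frame
    have hcol : ∀ c, (Matrix.of (fun r c => Sum.elim f e c r) :
        Matrix (Fin m ⊕ Fin m) (Fin m ⊕ Fin m) F) *ᵥ Pi.single c 1 = Sum.elim f e c := by
      intro c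
      rw [Matrix.mulVec_single_one]
      rfl
    intro a c
    rw [hcol, hcol]
    rcases a with i | i <;> rcases c with j | j
    · rw [Sum.elim_inl, Sum.elim_inl, hf2, sB_single_inl]; simp
    · rw [Sum.elim_inl, Sum.elim_inr, sB_swap, hf1, sB_single_inl, Pi.single_apply]
      simp only [Sum.inr.injEq, Fin.ext_iff, eq_comm]
    · rw [Sum.elim_inr, Sum.elim_inl, hf1, sB_single_inr, Pi.single_apply]
      simp only [Sum.inl.injEq, Fin.ext_iff]
    · rw [Sum.elim_inr, Sum.elim_inr, he2, sB_single_inr]; simp⟩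
  left_inv g := by
    apply Subtype.ext
    ext r c
    rcases c with j | j
    · change ((g : Matrix (Fin m ⊕ Fin m) (Fin m ⊕ Fin m) F) *ᵥ Pi.single (Sum.inl j) 1) r = _
      rw [Matrix.mulVec_single_one]; rfl
    · change ((g : Matrix (Fin m ⊕ Fin m) (Fin m ⊕ Fin m) F) *ᵥ Pi.single (Sum.inr j) 1) r = _
      rw [Matrix.mulVec_single_one]; rfl
  right_inv p := by
    obtain ⟨⟨e, f⟩, hp⟩ := p
    apply Subtype.ext
    apply Prod.ext
    · funext i
      change (Matrix.of (fun r c => Sum.elim f e c r) :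
        Matrix (Fin m ⊕ Fin m) (Fin m ⊕ Fin m) F) *ᵥ Pi.single (Sum.inr i) 1 = e i
      rw [Matrix.mulVec_single_one]; rfl
    · funext i
      change (Matrix.of (fun r c => Sum.elim f e c r) :
        Matrix (Fin m ⊕ Fin m) (Fin m ⊕ Fin m) F) *ᵥ Pi.single (Sum.inl i) 1 = f i
      rw [Matrix.mulVec_single_one]; rfl

theorem card_sp' [Fintype F] : Nat.card (Matrix.symplecticGroup (Fin m) F) =
    (∏ i ∈ Finset.range m, (Fintype.card F ^ (2 * m - i) - Fintype.card F ^ i)) *
      ∏ i ∈ Finset.range m, Fintype.card F ^ (m - i) := by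
  classical
  rw [Nat.card_congr frameEquiv, ← card_iso m le_rfl]
  have e : {p : (Fin m → (Fin m ⊕ Fin m → F)) × (Fin m → (Fin m ⊕ Fin m → F)) // FrP p} ≃
      Σ e : {e : Fin m → (Fin m ⊕ Fin m → F) // IsoP m e},
        {f : Fin m → (Fin m ⊕ Fin m → F) // FP e.1 m f} :=
    { toFun := fun p => ⟨⟨p.1.1, p.2.1⟩, ⟨p.1.2, p.2.2⟩⟩
      invFun := fun s => ⟨(s.1.1, s.2.1), s.1.2, s.2.2⟩
      left_inv := fun p => rfl
      right_inv := fun s => rfl }
  have : Fintype {e : Fin m → (Fin m ⊕ Fin m → F) // IsoP m e} := Fintype.ofFinite _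
  rw [Nat.card_congr e, Nat.card_sigma,
    Finset.sum_congr rfl (fun a _ => card_F a.1 a.2 m le_rfl),
    Finset.sum_const, Finset.card_univ, Nat.card_eq_fintype_card, smul_eq_mul]

theorem card_sp [Fintype F] : Nat.card (Matrix.symplecticGroup (Fin m) F) =
    Fintype.card F ^ (m ^ 2) * ∏ i ∈ Finset.range m, (Fintype.card F ^ (2 * (i + 1)) - 1) := by
  rw [card_sp']
  set q := Fintype.card F
  have h1 : ∀ i ∈ Finset.range m, (q ^ (2 * m - i) - q ^ i) * q ^ (m - i) =
      q ^ m * (q ^ (2 * (m - 1 - i + 1)) - 1) := by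
    intro i hi
    rw [Finset.mem_range] at hi
    have e1 : 2 * m - i = i + 2 * (m - 1 - i + 1) := by omega
    have e2 : m = i + (m - i) := by omega
    rw [e1, pow_add, ← Nat.mul_sub_one]
    conv_rhs => rw [e2, pow_add]
    have e3 : i + (m - i) - 1 - i + 1 = m - 1 - i + 1 := by omega
    rw [e3]
    ring
  rw [← Finset.prod_mul_distrib, Finset.prod_congr rfl h1, Finset.prod_mul_distrib,
    Finset.prod_const, Finset.card_range, ← pow_mul, ← pow_two,
    Finset.prod_range_reflect (fun i => q ^ (2 * (i + 1)) - 1) m]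

end Cfsg.Agent.Lib.Helper5_SympCard
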