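import Mathlib
import Cfsg.Agent.Lib.Helper2_Symp
import Cfsg.Agent.Lib.Helper5_Symp

set_option autoImplicit false

namespace Cfsg.Agent.Lib.Helper5_SympGen

open Matrix Cfsg.Agent.Lib.Helper2_Symp Cfsg.Agent.Lib.Helper5_Symp

variable {F : Type*} [Field F] {m : ℕ}

/-- the symplectic transvection as an element of the symplectic group -/
def tv (w : Fin m ⊕ Fin m → F) (c : F) : Matrix.symplecticGroup (Fin m) F :=
  ⟨Cfsg.sympTransvection m w c, sympTransvection_mem m w c⟩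

/-- the subgroup generated by the symplectic transvections -/
def T (m : ℕ) (F : Type*) [Field F] : Subgroup (Matrix.symplecticGroup (Fin m) F) :=
  Subgroup.closure {A : Matrix.symplecticGroup (Fin m) F | ∃ (w : Fin m ⊕ Fin m → F) (c : F),
    (A : Matrix (Fin m ⊕ Fin m) (Fin m ⊕ Fin m) F) = Cfsg.sympTransvection m w c}

theorem tv_mem (w : Fin m ⊕ Fin m → F) (c : F) : tv w c ∈ T m F :=
  Subgroup.subset_closure ⟨w, c, rfl⟩

theorem tv_mulVec (w : Fin m ⊕ Fin m → F) (c : F) (x : Fin m ⊕ Fin m → F) :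
    (tv w c : Matrix (Fin m ⊕ Fin m) (Fin m ⊕ Fin m) F) *ᵥ x = x + (c * sB m F x w) • w := by
  rw [sB_apply]
  exact sympTransvection_mulVec m w c x

theorem mul_mulVec (g h : Matrix.symplecticGroup (Fin m) F) (x : Fin m ⊕ Fin m → F) :
    ((g * h : Matrix.symplecticGroup (Fin m) F) : Matrix (Fin m ⊕ Fin m) (Fin m ⊕ Fin m) F) *ᵥ x =
      (g : Matrix (Fin m ⊕ Fin m) (Fin m ⊕ Fin m) F) *ᵥ
        ((h : Matrix (Fin m ⊕ Fin m) (Fin m ⊕ Fin m) F) *ᵥ x) := by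
  rw [Matrix.mulVec_mulVec]; rfl

theorem one_mulVec' (x : Fin m ⊕ Fin m → F) :
    ((1 : Matrix.symplecticGroup (Fin m) F) : Matrix (Fin m ⊕ Fin m) (Fin m ⊕ Fin m) F) *ᵥ x = x := by
  change (1 : Matrix (Fin m ⊕ Fin m) (Fin m ⊕ Fin m) F) *ᵥ x = x
  rw [Matrix.one_mulVec]

theorem inv_mulVec (g : Matrix.symplecticGroup (Fin m) F) (x : Fin m ⊕ Fin m → F) :
    ((g⁻¹ : Matrix.symplecticGroup (Fin m) F) : Matrix (Fin m ⊕ Fin m) (Fin m ⊕ Fin m) F) *ᵥ
      ((g : Matrix (Fin m ⊕ Fin m) (Fin m ⊕ Fin m) F) *ᵥ x) = x := by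
  rw [← mul_mulVec, inv_mul_cancel, one_mulVec']

theorem mulVec_inv (g : Matrix.symplecticGroup (Fin m) F) (x : Fin m ⊕ Fin m → F) :
    (g : Matrix (Fin m ⊕ Fin m) (Fin m ⊕ Fin m) F) *ᵥ
      (((g⁻¹ : Matrix.symplecticGroup (Fin m) F) : Matrix (Fin m ⊕ Fin m) (Fin m ⊕ Fin m) F) *ᵥ x) = x := by
  rw [← mul_mulVec, mul_inv_cancel, one_mulVec']

/-- if `B x y ≠ 0` a single transvection moves `x` to `y`, fixing all `v` with `B v x = B v y`. -/
theorem exists_tv (x y : Fin m ⊕ Fin m → F) (h : sB m F x y ≠ 0) :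
    ∃ t ∈ T m F, (t : Matrix (Fin m ⊕ Fin m) (Fin m ⊕ Fin m) F) *ᵥ x = y ∧
      ∀ v, sB m F v x = sB m F v y → (t : Matrix (Fin m ⊕ Fin m) (Fin m ⊕ Fin m) F) *ᵥ v = v := by
  refine ⟨tv (y - x) (sB m F x y)⁻¹, tv_mem _ _, ?_, ?_⟩
  · rw [tv_mulVec, map_sub, sB_self, sub_zero, inv_mul_cancel₀ h, one_smul]
    abel
  · intro v hv
    rw [tv_mulVec, map_sub, hv, sub_self, mul_zero, zero_smul, add_zero]

theorem exists_ne_left (d : Fin m ⊕ Fin m → F) (hd : d ≠ 0) : ∃ u, sB m F u d ≠ 0 := by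
  by_contra hcon
  push Not at hcon
  exact hd (sB_nondeg m F d hcon)

theorem exists_ne_right (d : Fin m ⊕ Fin m → F) (hd : d ≠ 0) : ∃ u, sB m F d u ≠ 0 := by
  obtain ⟨u, hu⟩ := exists_ne_left d hd
  refine ⟨u, ?_⟩
  rw [sB_swap]
  exact neg_ne_zero.2 hu

/-- two nonzero functionals are simultaneously nonzero somewhere -/
theorem exists_both (φ ψ : (Fin m ⊕ Fin m → F) →ₗ[F] F) (hφ : ∃ u, φ u ≠ 0) (hψ : ∃ u, ψ u ≠ 0) :
    ∃ u, φ u ≠ 0 ∧ ψ u ≠ 0 := by
  obtain ⟨u1, h1⟩ := hφ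
  obtain ⟨u2, h2⟩ := hψ
  by_cases h3 : ψ u1 = 0
  · by_cases h4 : φ u2 = 0
    · refine ⟨u1 + u2, ?_, ?_⟩
      · rw [map_add, h4, add_zero]; exact h1
      · rw [map_add, h3, zero_add]; exact h2
    · exact ⟨u2, h4, h2⟩
  · exact ⟨u1, h1, h3⟩

/-- the fixed space -/
def fix (g : Matrix.symplecticGroup (Fin m) F) : Submodule F (Fin m ⊕ Fin m → F) :=
  LinearMap.ker (Matrix.mulVecLin (g : Matrix (Fin m ⊕ Fin m) (Fin m ⊕ Fin m) F) - LinearMap.id)

theorem mem_fix (g : Matrix.symplecticGroup (Fin m) F) (v : Fin m ⊕ Fin m → F) :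
    v ∈ fix g ↔ (g : Matrix (Fin m ⊕ Fin m) (Fin m ⊕ Fin m) F) *ᵥ v = v := by
  unfold fix
  rw [LinearMap.mem_ker, LinearMap.sub_apply, Matrix.mulVecLin_apply, LinearMap.id_apply, sub_eq_zero]

/-- a product of at most two transvections moves `x` to `g x` and fixes `fix g` pointwise -/
theorem exists_step (g : Matrix.symplecticGroup (Fin m) F) (x : Fin m ⊕ Fin m → F)
    (hx : (g : Matrix (Fin m ⊕ Fin m) (Fin m ⊕ Fin m) F) *ᵥ x ≠ x) :
    ∃ t ∈ T m F, (t : Matrix (Fin m ⊕ Fin m) (Fin m ⊕ Fin m) F) *ᵥ x =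
        (g : Matrix (Fin m ⊕ Fin m) (Fin m ⊕ Fin m) F) *ᵥ x ∧
      ∀ v ∈ fix g, (t : Matrix (Fin m ⊕ Fin m) (Fin m ⊕ Fin m) F) *ᵥ v = v := by
  have hfix : ∀ v ∈ fix g, ∀ u, sB m F v ((g : Matrix (Fin m ⊕ Fin m) (Fin m ⊕ Fin m) F) *ᵥ u) =
      sB m F v u := by
    intro v hv u
    rw [mem_fix] at hv
    conv_lhs => rw [← hv]
    exact sB_mulVec g v u
  by_cases h0 : sB m F x ((g : Matrix (Fin m ⊕ Fin m) (Fin m ⊕ Fin m) F) *ᵥ x) = 0
  · -- two transvections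
    have hd : x - (g : Matrix (Fin m ⊕ Fin m) (Fin m ⊕ Fin m) F) *ᵥ x ≠ 0 :=
      sub_ne_zero.2 (Ne.symm hx)
    set d := x - (g : Matrix (Fin m ⊕ Fin m) (Fin m ⊕ Fin m) F) *ᵥ x with hddef
    obtain ⟨u, hu1, hu2⟩ := exists_both
      ((sB m F d).comp (Matrix.mulVecLin (g : Matrix (Fin m ⊕ Fin m) (Fin m ⊕ Fin m) F)))
      (LinearMap.flip (sB m F) d)
      (by
        obtain ⟨z, hz⟩ := exists_ne_right d hd
        refine ⟨((g⁻¹ : Matrix.symplecticGroup (Fin m) F) :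
          Matrix (Fin m ⊕ Fin m) (Fin m ⊕ Fin m) F) *ᵥ z, ?_⟩
        rw [LinearMap.comp_apply, Matrix.mulVecLin_apply, mulVec_inv]
        exact hz)
      (by
        obtain ⟨z, hz⟩ := exists_ne_left d hd
        exact ⟨z, by rw [LinearMap.flip_apply]; exact hz⟩)
    rw [LinearMap.comp_apply, Matrix.mulVecLin_apply] at hu1
    rw [LinearMap.flip_apply] at hu2
    set gx := (g : Matrix (Fin m ⊕ Fin m) (Fin m ⊕ Fin m) F) *ᵥ x with hgx
    set gu := (g : Matrix (Fin m ⊕ Fin m) (Fin m ⊕ Fin m) F) *ᵥ u with hgu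
    have hinv : sB m F gx gu = sB m F x u := sB_mulVec g x u
    have hinv' : sB m F gu gx = sB m F u x := sB_mulVec g u x
    -- y = x + (gu - u)
    have e1 : sB m F x (x + (gu - u)) ≠ 0 := by
      have : sB m F x (x + (gu - u)) = sB m F d gu := by
        rw [hddef, map_add, map_sub, sB_self, map_sub, LinearMap.sub_apply, hinv]
        ring
      rw [this]; exact hu1
    have e2 : sB m F (x + (gu - u)) gx ≠ 0 := by
      have : sB m F (x + (gu - u)) gx = sB m F u d := by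
        rw [hddef, map_add, map_sub, LinearMap.add_apply, LinearMap.sub_apply, h0, hinv', map_sub]
        ring
      rw [this]; exact hu2
    obtain ⟨t1, ht1, ht1x, ht1f⟩ := exists_tv x (x + (gu - u)) e1
    obtain ⟨t2, ht2, ht2x, ht2f⟩ := exists_tv (x + (gu - u)) gx e2
    refine ⟨t2 * t1, (T m F).mul_mem ht2 ht1, ?_, ?_⟩
    · rw [mul_mulVec, ht1x, ht2x]
    · intro v hv
      have h1 : sB m F v gu = sB m F v u := hfix v hv u
      have h2 : sB m F v gx = sB m F v x := hfix v hv x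
      rw [mul_mulVec, ht1f v (by rw [map_add, map_sub, h1]; ring),
        ht2f v (by rw [map_add, map_sub, h1, h2]; ring)]
  · obtain ⟨t, ht, htx, htf⟩ := exists_tv x _ h0
    exact ⟨t, ht, htx, fun v hv => htf v (hfix v hv x).symm⟩

theorem mem_T (g : Matrix.symplecticGroup (Fin m) F) : g ∈ T m F := by
  induction' hn : (Module.finrank F (Fin m ⊕ Fin m → F) - Module.finrank F (fix g)) using
    Nat.strong_induction_on with n ih generalizing g
  by_cases hall : ∀ x, (g : Matrix (Fin m ⊕ Fin m) (Fin m ⊕ Fin m) F) *ᵥ x = x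
  · have : g = 1 := by
      apply Subtype.ext
      change (g : Matrix (Fin m ⊕ Fin m) (Fin m ⊕ Fin m) F) = 1
      apply Matrix.toLin'.injective
      apply LinearMap.ext
      intro x
      rw [Matrix.toLin'_apply, hall x, Matrix.toLin'_one, LinearMap.id_apply]
    rw [this]; exact (T m F).one_mem
  · push Not at hall
    obtain ⟨x, hx⟩ := hall
    obtain ⟨t, ht, htx, htf⟩ := exists_step g x hx
    have hlt : fix g < fix (t⁻¹ * g) := by
      apply lt_of_le_of_ne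
      · intro v hv
        rw [mem_fix, mul_mulVec, (mem_fix g v).1 hv]
        conv_lhs => rw [← htf v hv]
        exact inv_mulVec t v
      · intro heq
        have hxm : x ∈ fix (t⁻¹ * g) := by
          rw [mem_fix, mul_mulVec, ← htx]
          exact inv_mulVec t x
        rw [← heq, mem_fix] at hxm
        exact hx hxm
    have hfr := Submodule.finrank_lt_finrank_of_lt hlt
    have hle := Submodule.finrank_le (fix (t⁻¹ * g))
    have := ih _ (by omega) (t⁻¹ * g) rfl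
    have h2 := (T m F).mul_mem ht this
    rwa [mul_inv_cancel_left] at h2

theorem T_eq_top : T m F = ⊤ := by
  rw [eq_top_iff]
  intro g _
  exact mem_T g

/-- transitivity on nonzero vectors -/
theorem exists_move (v w : Fin m ⊕ Fin m → F) (hv : v ≠ 0) (hw : w ≠ 0) :
    ∃ t ∈ T m F, (t : Matrix (Fin m ⊕ Fin m) (Fin m ⊕ Fin m) F) *ᵥ v = w := by
  by_cases h0 : sB m F v w = 0
  · obtain ⟨z, hz1, hz2⟩ := exists_both (sB m F v) (LinearMap.flip (sB m F) w)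
      (exists_ne_right v hv)
      (by
        obtain ⟨z, hz⟩ := exists_ne_left w hw
        exact ⟨z, by rw [LinearMap.flip_apply]; exact hz⟩)
    rw [LinearMap.flip_apply] at hz2
    obtain ⟨t1, ht1, ht1x, -⟩ := exists_tv v z hz1
    obtain ⟨t2, ht2, ht2x, -⟩ := exists_tv z w hz2
    exact ⟨t2 * t1, (T m F).mul_mem ht2 ht1, by rw [mul_mulVec, ht1x, ht2x]⟩
  · obtain ⟨t, ht, htx, -⟩ := exists_tv v w h0
    exact ⟨t, ht, htx⟩

/-- transitivity on hyperbolic pairs -/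
theorem exists_move_pair (u v u' v' : Fin m ⊕ Fin m → F) (h : sB m F u v = 1)
    (h' : sB m F u' v' = 1) :
    ∃ t ∈ T m F, (t : Matrix (Fin m ⊕ Fin m) (Fin m ⊕ Fin m) F) *ᵥ u = u' ∧
      (t : Matrix (Fin m ⊕ Fin m) (Fin m ⊕ Fin m) F) *ᵥ v = v' := by
  have hu : u ≠ 0 := by
    rintro rfl
    rw [map_zero, LinearMap.zero_apply] at h
    exact zero_ne_one h
  have hu' : u' ≠ 0 := by
    rintro rfl
    rw [map_zero, LinearMap.zero_apply] at h'
    exact zero_ne_one h'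
  obtain ⟨t1, ht1, ht1u⟩ := exists_move u u' hu hu'
  set v1 := (t1 : Matrix (Fin m ⊕ Fin m) (Fin m ⊕ Fin m) F) *ᵥ v with hv1
  have h1 : sB m F u' v1 = 1 := by
    rw [← ht1u, hv1, sB_mulVec, h]
  suffices hs : ∃ t ∈ T m F, (t : Matrix (Fin m ⊕ Fin m) (Fin m ⊕ Fin m) F) *ᵥ u' = u' ∧
      (t : Matrix (Fin m ⊕ Fin m) (Fin m ⊕ Fin m) F) *ᵥ v1 = v' by
    obtain ⟨t2, ht2, ht2u, ht2v⟩ := hs
    exact ⟨t2 * t1, (T m F).mul_mem ht2 ht1, by rw [mul_mulVec, ht1u, ht2u],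
      by rw [mul_mulVec, ← hv1, ht2v]⟩
  by_cases h0 : sB m F v1 v' = 0
  · have e1 : sB m F v1 (v1 + u') ≠ 0 := by
      rw [map_add, sB_self, zero_add, sB_swap, h1]
      exact neg_ne_zero.2 one_ne_zero
    have e2 : sB m F (v1 + u') v' ≠ 0 := by
      rw [map_add, LinearMap.add_apply, h0, h', zero_add]
      exact one_ne_zero
    obtain ⟨ta, hta, htax, htaf⟩ := exists_tv v1 (v1 + u') e1
    obtain ⟨tb, htb, htbx, htbf⟩ := exists_tv (v1 + u') v' e2
    refine ⟨tb * ta, (T m F).mul_mem htb hta, ?_, ?_⟩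
    · rw [mul_mulVec, htaf u' (by rw [map_add, sB_self, add_zero]),
        htbf u' (by rw [map_add, sB_self, add_zero, h1, h'])]
    · rw [mul_mulVec, htax, htbx]
  · obtain ⟨t, ht, htx, htf⟩ := exists_tv v1 v' h0
    exact ⟨t, ht, htf u' (by rw [h1, h']), htx⟩

end Cfsg.Agent.Lib.Helper5_SympGen
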