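import Mathlib
import Cfsg.Agent.Lib.Helper5_SympGen

set_option autoImplicit false

namespace Cfsg.Agent.Lib.Helper5_SympTv

open Matrix Cfsg.Agent.Lib.Helper2_Symp Cfsg.Agent.Lib.Helper5_Symp Cfsg.Agent.Lib.Helper5_SympGen

variable {F : Type*} [Field F] {m : ℕ}

theorem sp_ext (g h : Matrix.symplecticGroup (Fin m) F)
    (H : ∀ x, (g : Matrix (Fin m ⊕ Fin m) (Fin m ⊕ Fin m) F) *ᵥ x =
      (h : Matrix (Fin m ⊕ Fin m) (Fin m ⊕ Fin m) F) *ᵥ x) : g = h := by
  apply Subtype.ext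
  apply Matrix.toLin'.injective
  apply LinearMap.ext
  intro x
  rw [Matrix.toLin'_apply, Matrix.toLin'_apply, H x]

theorem conj_tv (g : Matrix.symplecticGroup (Fin m) F) (w : Fin m ⊕ Fin m → F) (c : F) :
    g * tv w c * g⁻¹ = tv ((g : Matrix (Fin m ⊕ Fin m) (Fin m ⊕ Fin m) F) *ᵥ w) c := by
  apply sp_ext
  intro x
  rw [mul_mulVec, mul_mulVec, tv_mulVec, tv_mulVec, Matrix.mulVec_add, mulVec_inv, Matrix.mulVec_smul]
  congr 3
  conv_rhs => rw [← mulVec_inv g x]
  rw [sB_mulVec]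

theorem tv_zero_right (w : Fin m ⊕ Fin m → F) : tv w (0 : F) = 1 := by
  apply sp_ext
  intro x
  rw [tv_mulVec, zero_mul, zero_smul, add_zero, one_mulVec']

theorem tv_zero_left (c : F) : tv (0 : Fin m ⊕ Fin m → F) c = 1 := by
  apply sp_ext
  intro x
  rw [tv_mulVec, smul_zero, add_zero, one_mulVec']

theorem tv_mul (w : Fin m ⊕ Fin m → F) (c d : F) : tv w c * tv w d = tv w (c + d) :=
  Subtype.ext (sympTransvection_mul m w c d)

theorem tv_ne_one (w : Fin m ⊕ Fin m → F) (c : F) (hw : w ≠ 0) (hc : c ≠ 0) : tv w c ≠ 1 := by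
  intro h
  obtain ⟨x, hx⟩ := exists_ne_left w hw
  have := tv_mulVec w c x
  rw [h, one_mulVec'] at this
  have h2 : (c * sB m F x w) • w = 0 := by
    have h3 := this.symm
    rwa [add_eq_left] at h3
  rcases smul_eq_zero.1 h2 with h3 | h3
  · exact (mul_ne_zero hc hx) h3
  · exact hw h3

theorem rank_tv (w : Fin m ⊕ Fin m → F) (c : F) (hw : w ≠ 0) (hc : c ≠ 0) :
    ((tv w c : Matrix (Fin m ⊕ Fin m) (Fin m ⊕ Fin m) F) - 1).rank = 1 := by
  apply le_antisymm
  · have : (tv w c : Matrix (Fin m ⊕ Fin m) (Fin m ⊕ Fin m) F) - 1 =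
        Matrix.vecMulVec (c • w) (Matrix.J (Fin m) F *ᵥ w) := by
      change Cfsg.sympTransvection m w c - 1 = _
      unfold Cfsg.sympTransvection
      rw [add_sub_cancel_left, Matrix.smul_vecMulVec]
    rw [this]
    exact Matrix.rank_vecMulVec_le _ _
  · rw [Nat.one_le_iff_ne_zero]
    intro h0
    unfold Matrix.rank at h0
    rw [Submodule.finrank_eq_zero, LinearMap.range_eq_bot] at h0
    apply tv_ne_one w c hw hc
    apply sp_ext
    intro x
    have h1 := LinearMap.congr_fun h0 x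
    rw [Matrix.mulVecLin_apply, Matrix.sub_mulVec, Matrix.one_mulVec, LinearMap.zero_apply,
      sub_eq_zero] at h1
    rw [h1, one_mulVec']

/-- a symplectic matrix with `rank (g - 1) = 1` is a transvection -/
theorem eq_tv_of_rank (g : Matrix.symplecticGroup (Fin m) F)
    (hg : ((g : Matrix (Fin m ⊕ Fin m) (Fin m ⊕ Fin m) F) - 1).rank = 1) :
    ∃ (w : Fin m ⊕ Fin m → F) (c : F), w ≠ 0 ∧ c ≠ 0 ∧ g = tv w c := by
  unfold Matrix.rank at hg
  obtain ⟨⟨w, hwr⟩, hw0, hw⟩ := finrank_eq_one_iff'.1 hg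
  have hw0' : w ≠ 0 := fun h => hw0 (Subtype.ext h)
  have hφ : ∀ x, ∃ c : F, (g : Matrix (Fin m ⊕ Fin m) (Fin m ⊕ Fin m) F) *ᵥ x = x + c • w := by
    intro x
    obtain ⟨c, hc⟩ := hw ⟨((g : Matrix (Fin m ⊕ Fin m) (Fin m ⊕ Fin m) F) - 1) *ᵥ x, ⟨x, rfl⟩⟩
    refine ⟨c, ?_⟩
    have h1 := congrArg Subtype.val hc
    simp only [SetLike.val_smul] at h1
    rw [h1, Matrix.sub_mulVec, Matrix.one_mulVec]
    abel
  choose φ hφ using hφ
  have hinv : ∀ x y, φ x * sB m F w y = φ y * sB m F w x := by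
    intro x y
    have h1 := sB_mulVec g x y
    rw [hφ x, hφ y] at h1
    simp only [map_add, map_smul, LinearMap.add_apply, LinearMap.smul_apply, smul_eq_mul,
      sB_self, mul_zero, add_zero] at h1
    have h2 := sB_swap m F x w
    rw [h2] at h1
    linear_combination h1
  have hne : ∃ y0, φ y0 ≠ 0 := by
    by_contra hcon
    push Not at hcon
    obtain ⟨x, hx⟩ := hwr
    rw [Matrix.mulVecLin_apply, Matrix.sub_mulVec, Matrix.one_mulVec, hφ x, hcon x, zero_smul,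
      add_zero, sub_self] at hx
    exact hw0' hx.symm
  obtain ⟨y0, hy0⟩ := hne
  have hB : sB m F w y0 ≠ 0 := by
    intro h0
    obtain ⟨x, hx⟩ := exists_ne_right w hw0'
    have := hinv x y0
    rw [h0, mul_zero] at this
    exact (mul_ne_zero hy0 hx) this.symm
  refine ⟨w, -(φ y0 / sB m F w y0), hw0', neg_ne_zero.2 (div_ne_zero hy0 hB), ?_⟩
  apply sp_ext
  intro x
  rw [hφ x, tv_mulVec]
  congr 2
  have := hinv x y0
  rw [sB_swap m F x w]
  field_simp
  linear_combination this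

end Cfsg.Agent.Lib.Helper5_SympTv
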