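import Mathlib
import Cfsg.Agent.Lib.Helper5_SympTv

set_option autoImplicit false

namespace Cfsg.Agent.Lib.Helper5_SympPrim

open Matrix Cfsg.Agent.Lib.Helper2_Symp Cfsg.Agent.Lib.Helper5_Symp Cfsg.Agent.Lib.Helper5_SympGen
  Cfsg.Agent.Lib.Helper5_SympTv
open scoped LinearAlgebra.Projectivization Pointwise

variable {F : Type*} [Field F] {m : ℕ}

theorem exists_both' {W : Type*} [AddCommGroup W] [Module F W] (φ ψ : W →ₗ[F] F)
    (hφ : ∃ u, φ u ≠ 0) (hψ : ∃ u, ψ u ≠ 0) : ∃ u, φ u ≠ 0 ∧ ψ u ≠ 0 := by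
  obtain ⟨u1, h1⟩ := hφ
  obtain ⟨u2, h2⟩ := hψ
  by_cases h3 : ψ u1 = 0
  · by_cases h4 : φ u2 = 0
    · refine ⟨u1 + u2, ?_, ?_⟩
      · rw [map_add, h4, add_zero]; exact h1
      · rw [map_add, h3, zero_add]; exact h2
    · exact ⟨u2, h4, h2⟩
  · exact ⟨u1, h1, h3⟩

theorem perp_ne (x y : Fin m ⊕ Fin m → F) (hx : x ≠ 0) (hy : ∀ a : F, a • x ≠ y) :
    ∃ u, sB m F x u = 0 ∧ sB m F y u ≠ 0 := by
  obtain ⟨a0, ha0⟩ := exists_ne_right x hx
  have hy' : y - (sB m F y a0 / sB m F x a0) • x ≠ 0 := by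
    intro h
    exact hy _ (sub_eq_zero.1 h).symm
  obtain ⟨b, hb⟩ := exists_ne_right _ hy'
  refine ⟨b - (sB m F x b / sB m F x a0) • a0, ?_, ?_⟩
  · rw [map_sub, map_smul, smul_eq_mul, div_mul_cancel₀ _ ha0, sub_self]
  · intro h
    apply hb
    simp only [map_sub, map_smul, LinearMap.sub_apply, LinearMap.smul_apply, smul_eq_mul] at h ⊢
    field_simp at h ⊢
    linear_combination h

theorem exists_move_perp (x y z : Fin m ⊕ Fin m → F) (hx : x ≠ 0) (hxy : sB m F x y = 0)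
    (hxz : sB m F x z = 0) (hy : ∀ a : F, a • x ≠ y) (hz : ∀ a : F, a • x ≠ z) :
    ∃ t ∈ T m F, (t : Matrix (Fin m ⊕ Fin m) (Fin m ⊕ Fin m) F) *ᵥ x = x ∧
      (t : Matrix (Fin m ⊕ Fin m) (Fin m ⊕ Fin m) F) *ᵥ y = z := by
  by_cases h0 : sB m F y z = 0
  · obtain ⟨u, hu1, hu2⟩ := exists_both' (W := LinearMap.ker (sB m F x))
      ((sB m F y).comp (LinearMap.ker (sB m F x)).subtype)
      ((LinearMap.flip (sB m F) z).comp (LinearMap.ker (sB m F x)).subtype)
      (by
        obtain ⟨u, hu, hu'⟩ := perp_ne x y hx hy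
        exact ⟨⟨u, hu⟩, hu'⟩)
      (by
        obtain ⟨u, hu, hu'⟩ := perp_ne x z hx hz
        refine ⟨⟨u, hu⟩, ?_⟩
        change sB m F u z ≠ 0
        rw [sB_swap]
        exact neg_ne_zero.2 hu')
    obtain ⟨u, hu⟩ := u
    rw [LinearMap.mem_ker] at hu
    change sB m F y u ≠ 0 at hu1
    change sB m F u z ≠ 0 at hu2
    obtain ⟨t1, ht1, ht1x, ht1f⟩ := exists_tv y u hu1
    obtain ⟨t2, ht2, ht2x, ht2f⟩ := exists_tv u z hu2
    refine ⟨t2 * t1, (T m F).mul_mem ht2 ht1, ?_, ?_⟩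
    · rw [mul_mulVec, ht1f x (by rw [hxy, hu]), ht2f x (by rw [hxz, hu])]
    · rw [mul_mulVec, ht1x, ht2x]
  · obtain ⟨t, ht, htx, htf⟩ := exists_tv y z h0
    exact ⟨t, ht, htf x (by rw [hxy, hxz]), htx⟩

theorem mulVec_ne_zero (t : Matrix.symplecticGroup (Fin m) F) {v : Fin m ⊕ Fin m → F} (hv : v ≠ 0) :
    (t : Matrix (Fin m ⊕ Fin m) (Fin m ⊕ Fin m) F) *ᵥ v ≠ 0 := by
  intro h
  apply hv
  have := inv_mulVec t v
  rw [h, Matrix.mulVec_zero] at this
  exact this.symm

section prim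

variable {G : Type*} [Group G] [MulAction G (ℙ F (Fin m ⊕ Fin m → F))]

theorem block_hyp
    (H : ∀ t : Matrix.symplecticGroup (Fin m) F, ∃ g : G, ∀ (v : Fin m ⊕ Fin m → F) (hv : v ≠ 0),
      g • Projectivization.mk F v hv = Projectivization.mk F
        ((t : Matrix (Fin m ⊕ Fin m) (Fin m ⊕ Fin m) F) *ᵥ v) (mulVec_ne_zero t hv))
    (Bl : Set (ℙ F (Fin m ⊕ Fin m → F))) (hBl : MulAction.IsBlock G Bl)
    (x y z : Fin m ⊕ Fin m → F) (hx : x ≠ 0) (hy : y ≠ 0) (hz : z ≠ 0)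
    (hP : Projectivization.mk F x hx ∈ Bl) (hQ : Projectivization.mk F y hy ∈ Bl)
    (hxy : sB m F x y ≠ 0) (hxz : sB m F x z ≠ 0) : Projectivization.mk F z hz ∈ Bl := by
  obtain ⟨t, -, htx, hty⟩ := exists_move_pair x ((sB m F x y)⁻¹ • y) x ((sB m F x z)⁻¹ • z)
    (by rw [map_smul, smul_eq_mul, inv_mul_cancel₀ hxy])
    (by rw [map_smul, smul_eq_mul, inv_mul_cancel₀ hxz])
  obtain ⟨g, hg⟩ := H t
  have h1 : g • Bl = Bl := by
    apply hBl.smul_eq_of_mem hP
    rw [hg x hx]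
    simp only [htx]
    exact hP
  have h2 : g • Projectivization.mk F y hy ∈ Bl := by
    rw [← h1]
    exact Set.smul_mem_smul_set hQ
  rw [hg y hy] at h2
  have h3 : Projectivization.mk F z hz = Projectivization.mk F
      ((t : Matrix (Fin m ⊕ Fin m) (Fin m ⊕ Fin m) F) *ᵥ y) (mulVec_ne_zero t hy) := by
    rw [Projectivization.mk_eq_mk_iff']
    refine ⟨(sB m F x y)⁻¹ * sB m F x z, ?_⟩
    rw [Matrix.mulVec_smul] at hty
    rw [mul_comm, mul_smul, hty, smul_smul, mul_inv_cancel₀ hxz, one_smul]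
  rw [h3]; exact h2

theorem block_perp
    (H : ∀ t : Matrix.symplecticGroup (Fin m) F, ∃ g : G, ∀ (v : Fin m ⊕ Fin m → F) (hv : v ≠ 0),
      g • Projectivization.mk F v hv = Projectivization.mk F
        ((t : Matrix (Fin m ⊕ Fin m) (Fin m ⊕ Fin m) F) *ᵥ v) (mulVec_ne_zero t hv))
    (Bl : Set (ℙ F (Fin m ⊕ Fin m → F))) (hBl : MulAction.IsBlock G Bl)
    (x y z : Fin m ⊕ Fin m → F) (hx : x ≠ 0) (hy : y ≠ 0) (hz : z ≠ 0)
    (hP : Projectivization.mk F x hx ∈ Bl) (hQ : Projectivization.mk F y hy ∈ Bl)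
    (hxy : sB m F x y = 0) (hxz : sB m F x z = 0)
    (hy' : ∀ a : F, a • x ≠ y) (hz' : ∀ a : F, a • x ≠ z) : Projectivization.mk F z hz ∈ Bl := by
  obtain ⟨t, -, htx, hty⟩ := exists_move_perp x y z hx hxy hxz hy' hz'
  obtain ⟨g, hg⟩ := H t
  have h1 : g • Bl = Bl := by
    apply hBl.smul_eq_of_mem hP
    rw [hg x hx]
    simp only [htx]
    exact hP
  have h2 : g • Projectivization.mk F y hy ∈ Bl := by
    rw [← h1]
    exact Set.smul_mem_smul_set hQ
  rw [hg y hy] at h2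
  simp only [hty] at h2
  exact h2

theorem prim_of
    (H : ∀ t : Matrix.symplecticGroup (Fin m) F, ∃ g : G, ∀ (v : Fin m ⊕ Fin m → F) (hv : v ≠ 0),
      g • Projectivization.mk F v hv = Projectivization.mk F
        ((t : Matrix (Fin m ⊕ Fin m) (Fin m ⊕ Fin m) F) *ᵥ v) (mulVec_ne_zero t hv)) :
    MulAction.IsPreprimitive G (ℙ F (Fin m ⊕ Fin m → F)) := by
  have htrans : MulAction.IsPretransitive G (ℙ F (Fin m ⊕ Fin m → F)) := by
    constructor
    intro P Q
    induction' P using Projectivization.ind with v hv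
    induction' Q using Projectivization.ind with w hw
    obtain ⟨t, -, ht⟩ := exists_move v w hv hw
    obtain ⟨g, hg⟩ := H t
    refine ⟨g, ?_⟩
    rw [hg v hv]
    simp only [ht]
  refine { htrans with isTrivialBlock_of_isBlock := ?_ }
  intro Bl hBl
  by_cases hsub : Bl.Subsingleton
  · exact Or.inl hsub
  right
  rw [Set.not_subsingleton_iff] at hsub
  obtain ⟨P, hP, Q, hQ, hPQ⟩ := hsub
  induction' P using Projectivization.ind with x hx
  induction' Q using Projectivization.ind with y hy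
  rw [Set.eq_univ_iff_forall]
  intro S
  induction' S using Projectivization.ind with s hs
  have hy' : ∀ a : F, a • x ≠ y := by
    intro a ha
    apply hPQ
    symm
    rw [Projectivization.mk_eq_mk_iff']
    exact ⟨a, ha⟩
  by_cases hxy : sB m F x y = 0
  · by_cases hxs : sB m F x s = 0
    · by_cases hs' : ∀ a : F, a • x ≠ s
      · exact block_perp H Bl hBl x y s hx hy hs hP hQ hxy hxs hy' hs'
      · push Not at hs'
        obtain ⟨a, ha⟩ := hs'
        have : Projectivization.mk F s hs = Projectivization.mk F x hx := by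
          rw [Projectivization.mk_eq_mk_iff']
          exact ⟨a, ha⟩
        rw [this]; exact hP
    · -- r = y - (B s y / B s x) x
      have hsx : sB m F s x ≠ 0 := by
        rw [sB_swap]; exact neg_ne_zero.2 hxs
      set r := y - (sB m F s y / sB m F s x) • x with hr
      have hr' : ∀ a : F, a • x ≠ r := by
        intro a ha
        apply hy' (a + sB m F s y / sB m F s x)
        rw [add_smul, ha, hr]
        abel
      have hr0 : r ≠ 0 := by
        intro h
        exact hr' 0 (by rw [zero_smul, h])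
      have hxr : sB m F x r = 0 := by
        rw [hr, map_sub, map_smul, hxy, sB_self, smul_zero, sub_zero]
      have hsr : sB m F s r = 0 := by
        rw [hr, map_sub, map_smul, smul_eq_mul, div_mul_cancel₀ _ hsx, sub_self]
      have hR : Projectivization.mk F r hr0 ∈ Bl :=
        block_perp H Bl hBl x y r hx hy hr0 hP hQ hxy hxr hy' hr'
      refine block_perp H Bl hBl r x s hr0 hx hs hR hP ?_ ?_ ?_ ?_
      · rw [sB_swap, hxr, neg_zero]
      · rw [sB_swap, hsr, neg_zero]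
      · intro a ha
        by_cases ha0 : a = 0
        · rw [ha0, zero_smul] at ha
          exact hx ha.symm
        · apply hr' a⁻¹
          rw [← ha, smul_smul, inv_mul_cancel₀ ha0, one_smul]
      · intro a ha
        apply hxs
        rw [← ha, map_smul, hxr, smul_zero]
  · by_cases hxs : sB m F x s = 0
    · obtain ⟨r, hr1, hr2⟩ := exists_both (sB m F x) (sB m F s) (exists_ne_right x hx)
        (exists_ne_right s hs)
      have hr0 : r ≠ 0 := by
        rintro rfl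
        rw [map_zero] at hr1
        exact hr1 rfl
      have hR : Projectivization.mk F r hr0 ∈ Bl :=
        block_hyp H Bl hBl x y r hx hy hr0 hP hQ hxy hr1
      refine block_hyp H Bl hBl r x s hr0 hx hs hR hP ?_ ?_
      · rw [sB_swap]; exact neg_ne_zero.2 hr1
      · rw [sB_swap]; exact neg_ne_zero.2 hr2
    · exact block_hyp H Bl hBl x y s hx hy hs hP hQ hxy hxs

end prim

end Cfsg.Agent.Lib.Helper5_SympPrim
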