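import Mathlib
import Cfsg.Prelude.Def_GeometricClasses
import Cfsg.Agent.S0768
import Cfsg.Agent.Lib.Helper5_SympCard
import Cfsg.Agent.Lib.Helper5_SympTv
import Cfsg.Agent.Lib.Helper5_GLTv

set_option autoImplicit false

namespace Cfsg.Agent.Lib.Helper5_SympMax

open Module Matrix Cfsg.Agent.Lib.Helper5_Symp Cfsg.Agent.Lib.Helper5_SympCard
  Cfsg.Agent.Lib.Helper5_SympTv Cfsg.Agent.Lib.Helper5_SympGen Cfsg.Agent.S0768

variable {F : Type*} [Field F] {m : ℕ}

theorem mem_stab_of_maps [Finite F] (g : Matrix.symplecticGroup (Fin m) F)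
    (W : Set (Fin m ⊕ Fin m → F))
    (h : ∀ v ∈ W, (g : Matrix (Fin m ⊕ Fin m) (Fin m ⊕ Fin m) F) *ᵥ v ∈ W) :
    g ∈ Cfsg.stabilizing (Cfsg.spToMat m F) W :=
  Cfsg.Agent.Lib.Helper5_GLPar.mem_stab_of_maps (toGL g) W h

theorem range_toGL : (toGL (F := F) (m := m)).range = Cfsg.spGL m F := by
  apply le_antisymm
  · rintro _ ⟨t, rfl⟩
    exact toGL_mem t
  · intro g hg
    refine ⟨⟨g.1, ?_⟩, Units.ext rfl⟩
    apply mem_of_frame
    intro a c
    rw [sB_apply, sB_apply]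
    exact hg _ _

theorem toGL_inj : Function.Injective (toGL (F := F) (m := m)) := by
  intro a b h
  apply Subtype.ext
  exact congrArg (fun g : Matrix.GeneralLinearGroup (Fin m ⊕ Fin m) F =>
    (g : Matrix (Fin m ⊕ Fin m) (Fin m ⊕ Fin m) F)) h

/-- maximality transfers from the matrix symplectic group to the subgroup of `GL` -/
theorem maximal_of_coatom (S : Subgroup (Matrix.GeneralLinearGroup (Fin m ⊕ Fin m) F))
    (h : IsCoatom (S.comap (toGL (F := F) (m := m)))) :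
    Cfsg.Geo.IsMaximalIn (Cfsg.spGL m F) (S ⊓ Cfsg.spGL m F) := by
  constructor
  · rw [SetLike.lt_iff_le_and_exists]
    refine ⟨inf_le_right, ?_⟩
    have h1 : ¬ (⊤ : Subgroup (Matrix.symplecticGroup (Fin m) F)) ≤ S.comap toGL := by
      intro hh
      exact h.1 (top_le_iff.1 hh)
    obtain ⟨t, -, ht⟩ := SetLike.not_le_iff_exists.1 h1
    exact ⟨toGL t, toGL_mem t, fun hh => ht hh.1⟩
  · intro M hPM hMS
    have h1 : S.comap toGL ≤ M.comap toGL := by
      intro t ht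
      exact hPM ⟨ht, toGL_mem t⟩
    rcases eq_or_lt_of_le h1 with h2 | h2
    · left
      apply le_antisymm _ hPM
      intro g hg
      have hg' := hMS hg
      rw [← range_toGL] at hg'
      obtain ⟨t, rfl⟩ := hg'
      have : t ∈ M.comap toGL := hg
      rw [← h2] at this
      exact ⟨this, toGL_mem t⟩
    · right
      have h3 := h.2 _ h2
      apply le_antisymm hMS
      intro g hg
      rw [← range_toGL] at hg
      obtain ⟨t, rfl⟩ := hg
      have : t ∈ M.comap toGL := by rw [h3]; trivial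
      exact this

theorem exists_rep (S : Submodule F (Fin m ⊕ Fin m → F)) (x : Fin m ⊕ Fin m → F) (hx : x ∉ S) :
    ∃ v, (∀ s ∈ S, sB m F s v = 0) ∧ sB m F x v = 1 := by
  obtain ⟨ψ, h1, h2⟩ := Cfsg.Agent.Lib.Helper5_GLTv.exists_dual S x hx
  have key : ∀ u, sB m F u (-(Matrix.J (Fin m) F *ᵥ ψ)) = ψ ⬝ᵥ u := by
    intro u
    rw [sB_apply]
    unfold Cfsg.sympForm
    rw [Matrix.mulVec_neg, Matrix.mulVec_mulVec, Matrix.J_squared, Matrix.neg_mulVec, neg_neg,
      Matrix.one_mulVec, dotProduct_comm]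
  exact ⟨_, fun s hs => by rw [key, h1 s hs], by rw [key, h2]⟩

theorem eq_top_of_tv (H : Subgroup (Matrix.symplecticGroup (Fin m) F))
    (h : ∀ (v : Fin m ⊕ Fin m → F) (c : F), tv v c ∈ H) : H = ⊤ := by
  rw [eq_top_iff, ← T_eq_top]
  unfold T
  rw [Subgroup.closure_le]
  rintro A ⟨w, c, hA⟩
  have : A = tv w c := Subtype.ext hA
  rw [this]
  exact h w c

theorem tv_mem_of_conj (H : Subgroup (Matrix.symplecticGroup (Fin m) F))
    (g : Matrix.symplecticGroup (Fin m) F) (hg : g ∈ H) (v : Fin m ⊕ Fin m → F) (c : F)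
    (hv : tv v c ∈ H) : tv ((g : Matrix (Fin m ⊕ Fin m) (Fin m ⊕ Fin m) F) *ᵥ v) c ∈ H := by
  rw [← conj_tv]
  exact H.mul_mem (H.mul_mem hg hv) (H.inv_mem hg)

/-- the map `z ↦ z + B(z,a) b + B(z,b) a` -/
def sieg (a b : Fin m ⊕ Fin m → F) : Matrix.symplecticGroup (Fin m) F :=
  tv (a + b) 1 * tv a (-1) * tv b (-1)

theorem sieg_mulVec (a b : Fin m ⊕ Fin m → F) (hab : sB m F a b = 0) (z : Fin m ⊕ Fin m → F) :
    (sieg a b : Matrix (Fin m ⊕ Fin m) (Fin m ⊕ Fin m) F) *ᵥ z =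
      z + sB m F z a • b + sB m F z b • a := by
  have hba : sB m F b a = 0 := by rw [sB_swap, hab, neg_zero]
  unfold sieg
  rw [mul_mulVec, mul_mulVec, tv_mulVec, tv_mulVec, tv_mulVec]
  simp only [map_add, map_smul, LinearMap.add_apply, LinearMap.smul_apply, sB_self, hab, hba,
    smul_eq_mul, mul_zero, add_zero, zero_add, one_mul, neg_mul]
  module

end Cfsg.Agent.Lib.Helper5_SympMax
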