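import Mathlib
import Cfsg.Prelude.Def_GeometricClasses
import Cfsg.Agent.Lib.Helper5_SympMax
import Cfsg.Agent.Lib.Helper5_OrthOver

set_option autoImplicit false

namespace Cfsg.Agent.Lib.Helper5_SpPair

open Module Matrix Cfsg.Agent.Lib.Helper5_Symp Cfsg.Agent.Lib.Helper5_SympCard
  Cfsg.Agent.Lib.Helper5_SympTv Cfsg.Agent.Lib.Helper5_SympGen Cfsg.Agent.S0768
  Cfsg.Agent.Lib.Helper5_SympMax

variable {F : Type*} [Field F] {m : ℕ}

/-- a pair of complementary totally isotropic subspaces -/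
structure Pair (W W' : Submodule F (Fin m ⊕ Fin m → F)) : Prop where
  ti : ∀ u ∈ W, ∀ v ∈ W, sB m F u v = 0
  ti' : ∀ u ∈ W', ∀ v ∈ W', sB m F u v = 0
  sup : ∀ v, ∃ w ∈ W, ∃ w' ∈ W', v = w + w'

variable {W W' : Submodule F (Fin m ⊕ Fin m → F)}

theorem Pair.symm (h : Pair W W') : Pair W' W :=
  ⟨h.ti', h.ti, fun v => by
    obtain ⟨w, hw, w', hw', rfl⟩ := h.sup v
    exact ⟨w', hw', w, hw, add_comm _ _⟩⟩

theorem Pair.inf (h : Pair W W') (v : Fin m ⊕ Fin m → F) (hv : v ∈ W) (hv' : v ∈ W') : v = 0 := by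
  apply sB_nondeg m F
  intro u
  obtain ⟨w, hw, w', hw', rfl⟩ := h.sup u
  rw [map_add, LinearMap.add_apply, h.ti w hw v hv, h.ti' w' hw' v hv', add_zero]

theorem Pair.max (h : Pair W W') (v : Fin m ⊕ Fin m → F) (hv : ∀ w ∈ W, sB m F w v = 0) : v ∈ W := by
  obtain ⟨w, hw, w', hw', rfl⟩ := h.sup v
  have : w' = 0 := by
    apply sB_nondeg m F
    intro u
    obtain ⟨x, hx, x', hx', rfl⟩ := h.sup u
    have h1 := hv x hx
    rw [map_add, h.ti x hx w hw, zero_add] at h1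
    rw [map_add, LinearMap.add_apply, h1, h.ti' x' hx' w' hw', add_zero]
  rw [this, add_zero]
  exact hw

theorem exK (W S : Submodule F (Fin m ⊕ Fin m → F)) {k : ℕ} (u : Fin k → (Fin m ⊕ Fin m → F))
    (h : finrank F S + k < finrank F W) :
    ∃ r ∈ W, (∀ i, sB m F (u i) r = 0) ∧ r ∉ S := by
  classical
  set Pm : (Fin m ⊕ Fin m → F) →ₗ[F] (Fin k → F) := LinearMap.pi (fun i => sB m F (u i)) with hPm
  have hmemK : ∀ v, v ∈ LinearMap.ker Pm ↔ ∀ i, sB m F (u i) v = 0 := by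
    intro v
    rw [LinearMap.mem_ker, hPm]
    constructor
    · intro h i
      exact congrFun h i
    · intro h
      ext i
      exact h i
  have h1 := LinearMap.finrank_range_add_finrank_ker Pm
  have h2 : finrank F (LinearMap.range Pm) ≤ k := by
    have := Submodule.finrank_le (LinearMap.range Pm)
    simpa using this
  have h3 := Submodule.finrank_sup_add_finrank_inf_eq W (LinearMap.ker Pm)
  have h4 := Submodule.finrank_le (W ⊔ LinearMap.ker Pm)
  by_contra hcon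
  push Not at hcon
  have hle : W ⊓ LinearMap.ker Pm ≤ S := by
    rintro r ⟨hr1, hr2⟩
    exact hcon r hr1 ((hmemK r).1 hr2)
  have h5 := Submodule.finrank_mono hle
  omega

theorem Pair.exists_ab (h : Pair W W') (hdim : 3 ≤ finrank F W) (β : Fin m ⊕ Fin m → F)
    (hβ : β ∉ W) (hβ' : β ∉ W') :
    ∃ a₁ ∈ W, ∃ b₁ ∈ W', sB m F a₁ b₁ = 0 ∧ sB m F a₁ β ≠ 0 ∧ sB m F b₁ β ≠ 0 := by
  obtain ⟨p, hp, p', hp', rfl⟩ := h.sup β
  have hp0 : p ≠ 0 := by
    rintro rfl
    rw [zero_add] at hβ'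
    exact hβ' hp'
  have hp'0 : p' ≠ 0 := by
    rintro rfl
    rw [add_zero] at hβ
    exact hβ hp
  obtain ⟨r, hrW, hr1, hr2⟩ := exK W (Submodule.span F {p}) ![p'] (by
    rw [finrank_span_singleton hp0]; omega)
  have hp'r : sB m F p' r = 0 := hr1 0
  have hpW' : p ∉ W' := fun hh => hp0 (h.inf p hp hh)
  obtain ⟨v1, hv1, hpv1⟩ := exists_rep W' p hpW'
  have hv1W' : v1 ∈ W' := h.symm.max v1 hv1
  have hrS : r ∉ W' ⊔ Submodule.span F {p} := by
    intro hh
    obtain ⟨w', hw', y, hy, hsum⟩ := Submodule.mem_sup.1 hh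
    have hyW : y ∈ W := by
      obtain ⟨l, rfl⟩ := Submodule.mem_span_singleton.1 hy
      exact W.smul_mem _ hp
    have hw'W : w' ∈ W := by
      have : w' = r - y := by rw [← hsum]; abel
      rw [this]
      exact W.sub_mem hrW hyW
    have := h.inf w' hw'W hw'
    rw [this, zero_add] at hsum
    rw [← hsum] at hr2
    exact hr2 hy
  obtain ⟨v2, hv2, hrv2⟩ := exists_rep _ r hrS
  have hv2W' : v2 ∈ W' := h.symm.max v2 (fun s hs => hv2 s (Submodule.mem_sup_left hs))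
  have hpv2 : sB m F p v2 = 0 :=
    hv2 p (Submodule.mem_sup_right (Submodule.mem_span_singleton_self p))
  obtain ⟨b1, hb1def⟩ : ∃ b1, b1 = v1 + (1 - sB m F r v1) • v2 := ⟨_, rfl⟩
  have hb1W' : b1 ∈ W' := by
    rw [hb1def]
    exact W'.add_mem hv1W' (W'.smul_mem _ hv2W')
  have hpb1 : sB m F p b1 = 1 := by
    rw [hb1def, map_add, map_smul, hpv1, hpv2, smul_zero, add_zero]
  have hrb1 : sB m F r b1 = 1 := by
    rw [hb1def, map_add, map_smul, hrv2, smul_eq_mul, mul_one]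
    ring
  have hp'S : p' ∉ W ⊔ Submodule.span F {b1} := by
    intro hh
    obtain ⟨w, hw, y, hy, hsum⟩ := Submodule.mem_sup.1 hh
    obtain ⟨l, rfl⟩ := Submodule.mem_span_singleton.1 hy
    have hwW' : w ∈ W' := by
      have : w = p' - l • b1 := by rw [← hsum]; abel
      rw [this]
      exact W'.sub_mem hp' (W'.smul_mem _ hb1W')
    have := h.inf w hw hwW'
    rw [this, zero_add] at hsum
    have h3 : sB m F r p' = 0 := by rw [sB_swap, hp'r, neg_zero]
    rw [← hsum, map_smul, hrb1, smul_eq_mul, mul_one] at h3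
    apply hp'0
    rw [← hsum, h3, zero_smul]
  obtain ⟨a1, ha1, hp'a1⟩ := exists_rep _ p' hp'S
  have ha1W : a1 ∈ W := h.max a1 (fun s hs => ha1 s (Submodule.mem_sup_left hs))
  have hb1a1 : sB m F b1 a1 = 0 :=
    ha1 b1 (Submodule.mem_sup_right (Submodule.mem_span_singleton_self b1))
  refine ⟨a1, ha1W, b1, hb1W', by rw [sB_swap, hb1a1, neg_zero], ?_, ?_⟩
  · rw [map_add, h.ti a1 ha1W p hp, zero_add, sB_swap, hp'a1]
    exact neg_ne_zero.2 one_ne_zero
  · rw [map_add, h.ti' b1 hb1W' p' hp', add_zero, sB_swap, hpb1]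
    exact neg_ne_zero.2 one_ne_zero

theorem Pair.exists_tv (h : Pair W W') (h2 : (2 : F) ≠ 0) (hdim : 4 ≤ finrank F W)
    (M : Subgroup (Matrix.symplecticGroup (Fin m) F))
    (hM : ∀ a ∈ W, ∀ b ∈ W', sB m F a b = 0 → sieg a b ∈ M)
    (g : Matrix.symplecticGroup (Fin m) F) (hgM : g ∈ M) (β : Fin m ⊕ Fin m → F)
    (hβ : β ∉ W) (hβ' : β ∉ W')
    (hgβ : (g : Matrix (Fin m ⊕ Fin m) (Fin m ⊕ Fin m) F) *ᵥ β ∈ W') :
    ∃ a ∈ W, a ≠ 0 ∧ ∃ κ : F, κ ≠ 0 ∧ tv a κ ∈ M := by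
  obtain ⟨a₁, ha₁, b₁, hb₁, hab₁, ha₁β, hb₁β⟩ := h.exists_ab (by omega) β hβ hβ'
  obtain ⟨b, hbdef⟩ : ∃ b, b = (g : Matrix (Fin m ⊕ Fin m) (Fin m ⊕ Fin m) F) *ᵥ β := ⟨_, rfl⟩
  obtain ⟨c, hcdef⟩ : ∃ c, c = (g : Matrix (Fin m ⊕ Fin m) (Fin m ⊕ Fin m) F) *ᵥ a₁ := ⟨_, rfl⟩
  obtain ⟨d, hddef⟩ : ∃ d, d = (g : Matrix (Fin m ⊕ Fin m) (Fin m ⊕ Fin m) F) *ᵥ b₁ := ⟨_, rfl⟩
  have hbW' : b ∈ W' := by rw [hbdef]; exact hgβ
  have hcb : sB m F c b ≠ 0 := by rw [hcdef, hbdef, sB_mulVec]; exact ha₁β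
  have hdb : sB m F d b ≠ 0 := by rw [hddef, hbdef, sB_mulVec]; exact hb₁β
  have hcd : sB m F c d = 0 := by rw [hcdef, hddef, sB_mulVec]; exact hab₁
  obtain ⟨a, haW, ha1, ha0⟩ := exK W ⊥ ![b, c, d] (by rw [finrank_bot]; omega)
  have ha0' : a ≠ 0 := fun hh => ha0 (by rw [hh]; exact Submodule.zero_mem _)
  have hba : sB m F b a = 0 := ha1 0
  have hca : sB m F c a = 0 := ha1 1
  have hda : sB m F d a = 0 := ha1 2
  have hab : sB m F a b = 0 := by rw [sB_swap, hba, neg_zero]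
  have hac : sB m F a c = 0 := by rw [sB_swap, hca, neg_zero]
  have had : sB m F a d = 0 := by rw [sB_swap, hda, neg_zero]
  have hdc : sB m F d c = 0 := by rw [sB_swap, hcd, neg_zero]
  have hbc : sB m F b c = - sB m F c b := sB_swap m F b c
  have hbd : sB m F b d = - sB m F d b := sB_swap m F b d
  obtain ⟨y, hydef⟩ : ∃ y, y = sB m F d b • c + sB m F c b • d := ⟨_, rfl⟩
  have hay : sB m F a y = 0 := by
    rw [hydef, map_add, map_smul, map_smul, hac, had, smul_zero, smul_zero, add_zero]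
  have hh₁M : sieg a b ∈ M := hM a haW b hbW' hab
  have hh₁ := sieg_mulVec a b hab
  obtain ⟨G, hGdef⟩ : ∃ G, G = g * sieg a₁ b₁ * g⁻¹ := ⟨_, rfl⟩
  have hGM : G ∈ M := by
    rw [hGdef]
    exact M.mul_mem (M.mul_mem hgM (hM a₁ ha₁ b₁ hb₁ hab₁)) (M.inv_mem hgM)
  have hG : ∀ z, (G : Matrix (Fin m ⊕ Fin m) (Fin m ⊕ Fin m) F) *ᵥ z =
      z + sB m F z c • d + sB m F z d • c := by
    intro z
    have e1 : sB m F (((g⁻¹ : Matrix.symplecticGroup (Fin m) F) :
        Matrix (Fin m ⊕ Fin m) (Fin m ⊕ Fin m) F) *ᵥ z) a₁ = sB m F z c := by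
      rw [hcdef, ← sB_mulVec g _ a₁, mulVec_inv]
    have e2 : sB m F (((g⁻¹ : Matrix.symplecticGroup (Fin m) F) :
        Matrix (Fin m ⊕ Fin m) (Fin m ⊕ Fin m) F) *ᵥ z) b₁ = sB m F z d := by
      rw [hddef, ← sB_mulVec g _ b₁, mulVec_inv]
    rw [hGdef, mul_mulVec, mul_mulVec, sieg_mulVec _ _ hab₁, mulVec_add, mulVec_add, mulVec_smul,
      mulVec_smul, mulVec_inv, ← hcdef, ← hddef, e1, e2]
  obtain ⟨E, hEdef⟩ : ∃ E, E = sieg a y * tv a (2 * sB m F c b * sB m F d b) := ⟨_, rfl⟩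
  have hE : ∀ z, (E : Matrix (Fin m ⊕ Fin m) (Fin m ⊕ Fin m) F) *ᵥ z =
      z + (2 * sB m F c b * sB m F d b * sB m F z a) • a + sB m F z a • y + sB m F z y • a := by
    intro z
    rw [hEdef, mul_mulVec, tv_mulVec, sieg_mulVec _ _ hay]
    simp only [map_add, map_smul, LinearMap.add_apply, LinearMap.smul_apply, sB_self, hay,
      smul_eq_mul, mul_zero, add_zero]
  have eq1 : sieg a b * G = E * G * sieg a b := by
    apply sp_ext
    intro z
    rw [mul_mulVec, mul_mulVec, mul_mulVec, hh₁, hG, hh₁, hG, hE, hydef]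
    simp only [map_add, map_smul, LinearMap.add_apply, LinearMap.smul_apply, sB_self, smul_eq_mul,
      hab, hba, hac, hca, had, hda, hcd, hdc, hbc, hbd, mul_zero, add_zero, zero_add]
    module
  have hEM : E ∈ M := by
    have : E = sieg a b * G * (sieg a b)⁻¹ * G⁻¹ := by
      rw [eq1]
      group
    rw [this]
    exact M.mul_mem (M.mul_mem (M.mul_mem hh₁M hGM) (M.inv_mem hh₁M)) (M.inv_mem hGM)
  have eq2 : E * sieg a b = tv a (-(4 * sB m F c b * sB m F d b)) * sieg a b * E := by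
    apply sp_ext
    intro z
    rw [mul_mulVec, mul_mulVec, mul_mulVec, hh₁, hE, hE, hh₁, tv_mulVec, hydef]
    simp only [map_add, map_smul, LinearMap.add_apply, LinearMap.smul_apply, sB_self, smul_eq_mul,
      hab, hba, hac, hca, had, hda, hcd, hdc, hbc, hbd, mul_zero, add_zero, zero_add]
    module
  refine ⟨a, haW, ha0', -(4 * sB m F c b * sB m F d b), ?_, ?_⟩
  · have h4 : (4 : F) ≠ 0 := by
      have : (4 : F) = 2 * 2 := by norm_num
      rw [this]
      exact mul_ne_zero h2 h2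
    exact neg_ne_zero.2 (mul_ne_zero (mul_ne_zero h4 hcb) hdb)
  · have : tv a (-(4 * sB m F c b * sB m F d b)) = E * sieg a b * E⁻¹ * (sieg a b)⁻¹ := by
      rw [eq2]
      group
    rw [this]
    exact M.mul_mem (M.mul_mem (M.mul_mem hEM hh₁M) (M.inv_mem hEM)) (M.inv_mem hh₁M)

theorem tv_zero (c : F) : tv (0 : Fin m ⊕ Fin m → F) c = 1 := by
  apply sp_ext
  intro x
  rw [tv_mulVec, smul_zero, add_zero, one_mulVec']

theorem Pair.step (h : Pair W W') (M : Subgroup (Matrix.symplecticGroup (Fin m) F))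
    (hM : ∀ a ∈ W, ∀ b ∈ W', sB m F a b = 0 → sieg a b ∈ M) (κ : F)
    (x y : Fin m ⊕ Fin m → F) (hx : x ∈ W) (hy : y ∈ W) (hyM : tv y κ ∈ M)
    (hxy : ∀ s t : F, s • x + t • y = 0 → s = 0 ∧ t = 0) : tv x κ ∈ M := by
  have hyS : y ∉ W' ⊔ Submodule.span F {x - y} := by
    intro hh
    obtain ⟨w', hw', u, hu, hsum⟩ := Submodule.mem_sup.1 hh
    obtain ⟨l, rfl⟩ := Submodule.mem_span_singleton.1 hu
    have hw'W : w' ∈ W := by
      have : w' = y - l • (x - y) := eq_sub_of_add_eq hsum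
      rw [this]
      exact W.sub_mem hy (W.smul_mem _ (W.sub_mem hx hy))
    have := h.inf w' hw'W hw'
    rw [this, zero_add] at hsum
    obtain ⟨e1, e2⟩ := hxy l (-(1 + l)) (by
      have : l • x + -(1 + l) • y = l • (x - y) - y := by module
      rw [this, hsum, sub_self])
    rw [e1] at e2
    simp at e2
  obtain ⟨b, hb, hyb⟩ := exists_rep _ y hyS
  have hbW' : b ∈ W' := h.symm.max b (fun s hs => hb s (Submodule.mem_sup_left hs))
  have hab : sB m F (x - y) b = 0 :=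
    hb _ (Submodule.mem_sup_right (Submodule.mem_span_singleton_self _))
  have h1 := tv_mem_of_conj M _ (hM (x - y) (W.sub_mem hx hy) b hbW' hab) y κ hyM
  rw [sieg_mulVec _ _ hab, h.ti y hy _ (W.sub_mem hx hy), zero_smul, add_zero, hyb, one_smul,
    add_sub_cancel] at h1
  exact h1

theorem Pair.fill [Fintype F] (hodd : Odd (Fintype.card F)) (h : Pair W W')
    (hdim : 2 ≤ finrank F W) (M : Subgroup (Matrix.symplecticGroup (Fin m) F))
    (hM : ∀ a ∈ W, ∀ b ∈ W', sB m F a b = 0 → sieg a b ∈ M)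
    (a : Fin m ⊕ Fin m → F) (haW : a ∈ W) (ha0 : a ≠ 0) (κ : F) (hκ : κ ≠ 0) (haM : tv a κ ∈ M) :
    ∀ x ∈ W, ∀ c : F, tv x c ∈ M := by
  have hind : ∀ x : Fin m ⊕ Fin m → F, x ∉ Submodule.span F {a} →
      ∀ s t : F, s • x + t • a = 0 → s = 0 ∧ t = 0 := by
    intro x hx s t hst
    have hs : s = 0 := by
      by_contra hs
      apply hx
      rw [Submodule.mem_span_singleton]
      refine ⟨-(t / s), ?_⟩
      have : s • x = -(t • a) := eq_neg_of_add_eq_zero_left hst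
      have h3 : x = s⁻¹ • (s • x) := by rw [smul_smul, inv_mul_cancel₀ hs, one_smul]
      rw [h3, this, smul_neg, smul_smul, neg_smul]
      congr 2
      field_simp
    refine ⟨hs, ?_⟩
    rw [hs, zero_smul, zero_add] at hst
    exact (smul_eq_zero.1 hst).resolve_right ha0
  have hall : ∀ x ∈ W, tv x κ ∈ M := by
    intro x hx
    by_cases hxa : x ∈ Submodule.span F {a}
    · obtain ⟨l, rfl⟩ := Submodule.mem_span_singleton.1 hxa
      by_cases hl : l = 0
      · rw [hl, zero_smul, tv_zero]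
        exact M.one_mem
      · obtain ⟨x1, hx1W, -, hx1⟩ := exK W (Submodule.span F {a}) (k := 0) Fin.elim0 (by
          rw [finrank_span_singleton ha0]; omega)
        have r1 := h.step M hM κ x1 a hx1W haW haM (hind x1 hx1)
        apply h.step M hM κ (l • a) x1 hx hx1W r1
        intro s t hst
        obtain ⟨e1, e2⟩ := hind x1 hx1 t (s * l) (by
          rw [mul_smul, add_comm]
          exact hst)
        exact ⟨(mul_eq_zero.1 e2).resolve_right hl, e1⟩
    · exact h.step M hM κ x a hx haW haM (hind x hxa)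
  intro x hx c
  obtain ⟨s, t, hst⟩ := Cfsg.Agent.Lib.Helper5_OrthOver.bin hodd κ κ c hκ hκ
  have : tv x c = tv (s • x) κ * tv (t • x) κ := by
    apply sp_ext
    intro z
    rw [mul_mulVec, tv_mulVec, tv_mulVec, tv_mulVec]
    simp only [map_add, map_smul, LinearMap.add_apply, LinearMap.smul_apply, sB_self, smul_eq_mul,
      mul_zero, add_zero, ← hst]
    module
  rw [this]
  exact M.mul_mem (hall _ (W.smul_mem _ hx)) (hall _ (W.smul_mem _ hx))

/-- once all transvections centred in `W ∪ W'` are available, all transvections are -/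
theorem Pair.closure (h : Pair W W') (M : Subgroup (Matrix.symplecticGroup (Fin m) F))
    (h1 : ∀ x ∈ W, ∀ c : F, tv x c ∈ M) (h2 : ∀ x ∈ W', ∀ c : F, tv x c ∈ M) : M = ⊤ := by
  apply eq_top_of_tv
  intro v c
  obtain ⟨w, hw, w', hw', rfl⟩ := h.sup v
  have key : ∀ w ∈ W, ∀ w' ∈ W', sB m F w w' ≠ 0 → ∀ c : F, tv (w + w') c ∈ M := by
    intro w hw w' hw' hne c
    have := tv_mem_of_conj M _ (h2 w' hw' (sB m F w w')⁻¹) w c (h1 w hw c)
    rwa [tv_mulVec, inv_mul_cancel₀ hne, one_smul] at this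
  by_cases hne : sB m F w w' = 0
  · by_cases hw0 : w = 0
    · rw [hw0, zero_add]
      exact h2 w' hw' c
    · have hwW' : w ∉ W' := fun hh => hw0 (h.inf w hw hh)
      obtain ⟨u, hu, hwu⟩ := exists_rep W' w hwW'
      have huW' : u ∈ W' := h.symm.max u hu
      have r1 := key w hw u huW' (by rw [hwu]; exact one_ne_zero) c
      have r2 := tv_mem_of_conj M _ (h2 (w' - u) (W'.sub_mem hw' huW') (-1)) (w + u) c r1
      rw [tv_mulVec] at r2
      have e1 : sB m F (w + u) (w' - u) = -1 := by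
        rw [map_add, LinearMap.add_apply, map_sub, map_sub, hne, hwu, h.ti' u huW' w' hw',
          h.ti' u huW' u huW']
        ring
      rw [e1] at r2
      have e2 : w + u + (-1 * -1 : F) • (w' - u) = w + w' := by
        rw [neg_mul_neg, one_mul, one_smul]
        abel
      rwa [e2] at r2
  · exact key w hw w' hw' hne c

end Cfsg.Agent.Lib.Helper5_SpPair
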