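import Mathlib
import Cfsg.Agent.S0749
import Cfsg.Agent.Lib.Helper5_SympCard
import Cfsg.Agent.Lib.Helper5_SympTv

set_option autoImplicit false

namespace Cfsg.Agent.Lib.Helper5_SympStab

open Module Matrix Cfsg.Agent.Lib.Helper5_Symp Cfsg.Agent.Lib.Helper5_SympCard
  Cfsg.Agent.Lib.Helper5_SympTv Cfsg.Agent.Lib.Helper5_SympGen

/-- counting group elements moving a point into a subset of its orbit -/
theorem card_smul_mem {G X : Type*} [Group G] [MulAction G X] (x : X) (Y : Set X)
    (hY : Y ⊆ MulAction.orbit G x) :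
    Nat.card {g : G // g • x ∈ Y} = Y.ncard * Nat.card (MulAction.stabilizer G x) := by
  classical
  have hs : ∀ y : Y, ∃ g : G, g • x = y.1 := fun y => hY y.2
  choose s hs using hs
  have e : {g : G // g • x ∈ Y} ≃ Y × MulAction.stabilizer G x :=
    { toFun := fun g => (⟨g.1 • x, g.2⟩, ⟨(s ⟨g.1 • x, g.2⟩)⁻¹ * g.1, by
        rw [MulAction.mem_stabilizer_iff, mul_smul, inv_smul_eq_iff, hs]⟩)
      invFun := fun p => ⟨s p.1 * p.2.1, by
        rw [mul_smul, MulAction.mem_stabilizer_iff.1 p.2.2, hs]; exact p.1.2⟩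
      left_inv := fun g => by
        apply Subtype.ext
        simp
      right_inv := fun p => by
        obtain ⟨y, t, ht⟩ := p
        have h1 : (s y * t) • x = y.1 := by
          rw [mul_smul, MulAction.mem_stabilizer_iff.1 ht, hs]
        apply Prod.ext
        · exact Subtype.ext h1
        · apply Subtype.ext
          have h2 : (⟨(s y * t) • x, by rw [h1]; exact y.2⟩ : Y) = y := Subtype.ext h1
          change (s ⟨(s y * t) • x, _⟩)⁻¹ * (s y * t) = t
          rw [h2, inv_mul_cancel_left] }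
  rw [Nat.card_congr e, Nat.card_prod, Nat.card_coe_set_eq]

variable {F : Type*} [Field F] {m : ℕ}

/-- Witt's theorem in matrix form -/
theorem witt_mat (k : ℕ) (x y : Fin k → (Fin m ⊕ Fin m → F)) (hx : LinearIndependent F x)
    (hy : LinearIndependent F y) (hxy : ∀ i j, sB m F (x i) (x j) = sB m F (y i) (y j)) :
    ∃ g : Matrix.symplecticGroup (Fin m) F,
      ∀ i, (g : Matrix (Fin m ⊕ Fin m) (Fin m ⊕ Fin m) F) *ᵥ x i = y i := by
  obtain ⟨g, hg, hgx⟩ := Cfsg.Agent.S0749.witt_fam (sB m F) (sB_self m F) hb k x y hx hy hxy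
  refine ⟨⟨LinearMap.toMatrix' g.toLinearMap, ?_⟩, fun i => ?_⟩
  · apply mem_of_frame
    intro a c
    rw [LinearMap.toMatrix'_mulVec, LinearMap.toMatrix'_mulVec]
    exact hg _ _
  · change LinearMap.toMatrix' g.toLinearMap *ᵥ x i = y i
    rw [LinearMap.toMatrix'_mulVec]
    exact hgx i

/-- the action on families of vectors -/
instance actFam (k : ℕ) : MulAction (Matrix.symplecticGroup (Fin m) F)
    (Fin k → (Fin m ⊕ Fin m → F)) where
  smul g e := fun i => (g : Matrix (Fin m ⊕ Fin m) (Fin m ⊕ Fin m) F) *ᵥ e i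
  one_smul e := funext fun i => one_mulVec' (e i)
  mul_smul g h e := funext fun i => mul_mulVec g h (e i)

theorem smul_fam (k : ℕ) (g : Matrix.symplecticGroup (Fin m) F) (e : Fin k → (Fin m ⊕ Fin m → F))
    (i : Fin k) : (g • e) i = (g : Matrix (Fin m ⊕ Fin m) (Fin m ⊕ Fin m) F) *ᵥ e i := rfl

theorem indep_smul (k : ℕ) (g : Matrix.symplecticGroup (Fin m) F)
    (e : Fin k → (Fin m ⊕ Fin m → F)) (he : LinearIndependent F e) : LinearIndependent F (g • e) := by
  have : g • e = (Matrix.mulVecLin (g : Matrix (Fin m ⊕ Fin m) (Fin m ⊕ Fin m) F)) ∘ e := rfl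
  rw [this]
  apply he.map'
  rw [LinearMap.ker_eq_bot']
  intro v hv
  have h1 := inv_mulVec g v
  rw [Matrix.mulVecLin_apply] at hv
  rw [hv, Matrix.mulVec_zero] at h1
  exact h1.symm

theorem orbit_iso (k : ℕ) (e : Fin k → (Fin m ⊕ Fin m → F)) (he : IsoP k e) :
    MulAction.orbit (Matrix.symplecticGroup (Fin m) F) e = {e' | IsoP k e'} := by
  ext e'
  constructor
  · rintro ⟨g, rfl⟩
    refine ⟨indep_smul k g e he.1, fun i j => ?_⟩
    change sB m F ((g : Matrix (Fin m ⊕ Fin m) (Fin m ⊕ Fin m) F) *ᵥ e i)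
      ((g : Matrix (Fin m ⊕ Fin m) (Fin m ⊕ Fin m) F) *ᵥ e j) = 0
    rw [sB_mulVec, he.2]
  · intro he'
    obtain ⟨g, hg⟩ := witt_mat k e e' he.1 he'.1 (fun i j => by rw [he.2, he'.2])
    exact ⟨g, funext hg⟩

/-- ordered bases of a subspace -/
theorem card_bases [Fintype F] {V : Type*} [AddCommGroup V] [Module F V] [Finite V] (k : ℕ)
    (W : Submodule F V) (hW : finrank F W = k) :
    Nat.card {e : Fin k → V // LinearIndependent F e ∧ Submodule.span F (Set.range e) = W} =
      ∏ i : Fin k, (Fintype.card F ^ k - Fintype.card F ^ (i : ℕ)) := by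
  have h1 := card_linearIndependent (K := F) (V := W) (k := k) (by rw [hW])
  rw [hW] at h1
  rw [← h1]
  have : FiniteDimensional F V := Module.Finite.of_finite
  apply Nat.card_congr
  exact
    { toFun := fun e => ⟨fun i => ⟨e.1 i,
          (le_of_eq e.2.2) (Submodule.subset_span ⟨i, rfl⟩)⟩, by
        apply LinearIndependent.of_comp W.subtype
        exact e.2.1⟩
      invFun := fun s => ⟨fun i => (s.1 i : V), by
        have hli : LinearIndependent F (fun i => (s.1 i : V)) :=
          s.2.map' W.subtype (Submodule.ker_subtype W)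
        refine ⟨hli, ?_⟩
        apply Submodule.eq_of_le_of_finrank_eq
        · rw [Submodule.span_le]
          rintro _ ⟨i, rfl⟩
          exact (s.1 i).2
        · rw [finrank_span_eq_card hli, Fintype.card_fin, hW]⟩
      left_inv := fun e => rfl
      right_inv := fun s => rfl }

end Cfsg.Agent.Lib.Helper5_SympStab
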