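import Mathlib
import Cfsg.Prelude.Def_GeometricClasses
import Cfsg.Agent.Lib.Helper5_SympMax
import Cfsg.Agent.Lib.Helper5_SympStab
import Cfsg.Agent.Lib.Helper5_SpPair
import Cfsg.Agent.S5646
import Cfsg.Agent.S5649
import Cfsg.Agent.S0752

set_option autoImplicit false

namespace Cfsg.Agent.Lib.Helper5_SpDec

open Module Matrix Cfsg.Agent.Lib.Helper5_Symp Cfsg.Agent.Lib.Helper5_SympCard
  Cfsg.Agent.Lib.Helper5_SympTv Cfsg.Agent.Lib.Helper5_SympGen Cfsg.Agent.S0768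
  Cfsg.Agent.Lib.Helper5_SympMax Cfsg.Agent.Lib.Helper5_SpPair

variable {F : Type*} [Field F] {m : ℕ}

/-- an orthogonal decomposition into nondegenerate subspaces -/
structure Dec {t : ℕ} (D : Fin t → Submodule F (Fin m ⊕ Fin m → F)) : Prop where
  nd : ∀ i, ∀ w ∈ D i, w ≠ 0 → ∃ x ∈ D i, sB m F x w ≠ 0
  orth : ∀ i j, i ≠ j → ∀ u ∈ D i, ∀ v ∈ D j, sB m F u v = 0
  sup : ∀ v, ∃ f : Fin t → (Fin m ⊕ Fin m → F), (∀ i, f i ∈ D i) ∧ v = ∑ i, f i

variable {t : ℕ} {D : Fin t → Submodule F (Fin m ⊕ Fin m → F)}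

theorem Dec.perp_all (h : Dec D) (v : Fin m ⊕ Fin m → F)
    (hv : ∀ j, ∀ u ∈ D j, sB m F u v = 0) : v = 0 := by
  apply sB_nondeg
  intro z
  obtain ⟨f, hf, rfl⟩ := h.sup z
  rw [map_sum, LinearMap.sum_apply]
  exact Finset.sum_eq_zero (fun i _ => hv i _ (hf i))

theorem Dec.comp (h : Dec D) (v : Fin m ⊕ Fin m → F) (j : Fin t) :
    ∃ a ∈ D j, ∀ u ∈ D j, sB m F u (v - a) = 0 := by
  obtain ⟨f, hf, rfl⟩ := h.sup v
  refine ⟨f j, hf j, fun u hu => ?_⟩
  rw [map_sub, map_sum, Finset.sum_eq_single j, sub_self]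
  · intro i _ hij
    exact h.orth j i (Ne.symm hij) u hu _ (hf i)
  · intro hj
    exact absurd (Finset.mem_univ j) hj

theorem Dec.orth' (h : Dec D) (i j : Fin t) (hij : i ≠ j) (u v : Fin m ⊕ Fin m → F)
    (hu : u ∈ D i) (hv : v ∈ D j) : sB m F u v = 0 := h.orth i j hij u hu v hv

/-- the closure set -/
def Sm (M : Subgroup (Matrix.symplecticGroup (Fin m) F)) (x : Fin m ⊕ Fin m → F) : Prop :=
  ∀ c : F, tv x c ∈ M

theorem Sm.map {M : Subgroup (Matrix.symplecticGroup (Fin m) F)} {x : Fin m ⊕ Fin m → F}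
    (hx : Sm M x) (g : Matrix.symplecticGroup (Fin m) F) (hg : g ∈ M) :
    Sm M ((g : Matrix (Fin m ⊕ Fin m) (Fin m ⊕ Fin m) F) *ᵥ x) :=
  fun c => tv_mem_of_conj M g hg x c (hx c)

theorem Sm.zero (M : Subgroup (Matrix.symplecticGroup (Fin m) F)) :
    Sm M (0 : Fin m ⊕ Fin m → F) := fun c => by
  rw [tv_zero]; exact M.one_mem

theorem Sm.neg {M : Subgroup (Matrix.symplecticGroup (Fin m) F)} {x : Fin m ⊕ Fin m → F}
    (hx : Sm M x) : Sm M (-x) := fun c => by
  have : tv (-x) c = tv x c := by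
    apply sp_ext
    intro z
    rw [tv_mulVec, tv_mulVec, map_neg, mul_neg, neg_smul, smul_neg, neg_neg]
  rw [this]; exact hx c

/-- closure under transvections -/
theorem Sm.step {M : Subgroup (Matrix.symplecticGroup (Fin m) F)} {x y : Fin m ⊕ Fin m → F}
    (hx : Sm M x) (hy : Sm M y) (c : F) : Sm M (x + (c * sB m F x y) • y) := by
  have := hx.map (tv y c) (hy c)
  rwa [tv_mulVec] at this

/-- the pair property -/
def E (D : Fin t → Submodule F (Fin m ⊕ Fin m → F))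
    (M : Subgroup (Matrix.symplecticGroup (Fin m) F)) (a b : Fin t) : Prop :=
  ∀ x ∈ D a, ∀ y ∈ D b, Sm M (x + y)

theorem Dec.pair (h : Dec D) (M : Subgroup (Matrix.symplecticGroup (Fin m) F))
    (hM : ∀ i, ∀ x ∈ D i, Sm M x) (a b : Fin t) (hab : a ≠ b)
    (u v : Fin m ⊕ Fin m → F) (hu : u ∈ D a) (hv : v ∈ D b) (hu0 : u ≠ 0) (hv0 : v ≠ 0)
    (huv : Sm M (u + v)) : E D M a b := by
  intro x hx y hy
  by_cases hx0 : x = 0
  · rw [hx0, zero_add]; exact hM b y hy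
  by_cases hy0 : y = 0
  · rw [hy0, add_zero]; exact hM a x hx
  obtain ⟨p, hp, hpu, hpz⟩ := Cfsg.Agent.S5646.move (D a) (h.nd a) M (hM a) u x hu hx hu0 hx0
  obtain ⟨p', hp', hpv, hpz'⟩ := Cfsg.Agent.S5646.move (D b) (h.nd b) M (hM b) v y hv hy hv0 hy0
  have h1 := (huv.map p hp).map p' hp'
  rw [mulVec_add, mulVec_add, hpu, hpz v (fun w hw => h.orth a b hab w hw v hv), hpv,
    hpz' x (fun w hw => h.orth b a hab.symm w hw x hx)] at h1
  exact h1

/-- shrinking the support to two blocks -/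
theorem Dec.shrink (h : Dec D) (M : Subgroup (Matrix.symplecticGroup (Fin m) F))
    (hM : ∀ i, ∀ x ∈ D i, Sm M x) (a b : Fin t) (hab : a ≠ b)
    (hex : ∀ x ∈ D b, x ≠ 0 → ∃ w ∈ D b, w ≠ 0 ∧ sB m F x w = 0 ∧ x + w ≠ 0)
    (u v r : Fin m ⊕ Fin m → F) (hu : u ∈ D a) (hv : v ∈ D b) (hu0 : u ≠ 0) (hv0 : v ≠ 0)
    (hra : ∀ w ∈ D a, sB m F w r = 0) (hrb : ∀ w ∈ D b, sB m F w r = 0)
    (huv : Sm M (u + v + r)) : E D M a b := by
  obtain ⟨w, hw, hw0, hvw, hvw0⟩ := hex v hv hv0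
  obtain ⟨z0, hz0, hz0u⟩ := h.nd a u hu hu0
  obtain ⟨z, hz, hzu⟩ : ∃ z ∈ D a, sB m F u z = 1 := by
    refine ⟨(-(sB m F z0 u)⁻¹) • z0, (D a).smul_mem _ hz0, ?_⟩
    rw [map_smul, smul_eq_mul, sB_swap m F u z0, neg_mul_neg, inv_mul_cancel₀ hz0u]
  have hz00 : z ≠ 0 := by
    intro hh
    rw [hh, map_zero] at hzu
    exact zero_ne_one hzu
  obtain ⟨p, hp, hpu, hpz⟩ := Cfsg.Agent.S5646.move (D a) (h.nd a) M (hM a) (-u) z
    ((D a).neg_mem hu) hz (neg_ne_zero.2 hu0) hz00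
  obtain ⟨p', hp', hpv, hpz'⟩ := Cfsg.Agent.S5646.move (D b) (h.nd b) M (hM b) (-v) w
    ((D b).neg_mem hv) hw (neg_ne_zero.2 hv0) hw0
  have h1 := (huv.neg.map p hp).map p' hp'
  have e1 : -(u + v + r) = -u + -v + -r := by abel
  rw [e1, mulVec_add, mulVec_add, mulVec_add, mulVec_add, hpu,
    hpz (-v) (fun x hx => by rw [map_neg, h.orth a b hab x hx v hv, neg_zero]),
    hpz (-r) (fun x hx => by rw [map_neg, hra x hx, neg_zero]), hpv,
    hpz' z (fun x hx => h.orth b a hab.symm x hx z hz),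
    hpz' (-r) (fun x hx => by rw [map_neg, hrb x hx, neg_zero])] at h1
  have h2 := huv.step h1 1
  have hur : sB m F u r = 0 := hra u hu
  have hvr : sB m F v r = 0 := hrb v hv
  have hrz : sB m F r z = 0 := by rw [sB_swap, hra z hz, neg_zero]
  have hrw : sB m F r w = 0 := by rw [sB_swap, hrb w hw, neg_zero]
  have huw : sB m F u w = 0 := h.orth a b hab u hu w hw
  have hvz : sB m F v z = 0 := h.orth b a hab.symm v hv z hz
  have e2 : sB m F (u + v + r) (z + w + -r) = 1 := by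
    simp only [map_add, map_neg, LinearMap.add_apply, sB_self, hur, hvr, hrz, hrw, huw, hvz, hzu,
      hvw]
    ring
  rw [e2, mul_one, one_smul] at h2
  have e3 : u + v + r + (z + w + -r) = (u + z) + (v + w) := by abel
  rw [e3] at h2
  refine h.pair M hM a b hab (u + z) (v + w) ((D a).add_mem hu hz) ((D b).add_mem hv hw) ?_ hvw0 h2
  intro hh
  have : sB m F u (u + z) = 1 := by rw [map_add, sB_self, zero_add, hzu]
  rw [hh, map_zero] at this
  exact zero_ne_one this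

/-- from all pairs to everything -/
theorem Dec.all (h : Dec D) (M : Subgroup (Matrix.symplecticGroup (Fin m) F))
    (hM : ∀ i, ∀ x ∈ D i, Sm M x) (hE : ∀ a b, a ≠ b → E D M a b)
    (I : Finset (Fin t)) : ∀ v : Fin m ⊕ Fin m → F,
      (∀ j ∉ I, ∀ u ∈ D j, sB m F u v = 0) → Sm M v := by
  classical
  induction I using Finset.induction_on with
  | empty =>
    intro v hv
    rw [h.perp_all v (fun j u hu => hv j (Finset.notMem_empty j) u hu)]
    exact Sm.zero M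
  | insert j I hj ih =>
    intro v hv
    obtain ⟨a, ha, hav⟩ := h.comp v j
    have hs : ∀ i ∉ I, ∀ u ∈ D i, sB m F u (v - a) = 0 := by
      intro i hi u hu
      by_cases hij : i = j
      · subst hij; exact hav u hu
      · rw [map_sub, hv i (by simp [hij, hi]) u hu, h.orth i j hij u hu a ha, sub_zero]
    by_cases hs0 : v - a = 0
    · rw [sub_eq_zero.1 hs0]; exact hM j a ha
    obtain ⟨l, y, hy, hly⟩ : ∃ l, ∃ y ∈ D l, sB m F y (v - a) ≠ 0 := by
      by_contra hc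
      push Not at hc
      exact hs0 (h.perp_all _ hc)
    have hlI : l ∈ I := by
      by_contra hl
      exact hly (hs l hl y hy)
    have hlj : l ≠ j := fun hh => hj (hh ▸ hlI)
    have hx : Sm M (v - a - y) := by
      apply ih
      intro i hi u hu
      have hil : i ≠ l := fun hh => hi (hh ▸ hlI)
      rw [map_sub, hs i hi u hu, h.orth i l hil u hu y hy, sub_zero]
    have hy' : Sm M (a + y) := hE j l hlj.symm a ha y hy
    have h1 := hx.step hy' (sB m F (v - a) y)⁻¹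
    have hne : sB m F (v - a) y ≠ 0 := by rw [sB_swap]; exact neg_ne_zero.2 hly
    have e1 : sB m F (v - a - y) (a + y) = sB m F (v - a) y := by
      have h3 : sB m F (v - a) a = 0 := by rw [sB_swap, hav a ha, neg_zero]
      have h4 : sB m F y a = 0 := h.orth l j hlj y hy a ha
      rw [map_sub, LinearMap.sub_apply, map_add, map_add, h3, h4, sB_self]
      ring
    rw [e1, inv_mul_cancel₀ hne, one_smul] at h1
    have e2 : v - a - y + (a + y) = v := by abel
    rwa [e2] at h1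

/-- membership in the stabilizer from a map on indices -/
theorem Dec.mem_stab (h : Dec D) (k : ℕ) (hk : 0 < k) (hfr : ∀ i, finrank F (D i) = k)
    (g : Matrix.symplecticGroup (Fin m) F) (σ : Fin t → Fin t)
    (hσ : ∀ i, ∀ x ∈ D i, (g : Matrix (Fin m ⊕ Fin m) (Fin m ⊕ Fin m) F) *ᵥ x ∈ D (σ i)) :
    g ∈ (Cfsg.Geo.decompositionStabilizer D).comap (toGL (F := F) (m := m)) := by
  have hmap : ∀ i, (D i).map (Matrix.toLin' (g : Matrix (Fin m ⊕ Fin m) (Fin m ⊕ Fin m) F))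
      = D (σ i) := fun i =>
    Cfsg.Agent.S5649.map_eq g _ _ (by rw [hfr, hfr]) (hσ i)
  have hinj : Function.Injective σ := by
    intro i i' hii
    by_contra hne
    obtain ⟨x0, hx0, -, hx00⟩ := exK (D i) ⊥ (k := 0) Fin.elim0 (by rw [finrank_bot, hfr]; omega)
    have hx0' : x0 ≠ 0 := fun hh => hx00 (by rw [hh]; exact Submodule.zero_mem _)
    have hg0 : (g : Matrix (Fin m ⊕ Fin m) (Fin m ⊕ Fin m) F) *ᵥ x0 ≠ 0 := by
      intro hh
      apply hx0'
      rw [← inv_mulVec g x0, hh, mulVec_zero]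
    obtain ⟨y, hy, hy0⟩ := h.nd (σ i) _ (hσ i x0 hx0) hg0
    rw [hii, ← hmap i'] at hy
    obtain ⟨x', hx', rfl⟩ := hy
    rw [Matrix.toLin'_apply, sB_mulVec] at hy0
    exact hy0 (h.orth i' i (Ne.symm hne) x' hx' x0 hx0)
  have hbij : Function.Bijective σ := Finite.injective_iff_bijective.1 hinj
  exact ⟨Equiv.ofBijective σ hbij, fun i => hmap i⟩

/-- an element outside the stabilizer moves some block vector off all the blocks -/
theorem Dec.exists_off (h : Dec D) (k : ℕ) (hk : 0 < k) (hfr : ∀ i, finrank F (D i) = k)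
    (g : Matrix.symplecticGroup (Fin m) F)
    (hg : g ∉ (Cfsg.Geo.decompositionStabilizer D).comap (toGL (F := F) (m := m))) :
    ∃ i, ∃ x ∈ D i, ∀ j, (g : Matrix (Fin m ⊕ Fin m) (Fin m ⊕ Fin m) F) *ᵥ x ∉ D j := by
  by_contra hc
  push Not at hc
  apply hg
  have key : ∀ i, ∃ j, ∀ x ∈ D i,
      (g : Matrix (Fin m ⊕ Fin m) (Fin m ⊕ Fin m) F) *ᵥ x ∈ D j := by
    intro i
    obtain ⟨x0, hx0, -, hx00⟩ := exK (D i) ⊥ (k := 0) Fin.elim0 (by rw [finrank_bot, hfr]; omega)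
    have hx0' : x0 ≠ 0 := fun hh => hx00 (by rw [hh]; exact Submodule.zero_mem _)
    have hg0 : (g : Matrix (Fin m ⊕ Fin m) (Fin m ⊕ Fin m) F) *ᵥ x0 ≠ 0 := by
      intro hh
      apply hx0'
      rw [← inv_mulVec g x0, hh, mulVec_zero]
    obtain ⟨j, hj⟩ := hc i x0 hx0
    refine ⟨j, fun x hx => ?_⟩
    obtain ⟨l, hl⟩ := hc i x hx
    by_cases hlj : l = j
    · rw [← hlj]; exact hl
    obtain ⟨p, hp⟩ := hc i (x0 + x) ((D i).add_mem hx0 hx)
    rw [mulVec_add] at hp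
    by_cases hpj : p = j
    · rw [hpj] at hp
      have := (D j).sub_mem hp hj
      rwa [add_sub_cancel_left] at this
    · exfalso
      obtain ⟨y, hy, hy0⟩ := h.nd j _ hj hg0
      apply hy0
      have e1 := h.orth j p (Ne.symm hpj) y hy _ hp
      have e2 := h.orth j l (Ne.symm hlj) y hy _ hl
      rw [map_add, e2, add_zero] at e1
      exact e1
  choose σ hσ using key
  exact h.mem_stab k hk hfr g σ hσ

/-- splitting off two nonzero components -/
theorem Dec.split (h : Dec D) (v : Fin m ⊕ Fin m → F) (hv : ∀ j, v ∉ D j) (i0 : Fin t) :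
    ∃ a b, a ≠ b ∧ ∃ x ∈ D a, ∃ y ∈ D b, ∃ r, x ≠ 0 ∧ y ≠ 0 ∧ (∀ w ∈ D a, sB m F w r = 0) ∧
      (∀ w ∈ D b, sB m F w r = 0) ∧ v = x + y + r := by
  have hv0 : v ≠ 0 := fun hh => hv i0 (by rw [hh]; exact Submodule.zero_mem _)
  obtain ⟨a, z, hz, hza⟩ : ∃ a, ∃ z ∈ D a, sB m F z v ≠ 0 := by
    by_contra hc
    push Not at hc
    exact hv0 (h.perp_all _ hc)
  obtain ⟨x, hx, hxv⟩ := h.comp v a
  have hx0 : x ≠ 0 := by
    intro hh
    rw [hh, sub_zero] at hxv
    exact hza (hxv z hz)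
  have hvx : v - x ≠ 0 := by
    intro hh
    exact hv a (by rw [sub_eq_zero.1 hh]; exact hx)
  obtain ⟨b, z', hz', hzb⟩ : ∃ b, ∃ z ∈ D b, sB m F z (v - x) ≠ 0 := by
    by_contra hc
    push Not at hc
    exact hvx (h.perp_all _ hc)
  have hab : a ≠ b := by
    intro hh
    subst hh
    exact hzb (hxv z' hz')
  obtain ⟨y, hy, hyv⟩ := h.comp (v - x) b
  have hy0 : y ≠ 0 := by
    intro hh
    rw [hh, sub_zero] at hyv
    exact hzb (hyv z' hz')
  refine ⟨a, b, hab, x, hx, y, hy, v - x - y, hx0, hy0, fun w hw => ?_, hyv, by abel⟩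
  rw [map_sub, hxv w hw, h.orth a b hab w hw y hy, sub_zero]

/-- the standard Gram matrix -/
def G (F : Type*) [Field F] (r : ℕ) :
    ((Fin r ⊕ Fin r) ⊕ Fin 0) → ((Fin r ⊕ Fin r) ⊕ Fin 0) → F
  | .inl (.inl i), .inl (.inr j) => if i = j then 1 else 0
  | .inl (.inr i), .inl (.inl j) => if j = i then -1 else 0
  | _, _ => 0

theorem exists_basis (W : Submodule F (Fin m ⊕ Fin m → F))
    (hW : ∀ w ∈ W, w ≠ 0 → ∃ x ∈ W, sB m F x w ≠ 0) (k : ℕ) (hk : finrank F W = k) :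
    ∃ b : Module.Basis ((Fin (k / 2) ⊕ Fin (k / 2)) ⊕ Fin 0) F W,
      ∀ s s', sB m F (b s : Fin m ⊕ Fin m → F) (b s' : Fin m ⊕ Fin m → F) = G F (k / 2) s s' := by
  obtain ⟨m', k', b, h1, h2, h3, h4⟩ :=
    Cfsg.Agent.S0752.result ((sB m F).restrict W) (fun x => sB_self m F x)
  obtain rfl : k' = 0 := by
    by_contra hk'
    have j : Fin k' := ⟨0, Nat.pos_of_ne_zero hk'⟩
    have hne : ((b (Sum.inr j) : W) : Fin m ⊕ Fin m → F) ≠ 0 := by
      intro hh
      exact b.ne_zero (Sum.inr j) (Subtype.ext hh)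
    obtain ⟨x, hx, hx0⟩ := hW _ (b (Sum.inr j)).2 hne
    apply hx0
    rw [sB_swap]
    have : sB m F (b (Sum.inr j) : Fin m ⊕ Fin m → F) x = 0 := h4 j ⟨x, hx⟩
    rw [this, neg_zero]
  have hcard : finrank F W = 2 * m' := by
    rw [Module.finrank_eq_card_basis b]
    simp
    ring
  obtain rfl : m' = k / 2 := by omega
  refine ⟨b, ?_⟩
  rintro ((i | i) | i) ((j | j) | j)
  · exact h2 i j
  · exact h1 i j
  · exact j.elim0
  · have : sB m F (b (Sum.inl (Sum.inl j)) : Fin m ⊕ Fin m → F)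
        (b (Sum.inl (Sum.inr i)) : Fin m ⊕ Fin m → F) = if j = i then 1 else 0 := h1 j i
    rw [sB_swap, this]
    simp only [G]
    split_ifs <;> simp
  · exact h3 i j
  · exact j.elim0
  · exact i.elim0
  · exact i.elim0
  · exact i.elim0

/-- block permutations -/
theorem Dec.exists_perm (h : Dec D) (k : ℕ) (hfr : ∀ i, finrank F (D i) = k)
    (hind : iSupIndep D) (htop : iSup D = ⊤) (σ : Equiv.Perm (Fin t)) :
    ∃ π : Matrix.symplecticGroup (Fin m) F, ∀ j, ∀ x ∈ D j,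
      (π : Matrix (Fin m ⊕ Fin m) (Fin m ⊕ Fin m) F) *ᵥ x ∈ D (σ j) := by
  classical
  choose b hb using fun j => exists_basis (D j) (h.nd j) k (hfr j)
  have hint : DirectSum.IsInternal D :=
    DirectSum.isInternal_submodule_of_iSupIndep_of_iSup_eq_top hind htop
  obtain ⟨X, hX⟩ : ∃ X : Module.Basis (Σ _ : Fin t, ((Fin (k / 2) ⊕ Fin (k / 2)) ⊕ Fin 0)) F
      (Fin m ⊕ Fin m → F), ∀ p, X p = (b p.1 p.2 : Fin m ⊕ Fin m → F) :=
    ⟨hint.collectedBasis b, fun p => by rw [DirectSum.IsInternal.collectedBasis_coe]⟩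
  have hGram : ∀ p p', sB m F (X p) (X p') = if p.1 = p'.1 then G F (k / 2) p.2 p'.2 else 0 := by
    rintro ⟨j, s⟩ ⟨j', s'⟩
    rw [hX, hX]
    by_cases hjj : j = j'
    · subst hjj
      simp only [if_true]
      exact hb j s s'
    · simp only [hjj, if_false]
      exact h.orth j j' hjj _ (b j s).2 _ (b j' s').2
  obtain ⟨τ, hτ⟩ : ∃ τ : (Σ _ : Fin t, ((Fin (k / 2) ⊕ Fin (k / 2)) ⊕ Fin 0)) →
      (Σ _ : Fin t, ((Fin (k / 2) ⊕ Fin (k / 2)) ⊕ Fin 0)), ∀ p, τ p = ⟨σ p.1, p.2⟩ :=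
    ⟨fun p => ⟨σ p.1, p.2⟩, fun p => rfl⟩
  have hτi : Function.Injective τ := by
    rintro ⟨j, s⟩ ⟨j', s'⟩ hh
    rw [hτ, hτ] at hh
    simp only [Sigma.mk.injEq, EmbeddingLike.apply_eq_iff_eq] at hh
    obtain ⟨rfl, h2⟩ := hh
    rw [eq_of_heq h2]
  obtain ⟨e⟩ : Nonempty (Fin (Fintype.card (Σ _ : Fin t, ((Fin (k / 2) ⊕ Fin (k / 2)) ⊕ Fin 0)))
      ≃ (Σ _ : Fin t, ((Fin (k / 2) ⊕ Fin (k / 2)) ⊕ Fin 0))) := ⟨(Fintype.equivFin _).symm⟩
  obtain ⟨g, hg⟩ := Cfsg.Agent.Lib.Helper5_SympStab.witt_mat _ (X ∘ e) (X ∘ τ ∘ e)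
    (X.linearIndependent.comp e e.injective)
    (X.linearIndependent.comp (τ ∘ e) (hτi.comp e.injective)) (by
      intro i j
      simp only [Function.comp_apply]
      rw [hGram, hGram, hτ, hτ]
      simp only [EmbeddingLike.apply_eq_iff_eq])
  have hg' : ∀ p, (g : Matrix (Fin m ⊕ Fin m) (Fin m ⊕ Fin m) F) *ᵥ X p = X (τ p) := by
    intro p
    have := hg (e.symm p)
    simpa using this
  refine ⟨g, fun j x hx => ?_⟩
  have hsum : x = ∑ s, (b j).repr ⟨x, hx⟩ s • (b j s : Fin m ⊕ Fin m → F) := by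
    have := congrArg (Subtype.val) ((b j).sum_repr ⟨x, hx⟩)
    simp only [Submodule.coe_sum, Submodule.coe_smul] at this
    exact this.symm
  rw [hsum, ← Matrix.toLin'_apply, map_sum]
  apply Submodule.sum_mem
  intro s _
  rw [map_smul, Matrix.toLin'_apply]
  apply Submodule.smul_mem
  have := hg' ⟨j, s⟩
  rw [hX, hτ, hX] at this
  rw [this]
  exact (b (σ j) s).2

theorem Dec.two_le (h : Dec D) (k : ℕ) (hfr : ∀ i, finrank F (D i) = k) (b : Fin t)
    (x : Fin m ⊕ Fin m → F) (hx : x ∈ D b) (hx0 : x ≠ 0) : 2 ≤ k := by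
  by_contra hlt
  obtain ⟨y, hy, hyx⟩ := h.nd b x hx hx0
  have hle : Submodule.span F {x} ≤ D b := by
    rw [Submodule.span_singleton_le_iff_mem]; exact hx
  have heq : Submodule.span F {x} = D b :=
    Submodule.eq_of_le_of_finrank_le hle (by rw [finrank_span_singleton hx0, hfr]; omega)
  rw [← heq] at hy
  obtain ⟨c, rfl⟩ := Submodule.mem_span_singleton.1 hy
  apply hyx
  rw [map_smul, LinearMap.smul_apply, sB_self, smul_zero]

theorem Dec.exc [Fintype F] (h : Dec D) (k : ℕ) (hfr : ∀ i, finrank F (D i) = k)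
    (hex : ¬ (k = 2 ∧ Fintype.card F = 2)) (b : Fin t) :
    ∀ x ∈ D b, x ≠ 0 → ∃ w ∈ D b, w ≠ 0 ∧ sB m F x w = 0 ∧ x + w ≠ 0 := by
  classical
  intro x hx hx0
  by_cases hq : ∃ μ : F, μ ≠ 0 ∧ 1 + μ ≠ 0
  · obtain ⟨μ, h1, h2⟩ := hq
    refine ⟨μ • x, (D b).smul_mem _ hx, smul_ne_zero h1 hx0,
      by rw [map_smul, sB_self, smul_zero], ?_⟩
    have : x + μ • x = (1 + μ) • x := by module
    rw [this]
    exact smul_ne_zero h2 hx0
  · push Not at hq
    have hcard : Fintype.card F = 2 := by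
      have hall : ∀ μ : F, μ = 0 ∨ μ = -1 := fun μ => by
        by_cases h0 : μ = 0
        · left; exact h0
        · right
          have := hq μ h0
          linear_combination this
      apply le_antisymm
      · have hsub : (Finset.univ : Finset F) ⊆ {0, -1} := fun μ _ => by
          simp only [Finset.mem_insert, Finset.mem_singleton]
          exact hall μ
        calc Fintype.card F = (Finset.univ : Finset F).card := rfl
          _ ≤ ({0, -1} : Finset F).card := Finset.card_le_card hsub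
          _ ≤ 2 := Finset.card_le_two
      · exact Fintype.one_lt_card
    have hk2 : k ≠ 2 := fun hh => hex ⟨hh, hcard⟩
    have hk1 : 2 ≤ k := h.two_le k hfr b x hx hx0
    obtain ⟨w, hw, hwx, hwS⟩ := exK (D b) (Submodule.span F {x}) (k := 1) (fun _ => x)
      (by rw [finrank_span_singleton hx0, hfr]; omega)
    refine ⟨w, hw, ?_, hwx 0, ?_⟩
    · intro hh
      exact hwS (by rw [hh]; exact Submodule.zero_mem _)
    · intro hh
      apply hwS
      have : w = (-1 : F) • x := by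
        rw [neg_smul, one_smul]
        exact eq_neg_of_add_eq_zero_right hh
      rw [this]
      exact Submodule.smul_mem _ _ (Submodule.mem_span_singleton_self x)

theorem Dec.ex_ne (k : ℕ) (hk : 0 < k) (hfr : ∀ i, finrank F (D i) = k) (i : Fin t) :
    ∃ x ∈ D i, x ≠ 0 := by
  obtain ⟨x0, hx0, -, hx00⟩ := exK (D i) ⊥ (k := 0) Fin.elim0 (by rw [finrank_bot, hfr]; omega)
  exact ⟨x0, hx0, fun hh => hx00 (by rw [hh]; exact Submodule.zero_mem _)⟩

theorem Dec.tv_mem (h : Dec D) (k : ℕ) (hk : 0 < k) (hfr : ∀ i, finrank F (D i) = k)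
    (i : Fin t) (x : Fin m ⊕ Fin m → F) (hx : x ∈ D i) (c : F) :
    tv x c ∈ (Cfsg.Geo.decompositionStabilizer D).comap (toGL (F := F) (m := m)) := by
  apply h.mem_stab k hk hfr _ id
  intro j z hz
  rw [tv_mulVec]
  by_cases hji : j = i
  · subst hji
    exact (D j).add_mem hz ((D j).smul_mem _ hx)
  · rw [h.orth j i hji z hz x hx, mul_zero, zero_smul, add_zero]
    exact hz

theorem Dec.ne_top (h : Dec D) (k : ℕ) (hk : 0 < k) (ht : 2 ≤ t)
    (hfr : ∀ i, finrank F (D i) = k) :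
    (Cfsg.Geo.decompositionStabilizer D).comap (toGL (F := F) (m := m)) ≠ ⊤ := by
  intro htop'
  obtain ⟨a, b, hab⟩ : ∃ a b : Fin t, a ≠ b :=
    ⟨⟨0, by omega⟩, ⟨1, by omega⟩, by simp [Fin.ext_iff]⟩
  obtain ⟨xa, hxa, hxa0⟩ := Dec.ex_ne k hk hfr a
  obtain ⟨xb, hxb, hxb0⟩ := Dec.ex_ne k hk hfr b
  obtain ⟨y0, hy0, hy0x⟩ := h.nd a xa hxa hxa0
  have hmem : tv (xa + xb) (1 : F) ∈
      (Cfsg.Geo.decompositionStabilizer D).comap (toGL (F := F) (m := m)) := by
    rw [htop']; trivial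
  obtain ⟨σ, hσ⟩ := hmem
  have h3 : (tv (xa + xb) (1 : F) : Matrix (Fin m ⊕ Fin m) (Fin m ⊕ Fin m) F) *ᵥ y0
      ∈ D (σ a) := by
    rw [← hσ a]
    exact ⟨y0, hy0, rfl⟩
  rw [tv_mulVec, one_mul, map_add, h.orth a b hab y0 hy0 xb hxb, add_zero] at h3
  by_cases hp : σ a = b
  · rw [hp] at h3
    have hz : y0 + sB m F y0 xa • xa = 0 := by
      by_contra hne
      obtain ⟨u, hu, hune⟩ := h.nd a _ ((D a).add_mem hy0 ((D a).smul_mem _ hxa)) hne
      apply hune
      have e1 := h.orth a b hab u hu _ h3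
      rw [smul_add, ← add_assoc, map_add, map_smul _ _ xb, h.orth a b hab u hu xb hxb, smul_zero,
        add_zero] at e1
      exact e1
    have e2 : sB m F (y0 + sB m F y0 xa • xa) xa = sB m F y0 xa := by
      rw [map_add, LinearMap.add_apply, map_smul, LinearMap.smul_apply, sB_self, smul_zero,
        add_zero]
    rw [hz, map_zero, LinearMap.zero_apply] at e2
    exact hy0x e2.symm
  · apply hxb0
    by_contra hne
    obtain ⟨u, hu, hune⟩ := h.nd b xb hxb hne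
    have e1 := h.orth b (σ a) (Ne.symm hp) u hu _ h3
    rw [map_add, h.orth b a hab.symm u hu y0 hy0, zero_add, map_smul, map_add,
      h.orth b a hab.symm u hu xa hxa, zero_add, smul_eq_mul] at e1
    rcases mul_eq_zero.1 e1 with e2 | e2
    · exact hy0x e2
    · exact hune e2

theorem Dec.coatom [Fintype F] (h : Dec D) (k : ℕ) (hk : 0 < k) (ht : 2 ≤ t)
    (hfr : ∀ i, finrank F (D i) = k) (hind : iSupIndep D) (htop : iSup D = ⊤)
    (hex : ¬ (k = 2 ∧ Fintype.card F = 2)) :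
    IsCoatom ((Cfsg.Geo.decompositionStabilizer D).comap (toGL (F := F) (m := m))) := by
  classical
  refine ⟨h.ne_top k hk ht hfr, ?_⟩
  intro M hlt
  have hM : ∀ i, ∀ x ∈ D i, Sm M x := fun i x hx c => hlt.le (h.tv_mem k hk hfr i x hx c)
  obtain ⟨g, hgM, hgO⟩ := SetLike.exists_of_lt hlt
  obtain ⟨i, x, hx, hoff⟩ := h.exists_off k hk hfr g hgO
  obtain ⟨a, b, hab, u, hu, v, hv, r, hu0, hv0, hra, hrb, hsum⟩ := h.split _ hoff i
  have hS : Sm M (u + v + r) := by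
    rw [← hsum]
    exact (hM i x hx).map g hgM
  have hE0 : E D M a b :=
    h.shrink M hM a b hab (h.exc k hfr hex b) u v r hu hv hu0 hv0 hra hrb hS
  have hE : ∀ c d, c ≠ d → E D M c d := by
    intro c d hcd
    obtain ⟨σ, hσc, hσd⟩ : ∃ σ : Equiv.Perm (Fin t), σ c = a ∧ σ d = b := by
      refine ⟨Equiv.swap (Equiv.swap c a d) b * Equiv.swap c a, ?_, ?_⟩
      · rw [Equiv.Perm.mul_apply, Equiv.swap_apply_left, Equiv.swap_apply_of_ne_of_ne _ hab]
        intro hh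
        have : Equiv.swap c a c = Equiv.swap c a d := by
          rw [Equiv.swap_apply_left]; exact hh
        exact hcd ((Equiv.swap c a).injective this)
      · rw [Equiv.Perm.mul_apply, Equiv.swap_apply_left]
    obtain ⟨π, hπ⟩ := h.exists_perm k hfr hind htop σ
    have hπM : π ∈ M := hlt.le (h.mem_stab k hk hfr π σ hπ)
    intro x hx y hy
    have h1 := hE0 _ (hσc ▸ hπ c x hx) _ (hσd ▸ hπ d y hy)
    have h2 := h1.map π⁻¹ (M.inv_mem hπM)
    rwa [← mulVec_add, inv_mulVec] at h2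
  apply eq_top_of_tv
  intro v c
  exact h.all M hM hE Finset.univ v (fun j hj => absurd (Finset.mem_univ j) hj) c

theorem dec_of (k : ℕ) (hD : Cfsg.Geo.IsNondegenerateMDecomposition (Cfsg.sympForm m F) k D) :
    Dec D := by
  classical
  refine ⟨fun i w hw hw0 => ?_, fun i j hij u hu v hv => ?_, fun v => ?_⟩
  · obtain ⟨x, hx, hxw⟩ := (hD.nondegenerate i w hw hw0).1
    exact ⟨x, hx, by rw [sB_apply]; exact hxw⟩
  · rw [sB_apply]
    exact hD.orthogonal i j hij u hu v hv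
  · have hv : v ∈ ⨆ i ∈ (Finset.univ : Finset (Fin t)), D i := by
      simp only [Finset.mem_univ, iSup_pos]
      rw [hD.decomp.iSup_eq_top]
      trivial
    obtain ⟨μ, hμ⟩ := (Submodule.mem_iSup_finset_iff_exists_sum D v).1 hv
    exact ⟨fun i => (μ i : Fin m ⊕ Fin m → F), fun i => (μ i).2, hμ.symm⟩

end Cfsg.Agent.Lib.Helper5_SpDec
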