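import Mathlib
import Cfsg.Agent.Lib.Helper5_SqZero

set_option autoImplicit false

namespace Cfsg.Agent.Lib.Helper5_SqZeroCent

open Module Cfsg.Agent.Lib.Helper5_SqZero

variable {K : Type*} [Field K]
variable {X Z : Type*} [AddCommGroup X] [Module K X] [AddCommGroup Z] [Module K Z]

/-- the model square-zero map. -/
def NM (K X Z : Type*) [Field K] [AddCommGroup X] [Module K X] [AddCommGroup Z] [Module K Z] :
    (X × X × Z) →ₗ[K] (X × X × Z) :=
  LinearMap.prod 0 (LinearMap.prod (LinearMap.fst K X (X × Z)) 0)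

@[simp] theorem NM_apply (x y : X) (z : Z) : NM K X Z (x, y, z) = (0, x, 0) := rfl

/-- the general element of the centraliser of the model. -/
def mk (A : X →ₗ[K] X) (H : Z →ₗ[K] Z) (B : X →ₗ[K] X) (E : Z →ₗ[K] X) (G : X →ₗ[K] Z) :
    (X × X × Z) →ₗ[K] (X × X × Z) :=
  LinearMap.prod (A ∘ₗ LinearMap.fst K X (X × Z))
    (LinearMap.prod
      (B ∘ₗ LinearMap.fst K X (X × Z) + A ∘ₗ LinearMap.fst K X Z ∘ₗ LinearMap.snd K X (X × Z)
        + E ∘ₗ LinearMap.snd K X Z ∘ₗ LinearMap.snd K X (X × Z))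
      (G ∘ₗ LinearMap.fst K X (X × Z) + H ∘ₗ LinearMap.snd K X Z ∘ₗ LinearMap.snd K X (X × Z)))

@[simp] theorem mk_apply (A : X →ₗ[K] X) (H : Z →ₗ[K] Z) (B : X →ₗ[K] X) (E : Z →ₗ[K] X) (G : X →ₗ[K] Z)
    (x y : X) (z : Z) : mk A H B E G (x, y, z) = (A x, B x + A y + E z, G x + H z) := rfl

theorem mk_comm (A : X →ₗ[K] X) (H : Z →ₗ[K] Z) (B : X →ₗ[K] X) (E : Z →ₗ[K] X) (G : X →ₗ[K] Z)
    (v : X × X × Z) : mk A H B E G (NM K X Z v) = NM K X Z (mk A H B E G v) := by
  obtain ⟨x, y, z⟩ := v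
  simp

theorem mk_injective (A : X →ₗ[K] X) (H : Z →ₗ[K] Z) (B : X →ₗ[K] X) (E : Z →ₗ[K] X) (G : X →ₗ[K] Z)
    (hA : Function.Injective A) (hH : Function.Injective H) : Function.Injective (mk A H B E G) := by
  rw [← LinearMap.ker_eq_bot, LinearMap.ker_eq_bot']
  rintro ⟨x, y, z⟩ h
  simp only [mk_apply, Prod.mk_eq_zero] at h
  obtain ⟨h1, h2, h3⟩ := h
  have hx : x = 0 := hA (by rw [h1, map_zero])
  subst hx
  rw [map_zero, zero_add] at h3
  have hz : z = 0 := hH (by rw [h3, map_zero])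
  subst hz
  rw [map_zero, map_zero, zero_add, add_zero] at h2
  have hy : y = 0 := hA (by rw [h2, map_zero])
  subst hy
  rfl

theorem exists_mk (g : (X × X × Z) →ₗ[K] (X × X × Z)) (hg : ∀ v, g (NM K X Z v) = NM K X Z (g v)) :
    ∃ A H B E G, g = mk A H B E G := by
  refine ⟨LinearMap.fst K X (X × Z) ∘ₗ g ∘ₗ LinearMap.inl K X (X × Z),
    LinearMap.snd K X Z ∘ₗ LinearMap.snd K X (X × Z) ∘ₗ g ∘ₗ LinearMap.inr K X (X × Z) ∘ₗ LinearMap.inr K X Z,
    LinearMap.fst K X Z ∘ₗ LinearMap.snd K X (X × Z) ∘ₗ g ∘ₗ LinearMap.inl K X (X × Z),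
    LinearMap.fst K X Z ∘ₗ LinearMap.snd K X (X × Z) ∘ₗ g ∘ₗ LinearMap.inr K X (X × Z) ∘ₗ LinearMap.inr K X Z,
    LinearMap.snd K X Z ∘ₗ LinearMap.snd K X (X × Z) ∘ₗ g ∘ₗ LinearMap.inl K X (X × Z), ?_⟩
  apply LinearMap.ext
  rintro ⟨x, y, z⟩
  have hsplit : ((x, y, z) : X × X × Z) = (x, 0, 0) + (0, y, 0) + (0, 0, z) := by simp
  have hy : g (0, y, 0) = (0, (g (y, 0, 0)).1, 0) := by
    have := hg (y, 0, 0)
    rw [NM_apply] at this
    rw [this]
    rfl
  have hz : (g (0, 0, z)).1 = 0 := by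
    have := hg (0, 0, z)
    rw [NM_apply] at this
    have h0 : ((0 : X), (0 : X), (0 : Z)) = 0 := rfl
    rw [h0, map_zero] at this
    have h1 := congrArg (fun w : X × X × Z => w.2.1) this
    exact h1.symm
  rw [mk_apply, hsplit, map_add, map_add, hy]
  ext
  · simp [hz]; rfl
  · simp; rfl
  · simp; rfl

theorem injective_of_mk [FiniteDimensional K X] (A : X →ₗ[K] X) (H : Z →ₗ[K] Z) (B : X →ₗ[K] X) (E : Z →ₗ[K] X) (G : X →ₗ[K] Z)
    (h : Function.Injective (mk A H B E G)) : Function.Injective A ∧ Function.Injective H := by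
  have hA : Function.Injective A := by
    rw [← LinearMap.ker_eq_bot, LinearMap.ker_eq_bot']
    intro x hx
    have h1 : mk A H B E G (0, x, 0) = mk A H B E G 0 := by
      rw [map_zero, mk_apply]
      simp [hx]
    have h2 := h h1
    exact congrArg (fun w : X × X × Z => w.2.1) h2
  refine ⟨hA, ?_⟩
  rw [← LinearMap.ker_eq_bot, LinearMap.ker_eq_bot']
  intro z hz
  obtain ⟨y, hy⟩ := (LinearMap.injective_iff_surjective.1 hA) (-(E z))
  have h1 : mk A H B E G (0, y, z) = mk A H B E G 0 := by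
    rw [map_zero, mk_apply]
    simp [hz, hy]
  have h2 := h h1
  exact congrArg (fun w : X × X × Z => w.2.2) h2

theorem mk_inj (A A' : X →ₗ[K] X) (H H' : Z →ₗ[K] Z) (B B' : X →ₗ[K] X) (E E' : Z →ₗ[K] X) (G G' : X →ₗ[K] Z)
    (h : mk A H B E G = mk A' H' B' E' G') : A = A' ∧ H = H' ∧ B = B' ∧ E = E' ∧ G = G' := by
  have hx : ∀ x, mk A H B E G (x, 0, 0) = mk A' H' B' E' G' (x, 0, 0) := fun x => by rw [h]
  have hz : ∀ z, mk A H B E G (0, 0, z) = mk A' H' B' E' G' (0, 0, z) := fun z => by rw [h]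
  simp only [mk_apply, map_zero, add_zero, zero_add, Prod.mk.injEq] at hx hz
  exact ⟨LinearMap.ext fun x => (hx x).1, LinearMap.ext fun z => (hz z).2.2, LinearMap.ext fun x => (hx x).2.1,
    LinearMap.ext fun z => (hz z).2.1, LinearMap.ext fun x => (hx x).2.2⟩

/-- the centraliser of the model, as a type. -/
def CentM (K X Z : Type*) [Field K] [AddCommGroup X] [Module K X] [AddCommGroup Z] [Module K Z] : Type _ :=
  {g : (X × X × Z) →ₗ[K] (X × X × Z) // Function.Injective g ∧ ∀ v, g (NM K X Z v) = NM K X Z (g v)}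

theorem card_CentM [FiniteDimensional K X] :
    Nat.card (CentM K X Z) = Nat.card {A : X →ₗ[K] X // Function.Injective A} *
      (Nat.card {H : Z →ₗ[K] Z // Function.Injective H} *
        (Nat.card (X →ₗ[K] X) * (Nat.card (Z →ₗ[K] X) * Nat.card (X →ₗ[K] Z)))) := by
  rw [← Nat.card_prod, ← Nat.card_prod, ← Nat.card_prod, ← Nat.card_prod]
  symm
  refine Nat.card_congr (Equiv.ofBijective
    (fun w => (⟨mk w.1.1 w.2.1.1 w.2.2.1 w.2.2.2.1 w.2.2.2.2,
      mk_injective _ _ _ _ _ w.1.2 w.2.1.2, mk_comm _ _ _ _ _⟩ : CentM K X Z)) ⟨?_, ?_⟩)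
  · rintro ⟨⟨A, hA⟩, ⟨H, hH⟩, B, E, G⟩ ⟨⟨A', hA'⟩, ⟨H', hH'⟩, B', E', G'⟩ h
    have h1 := congrArg Subtype.val h
    obtain ⟨rfl, rfl, rfl, rfl, rfl⟩ := mk_inj _ _ _ _ _ _ _ _ _ _ h1
    rfl
  · rintro ⟨g, hg1, hg2⟩
    obtain ⟨A, H, B, E, G, rfl⟩ := exists_mk g hg2
    obtain ⟨hA, hH⟩ := injective_of_mk _ _ _ _ _ hg1
    exact ⟨⟨⟨A, hA⟩, ⟨H, hH⟩, B, E, G⟩, rfl⟩

open scoped Matrix

theorem card_inj_end (n : ℕ) :
    Nat.card {A : (Fin n → K) →ₗ[K] (Fin n → K) // Function.Injective A} = Nat.card (GL (Fin n) K) := by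
  symm
  refine Nat.card_congr (Equiv.ofBijective
    (fun u : GL (Fin n) K => (⟨(u : Matrix (Fin n) (Fin n) K).mulVecLin,
      Matrix.mulVec_injective_iff_isUnit.2 u.isUnit⟩ : {A : (Fin n → K) →ₗ[K] (Fin n → K) // Function.Injective A})) ⟨?_, ?_⟩)
  · intro u u' h
    have h1 := congrArg Subtype.val h
    apply Units.ext
    apply Matrix.mulVec_injective
    funext v
    exact congrArg (fun L : (Fin n → K) →ₗ[K] (Fin n → K) => L v) h1
  · rintro ⟨A, hA⟩
    have hA' : A = (LinearMap.toMatrix' A).mulVecLin := by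
      apply LinearMap.ext
      intro v
      rw [Matrix.mulVecLin_apply, LinearMap.toMatrix'_mulVec]
    have hu : IsUnit (LinearMap.toMatrix' A) := by
      rw [← Matrix.mulVec_injective_iff_isUnit]
      intro v w hvw
      rw [LinearMap.toMatrix'_mulVec, LinearMap.toMatrix'_mulVec] at hvw
      exact hA hvw
    refine ⟨hu.unit, ?_⟩
    apply Subtype.ext
    exact hA'.symm

theorem card_hom [Fintype K] (a b : ℕ) :
    Nat.card ((Fin a → K) →ₗ[K] (Fin b → K)) = Fintype.card K ^ (a * b) := by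
  rw [Module.natCard_eq_pow_finrank (K := K), Module.finrank_linearMap, Nat.card_eq_fintype_card]
  simp

/-- The centraliser of a square-zero endomorphism: cardinality. -/
theorem card_cent_end [Fintype K] {V : Type*} [AddCommGroup V] [Module K V] [FiniteDimensional K V]
    (N : End K V) (hN : ∀ v, N (N v) = 0) (l k : ℕ) (hl : finrank K (LinearMap.range N) = l)
    (hk : k + 2 * l = finrank K V) :
    Nat.card {g : V →ₗ[K] V // Function.Injective g ∧ ∀ v, g (N v) = N (g v)} =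
      Nat.card (GL (Fin l) K) * (Nat.card (GL (Fin k) K) * Fintype.card K ^ (l * l + 2 * (l * k))) := by
  obtain ⟨Φ, hΦ⟩ := exists_model N hN l k hl hk
  have hΦ' : ∀ w, N (Φ w) = Φ (NM K (Fin l → K) (Fin k → K) w) := by
    rintro ⟨x, y, z⟩
    rw [hΦ, NM_apply]
  have h1 : Nat.card {g : V →ₗ[K] V // Function.Injective g ∧ ∀ v, g (N v) = N (g v)} =
      Nat.card (CentM K (Fin l → K) (Fin k → K)) := by
    refine Nat.card_congr (Equiv.ofBijective
      (fun g => (⟨Φ.symm.toLinearMap ∘ₗ g.1 ∘ₗ Φ.toLinearMap, ?_, ?_⟩ : CentM K (Fin l → K) (Fin k → K))) ⟨?_, ?_⟩)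
    · exact Φ.symm.injective.comp (g.2.1.comp Φ.injective)
    · intro w
      simp only [LinearMap.comp_apply, LinearEquiv.coe_coe]
      rw [← hΦ', g.2.2, ← Φ.apply_symm_apply (g.1 (Φ w)), hΦ', Φ.symm_apply_apply, Φ.symm_apply_apply]
    · intro g g' h
      have h1 := congrArg Subtype.val h
      apply Subtype.ext
      apply LinearMap.ext
      intro v
      have h2 := congrArg (fun L : _ →ₗ[K] _ => Φ (L (Φ.symm v))) h1
      simpa using h2
    · rintro ⟨g, hg1, hg2⟩
      refine ⟨⟨Φ.toLinearMap ∘ₗ g ∘ₗ Φ.symm.toLinearMap, ?_, ?_⟩, ?_⟩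
      · exact Φ.injective.comp (hg1.comp Φ.symm.injective)
      · intro v
        obtain ⟨w, rfl⟩ := Φ.surjective v
        simp only [LinearMap.comp_apply, LinearEquiv.coe_coe, Φ.symm_apply_apply]
        rw [hΦ', Φ.symm_apply_apply, hg2, hΦ']
      · apply Subtype.ext
        apply LinearMap.ext
        intro w
        simp
  rw [h1, card_CentM, card_inj_end, card_inj_end, card_hom, card_hom, card_hom, ← pow_add, ← pow_add]
  congr 3
  ring

theorem card_centralizer_eq (n : ℕ) (t : GL (Fin n) K) :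
    Nat.card (Subgroup.centralizer ({t} : Set (GL (Fin n) K))) =
      Nat.card {g : (Fin n → K) →ₗ[K] (Fin n → K) // Function.Injective g ∧
        ∀ v, g (((t : Matrix (Fin n) (Fin n) K) - 1).mulVecLin v) = ((t : Matrix (Fin n) (Fin n) K) - 1).mulVecLin (g v)} := by
  have key : ∀ A : Matrix (Fin n) (Fin n) K, A * (t : Matrix (Fin n) (Fin n) K) = (t : Matrix (Fin n) (Fin n) K) * A ↔
      ∀ v, A.mulVecLin (((t : Matrix (Fin n) (Fin n) K) - 1).mulVecLin v) =
        ((t : Matrix (Fin n) (Fin n) K) - 1).mulVecLin (A.mulVecLin v) := by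
    intro A
    simp only [Matrix.mulVecLin_apply, Matrix.mulVec_mulVec]
    constructor
    · intro h v
      rw [mul_sub, sub_mul, h, mul_one, one_mul]
    · intro h
      have h1 : A * ((t : Matrix (Fin n) (Fin n) K) - 1) = ((t : Matrix (Fin n) (Fin n) K) - 1) * A :=
        Matrix.mulVec_injective (funext h)
      rw [mul_sub, sub_mul, mul_one, one_mul] at h1
      exact sub_left_injective h1
  refine Nat.card_congr (Equiv.ofBijective
    (fun u => ⟨((u.1 : GL (Fin n) K) : Matrix (Fin n) (Fin n) K).mulVecLin,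
      Matrix.mulVec_injective_iff_isUnit.2 u.1.isUnit, ?_⟩) ⟨?_, ?_⟩)
  · rw [← key]
    have h := Subgroup.mem_centralizer_singleton_iff.1 u.2
    have h1 := congrArg Units.val h
    simpa using h1
  · intro u u' h
    have h1 := congrArg Subtype.val h
    apply Subtype.ext
    apply Units.ext
    apply Matrix.mulVec_injective
    funext v
    exact congrArg (fun L : (Fin n → K) →ₗ[K] (Fin n → K) => L v) h1
  · rintro ⟨A, hA, hA2⟩
    have hA' : A = (LinearMap.toMatrix' A).mulVecLin := by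
      apply LinearMap.ext
      intro v
      rw [Matrix.mulVecLin_apply, LinearMap.toMatrix'_mulVec]
    have hu : IsUnit (LinearMap.toMatrix' A) := by
      rw [← Matrix.mulVec_injective_iff_isUnit]
      intro v w hvw
      rw [LinearMap.toMatrix'_mulVec, LinearMap.toMatrix'_mulVec] at hvw
      exact hA hvw
    rw [hA'] at hA2
    rw [← key] at hA2
    refine ⟨⟨hu.unit, ?_⟩, ?_⟩
    · rw [Subgroup.mem_centralizer_singleton_iff]
      apply Units.ext
      exact hA2
    · apply Subtype.ext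
      exact hA'.symm

/-- Order of the centraliser in `GL_n(q)` of `1 + N` with `N^2 = 0` of rank `l`. -/
theorem card_centralizer_sqzero [Fintype K] (n : ℕ) (t : GL (Fin n) K)
    (ht : ((t : Matrix (Fin n) (Fin n) K) - 1) * ((t : Matrix (Fin n) (Fin n) K) - 1) = 0) (l k : ℕ)
    (hl : ((t : Matrix (Fin n) (Fin n) K) - 1).rank = l) (hk : k + 2 * l = n) :
    Nat.card (Subgroup.centralizer ({t} : Set (GL (Fin n) K))) =
      Nat.card (GL (Fin l) K) * (Nat.card (GL (Fin k) K) * Fintype.card K ^ (l * l + 2 * (l * k))) := by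
  rw [card_centralizer_eq]
  exact card_cent_end _ (sqzero_apply _ ht) l k hl (by rw [hk]; simp)

end Cfsg.Agent.Lib.Helper5_SqZeroCent
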