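import Mathlib
import Cfsg.Prelude.Def_GeometricClasses
import Cfsg.Agent.Lib.Helper5_GLPar

set_option autoImplicit false

namespace Cfsg.Agent.Lib.Helper5_SubfGL

open Matrix Cfsg Cfsg.Agent.Lib.Helper5_GLPar

variable {F : Type*} [Field F] {ι : Type} [Fintype ι] [DecidableEq ι]

/-- the rational vectors of the structure given by `P` -/
def V0 (F₀ : Subfield F) (P : Matrix.GeneralLinearGroup ι F) : Set (ι → F) :=
  {x | ∃ u : ι → F, (∀ i, u i ∈ F₀) ∧ x = (P : Matrix ι ι F) *ᵥ u}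

theorem mem_of_maps (F₀ : Subfield F) (P g : Matrix.GeneralLinearGroup ι F) (μ : F) (hμ : μ ≠ 0)
    (h : ∀ x ∈ V0 F₀ P, ∃ y ∈ V0 F₀ P, (g : Matrix ι ι F) *ᵥ x = μ • y) :
    g ∈ Cfsg.Geo.subfieldSubgroup F₀ P := by
  classical
  have hcol : ∀ j : ι, ∃ u : ι → F, (∀ i, u i ∈ F₀) ∧
      (g : Matrix ι ι F) *ᵥ ((P : Matrix ι ι F) *ᵥ Pi.single j 1) =
        μ • ((P : Matrix ι ι F) *ᵥ u) := by
    intro j
    obtain ⟨y, ⟨u, hu, rfl⟩, hy⟩ := h ((P : Matrix ι ι F) *ᵥ Pi.single j 1)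
      ⟨Pi.single j 1, fun i => by
        rw [Pi.single_apply]
        split_ifs
        · exact F₀.one_mem
        · exact F₀.zero_mem, rfl⟩
    exact ⟨u, hu, hy⟩
  choose u hu hgu using hcol
  obtain ⟨A0, hA0⟩ : ∃ A0 : Matrix ι ι F₀, ∀ i j, (A0 i j : F) = u j i :=
    ⟨fun i j => ⟨u j i, hu j i⟩, fun i j => rfl⟩
  have hA : ((P⁻¹ * g * P : Matrix.GeneralLinearGroup ι F) : Matrix ι ι F) =
      μ • A0.map F₀.subtype := by
    ext i j
    have h1 : ((P⁻¹ * g * P : Matrix.GeneralLinearGroup ι F) : Matrix ι ι F) *ᵥ Pi.single j 1 =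
        μ • u j := by
      rw [Units.val_mul, Units.val_mul, ← Matrix.mulVec_mulVec, ← Matrix.mulVec_mulVec, hgu,
        Matrix.mulVec_smul, gl_inv_mulVec]
    have h2 := congrFun h1 i
    rw [Matrix.mulVec_single_one, Matrix.col_apply] at h2
    rw [h2, Matrix.smul_apply, Matrix.map_apply, Pi.smul_apply]
    congr 1
    exact (hA0 i j).symm
  have hdet : A0.det ≠ 0 := by
    intro h0
    have h1 : ((P⁻¹ * g * P : Matrix.GeneralLinearGroup ι F) : Matrix ι ι F).det = 0 := by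
      rw [hA, Matrix.det_smul]
      have : (A0.map F₀.subtype).det = F₀.subtype A0.det := by
        rw [RingHom.map_det]; rfl
      rw [this, h0, map_zero, mul_zero]
    have h2 := (Matrix.isUnit_iff_isUnit_det _).1
      (P⁻¹ * g * P : Matrix.GeneralLinearGroup ι F).isUnit
    rw [h1] at h2
    exact not_isUnit_zero h2
  obtain ⟨s, hs, hsv⟩ : ∃ s ∈ Cfsg.Geo.scalars ι F, (s : Matrix ι ι F) = μ • (1 : Matrix ι ι F) := by
    refine ⟨Units.map (Matrix.scalar ι : F →+* Matrix ι ι F).toMonoidHom (Units.mk0 μ hμ),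
      ⟨_, rfl⟩, ?_⟩
    simp [Matrix.smul_one_eq_diagonal]
  have hmem : P⁻¹ * g * P ∈ (Matrix.GeneralLinearGroup.map (F₀.subtype : F₀ →+* F)).range ⊔
      Cfsg.Geo.scalars ι F := by
    have : P⁻¹ * g * P = Matrix.GeneralLinearGroup.map (F₀.subtype : F₀ →+* F)
        (Matrix.GeneralLinearGroup.mkOfDetNeZero A0 hdet) * s := by
      apply Units.ext
      rw [hA, Units.val_mul, hsv]
      rw [Matrix.mul_smul, Matrix.mul_one]
      rfl
    rw [this]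
    exact Subgroup.mul_mem_sup ⟨_, rfl⟩ hs
  refine ⟨P⁻¹ * g * P, hmem, ?_⟩
  simp only [MulEquiv.coe_toMonoidHom, MulAut.conj_apply]
  group

theorem maps_of_mem (F₀ : Subfield F) (P t : Matrix.GeneralLinearGroup ι F)
    (ht : t ∈ Cfsg.Geo.subfieldSubgroup F₀ P) :
    ∃ μ : F, ∀ x ∈ V0 F₀ P, ∃ y ∈ V0 F₀ P, (t : Matrix ι ι F) *ᵥ x = μ • y := by
  obtain ⟨A, hA, rfl⟩ := ht
  obtain ⟨a, ⟨G0, rfl⟩, s, hs, rfl⟩ := Subgroup.mem_sup_of_normal_right.1 hA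
  obtain ⟨c, hc⟩ := (Cfsg.Geo.mem_scalars_iff s).1 hs
  refine ⟨c, ?_⟩
  rintro x ⟨u, hu, rfl⟩
  refine ⟨(P : Matrix ι ι F) *ᵥ ((Matrix.GeneralLinearGroup.map (F₀.subtype : F₀ →+* F) G0 :
    Matrix ι ι F) *ᵥ u), ⟨_, fun i => ?_, rfl⟩, ?_⟩
  · rw [Matrix.mulVec, dotProduct]
    apply F₀.sum_mem
    intro j _
    exact F₀.mul_mem (G0.1 i j).2 (hu j)
  · simp only [MulEquiv.coe_toMonoidHom, MulAut.conj_apply]
    rw [Units.val_mul, Units.val_mul, Units.val_mul, ← Matrix.mulVec_mulVec, gl_inv_mulVec,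
      ← Matrix.mulVec_mulVec, ← Matrix.mulVec_mulVec, hc, Matrix.smul_mulVec, Matrix.one_mulVec,
      Matrix.mulVec_smul, Matrix.mulVec_smul]

end Cfsg.Agent.Lib.Helper5_SubfGL
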