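import Mathlib

set_option autoImplicit false

namespace Cfsg.Agent.Lib.Helper5_SumSplit

theorem sum_split_gen {I : Type*} [Fintype I] {n : ℕ} (d : I → ℂ) (vals : Fin n → ℂ)
    (hinj : Function.Injective vals) (h : ∀ i, ∃ k, d i = vals k) (f : I → ℂ) (fv : Fin n → ℂ)
    (hf : ∀ i k, d i = vals k → f i = fv k) :
    ∑ i, f i = ∑ k, (Nat.card {i // d i = vals k} : ℂ) * fv k := by
  classical
  have h1 : ∀ i, f i = ∑ k, if d i = vals k then fv k else 0 := by
    intro i
    obtain ⟨k, hk⟩ := h i
    rw [Finset.sum_eq_single k]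
    · rw [if_pos hk, hf i k hk]
    · intro k' _ hk'
      rw [if_neg]
      intro h2
      exact hk' (hinj (h2.symm.trans hk))
    · intro h2; exact absurd (Finset.mem_univ _) h2
  rw [Finset.sum_congr rfl fun i _ => h1 i, Finset.sum_comm]
  refine Finset.sum_congr rfl fun k _ => ?_
  rw [← Finset.sum_filter, Finset.sum_const, nsmul_eq_mul, Nat.card_eq_fintype_card, Fintype.card_subtype]

end Cfsg.Agent.Lib.Helper5_SumSplit
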