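import Mathlib
import Cfsg.Agent.Lib.Helper5_SympTv

set_option autoImplicit false

namespace Cfsg.Agent.Lib.Helper5_SympCenter

open Matrix Cfsg.Agent.Lib.Helper2_Symp Cfsg.Agent.Lib.Helper5_Symp Cfsg.Agent.Lib.Helper5_SympGen
  Cfsg.Agent.Lib.Helper5_SympTv

variable {F : Type*} [Field F] {m : ℕ}

/-- a linear map for which every vector is an eigenvector is a scalar -/
theorem scalar_of_all_eigen {V : Type*} [AddCommGroup V] [Module F V] (f : V →ₗ[F] V)
    (H : ∀ v, ∃ a : F, f v = a • v) : ∃ a : F, ∀ v, f v = a • v := by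
  by_cases h0 : ∀ v : V, v = 0
  · exact ⟨0, fun v => by rw [h0 v, map_zero, smul_zero]⟩
  push Not at h0
  obtain ⟨v0, hv0⟩ := h0
  obtain ⟨a0, ha0⟩ := H v0
  refine ⟨a0, fun v => ?_⟩
  by_cases hdep : ∃ l : F, v = l • v0
  · obtain ⟨l, rfl⟩ := hdep
    rw [map_smul, ha0, smul_comm]
  · obtain ⟨av, hav⟩ := H v
    obtain ⟨b, hb⟩ := H (v0 + v)
    rw [map_add, ha0, hav, smul_add] at hb
    have h1 : (b - a0) • v0 = (av - b) • v := by
      rw [sub_smul, sub_smul, sub_eq_sub_iff_add_eq_add]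
      rw [add_comm (av • v)]
      exact hb.symm
    have h2 : av = b := by
      by_contra hne
      apply hdep
      refine ⟨(av - b)⁻¹ * (b - a0), ?_⟩
      rw [mul_smul, h1, smul_smul, inv_mul_cancel₀ (sub_ne_zero.2 hne), one_smul]
    rw [h2, sub_self, zero_smul] at h1
    rcases smul_eq_zero.1 h1 with h3 | h3
    · rw [hav, h2, sub_eq_zero.1 h3]
    · exact absurd h3 hv0

theorem scalar_of_fix_points (g : Matrix.symplecticGroup (Fin m) F)
    (H : ∀ v, ∃ a : F, (g : Matrix (Fin m ⊕ Fin m) (Fin m ⊕ Fin m) F) *ᵥ v = a • v) :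
    ∃ a : F, ∀ v, (g : Matrix (Fin m ⊕ Fin m) (Fin m ⊕ Fin m) F) *ᵥ v = a • v :=
  scalar_of_all_eigen (Matrix.mulVecLin (g : Matrix (Fin m ⊕ Fin m) (Fin m ⊕ Fin m) F)) H

theorem central_of_scalar (g : Matrix.symplecticGroup (Fin m) F) (a : F)
    (H : ∀ v, (g : Matrix (Fin m ⊕ Fin m) (Fin m ⊕ Fin m) F) *ᵥ v = a • v) :
    g ∈ Subgroup.center (Matrix.symplecticGroup (Fin m) F) := by
  rw [Subgroup.mem_center_iff]
  intro h
  apply sp_ext
  intro x
  rw [mul_mulVec, mul_mulVec, H, H, Matrix.mulVec_smul]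

theorem fix_points_of_central (g : Matrix.symplecticGroup (Fin m) F)
    (hg : g ∈ Subgroup.center (Matrix.symplecticGroup (Fin m) F)) (w : Fin m ⊕ Fin m → F) :
    ∃ a : F, (g : Matrix (Fin m ⊕ Fin m) (Fin m ⊕ Fin m) F) *ᵥ w = a • w := by
  by_cases hw : w = 0
  · exact ⟨0, by rw [hw, Matrix.mulVec_zero, smul_zero]⟩
  rw [Subgroup.mem_center_iff] at hg
  have h1 : tv ((g : Matrix (Fin m ⊕ Fin m) (Fin m ⊕ Fin m) F) *ᵥ w) (1 : F) = tv w 1 := by
    rw [← conj_tv, ← hg, mul_inv_cancel_right]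
  obtain ⟨x, hx⟩ := exists_ne_left w hw
  have h2 := congrArg (fun t : Matrix.symplecticGroup (Fin m) F =>
    (t : Matrix (Fin m ⊕ Fin m) (Fin m ⊕ Fin m) F) *ᵥ x) h1
  simp only [tv_mulVec, one_mul, add_right_inj] at h2
  have h3 : sB m F x ((g : Matrix (Fin m ⊕ Fin m) (Fin m ⊕ Fin m) F) *ᵥ w) ≠ 0 := by
    intro h0
    rw [h0, zero_smul] at h2
    rcases smul_eq_zero.1 h2.symm with h | h
    · exact hx h
    · exact hw h
  refine ⟨(sB m F x ((g : Matrix (Fin m ⊕ Fin m) (Fin m ⊕ Fin m) F) *ᵥ w))⁻¹ * sB m F x w, ?_⟩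
  rw [mul_smul, ← h2, smul_smul, inv_mul_cancel₀ h3, one_smul]

theorem mem_center_iff (g : Matrix.symplecticGroup (Fin m) F) :
    g ∈ Subgroup.center (Matrix.symplecticGroup (Fin m) F) ↔
      ∃ a : F, ∀ v, (g : Matrix (Fin m ⊕ Fin m) (Fin m ⊕ Fin m) F) *ᵥ v = a • v :=
  ⟨fun h => scalar_of_fix_points g (fix_points_of_central g h),
    fun ⟨a, h⟩ => central_of_scalar g a h⟩

/-- `-1` in the symplectic group -/
def negOne : Matrix.symplecticGroup (Fin m) F :=
  ⟨-1, SymplecticGroup.neg_mem (Matrix.symplecticGroup (Fin m) F).one_mem⟩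

theorem negOne_mulVec (x : Fin m ⊕ Fin m → F) :
    ((negOne : Matrix.symplecticGroup (Fin m) F) : Matrix (Fin m ⊕ Fin m) (Fin m ⊕ Fin m) F) *ᵥ x
      = -x := by
  change (-1 : Matrix (Fin m ⊕ Fin m) (Fin m ⊕ Fin m) F) *ᵥ x = -x
  rw [Matrix.neg_mulVec, Matrix.one_mulVec]

theorem center_cases (hm : 1 ≤ m) (g : Matrix.symplecticGroup (Fin m) F)
    (hg : g ∈ Subgroup.center (Matrix.symplecticGroup (Fin m) F)) : g = 1 ∨ g = negOne := by
  obtain ⟨a, ha⟩ := (mem_center_iff g).1 hg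
  have h1 := sB_mulVec g (Pi.single (Sum.inr ⟨0, hm⟩) 1) (Pi.single (Sum.inl ⟨0, hm⟩) 1)
  rw [ha, ha, map_smul, map_smul, LinearMap.smul_apply, sB_single_inr, Pi.single_eq_same,
    smul_eq_mul, smul_eq_mul, mul_one, mul_self_eq_one_iff] at h1
  rcases h1 with h | h
  · left
    apply sp_ext
    intro x
    rw [ha, h, one_smul, one_mulVec']
  · right
    apply sp_ext
    intro x
    rw [ha, h, negOne_mulVec, neg_smul, one_smul]

theorem negOne_mem_center :
    (negOne : Matrix.symplecticGroup (Fin m) F) ∈ Subgroup.center (Matrix.symplecticGroup (Fin m) F) :=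
  central_of_scalar _ (-1) (fun v => by rw [negOne_mulVec, neg_smul, one_smul])

theorem center_eq (hm : 1 ≤ m) : Subgroup.center (Matrix.symplecticGroup (Fin m) F) =
    Subgroup.zpowers (negOne : Matrix.symplecticGroup (Fin m) F) := by
  apply le_antisymm
  · intro g hg
    rcases center_cases hm g hg with h | h
    · rw [h]; exact Subgroup.one_mem _
    · rw [h]; exact Subgroup.mem_zpowers _
  · rw [Subgroup.zpowers_le]
    exact negOne_mem_center

theorem negOne_sq : (negOne : Matrix.symplecticGroup (Fin m) F) ^ 2 = 1 := by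
  apply sp_ext
  intro x
  rw [pow_two, mul_mulVec, negOne_mulVec, negOne_mulVec, neg_neg, one_mulVec']

theorem card_center [Fintype F] (hm : 1 ≤ m) :
    Nat.card (Subgroup.center (Matrix.symplecticGroup (Fin m) F)) =
      Nat.gcd 2 (Fintype.card F - 1) := by
  rw [center_eq hm, Nat.card_zpowers]
  have hq : 2 ≤ Fintype.card F := Fintype.one_lt_card
  by_cases h2 : (2 : F) = 0
  · have h1 : (negOne : Matrix.symplecticGroup (Fin m) F) = 1 := by
      apply sp_ext
      intro x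
      rw [negOne_mulVec, one_mulVec', neg_eq_iff_add_eq_zero, ← two_smul F x, h2, zero_smul]
    have hch : ringChar F = 2 := by
      by_contra h
      exact Ring.two_ne_zero h h2
    have hev := FiniteField.even_card_of_char_two hch
    rw [h1, orderOf_one]
    have hodd : (Fintype.card F - 1) % 2 = 1 := by omega
    have hcop : Nat.Coprime 2 (Fintype.card F - 1) := by
      rw [Nat.coprime_two_left, Nat.odd_iff]
      exact hodd
    exact (Nat.Coprime.gcd_eq_one hcop).symm
  · have h1 : (negOne : Matrix.symplecticGroup (Fin m) F) ≠ 1 := by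
      intro h
      have := negOne_mulVec (F := F) (m := m) (Pi.single (Sum.inl ⟨0, hm⟩) 1)
      rw [h, one_mulVec'] at this
      have h3 := congrFun this (Sum.inl ⟨0, hm⟩)
      rw [Pi.neg_apply, Pi.single_eq_same, eq_neg_iff_add_eq_zero, one_add_one_eq_two] at h3
      exact h2 h3
    rw [orderOf_eq_prime negOne_sq h1]
    have hch : ringChar F ≠ 2 := by
      intro h
      have : CharP F 2 := ringChar.of_eq h
      exact h2 (CharTwo.two_eq_zero)
    have hodd := FiniteField.odd_card_of_char_ne_two hch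
    have hev : 2 ∣ Fintype.card F - 1 := by omega
    exact (Nat.gcd_eq_left hev).symm

end Cfsg.Agent.Lib.Helper5_SympCenter
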