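import Mathlib
import Cfsg.Agent.Lib.Helper5_SympTv

set_option autoImplicit false

namespace Cfsg.Agent.Lib.Helper5_SympPerf

open Matrix Cfsg.Agent.Lib.Helper2_Symp Cfsg.Agent.Lib.Helper5_Symp Cfsg.Agent.Lib.Helper5_SympGen
  Cfsg.Agent.Lib.Helper5_SympTv

variable {F : Type*} [Field F] {m : ℕ}

local notation "φ" => (Abelianization.of : Matrix.symplecticGroup (Fin m) F →*
  Abelianization (Matrix.symplecticGroup (Fin m) F))

theorem mem_comm_iff (g : Matrix.symplecticGroup (Fin m) F) :
    g ∈ commutator (Matrix.symplecticGroup (Fin m) F) ↔ φ g = 1 := by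
  rw [← Abelianization.ker_of, MonoidHom.mem_ker]

theorem phi_eq (w w' : Fin m ⊕ Fin m → F) (hw : w ≠ 0) (hw' : w' ≠ 0) (c : F) :
    φ (tv w c) = φ (tv w' c) := by
  obtain ⟨g, -, hg⟩ := exists_move w w' hw hw'
  rw [← hg, ← conj_tv, map_mul, map_mul, map_inv, mul_comm, inv_mul_cancel_left]

theorem tv_smul (a : F) (w : Fin m ⊕ Fin m → F) (c : F) : tv (a • w) c = tv w (a ^ 2 * c) := by
  apply sp_ext
  intro x
  rw [tv_mulVec, tv_mulVec, map_smul, smul_eq_mul, smul_smul]
  congr 2
  ring

theorem top_of_all (H : ∀ (w : Fin m ⊕ Fin m → F) (c : F), w ≠ 0 → φ (tv w c) = 1) :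
    commutator (Matrix.symplecticGroup (Fin m) F) = ⊤ := by
  rw [eq_top_iff, ← T_eq_top]
  unfold T
  rw [Subgroup.closure_le]
  rintro A ⟨w, c, hA⟩
  have hA' : A = tv w c := Subtype.ext hA
  by_cases hw : w = 0
  · rw [hA', hw, tv_zero_left]; exact Subgroup.one_mem _
  · rw [hA']
    exact (mem_comm_iff _).2 (H w c hw)

/-- case (i): a scalar with `a ^ 2 ≠ 1` -/
theorem perfect_of_scalar (a : F) (ha0 : a ≠ 0) (ha : a ^ 2 ≠ 1) :
    commutator (Matrix.symplecticGroup (Fin m) F) = ⊤ := by
  apply top_of_all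
  intro w c hw
  have h1 : a ^ 2 - 1 ≠ 0 := sub_ne_zero.2 ha
  have h2 := phi_eq (a • w) w (smul_ne_zero ha0 hw) hw (c / (a ^ 2 - 1))
  rw [tv_smul] at h2
  have h3 : tv w c = tv w (a ^ 2 * (c / (a ^ 2 - 1))) * tv w (-(c / (a ^ 2 - 1))) := by
    rw [tv_mul]
    congr 1
    field_simp
    ring
  rw [h3, map_mul, h2, ← map_mul, tv_mul, add_neg_cancel, tv_zero_right, map_one]

theorem sB_inl_inl (i j : Fin m) :
    sB m F (Pi.single (Sum.inl i) 1) (Pi.single (Sum.inl j) 1) = 0 := by
  rw [sB_single_inl]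
  simp

/-- case (ii): characteristic not two, an isotropic plane -/
theorem perfect_of_odd (h2 : (2 : F) ≠ 0) (hm : 2 ≤ m) :
    commutator (Matrix.symplecticGroup (Fin m) F) = ⊤ := by
  apply top_of_all
  intro w c hw
  set u : Fin m ⊕ Fin m → F := Pi.single (Sum.inl ⟨0, by omega⟩) 1 with hu
  set v : Fin m ⊕ Fin m → F := Pi.single (Sum.inl ⟨1, by omega⟩) 1 with hv
  have huv : sB m F u v = 0 := sB_inl_inl _ _
  have hvu : sB m F v u = 0 := sB_inl_inl _ _
  have hu0 : u ≠ 0 := by
    intro h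
    have := congrFun h (Sum.inl ⟨0, by omega⟩)
    simp [hu] at this
  have hv0 : v ≠ 0 := by
    intro h
    have := congrFun h (Sum.inl ⟨1, by omega⟩)
    simp [hv] at this
  have hp : v + u ≠ 0 := by
    intro h
    have := congrFun h (Sum.inl ⟨0, by omega⟩)
    simp [hu, hv, Pi.single_apply] at this
  have hq : v - u ≠ 0 := by
    intro h
    have := congrFun h (Sum.inl ⟨0, by omega⟩)
    simp [hu, hv, Pi.single_apply] at this
  have key : ∀ d : F, tv (v + u) d * tv (v - u) d * tv v (-d) * tv v (-d) = tv u (2 * d) := by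
    intro d
    apply sp_ext
    intro x
    simp only [mul_mulVec, tv_mulVec, map_add, map_sub, map_smul, map_neg, LinearMap.add_apply,
      LinearMap.sub_apply, LinearMap.smul_apply, LinearMap.neg_apply, smul_eq_mul, huv, hvu, sB_self,
      mul_zero, add_zero, sub_zero, zero_add, neg_zero, zero_sub]
    module
  rw [phi_eq w u hw hu0, show c = 2 * (c / 2) from by field_simp, ← key, map_mul, map_mul, map_mul,
    phi_eq (v + u) v hp hv0, phi_eq (v - u) v hq hv0]
  have h5 : φ (tv v (c / 2)) * φ (tv v (-(c / 2))) = 1 := by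
    rw [← map_mul, tv_mul, add_neg_cancel, tv_zero_right, map_one]
  calc φ (tv v (c / 2)) * φ (tv v (c / 2)) * φ (tv v (-(c / 2))) * φ (tv v (-(c / 2)))
      = (φ (tv v (c / 2)) * φ (tv v (-(c / 2)))) * (φ (tv v (c / 2)) * φ (tv v (-(c / 2)))) := by
        simp only [mul_assoc, mul_left_comm, mul_comm]
    _ = 1 := by rw [h5, one_mul]

/-- case (iii): characteristic two, an isotropic 3-space -/
theorem perfect_of_even (h2 : (2 : F) = 0) (hm : 3 ≤ m) :
    commutator (Matrix.symplecticGroup (Fin m) F) = ⊤ := by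
  apply top_of_all
  intro w0 c hw0
  set u : Fin m ⊕ Fin m → F := Pi.single (Sum.inl ⟨0, by omega⟩) 1 with hu
  set v : Fin m ⊕ Fin m → F := Pi.single (Sum.inl ⟨1, by omega⟩) 1 with hv
  set w : Fin m ⊕ Fin m → F := Pi.single (Sum.inl ⟨2, by omega⟩) 1 with hw
  have huv : sB m F u v = 0 := sB_inl_inl _ _
  have hvu : sB m F v u = 0 := sB_inl_inl _ _
  have huw : sB m F u w = 0 := sB_inl_inl _ _
  have hwu : sB m F w u = 0 := sB_inl_inl _ _
  have hvw : sB m F v w = 0 := sB_inl_inl _ _
  have hwv : sB m F w v = 0 := sB_inl_inl _ _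
  have n1 : u ≠ 0 := by
    intro h
    have := congrFun h (Sum.inl ⟨0, by omega⟩)
    simp [hu] at this
  have n2 : v ≠ 0 := by
    intro h
    have := congrFun h (Sum.inl ⟨1, by omega⟩)
    simp [hv] at this
  have n3 : w ≠ 0 := by
    intro h
    have := congrFun h (Sum.inl ⟨2, by omega⟩)
    simp [hw] at this
  have n4 : u + v ≠ 0 := by
    intro h
    have := congrFun h (Sum.inl ⟨0, by omega⟩)
    simp [hu, hv, Pi.single_apply] at this
  have n5 : u + w ≠ 0 := by
    intro h
    have := congrFun h (Sum.inl ⟨0, by omega⟩)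
    simp [hu, hw, Pi.single_apply] at this
  have n6 : v + w ≠ 0 := by
    intro h
    have := congrFun h (Sum.inl ⟨1, by omega⟩)
    simp [hv, hw, Pi.single_apply] at this
  have n7 : u + v + w ≠ 0 := by
    intro h
    have := congrFun h (Sum.inl ⟨0, by omega⟩)
    simp [hu, hv, hw, Pi.single_apply] at this
  have key : tv u c * tv v c * tv w c * tv (u + v) c * tv (u + w) c * tv (v + w) c *
      tv (u + v + w) c = 1 := by
    apply sp_ext
    intro x
    simp only [mul_mulVec, tv_mulVec, map_add, map_smul, LinearMap.add_apply,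
      LinearMap.smul_apply, smul_eq_mul, huv, hvu, huw, hwu, hvw, hwv, sB_self,
      mul_zero, add_zero, zero_add, one_mulVec']
    have e : ∀ (p q r : F), x + (c * (p + q + r)) • (u + v + w) + (c * (q + r)) • (v + w) +
        (c * (p + r)) • (u + w) + (c * (p + q)) • (u + v) + (c * r) • w + (c * q) • v +
        (c * p) • u = x + ((2 : F) * (c * (2 * p + q + r))) • u + ((2 : F) * (c * (p + 2 * q + r))) • v
          + ((2 : F) * (c * (p + q + 2 * r))) • w := by
      intro p q r
      module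
    rw [e, h2]
    simp
  have h7 := congrArg φ key
  simp only [map_mul, map_one] at h7
  rw [phi_eq v u n2 n1, phi_eq w u n3 n1, phi_eq (u + v) u n4 n1, phi_eq (u + w) u n5 n1,
    phi_eq (v + w) u n6 n1, phi_eq (u + v + w) u n7 n1] at h7
  have hsq : φ (tv u c) * φ (tv u c) = 1 := by
    rw [← map_mul, tv_mul, ← two_mul, h2, zero_mul, tv_zero_right, map_one]
  rw [phi_eq w0 u hw0 n1]
  rw [hsq, one_mul, hsq, one_mul, hsq, one_mul] at h7
  exact h7

theorem exists_scalar [Fintype F] (hq : 4 ≤ Fintype.card F) : ∃ a : F, a ≠ 0 ∧ a ^ 2 ≠ 1 := by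
  classical
  by_contra hcon
  push Not at hcon
  have hsub : (Finset.univ : Finset F) ⊆ {0, 1, -1} := by
    intro a _
    by_cases ha : a = 0
    · simp [ha]
    · have := hcon a ha
      rw [pow_two, mul_self_eq_one_iff] at this
      rcases this with h | h <;> simp [h]
  have := Finset.card_le_card hsub
  have h3 : ({0, 1, -1} : Finset F).card ≤ 3 := Finset.card_le_three
  rw [Finset.card_univ] at this
  omega

theorem perfect [Fintype F] (h : 3 ≤ m ∨ (m = 2 ∧ 3 ≤ Fintype.card F) ∨ 4 ≤ Fintype.card F) :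
    commutator (Matrix.symplecticGroup (Fin m) F) = ⊤ := by
  rcases h with h3 | ⟨hm2, hq3⟩ | hq4
  · by_cases h2 : (2 : F) = 0
    · exact perfect_of_even h2 h3
    · exact perfect_of_odd h2 (by omega)
  · by_cases h2 : (2 : F) = 0
    · have hne : Fintype.card F ≠ 3 := by
        intro h3
        have hch : ringChar F ≠ 2 := by
          intro h
          have := FiniteField.even_card_of_char_two h
          omega
        exact Ring.two_ne_zero hch h2
      obtain ⟨a, ha0, ha⟩ := exists_scalar (F := F) (by omega)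
      exact perfect_of_scalar a ha0 ha
    · exact perfect_of_odd h2 (by omega)
  · obtain ⟨a, ha0, ha⟩ := exists_scalar hq4
    exact perfect_of_scalar a ha0 ha

end Cfsg.Agent.Lib.Helper5_SympPerf
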