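import Mathlib
import Cfsg.Agent.Lib.Helper5_SympCard
import Cfsg.Agent.Lib.Helper5_SympTv

set_option autoImplicit false

namespace Cfsg.Agent.Lib.Helper5_SympRep

open Module Matrix Cfsg.Agent.Lib.Helper5_Symp Cfsg.Agent.Lib.Helper5_SympCard
  Cfsg.Agent.Lib.Helper5_SympTv Cfsg.Agent.Lib.Helper5_SympGen

variable {F U : Type*} [Field F] [AddCommGroup U] [Module F U]

/-- the isometry group of a bilinear form -/
def isoGrp (B : LinearMap.BilinForm F U) : Subgroup (U ≃ₗ[F] U) where
  carrier := {T | ∀ u v, B (T u) (T v) = B u v}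
  mul_mem' := fun {a c} ha hc u v => by
    rw [LinearEquiv.mul_apply, LinearEquiv.mul_apply, ha, hc]
  one_mem' := fun u v => rfl
  inv_mem' := fun {a} ha u v => by
    have := ha (a⁻¹ u) (a⁻¹ v)
    rw [← LinearEquiv.mul_apply, ← LinearEquiv.mul_apply, mul_inv_cancel] at this
    exact this.symm

/-- a symplectic basis with radical -/
structure SBasis (B : LinearMap.BilinForm F U) (m k : ℕ) where
  b : Module.Basis ((Fin m ⊕ Fin m) ⊕ Fin k) F U
  h1 : ∀ i j : Fin m, B (b (Sum.inl (Sum.inl i))) (b (Sum.inl (Sum.inr j))) = if i = j then 1 else 0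
  h2 : ∀ i j : Fin m, B (b (Sum.inl (Sum.inl i))) (b (Sum.inl (Sum.inl j))) = 0
  h3 : ∀ i j : Fin m, B (b (Sum.inl (Sum.inr i))) (b (Sum.inl (Sum.inr j))) = 0
  h4 : ∀ (j : Fin k) (v : U), B (b (Sum.inr j)) v = 0

variable {B : LinearMap.BilinForm F U} {m k : ℕ}

/-- coordinates on the hyperbolic part -/
noncomputable def P (D : SBasis B m k) : U →ₗ[F] (Fin m ⊕ Fin m → F) :=
  LinearMap.pi (fun a => D.b.coord (Sum.inl a.swap))

/-- a section of `P` -/
noncomputable def S (D : SBasis B m k) : (Fin m ⊕ Fin m → F) →ₗ[F] U :=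
  Fintype.linearCombination F (fun a : Fin m ⊕ Fin m => D.b (Sum.inl a.swap))

theorem P_inl (D : SBasis B m k) (s : Fin m ⊕ Fin m) : P D (D.b (Sum.inl s)) = Pi.single s.swap 1 := by
  funext a
  rw [P, LinearMap.pi_apply, Module.Basis.coord_apply, Module.Basis.repr_self, Finsupp.single_apply,
    Pi.single_apply]
  by_cases h : a = s.swap
  · rw [if_pos h, if_pos (by rw [h, Sum.swap_swap])]
  · rw [if_neg h, if_neg]
    intro h'
    apply h
    rw [Sum.inl.injEq] at h'
    rw [h', Sum.swap_swap]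

theorem P_inr (D : SBasis B m k) (j : Fin k) : P D (D.b (Sum.inr j)) = 0 := by
  funext a
  rw [P, LinearMap.pi_apply, Module.Basis.coord_apply, Module.Basis.repr_self, Finsupp.single_apply,
    if_neg (by simp)]
  rfl

theorem PS (D : SBasis B m k) (x : Fin m ⊕ Fin m → F) : P D (S D x) = x := by
  rw [S, Fintype.linearCombination_apply, map_sum]
  simp only [map_smul, P_inl, Sum.swap_swap]
  funext a
  rw [Finset.sum_apply]
  simp [Pi.single_apply]

theorem form_eq (hA : B.IsAlt) (D : SBasis B m k) (u v : U) : B u v = sB m F (P D u) (P D v) := by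
  have hsw : ∀ x y, B x y = - B y x := by
    intro x y
    have h := hA (x + y)
    simp only [map_add, LinearMap.add_apply, hA x, hA y, zero_add, add_zero] at h
    exact eq_neg_of_add_eq_zero_right h
  have : B = (sB m F).compl₁₂ (P D) (P D) := by
    apply D.b.ext
    intro s
    apply D.b.ext
    intro t
    rw [LinearMap.compl₁₂_apply]
    rcases s with (i | i) | j
    · rcases t with (i' | i') | j'
      · rw [D.h2, P_inl, P_inl, Sum.swap_inl, sB_single_inr]; simp
      · rw [D.h1, P_inl, P_inl, Sum.swap_inl, Sum.swap_inr, sB_single_inr, Pi.single_apply]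
        simp only [Sum.inl.injEq]
      · rw [hsw, D.h4, P_inr, map_zero, neg_zero]
    · rcases t with (i' | i') | j'
      · rw [hsw, D.h1, P_inl, P_inl, Sum.swap_inl, Sum.swap_inr, sB_single_inl, Pi.single_apply]
        simp only [Sum.inr.injEq, eq_comm]
      · rw [D.h3, P_inl, P_inl, Sum.swap_inr, sB_single_inl]; simp
      · rw [hsw, D.h4, P_inr, map_zero, neg_zero]
    · rw [D.h4, P_inr, map_zero, LinearMap.zero_apply]
  conv_lhs => rw [this]
  rw [LinearMap.compl₁₂_apply]

theorem P_eq_zero_iff (hA : B.IsAlt) (D : SBasis B m k) (u : U) : P D u = 0 ↔ ∀ v, B u v = 0 := by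
  constructor
  · intro h v
    rw [form_eq hA D, h, map_zero, LinearMap.zero_apply]
  · intro h
    apply hb
    intro y
    rw [← PS D y, ← form_eq hA D, h]

theorem P_congr (hA : B.IsAlt) (D : SBasis B m k) (T : U ≃ₗ[F] U) (hT : T ∈ isoGrp B) (u u' : U)
    (h : P D u = P D u') : P D (T u) = P D (T u') := by
  rw [← sub_eq_zero, ← map_sub, ← map_sub, P_eq_zero_iff hA]
  rw [← sub_eq_zero, ← map_sub, P_eq_zero_iff hA] at h
  intro v
  have := hT (u - u') (T⁻¹ v)
  rw [← LinearEquiv.mul_apply, mul_inv_cancel, h] at this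
  exact this

/-- the matrix of an isometry on the hyperbolic part -/
noncomputable def mat (D : SBasis B m k) (T : U ≃ₗ[F] U) : Matrix (Fin m ⊕ Fin m) (Fin m ⊕ Fin m) F :=
  LinearMap.toMatrix' ((P D).comp (T.toLinearMap.comp (S D)))

theorem mat_mulVec (D : SBasis B m k) (T : U ≃ₗ[F] U) (x : Fin m ⊕ Fin m → F) :
    mat D T *ᵥ x = P D (T (S D x)) := by
  rw [mat, LinearMap.toMatrix'_mulVec]
  rfl

theorem mat_mulVec_P (hA : B.IsAlt) (D : SBasis B m k) (T : U ≃ₗ[F] U) (hT : T ∈ isoGrp B) (u : U) :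
    mat D T *ᵥ (P D u) = P D (T u) := by
  rw [mat_mulVec]
  exact P_congr hA D T hT _ _ (PS D _)

theorem mat_mem (hA : B.IsAlt) (D : SBasis B m k) (T : U ≃ₗ[F] U) (hT : T ∈ isoGrp B) :
    mat D T ∈ Matrix.symplecticGroup (Fin m) F := by
  apply mem_of_frame
  intro a c
  rw [mat_mulVec, mat_mulVec, ← form_eq hA D, hT, form_eq hA D, PS, PS]

/-- the representation of the isometry group on the hyperbolic part -/
noncomputable def rep (hA : B.IsAlt) (D : SBasis B m k) :
    isoGrp B →* Matrix.symplecticGroup (Fin m) F where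
  toFun T := ⟨mat D T.1, mat_mem hA D T.1 T.2⟩
  map_one' := by
    apply sp_ext
    intro x
    rw [one_mulVec']
    change mat D 1 *ᵥ x = x
    rw [mat_mulVec]
    exact PS D x
  map_mul' T T' := by
    apply sp_ext
    intro x
    rw [mul_mulVec]
    change mat D (T.1 * T'.1) *ᵥ x = mat D T.1 *ᵥ (mat D T'.1 *ᵥ x)
    rw [mat_mulVec D T'.1, mat_mulVec_P hA D T.1 T.2, mat_mulVec]
    rfl

theorem rep_mulVec_P (hA : B.IsAlt) (D : SBasis B m k) (T : isoGrp B) (u : U) :
    (rep hA D T : Matrix (Fin m ⊕ Fin m) (Fin m ⊕ Fin m) F) *ᵥ (P D u) = P D (T.1 u) :=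
  mat_mulVec_P hA D T.1 T.2 u

theorem rep_eq_one_iff (hA : B.IsAlt) (D : SBasis B m k) (T : isoGrp B) :
    rep hA D T = 1 ↔ ∀ u v, B (T.1 u - u) v = 0 := by
  constructor
  · intro h u
    rw [← P_eq_zero_iff hA D, map_sub, ← rep_mulVec_P hA D T, h, one_mulVec', sub_self]
  · intro h
    apply sp_ext
    intro x
    rw [one_mulVec', ← PS D x, rep_mulVec_P, ← sub_eq_zero, ← map_sub, P_eq_zero_iff hA]
    exact h _

end Cfsg.Agent.Lib.Helper5_SympRep
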