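import Mathlib
import Cfsg.Prelude.Def_Classical
import Cfsg.Agent.Lib.Helper5_Alt

set_option autoImplicit false

namespace Cfsg.Agent.Lib.Helper5_Transport

open Module Cfsg.Agent.Lib.Helper5_Symp Cfsg.Agent.Lib.Helper5_Alt

variable {F V : Type*} [Field F] [AddCommGroup V] [Module F V]

theorem toMatrix_mulVec_equivFun {ι : Type*} [Fintype ι] [DecidableEq ι] (b : Basis ι F V) (f : V →ₗ[F] V) (v : V) :
    (LinearMap.toMatrixAlgEquiv b f).mulVec (b.equivFun v) = b.equivFun (f v) := by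
  have := LinearMap.toMatrix_mulVec_repr b b f v
  simpa [LinearMap.toMatrixAlgEquiv, Basis.equivFun_apply] using this

/-- transport of a group of isometries of an alternating form into the matrix symplectic group -/
theorem exists_hom_symplectic {G : Type*} [Group G] [FiniteDimensional F V] (B : LinearMap.BilinForm F V)
    (hA : ∀ x, B x x = 0) (hB : B.Nondegenerate) {m : ℕ} (hdim : finrank F V = 2 * m)
    (ρ : G →* (V →ₗ[F] V)) (hρ : ∀ g u v, B (ρ g u) (ρ g v) = B u v) (hinj : Function.Injective ρ) :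
    ∃ φ : G →* Matrix.symplecticGroup (Fin m) F, Function.Injective φ := by
  obtain ⟨b, hb⟩ := exists_symplectic_basis B hA hB hdim
  let ψ : G →* Matrix (Fin m ⊕ Fin m) (Fin m ⊕ Fin m) F :=
    ((LinearMap.toMatrixAlgEquiv b : (V →ₗ[F] V) ≃ₐ[F] _) : (V →ₗ[F] V) →* _).comp ρ
  have hψ : ∀ g, ψ g = LinearMap.toMatrixAlgEquiv b (ρ g) := fun g => rfl
  have hmem : ∀ g, ψ g ∈ Matrix.symplecticGroup (Fin m) F := by
    intro g
    rw [SymplecticGroup.mem_iff']
    have key : ∀ x y : Fin m ⊕ Fin m → F,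
        x ⬝ᵥ (((ψ g).transpose * Matrix.J (Fin m) F * ψ g).mulVec y) = x ⬝ᵥ ((Matrix.J (Fin m) F).mulVec y) := by
      intro x y
      obtain ⟨u, rfl⟩ := b.equivFun.surjective x
      obtain ⟨v, rfl⟩ := b.equivFun.surjective y
      have e1 : b.equivFun u ⬝ᵥ (((ψ g).transpose * Matrix.J (Fin m) F * ψ g).mulVec (b.equivFun v))
          = Cfsg.sympForm m F ((ψ g).mulVec (b.equivFun u)) ((ψ g).mulVec (b.equivFun v)) := by
        unfold Cfsg.sympForm
        rw [Matrix.mulVec_mulVec, Matrix.dotProduct_mulVec _ (Matrix.J (Fin m) F * ψ g), Matrix.vecMul_mulVec,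
          ← Matrix.dotProduct_mulVec, ← Matrix.mul_assoc]
      rw [e1, hψ, toMatrix_mulVec_equivFun, toMatrix_mulVec_equivFun, ← hb, hρ, hb]
      rfl
    ext i j
    have := key (Pi.single i 1) (Pi.single j 1)
    simpa using this
  refine ⟨ψ.codRestrict (Matrix.symplecticGroup (Fin m) F) hmem, ?_⟩
  intro g g' h
  have h1 : ψ g = ψ g' := congrArg Subtype.val h
  exact hinj ((LinearMap.toMatrixAlgEquiv b).injective h1)

/-- transport of a group preserving a function into the matrix isometry group -/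
theorem exists_hom_isometry {G : Type*} [Group G] {ι : Type} [Fintype ι] [DecidableEq ι]
    (Q : V → F) (Q' : (ι → F) → F) (b : Basis ι F V) (hb : ∀ v, Q v = Q' (b.equivFun v))
    (ρ : G →* (V →ₗ[F] V)) (hρ : ∀ g v, Q (ρ g v) = Q v) (hinj : Function.Injective ρ) :
    ∃ φ : G →* Cfsg.isometryGroup F Q', Function.Injective φ := by
  let ψ₀ : G →* Matrix ι ι F :=
    ((LinearMap.toMatrixAlgEquiv b : (V →ₗ[F] V) ≃ₐ[F] _) : (V →ₗ[F] V) →* _).comp ρ
  let ψ : G →* Matrix.GeneralLinearGroup ι F := (Units.map ψ₀).comp (toUnits (G := G)).toMonoidHom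
  have hψ : ∀ g, ((ψ g : Matrix.GeneralLinearGroup ι F) : Matrix ι ι F) = LinearMap.toMatrixAlgEquiv b (ρ g) := fun g => rfl
  have hmem : ∀ g, ψ g ∈ Cfsg.isometryGroup F Q' := by
    intro g x _
    obtain ⟨u, rfl⟩ := b.equivFun.surjective x
    show Q' (((ψ g : Matrix.GeneralLinearGroup ι F) : Matrix ι ι F).mulVec (b.equivFun u)) = Q' (b.equivFun u)
    rw [hψ, toMatrix_mulVec_equivFun, ← hb, ← hb, hρ]
  refine ⟨ψ.codRestrict (Cfsg.isometryGroup F Q') hmem, ?_⟩
  intro g g' h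
  have h1 : ψ g = ψ g' := congrArg Subtype.val h
  have h2 : LinearMap.toMatrixAlgEquiv b (ρ g) = LinearMap.toMatrixAlgEquiv b (ρ g') := by
    rw [← hψ, ← hψ, h1]
  exact hinj ((LinearMap.toMatrixAlgEquiv b).injective h2)

end Cfsg.Agent.Lib.Helper5_Transport
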