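import Mathlib

set_option autoImplicit false

namespace Cfsg.Agent.Lib.Helper5_TriCount

open Matrix

variable {F : Type*} [Field F] {n : ℕ}

theorem isUnit_iff_of_lower (M : Matrix (Fin n) (Fin n) F) (h : ∀ i j : Fin n, i < j → M i j = 0) :
    IsUnit M ↔ ∀ i, M i i ≠ 0 := by
  have hL : M.IsLowerTriangular := by
    intro i j hij
    exact h i j hij
  rw [Matrix.isUnit_iff_isUnit_det, Matrix.det_of_isLowerTriangular M hL, isUnit_iff_ne_zero,
    Finset.prod_ne_zero_iff]
  simp

theorem card_entry [Fintype F] (i j : Fin n) :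
    Nat.card {x : F // (i < j → x = 0) ∧ (i = j → x ≠ 0)} =
      (if j = i then Fintype.card F - 1 else 1) * (if j < i then Fintype.card F else 1) := by
  classical
  rcases lt_trichotomy i j with h | h | h
  · rw [if_neg (ne_of_gt h), if_neg (not_lt.2 h.le), one_mul]
    have : Unique {x : F // (i < j → x = 0) ∧ (i = j → x ≠ 0)} :=
      ⟨⟨⟨0, fun _ => rfl, fun h' => absurd h' (ne_of_lt h)⟩⟩, fun x => Subtype.ext (x.2.1 h)⟩
    exact Nat.card_unique
  · subst h
    rw [if_pos rfl, if_neg (lt_irrefl _), mul_one]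
    have e : {x : F // (i < i → x = 0) ∧ (i = i → x ≠ 0)} ≃ {x : F // x ≠ 0} :=
      Equiv.subtypeEquivRight (fun x => ⟨fun h => h.2 rfl, fun h => ⟨fun h' => absurd h' (lt_irrefl _),
        fun _ => h⟩⟩)
    rw [Nat.card_congr e, Nat.card_eq_fintype_card, Fintype.card_subtype_compl, Fintype.card_subtype_eq]
  · rw [if_neg (ne_of_lt h), if_pos h, one_mul]
    have e : {x : F // (i < j → x = 0) ∧ (i = j → x ≠ 0)} ≃ F :=
      Equiv.subtypeUnivEquiv (fun x => ⟨fun h' => absurd h' (not_lt.2 h.le),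
        fun h' => absurd h' (ne_of_gt h)⟩)
    rw [Nat.card_congr e, Nat.card_eq_fintype_card]

theorem card_tri [Fintype F] :
    Nat.card {M : Matrix (Fin n) (Fin n) F // (∀ i j : Fin n, i < j → M i j = 0) ∧ ∀ i, M i i ≠ 0} =
      Fintype.card F ^ (n * (n - 1) / 2) * (Fintype.card F - 1) ^ n := by
  classical
  have e : {M : Matrix (Fin n) (Fin n) F // (∀ i j : Fin n, i < j → M i j = 0) ∧ ∀ i, M i i ≠ 0} ≃
      ∀ i j : Fin n, {x : F // (i < j → x = 0) ∧ (i = j → x ≠ 0)} :=
    { toFun := fun M i j => ⟨M.1 i j, fun h => M.2.1 i j h, fun h => by subst h; exact M.2.2 i⟩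
      invFun := fun f => ⟨fun i j => (f i j).1, fun i j h => (f i j).2.1 h, fun i => (f i i).2.2 rfl⟩
      left_inv := fun M => rfl
      right_inv := fun f => rfl }
  rw [Nat.card_congr e, Nat.card_pi]
  have h1 : ∀ i : Fin n, Nat.card (∀ j : Fin n, {x : F // (i < j → x = 0) ∧ (i = j → x ≠ 0)}) =
      (Fintype.card F - 1) * Fintype.card F ^ (i : ℕ) := by
    intro i
    rw [Nat.card_pi, Finset.prod_congr rfl (fun j _ => card_entry i j), Finset.prod_mul_distrib,
      Finset.prod_ite_eq' Finset.univ i, if_pos (Finset.mem_univ _), Finset.prod_ite, Finset.prod_const,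
      Finset.prod_const_one, mul_one]
    congr 2
    rw [← Fin.card_Iio i]
    congr 1
    ext j
    simp
  rw [Finset.prod_congr rfl (fun i _ => h1 i), Finset.prod_mul_distrib, Finset.prod_const,
    Finset.card_univ, Fintype.card_fin, Fin.prod_univ_eq_prod_range (fun i => Fintype.card F ^ i) n,
    Finset.prod_pow_eq_pow_sum, Finset.sum_range_id, mul_comm]

end Cfsg.Agent.Lib.Helper5_TriCount
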