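import Mathlib

set_option autoImplicit false

namespace Cfsg.Agent.Lib.Helper5_UField

variable {F : Type*} [Field F] [Fintype F] {q : ℕ}

theorem two_le (hF : Fintype.card F = q ^ 2) : 2 ≤ q := by
  have h1 : 1 < Fintype.card F := Fintype.one_lt_card
  rw [hF] at h1
  by_contra h
  have : q ≤ 1 := by omega
  have h2 : q ^ 2 ≤ 1 ^ 2 := Nat.pow_le_pow_left this 2
  omega

theorem exists_sig (hF : Fintype.card F = q ^ 2) : ∃ σ : F →+* F, ∀ x, σ x = x ^ q := by
  obtain ⟨p, hp⟩ := CharP.exists F
  have hpp : Fact p.Prime := ⟨CharP.char_is_prime F p⟩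
  obtain ⟨n, hpn, hcard⟩ := FiniteField.card F p
  have hdvd : q ∣ p ^ (n : ℕ) := by
    rw [← hcard, hF, sq]; exact Dvd.intro _ rfl
  obtain ⟨k, -, hk⟩ := (Nat.dvd_prime_pow hpn).1 hdvd
  exact ⟨iterateFrobenius F p k, fun x => by rw [iterateFrobenius_def, hk]⟩

/-- the involutory automorphism `x ↦ x ^ q` -/
noncomputable def sig (hF : Fintype.card F = q ^ 2) : F →+* F := (exists_sig hF).choose

theorem sig_apply (hF : Fintype.card F = q ^ 2) (x : F) : sig hF x = x ^ q :=
  (exists_sig hF).choose_spec x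

theorem pow_pow (hF : Fintype.card F = q ^ 2) (x : F) : (x ^ q) ^ q = x := by
  rw [← pow_mul, ← sq, ← hF, FiniteField.pow_card]

theorem sig_sig (hF : Fintype.card F = q ^ 2) (x : F) : sig hF (sig hF x) = x := by
  rw [sig_apply, sig_apply, pow_pow hF]

theorem add_pow (hF : Fintype.card F = q ^ 2) (x y : F) : (x + y) ^ q = x ^ q + y ^ q := by
  rw [← sig_apply hF, ← sig_apply hF, ← sig_apply hF, map_add]

theorem sub_pow (hF : Fintype.card F = q ^ 2) (x y : F) : (x - y) ^ q = x ^ q - y ^ q := by
  rw [← sig_apply hF, ← sig_apply hF, ← sig_apply hF, map_sub]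

theorem neg_pow (hF : Fintype.card F = q ^ 2) (x : F) : (-x) ^ q = -x ^ q := by
  rw [← sig_apply hF, ← sig_apply hF, map_neg]

theorem sum_pow (hF : Fintype.card F = q ^ 2) {ι : Type*} (s : Finset ι) (f : ι → F) :
    (∑ i ∈ s, f i) ^ q = ∑ i ∈ s, f i ^ q := by
  rw [← sig_apply hF, map_sum]
  exact Finset.sum_congr rfl (fun i _ => sig_apply hF _)

theorem card_units (hF : Fintype.card F = q ^ 2) : Nat.card Fˣ = (q - 1) * (q + 1) := by
  classical
  have h2 := two_le hF
  rw [Nat.card_eq_fintype_card, Fintype.card_units, hF]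
  obtain ⟨t, rfl⟩ := Nat.exists_eq_add_of_le h2
  have : 2 + t - 1 = 1 + t := by omega
  rw [this]
  apply Nat.sub_eq_of_eq_add
  ring

theorem card_norm_one_units (hF : Fintype.card F = q ^ 2) :
    Nat.card (powMonoidHom (q + 1) : Fˣ →* Fˣ).ker = q + 1 := by
  rw [IsCyclic.card_powMonoidHom_ker, card_units hF]
  exact Nat.gcd_eq_right (Dvd.intro_left _ rfl)

theorem card_fixed_units (hF : Fintype.card F = q ^ 2) :
    Nat.card (powMonoidHom (q - 1) : Fˣ →* Fˣ).ker = q - 1 := by
  rw [IsCyclic.card_powMonoidHom_ker, card_units hF]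
  exact Nat.gcd_eq_right (Dvd.intro _ rfl)

theorem range_norm (hF : Fintype.card F = q ^ 2) :
    (powMonoidHom (q + 1) : Fˣ →* Fˣ).range = (powMonoidHom (q - 1) : Fˣ →* Fˣ).ker := by
  apply Subgroup.eq_of_le_of_card_ge
  · rintro _ ⟨x, rfl⟩
    rw [MonoidHom.mem_ker, powMonoidHom_apply, powMonoidHom_apply, ← pow_mul, mul_comm,
      ← card_units hF, pow_card_eq_one']
  · rw [card_fixed_units hF, IsCyclic.card_powMonoidHom_range, card_units hF,
      Nat.gcd_eq_right (Dvd.intro_left _ rfl), Nat.mul_div_cancel _ (Nat.succ_pos q)]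

/-- surjectivity of the norm -/
theorem exists_norm (hF : Fintype.card F = q ^ 2) (c : F) (hc : c ^ q = c) :
    ∃ x : F, x ^ (q + 1) = c := by
  have h2 := two_le hF
  by_cases h0 : c = 0
  · exact ⟨0, by rw [h0, zero_pow (Nat.succ_ne_zero q)]⟩
  · have h1 : Units.mk0 c h0 ∈ (powMonoidHom (q - 1) : Fˣ →* Fˣ).ker := by
      rw [MonoidHom.mem_ker, powMonoidHom_apply]
      apply Units.ext
      rw [Units.val_pow_eq_pow_val, Units.val_mk0, Units.val_one]
      have h3 : c ^ (q - 1) * c = 1 * c := by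
        rw [← pow_succ, Nat.sub_add_cancel (by omega), hc, one_mul]
      exact mul_right_cancel₀ h0 h3
    rw [← range_norm hF] at h1
    obtain ⟨x, hx⟩ := h1
    refine ⟨x, ?_⟩
    have := congrArg Units.val hx
    rwa [powMonoidHom_apply, Units.val_pow_eq_pow_val, Units.val_mk0] at this

theorem card_norm_one (hF : Fintype.card F = q ^ 2) : Nat.card {x : F // x ^ (q + 1) = 1} = q + 1 := by
  refine Eq.trans ?_ (card_norm_one_units hF)
  apply Nat.card_congr
  exact
    { toFun := fun x => ⟨Units.mk0 x.1 (by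
          intro h
          have := x.2
          rw [h, zero_pow (Nat.succ_ne_zero q)] at this
          exact zero_ne_one this), by
        rw [MonoidHom.mem_ker, powMonoidHom_apply]
        apply Units.ext
        rw [Units.val_pow_eq_pow_val, Units.val_mk0, Units.val_one]
        exact x.2⟩
      invFun := fun u => ⟨u.1.1, by
        have := congrArg Units.val (MonoidHom.mem_ker.1 u.2)
        rwa [powMonoidHom_apply, Units.val_pow_eq_pow_val, Units.val_one] at this⟩
      left_inv := fun x => rfl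
      right_inv := fun u => Subtype.ext (Units.ext rfl) }

/-- the nonzero elements of the fixed field -/
theorem card_fixed_ne_zero (hF : Fintype.card F = q ^ 2) :
    Nat.card {c : F // c ^ q = c ∧ c ≠ 0} = q - 1 := by
  have h2 := two_le hF
  refine Eq.trans ?_ (card_fixed_units hF)
  apply Nat.card_congr
  exact
    { toFun := fun x => ⟨Units.mk0 x.1 x.2.2, by
        rw [MonoidHom.mem_ker, powMonoidHom_apply]
        apply Units.ext
        rw [Units.val_pow_eq_pow_val, Units.val_mk0, Units.val_one]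
        have h3 : x.1 ^ (q - 1) * x.1 = 1 * x.1 := by
          rw [← pow_succ, Nat.sub_add_cancel (by omega), x.2.1, one_mul]
        exact mul_right_cancel₀ x.2.2 h3⟩
      invFun := fun u => ⟨u.1.1, by
        have := congrArg Units.val (MonoidHom.mem_ker.1 u.2)
        rw [powMonoidHom_apply, Units.val_pow_eq_pow_val, Units.val_one] at this
        have h4 : u.1.1 ^ q = u.1.1 ^ ((q - 1) + 1) := by
          congr 1; omega
        rw [h4, pow_succ, this, one_mul], u.1.ne_zero⟩
      left_inv := fun x => rfl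
      right_inv := fun u => Subtype.ext (Units.ext rfl) }

theorem norm_fixed (hF : Fintype.card F = q ^ 2) (x : F) : (x ^ (q + 1)) ^ q = x ^ (q + 1) := by
  rw [pow_succ, mul_pow, pow_pow hF, mul_comm]

end Cfsg.Agent.Lib.Helper5_UField
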