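import Mathlib
import Cfsg.Prelude.Def_ClassicalGeometry
import Cfsg.Agent.Lib.Helper5_UField

set_option autoImplicit false

namespace Cfsg.Agent.Lib.Helper5_UForm

open Cfsg Cfsg.Agent.Lib.Helper5_UField

variable {F : Type*} [Field F] {q n : ℕ}

theorem add_left (u u' v : Fin n → F) :
    hermForm n F q (u + u') v = hermForm n F q u v + hermForm n F q u' v := by
  simp only [hermForm, Pi.add_apply, add_mul, Finset.sum_add_distrib]

theorem smul_left (c : F) (u v : Fin n → F) :
    hermForm n F q (c • u) v = c * hermForm n F q u v := by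
  simp only [hermForm, Pi.smul_apply, smul_eq_mul, Finset.mul_sum, mul_assoc]

theorem neg_left (u v : Fin n → F) : hermForm n F q (-u) v = - hermForm n F q u v := by
  simp only [hermForm, Pi.neg_apply, neg_mul, Finset.sum_neg_distrib]

theorem sub_left (u u' v : Fin n → F) :
    hermForm n F q (u - u') v = hermForm n F q u v - hermForm n F q u' v := by
  rw [sub_eq_add_neg, add_left, neg_left, sub_eq_add_neg]

theorem zero_left (v : Fin n → F) : hermForm n F q 0 v = 0 := by
  simp [hermForm]

theorem smul_right (c : F) (u v : Fin n → F) :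
    hermForm n F q u (c • v) = c ^ q * hermForm n F q u v := by
  simp only [hermForm, Pi.smul_apply, smul_eq_mul, Finset.mul_sum, mul_pow]
  apply Finset.sum_congr rfl
  intro i _
  ring

/-- the form as a linear map in the first variable -/
def hL (q : ℕ) (v : Fin n → F) : (Fin n → F) →ₗ[F] F where
  toFun u := hermForm n F q u v
  map_add' u u' := add_left u u' v
  map_smul' c u := smul_left c u v

theorem hL_apply (u v : Fin n → F) : hL q v u = hermForm n F q u v := rfl

variable [Fintype F]

theorem conj (hF : Fintype.card F = q ^ 2) (u v : Fin n → F) :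
    (hermForm n F q u v) ^ q = hermForm n F q v u := by
  rw [hermForm, sum_pow hF, hermForm]
  apply Finset.sum_congr rfl
  intro i _
  rw [mul_pow, pow_pow hF, mul_comm]

theorem self_fixed (hF : Fintype.card F = q ^ 2) (v : Fin n → F) :
    (hermForm n F q v v) ^ q = hermForm n F q v v := conj hF v v

theorem add_right (hF : Fintype.card F = q ^ 2) (u v v' : Fin n → F) :
    hermForm n F q u (v + v') = hermForm n F q u v + hermForm n F q u v' := by
  simp only [hermForm, Pi.add_apply, add_pow hF, mul_add, Finset.sum_add_distrib]

theorem neg_right (hF : Fintype.card F = q ^ 2) (u v : Fin n → F) :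
    hermForm n F q u (-v) = - hermForm n F q u v := by
  simp only [hermForm, Pi.neg_apply, neg_pow hF, mul_neg, Finset.sum_neg_distrib]

theorem sub_right (hF : Fintype.card F = q ^ 2) (u v v' : Fin n → F) :
    hermForm n F q u (v - v') = hermForm n F q u v - hermForm n F q u v' := by
  rw [sub_eq_add_neg, add_right hF, neg_right hF, sub_eq_add_neg]

theorem zero_right (hF : Fintype.card F = q ^ 2) (u : Fin n → F) : hermForm n F q u 0 = 0 := by
  have h2 := two_le hF
  simp [hermForm, zero_pow (show q ≠ 0 by omega)]

theorem single_right (hF : Fintype.card F = q ^ 2) (u : Fin n → F) (i : Fin n) :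
    hermForm n F q u (Pi.single i 1) = u i := by
  classical
  have h2 := two_le hF
  rw [hermForm, Finset.sum_eq_single i]
  · rw [Pi.single_eq_same, one_pow, mul_one]
  · intro j _ hj
    rw [Pi.single_eq_of_ne hj, zero_pow (by omega), mul_zero]
  · intro h; exact absurd (Finset.mem_univ _) h

theorem single_left (v : Fin n → F) (i : Fin n) :
    hermForm n F q (Pi.single i 1) v = v i ^ q := by
  classical
  rw [hermForm, Finset.sum_eq_single i]
  · rw [Pi.single_eq_same, one_mul]
  · intro j _ hj
    rw [Pi.single_eq_of_ne hj, zero_mul]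
  · intro h; exact absurd (Finset.mem_univ _) h

theorem nondeg_left (hF : Fintype.card F = q ^ 2) (u : Fin n → F)
    (h : ∀ v, hermForm n F q u v = 0) : u = 0 := by
  funext i
  rw [← single_right hF u i, h]
  rfl

theorem nondeg_right (hF : Fintype.card F = q ^ 2) (v : Fin n → F)
    (h : ∀ u, hermForm n F q u v = 0) : v = 0 := by
  apply nondeg_left hF
  intro u
  rw [← conj hF, h, zero_pow]
  have h2 := two_le hF
  omega

theorem self_smul (c : F) (v : Fin n → F) :
    hermForm n F q (c • v) (c • v) = c ^ (q + 1) * hermForm n F q v v := by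
  rw [smul_left, smul_right, ← mul_assoc, pow_succ, mul_comm c]

end Cfsg.Agent.Lib.Helper5_UForm
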