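import Mathlib
import Cfsg.Agent.Lib.Helper5_UForm

set_option autoImplicit false

namespace Cfsg.Agent.Lib.Helper5_UCount

open Cfsg Cfsg.Agent.Lib.Helper5_UField Cfsg.Agent.Lib.Helper5_UForm

theorem card_of_fibers {A B : Type*} [Finite A] [Finite B] (f : A → B) (c : ℕ)
    (h : ∀ b, Nat.card {a // f a = b} = c) : Nat.card A = Nat.card B * c := by
  classical
  have : Fintype B := Fintype.ofFinite B
  rw [← Nat.card_congr (Equiv.sigmaFiberEquiv f), Nat.card_sigma, Finset.sum_congr rfl (fun b _ => h b),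
    Finset.sum_const, Finset.card_univ, Nat.card_eq_fintype_card, smul_eq_mul]

variable {F : Type*} [Field F] [Fintype F] {q : ℕ}

/-- the number of vectors of a given norm -/
noncomputable def A (F : Type*) [Field F] (q n : ℕ) (c : F) : ℕ :=
  Nat.card {v : Fin n → F // hermForm n F q v v = c}

theorem A_scale (hF : Fintype.card F = q ^ 2) (n : ℕ) (c : F) (hc : c ^ q = c) (hc0 : c ≠ 0) :
    A F q n c = A F q n 1 := by
  obtain ⟨l, hl⟩ := exists_norm hF c hc
  have hl0 : l ≠ 0 := by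
    rintro rfl
    rw [zero_pow (Nat.succ_ne_zero q)] at hl
    exact hc0 hl.symm
  apply Nat.card_congr
  exact
    { toFun := fun v => ⟨l⁻¹ • v.1, by
        rw [self_smul, v.2, inv_pow, hl, inv_mul_cancel₀ hc0]⟩
      invFun := fun v => ⟨l • v.1, by rw [self_smul, v.2, hl, mul_one]⟩
      left_inv := fun v => Subtype.ext (by simp [smul_smul, hl0])
      right_inv := fun v => Subtype.ext (by simp [smul_smul, hl0]) }

theorem A_total (hF : Fintype.card F = q ^ 2) (n : ℕ) :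
    A F q n 0 + (q - 1) * A F q n 1 = q ^ (2 * n) := by
  classical
  have h1 : Nat.card (Fin n → F) = q ^ (2 * n) := by
    rw [Nat.card_fun, Nat.card_eq_fintype_card, Nat.card_eq_fintype_card, hF, Fintype.card_fin, pow_mul]
  rw [← h1, ← Nat.card_congr (Equiv.sumCompl (fun v : Fin n → F => hermForm n F q v v = 0)),
    Nat.card_sum]
  congr 1
  let f : {v : Fin n → F // ¬ hermForm n F q v v = 0} → {c : F // c ^ q = c ∧ c ≠ 0} :=
    fun v => ⟨hermForm n F q v.1 v.1, self_fixed hF v.1, v.2⟩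
  rw [card_of_fibers f (A F q n 1), card_fixed_ne_zero hF]
  intro c
  rw [← A_scale hF n c.1 c.2.1 c.2.2]
  apply Nat.card_congr
  exact
    { toFun := fun v => ⟨v.1.1, congrArg Subtype.val v.2⟩
      invFun := fun v => ⟨⟨v.1, by rw [v.2]; exact c.2.2⟩, Subtype.ext v.2⟩
      left_inv := fun v => rfl
      right_inv := fun v => rfl }

theorem herm_cons (n : ℕ) (x : F) (w : Fin n → F) :
    hermForm (n + 1) F q (Fin.cons x w : Fin (n + 1) → F) (Fin.cons x w : Fin (n + 1) → F) =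
      x ^ (q + 1) + hermForm n F q w w := by
  rw [hermForm, Fin.sum_univ_succ]
  simp only [Fin.cons_zero, Fin.cons_succ]
  rw [pow_succ, mul_comm x]
  rfl

theorem A_sum (n : ℕ) (c : F) :
    A F q (n + 1) c = ∑ x : F, A F q n (c - x ^ (q + 1)) := by
  classical
  have e : {v : Fin (n + 1) → F // hermForm (n + 1) F q v v = c} ≃
      Σ x : F, {w : Fin n → F // hermForm n F q w w = c - x ^ (q + 1)} :=
    { toFun := fun v => ⟨v.1 0, ⟨Fin.tail v.1, by
        have h := v.2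
        rw [← Fin.cons_self_tail v.1, herm_cons] at h
        exact eq_sub_of_add_eq' h⟩⟩
      invFun := fun s => ⟨Fin.cons s.1 s.2.1, by rw [herm_cons, s.2.2]; ring⟩
      left_inv := fun v => Subtype.ext (Fin.cons_self_tail v.1)
      right_inv := fun s => by
        obtain ⟨x, w, hw⟩ := s
        rfl }
  unfold A
  rw [Nat.card_congr e, Nat.card_sigma]

theorem A_succ (hF : Fintype.card F = q ^ 2) (n : ℕ) :
    A F q (n + 1) 0 = A F q n 0 + (q ^ 2 - 1) * A F q n 1 := by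
  classical
  rw [A_sum, Fintype.sum_eq_add_sum_compl (0 : F)]
  congr 1
  · rw [zero_pow (Nat.succ_ne_zero q), sub_zero]
  · have h1 : ∀ x ∈ ({0}ᶜ : Finset F), A F q n (0 - x ^ (q + 1)) = A F q n 1 := by
      intro x hx
      have hx0 : x ≠ 0 := by simpa using hx
      apply A_scale hF
      · rw [zero_sub, neg_pow hF, norm_fixed hF]
      · rw [zero_sub]
        exact neg_ne_zero.2 (pow_ne_zero _ hx0)
    rw [Finset.sum_congr rfl h1, Finset.sum_const, Finset.card_compl, Finset.card_singleton, hF,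
      smul_eq_mul]

theorem A_zero_zero : A F q 0 (0 : F) = 1 := by
  have : Unique {v : Fin 0 → F // hermForm 0 F q v v = 0} :=
    ⟨⟨⟨0, by simp [hermForm]⟩⟩, fun v => Subtype.ext (Subsingleton.elim _ _)⟩
  exact Nat.card_unique

theorem A1_of_A0 (hF : Fintype.card F = q ^ 2) (n : ℕ) :
    ((q : ℤ) - 1) * (A F q n 1 : ℤ) = (q : ℤ) ^ (2 * n) - (A F q n 0 : ℤ) := by
  have h := A_total hF n
  have h2 := two_le hF
  have h3 : ((A F q n 0 + (q - 1) * A F q n 1 : ℕ) : ℤ) = ((q ^ (2 * n) : ℕ) : ℤ) := by rw [h]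
  push_cast [Nat.cast_sub (show 1 ≤ q by omega)] at h3
  linarith

theorem A0_int (hF : Fintype.card F = q ^ 2) (n : ℕ) :
    (q : ℤ) * (A F q n 0 : ℤ) = (q : ℤ) ^ (2 * n) + (-(q : ℤ)) ^ n * ((q : ℤ) - 1) := by
  have h2 := two_le hF
  induction n with
  | zero => rw [A_zero_zero]; simp
  | succ n ih =>
    have h1 := A1_of_A0 hF n
    have h3 : ((A F q (n + 1) 0 : ℕ) : ℤ) = ((A F q n 0 + (q ^ 2 - 1) * A F q n 1 : ℕ) : ℤ) := by
      rw [A_succ hF]
    have h4 : 1 ≤ q ^ 2 := Nat.one_le_pow _ _ (by omega)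
    push_cast [Nat.cast_sub h4] at h3
    rw [h3]
    have h5 : ((q : ℤ) ^ 2 - 1) * (A F q n 1 : ℤ) =
        ((q : ℤ) + 1) * ((q : ℤ) ^ (2 * n) - (A F q n 0 : ℤ)) := by
      rw [← h1]; ring
    rw [mul_add, mul_left_comm, ← mul_assoc ((q : ℤ) ^ 2 - 1)] 
    have h6 : (q : ℤ) * (((q : ℤ) ^ 2 - 1) * (A F q n 1 : ℤ)) =
        ((q : ℤ) + 1) * ((q : ℤ) * (q : ℤ) ^ (2 * n) - (q : ℤ) * (A F q n 0 : ℤ)) := by
      rw [h5]; ring
    have h7 : ((q : ℤ) ^ 2 - 1) * (q : ℤ) * (A F q n 1 : ℤ) =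
        (q : ℤ) * (((q : ℤ) ^ 2 - 1) * (A F q n 1 : ℤ)) := by ring
    rw [h7, h6, ih]
    ring

theorem A1_int (hF : Fintype.card F = q ^ 2) (n : ℕ) :
    (q : ℤ) * (A F q n 1 : ℤ) = (q : ℤ) ^ (2 * n) - (-(q : ℤ)) ^ n := by
  have h2 := two_le hF
  have h1 := A1_of_A0 hF n
  have h0 := A0_int hF n
  have hq1 : ((q : ℤ) - 1) ≠ 0 := by
    have : (2 : ℤ) ≤ q := by exact_mod_cast h2
    intro h; omega
  apply mul_left_cancel₀ hq1
  have : ((q : ℤ) - 1) * ((q : ℤ) * (A F q n 1 : ℤ)) =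
      (q : ℤ) * (q : ℤ) ^ (2 * n) - (q : ℤ) * (A F q n 0 : ℤ) := by
    rw [mul_left_comm, h1]; ring
  rw [this, h0]
  ring

end Cfsg.Agent.Lib.Helper5_UCount
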