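import Mathlib
import Cfsg.Prelude.Def_LieClassical
import Cfsg.Agent.Lib.Helper5_UCount

set_option autoImplicit false

namespace Cfsg.Agent.Lib.Helper5_UGroup

open Matrix Cfsg Cfsg.Agent.Lib.Helper5_UField Cfsg.Agent.Lib.Helper5_UForm
  Cfsg.Agent.Lib.Helper5_UCount

variable {F : Type*} [Field F] [Fintype F] {q n : ℕ}

/-- matrices preserving the hermitian form -/
def Pres (F : Type*) [Field F] (q n : ℕ) (M : Matrix (Fin n) (Fin n) F) : Prop :=
  ∀ x y, hermForm n F q (M *ᵥ x) (M *ᵥ y) = hermForm n F q x y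

theorem isUnit_of_pres (hF : Fintype.card F = q ^ 2) (M : Matrix (Fin n) (Fin n) F)
    (hM : Pres F q n M) : IsUnit M := by
  rw [← Matrix.mulVec_injective_iff_isUnit]
  intro x y hxy
  have h1 : M *ᵥ (x - y) = 0 := by rw [Matrix.mulVec_sub, hxy, sub_self]
  have h2 : x - y = 0 := by
    apply nondeg_left hF
    intro v
    rw [← hM, h1, zero_left]
  exact sub_eq_zero.1 h2

/-- the unitary group as a set of matrices -/
noncomputable def guEquiv (hF : Fintype.card F = q ^ 2) :
    ↥(GU n F q) ≃ {M : Matrix (Fin n) (Fin n) F // Pres F q n M} where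
  toFun g := ⟨g.1.1, g.2⟩
  invFun M := ⟨(isUnit_of_pres hF M.1 M.2).unit, M.2⟩
  left_inv g := Subtype.ext (Units.ext rfl)
  right_inv M := rfl

noncomputable def mkGU (hF : Fintype.card F = q ^ 2) (M : Matrix (Fin n) (Fin n) F)
    (hM : Pres F q n M) : ↥(GU n F q) := (guEquiv hF).symm ⟨M, hM⟩

theorem mkGU_val (hF : Fintype.card F = q ^ 2) (M : Matrix (Fin n) (Fin n) F)
    (hM : Pres F q n M) : ((mkGU hF M hM : ↥(GU n F q)) : Matrix.GeneralLinearGroup (Fin n) F).1 = M :=
  rfl

theorem ut_mulVec (d : Fin n → F) (c : F) (z : Fin n → F) :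
    unitaryTransvection n q d c *ᵥ z = z + (c * hermForm n F q z d) • d := by
  rw [unitaryTransvection, add_mulVec, one_mulVec, smul_mulVec, vecMulVec_mulVec, op_smul_eq_smul,
    smul_smul]
  congr 3
  rw [dotProduct, hermForm]
  apply Finset.sum_congr rfl
  intro i _
  rw [mul_comm]

theorem ut_pres (hF : Fintype.card F = q ^ 2) (d : Fin n → F) (c : F)
    (hc : c + c ^ q + c ^ (q + 1) * hermForm n F q d d = 0) :
    Pres F q n (unitaryTransvection n q d c) := by
  intro x y
  rw [ut_mulVec, ut_mulVec, add_left, add_right hF, add_right hF, smul_left, smul_left, smul_right,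
    smul_right, mul_pow, conj hF y d]
  have : hermForm n F q x y + c ^ q * hermForm n F q d y * hermForm n F q x d +
      (c * hermForm n F q x d * hermForm n F q d y +
        c * hermForm n F q x d * (c ^ q * hermForm n F q d y * hermForm n F q d d)) =
      hermForm n F q x y + hermForm n F q x d * hermForm n F q d y *
        (c + c ^ q + c ^ (q + 1) * hermForm n F q d d) := by
    ring
  rw [this, hc, mul_zero, add_zero]

theorem smul_pres (a : F) (ha : a ^ (q + 1) = 1) : Pres F q n (a • (1 : Matrix (Fin n) (Fin n) F)) := by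
  intro x y
  rw [smul_mulVec, smul_mulVec, one_mulVec, one_mulVec, smul_left, smul_right, ← mul_assoc,
    ← pow_succ', ha, one_mul]

theorem exists_norm_one_ne_one (hF : Fintype.card F = q ^ 2) : ∃ a : F, a ^ (q + 1) = 1 ∧ a ≠ 1 := by
  have h2 := two_le hF
  have h1 := card_norm_one hF
  have : Nontrivial {x : F // x ^ (q + 1) = 1} := by
    rw [← Finite.one_lt_card_iff_nontrivial, h1]
    omega
  obtain ⟨a, ha⟩ := exists_ne (⟨1, one_pow _⟩ : {x : F // x ^ (q + 1) = 1})
  exact ⟨a.1, a.2, fun h => ha (Subtype.ext h)⟩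

/-- moving a vector to another of the same norm, generic case -/
theorem exists_move1 (hF : Fintype.card F = q ^ 2) (u v : Fin n → F)
    (huv : hermForm n F q u u = hermForm n F q v v)
    (ht : hermForm n F q u (u - v) ≠ 0) :
    ∃ M, Pres F q n M ∧ M *ᵥ u = v ∧
      ∀ z, hermForm n F q z u = hermForm n F q z v → M *ᵥ z = z := by
  set t := hermForm n F q u (u - v) with htdef
  have hdd : hermForm n F q (u - v) (u - v) = t + t ^ q := by
    rw [htdef, conj hF, sub_left u v (u - v), sub_right hF u u v, sub_right hF v u v, sub_left u v u,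
      huv]
    ring
  refine ⟨unitaryTransvection n q (u - v) (-t⁻¹), ut_pres hF _ _ ?_, ?_, ?_⟩
  · rw [hdd, pow_succ, neg_pow hF, inv_pow]
    have ht' : t ^ q ≠ 0 := pow_ne_zero _ ht
    field_simp
    ring
  · rw [ut_mulVec, ← htdef, neg_mul, inv_mul_cancel₀ ht, neg_smul, one_smul]
    abel
  · intro z hz
    rw [ut_mulVec, sub_right hF, hz, sub_self, mul_zero, zero_smul, add_zero]

theorem exists_move_unit (hF : Fintype.card F = q ^ 2) (u v : Fin n → F)
    (hu : hermForm n F q u u = 1) (hv : hermForm n F q v v = 1) :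
    ∃ M, Pres F q n M ∧ M *ᵥ u = v := by
  by_cases ht : hermForm n F q u (u - v) = 0
  · obtain ⟨a, ha, ha1⟩ := exists_norm_one_ne_one hF
    have h1 : hermForm n F q u v = 1 := by
      rw [sub_right hF, hu, sub_eq_zero] at ht
      exact ht.symm
    have h2 : hermForm n F q (a • u) (a • u) = hermForm n F q v v := by
      rw [self_smul, ha, hu, hv, one_mul]
    have h3 : hermForm n F q (a • u) (a • u - v) ≠ 0 := by
      rw [sub_right hF, self_smul, ha, hu, smul_left, h1, one_mul, mul_one]
      exact sub_ne_zero.2 (Ne.symm ha1)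
    obtain ⟨M, hM, hMu, -⟩ := exists_move1 hF (a • u) v h2 h3
    refine ⟨M * (a • (1 : Matrix (Fin n) (Fin n) F)), ?_, ?_⟩
    · intro x y
      rw [← mulVec_mulVec, ← mulVec_mulVec, hM, smul_pres a ha]
    · rw [← mulVec_mulVec, smul_mulVec, one_mulVec, hMu]
  · obtain ⟨M, hM, hMu, -⟩ := exists_move1 hF u v (by rw [hu, hv]) ht
    exact ⟨M, hM, hMu⟩

end Cfsg.Agent.Lib.Helper5_UGroup
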