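import Mathlib
import Cfsg.Agent.Lib.Helper5_UGroup

set_option autoImplicit false

namespace Cfsg.Agent.Lib.Helper5_UDet

open Matrix Cfsg Cfsg.Agent.Lib.Helper5_UField Cfsg.Agent.Lib.Helper5_UForm
  Cfsg.Agent.Lib.Helper5_UCount Cfsg.Agent.Lib.Helper5_UGroup

variable {F : Type*} [Field F] [Fintype F] {q n : ℕ}

theorem transpose_mul_map (hF : Fintype.card F = q ^ 2) (M : Matrix (Fin n) (Fin n) F)
    (hM : Pres F q n M) : Mᵀ * M.map (sig hF) = 1 := by
  ext i j
  have h1 := hM (Pi.single i 1) (Pi.single j 1)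
  rw [single_right hF, mulVec_single_one, mulVec_single_one] at h1
  rw [Matrix.mul_apply, Matrix.one_apply]
  rw [Pi.single_apply] at h1
  simp only [eq_comm] at h1
  rw [← h1, hermForm]
  apply Finset.sum_congr rfl
  intro k _
  rw [Matrix.transpose_apply, Matrix.map_apply, sig_apply]
  rfl

theorem det_norm (hF : Fintype.card F = q ^ 2) (M : Matrix (Fin n) (Fin n) F)
    (hM : Pres F q n M) : M.det ^ (q + 1) = 1 := by
  have h1 := congrArg Matrix.det (transpose_mul_map hF M hM)
  rw [Matrix.det_mul, Matrix.det_transpose, Matrix.det_one] at h1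
  have h2 : (M.map (sig hF)).det = M.det ^ q := by
    rw [← sig_apply hF, RingHom.map_det]
    rfl
  rw [h2, ← pow_succ'] at h1
  exact h1

theorem diag_pres (d : Fin n → F) (hd : ∀ i, d i ^ (q + 1) = 1) : Pres F q n (Matrix.diagonal d) := by
  intro x y
  rw [hermForm, hermForm]
  apply Finset.sum_congr rfl
  intro i _
  rw [mulVec_diagonal, mulVec_diagonal, mul_pow]
  have : d i * x i * (d i ^ q * y i ^ q) = d i ^ (q + 1) * (x i * y i ^ q) := by ring
  rw [this, hd, one_mul]

/-- the determinant on the unitary group -/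
def detGU (F : Type*) [Field F] (q n : ℕ) : ↥(GU n F q) →* Fˣ :=
  Matrix.GeneralLinearGroup.det.comp (GU n F q).subtype

theorem detGU_val (g : ↥(GU n F q)) : ((detGU F q n g : Fˣ) : F) = g.1.1.det := rfl

theorem range_detGU (hF : Fintype.card F = q ^ 2) (hn : 1 ≤ n) :
    (detGU F q n).range = (powMonoidHom (q + 1) : Fˣ →* Fˣ).ker := by
  classical
  apply le_antisymm
  · rintro _ ⟨g, rfl⟩
    rw [MonoidHom.mem_ker, powMonoidHom_apply]
    apply Units.ext
    rw [Units.val_pow_eq_pow_val, detGU_val, Units.val_one]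
    exact det_norm hF _ g.2
  · intro a ha
    have ha' : (a : F) ^ (q + 1) = 1 := by
      have := congrArg Units.val (MonoidHom.mem_ker.1 ha)
      rwa [powMonoidHom_apply, Units.val_pow_eq_pow_val, Units.val_one] at this
    refine ⟨mkGU hF (Matrix.diagonal (Function.update (fun _ => 1) ⟨0, hn⟩ (a : F))) (diag_pres _ ?_), ?_⟩
    · intro i
      by_cases hi : i = ⟨0, hn⟩
      · rw [hi, Function.update_self, ha']
      · rw [Function.update_of_ne hi, one_pow]
    · apply Units.ext
      rw [detGU_val, mkGU_val, Matrix.det_diagonal, Finset.prod_update_of_mem (Finset.mem_univ _)]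
      simp

theorem card_GU_eq (hF : Fintype.card F = q ^ 2) (hn : 1 ≤ n) :
    Nat.card ↥(GU n F q) = (q + 1) * Nat.card (detGU F q n).ker := by
  rw [← Subgroup.index_mul_card (detGU F q n).ker, Subgroup.index_ker, range_detGU hF hn,
    card_norm_one_units hF]

noncomputable def kerEquiv (hF : Fintype.card F = q ^ 2) : ↥(detGU F q n).ker ≃ ↥(SU n F q) where
  toFun g := ⟨⟨g.1.1.1, by
      have := congrArg Units.val (MonoidHom.mem_ker.1 g.2)
      exact this⟩, g.1.2⟩
  invFun s := ⟨mkGU hF s.1.1 s.2, by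
    rw [MonoidHom.mem_ker]
    apply Units.ext
    exact s.1.2⟩
  left_inv g := Subtype.ext (Subtype.ext (Units.ext rfl))
  right_inv s := rfl

theorem card_GU_SU (hF : Fintype.card F = q ^ 2) (hn : 1 ≤ n) :
    Nat.card ↥(GU n F q) = (q + 1) * Nat.card ↥(SU n F q) := by
  rw [card_GU_eq hF hn, Nat.card_congr (kerEquiv hF)]

end Cfsg.Agent.Lib.Helper5_UDet
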