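import Mathlib
import Cfsg.Agent.Lib.Helper5_UDet

set_option autoImplicit false

namespace Cfsg.Agent.Lib.Helper5_UCenter

open Matrix Cfsg Cfsg.Agent.Lib.Helper5_UField Cfsg.Agent.Lib.Helper5_UForm
  Cfsg.Agent.Lib.Helper5_UCount Cfsg.Agent.Lib.Helper5_UGroup Cfsg.Agent.Lib.Helper5_UDet

variable {F : Type*} [Field F] [Fintype F] {q n : ℕ}

theorem pres_mul {M N : Matrix (Fin n) (Fin n) F} (hM : Pres F q n M) (hN : Pres F q n N) :
    Pres F q n (M * N) := by
  intro x y
  rw [← mulVec_mulVec, ← mulVec_mulVec, hM, hN]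

theorem exists_norm_one_sq_ne (hF : Fintype.card F = q ^ 2) : ∃ a : F, a ^ (q + 1) = 1 ∧ a ^ 2 ≠ 1 := by
  classical
  have h2 := two_le hF
  by_contra hcon
  push Not at hcon
  have h1 := card_norm_one hF
  have hsub : {x : F | x ^ (q + 1) = 1} ⊆ ({1, -1} : Set F) := by
    intro x hx
    have := hcon x hx
    rw [sq, mul_self_eq_one_iff] at this
    exact this
  have h3 := Set.ncard_le_ncard hsub (Set.toFinite _)
  have h4 : ({1, -1} : Set F).ncard ≤ 2 := by
    have := Set.ncard_insert_le (1 : F) {-1}
    rw [Set.ncard_singleton] at this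
    exact this
  rw [← Nat.card_coe_set_eq] at h3
  have h5 : Nat.card ({x : F | x ^ (q + 1) = 1} : Set F) = q + 1 := h1
  omega

theorem perm_pres (σ : Equiv.Perm (Fin n)) : Pres F q n (σ.permMatrix F) := by
  intro x y
  rw [permMatrix_mulVec, permMatrix_mulVec, hermForm, hermForm]
  exact Equiv.sum_comp σ (fun i => x i * y i ^ q)

theorem neg_one_norm (hF : Fintype.card F = q ^ 2) : (-1 : F) ^ (q + 1) = 1 := by
  rw [pow_succ, neg_pow hF, one_pow]; ring

/-- a matrix commuting with all unitary matrices of determinant one is scalar -/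
theorem scalar_of_commute (hF : Fintype.card F = q ^ 2) (hn : 2 ≤ n) (z : Matrix (Fin n) (Fin n) F)
    (hz : ∀ M : Matrix (Fin n) (Fin n) F, M.det = 1 → Pres F q n M → z * M = M * z) :
    ∃ a : F, z = a • (1 : Matrix (Fin n) (Fin n) F) := by
  classical
  obtain ⟨a, ha, ha2⟩ := exists_norm_one_sq_ne hF
  have ha0 : a ≠ 0 := by
    rintro rfl
    rw [zero_pow (Nat.succ_ne_zero q)] at ha
    exact zero_ne_one ha
  have hoff : ∀ i j : Fin n, i ≠ j → z i j = 0 := by
    intro i j hij
    have h1 := hz (Matrix.diagonal (Function.update (fun _ => 1) i a) *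
      Matrix.diagonal (Function.update (fun _ => 1) j a⁻¹)) (by
        rw [det_mul, det_diagonal, det_diagonal, Finset.prod_update_of_mem (Finset.mem_univ _),
          Finset.prod_update_of_mem (Finset.mem_univ _)]
        simp [ha0]) (pres_mul (diag_pres _ (by
          intro k
          by_cases hk : k = i
          · rw [hk, Function.update_self, ha]
          · rw [Function.update_of_ne hk, one_pow])) (diag_pres _ (by
          intro k
          by_cases hk : k = j
          · rw [hk, Function.update_self, inv_pow, ha, inv_one]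
          · rw [Function.update_of_ne hk, one_pow])))
    rw [diagonal_mul_diagonal] at h1
    have h2 := congrFun (congrFun h1 i) j
    rw [mul_diagonal, diagonal_mul, Function.update_self, Function.update_self,
      Function.update_of_ne hij.symm, Function.update_of_ne hij, one_mul, mul_one] at h2
    have h3 : z i j * (a⁻¹ - a) = 0 := by
      rw [mul_sub, h2]; ring
    rcases mul_eq_zero.1 h3 with h4 | h4
    · exact h4
    · exfalso
      apply ha2
      have : a⁻¹ = a := sub_eq_zero.1 h4
      rw [sq]
      nth_rewrite 1 [← this]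
      exact inv_mul_cancel₀ ha0
  have hzv : ∀ j : Fin n, z *ᵥ Pi.single j 1 = z j j • Pi.single j 1 := by
    intro j
    rw [mulVec_single_one]
    funext i
    by_cases hij : i = j
    · subst hij; simp [Matrix.col]
    · simp [Matrix.col, hoff i j hij, Pi.single_apply, hij]
  have hdiag : ∀ i j : Fin n, i ≠ j → z i i = z j j := by
    intro i j hij
    have h1 := hz ((Equiv.swap i j).permMatrix F * Matrix.diagonal (Function.update (fun _ => 1) i (-1)))
      (by
        rw [det_mul, det_permutation, det_diagonal, Finset.prod_update_of_mem (Finset.mem_univ _),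
          Equiv.Perm.sign_swap hij]
        simp) (pres_mul (perm_pres _) (diag_pres _ (by
          intro k
          by_cases hk : k = i
          · rw [hk, Function.update_self, neg_one_norm hF]
          · rw [Function.update_of_ne hk, one_pow])))
    have hS : ((Equiv.swap i j).permMatrix F * Matrix.diagonal (Function.update (fun _ => 1) i (-1))) *ᵥ
        (Pi.single j 1 : Fin n → F) = Pi.single i 1 := by
      rw [← mulVec_mulVec, permMatrix_mulVec]
      funext k
      rw [Function.comp_apply, mulVec_diagonal, Pi.single_apply, Pi.single_apply]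
      by_cases hk : k = i
      · subst hk
        rw [Equiv.swap_apply_left, Function.update_of_ne hij.symm]
        simp
      · rw [if_neg hk, if_neg, mul_zero]
        intro h
        apply hk
        have h' := congrArg (Equiv.swap i j) h
        rw [Equiv.swap_apply_self, Equiv.swap_apply_right] at h'
        exact h'
    generalize (Equiv.swap i j).permMatrix F * Matrix.diagonal (Function.update (fun _ => 1) i (-1)) = S
      at h1 hS
    have h2 := congrArg (fun M => M *ᵥ (Pi.single j 1 : Fin n → F)) h1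
    simp only [← mulVec_mulVec] at h2
    rw [hS, hzv i, hzv j, mulVec_smul, hS] at h2
    have h3 := congrFun h2 i
    simpa using h3
  refine ⟨z ⟨0, by omega⟩ ⟨0, by omega⟩, ?_⟩
  ext i j
  rw [Matrix.smul_apply, Matrix.one_apply]
  by_cases hij : i = j
  · subst hij
    rw [if_pos rfl, smul_eq_mul, mul_one]
    by_cases hi : i = ⟨0, by omega⟩
    · rw [hi]
    · exact hdiag _ _ hi
  · rw [if_neg hij, smul_zero, hoff i j hij]

theorem pow_of_gcd (a : Fˣ) (ha : a ∈ (powMonoidHom (Nat.gcd n (q + 1)) : Fˣ →* Fˣ).ker) :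
    (a : F) ^ n = 1 ∧ (a : F) ^ (q + 1) = 1 := by
  have h1 : (a : F) ^ (Nat.gcd n (q + 1)) = 1 := by
    have := congrArg Units.val (MonoidHom.mem_ker.1 ha)
    rwa [powMonoidHom_apply, Units.val_pow_eq_pow_val, Units.val_one] at this
  constructor
  · obtain ⟨k, hk⟩ := Nat.gcd_dvd_left n (q + 1)
    conv_lhs => rw [hk, pow_mul, h1, one_pow]
  · obtain ⟨k, hk⟩ := Nat.gcd_dvd_right n (q + 1)
    conv_lhs => rw [hk, pow_mul, h1, one_pow]

/-- scalar elements of `SU` -/
def scal (a : Fˣ) (ha : a ∈ (powMonoidHom (Nat.gcd n (q + 1)) : Fˣ →* Fˣ).ker) :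
    ↥(Subgroup.center ↥(SU n F q)) :=
  ⟨⟨⟨(a : F) • (1 : Matrix (Fin n) (Fin n) F), by
      rw [det_smul, det_one, mul_one, Fintype.card_fin, (pow_of_gcd a ha).1]⟩,
    smul_pres _ (pow_of_gcd a ha).2⟩, by
    rw [Subgroup.mem_center_iff]
    intro g
    apply Subtype.ext
    apply Subtype.ext
    change g.1.1 * ((a : F) • (1 : Matrix (Fin n) (Fin n) F)) =
      ((a : F) • (1 : Matrix (Fin n) (Fin n) F)) * g.1.1
    rw [Matrix.mul_smul, Matrix.smul_mul, mul_one, one_mul]⟩

theorem card_center_SU (hF : Fintype.card F = q ^ 2) (hn : 2 ≤ n) :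
    Nat.card (Subgroup.center ↥(SU n F q)) = Nat.gcd n (q + 1) := by
  have h1 : Nat.card (powMonoidHom (Nat.gcd n (q + 1)) : Fˣ →* Fˣ).ker = Nat.gcd n (q + 1) := by
    rw [IsCyclic.card_powMonoidHom_ker, card_units hF]
    exact Nat.gcd_eq_right (Dvd.dvd.mul_left (Nat.gcd_dvd_right n (q + 1)) _)
  refine Eq.trans ?_ h1
  symm
  apply Nat.card_congr
  refine Equiv.ofBijective (fun a => scal a.1 a.2) ⟨?_, ?_⟩
  · intro a b hab
    have h2 : ((a.1 : F) • (1 : Matrix (Fin n) (Fin n) F)) = ((b.1 : F) • (1 : Matrix (Fin n) (Fin n) F)) :=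
      congrArg (fun z : ↥(Subgroup.center ↥(SU n F q)) => z.1.1.1) hab
    have h3 := congrFun (congrFun h2 ⟨0, by omega⟩) ⟨0, by omega⟩
    simp only [Matrix.smul_apply, Matrix.one_apply_eq, smul_eq_mul, mul_one] at h3
    exact Subtype.ext (Units.ext h3)
  · intro z
    obtain ⟨a, ha⟩ := scalar_of_commute hF hn z.1.1.1 (by
      intro M hdet hM
      have h2 := (Subgroup.mem_center_iff.1 z.2) ⟨⟨M, hdet⟩, hM⟩
      have h3 := congrArg (fun s : ↥(SU n F q) => s.1.1) h2
      exact h3.symm)
    have hdet : a ^ n = 1 := by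
      have := z.1.1.2
      rw [ha, det_smul, det_one, mul_one, Fintype.card_fin] at this
      exact this
    have hnorm : a ^ (q + 1) = 1 := by
      have h4 : Pres F q n z.1.1.1 := z.1.2
      have := h4 (Pi.single ⟨0, by omega⟩ 1) (Pi.single ⟨0, by omega⟩ 1)
      rw [ha, smul_mulVec, one_mulVec, self_smul, single_right hF, Pi.single_eq_same, mul_one] at this
      exact this
    have ha0 : a ≠ 0 := by
      rintro rfl
      rw [zero_pow (Nat.succ_ne_zero q)] at hnorm
      exact zero_ne_one hnorm
    refine ⟨⟨Units.mk0 a ha0, ?_⟩, ?_⟩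
    · rw [MonoidHom.mem_ker, powMonoidHom_apply]
      rw [pow_gcd_eq_one]
      constructor
      · apply Units.ext
        rw [Units.val_pow_eq_pow_val, Units.val_mk0, hdet, Units.val_one]
      · apply Units.ext
        rw [Units.val_pow_eq_pow_val, Units.val_mk0, hnorm, Units.val_one]
    · apply Subtype.ext
      apply Subtype.ext
      apply Subtype.ext
      exact ha.symm

end Cfsg.Agent.Lib.Helper5_UCenter
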