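import Mathlib
import Cfsg.Agent.Lib.Helper5_UForm
import Cfsg.Agent.Lib.Helper5_FormCount

set_option autoImplicit false

namespace Cfsg.Agent.Lib.Helper5_ULin

open Module Cfsg Cfsg.Agent.Lib.Helper5_UField Cfsg.Agent.Lib.Helper5_UForm
  Cfsg.Agent.Lib.Helper5_FormCount

variable {F : Type*} [Field F] [Fintype F] {q n : ℕ}

theorem sum_right (hF : Fintype.card F = q ^ 2) {κ : Type*} (s : Finset κ) (y : Fin n → F)
    (f : κ → (Fin n → F)) : hermForm n F q y (∑ i ∈ s, f i) = ∑ i ∈ s, hermForm n F q y (f i) := by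
  classical
  induction s using Finset.induction_on with
  | empty => rw [Finset.sum_empty, Finset.sum_empty, zero_right hF]
  | insert a s ha ih => rw [Finset.sum_insert ha, Finset.sum_insert ha, add_right hF, ih]

theorem pi_surj (hF : Fintype.card F = q ^ 2) {κ : Type*} [Fintype κ] (u : κ → (Fin n → F))
    (hu : LinearIndependent F u) :
    Function.Surjective (LinearMap.pi (fun i => hL q (u i)) : (Fin n → F) →ₗ[F] (κ → F)) := by
  classical
  have h2 := two_le hF
  rw [← LinearMap.dualMap_injective_iff, injective_iff_map_eq_zero]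
  intro ψ hψ
  have h1 : ∀ y, ψ (LinearMap.pi (fun i => hL q (u i)) y) = 0 := fun y => LinearMap.congr_fun hψ y
  have h3 : ∑ i, (ψ (Pi.single i 1)) ^ q • u i = 0 := by
    apply nondeg_right hF
    intro y
    rw [sum_right hF]
    have h4 := h1 y
    rw [LinearMap.pi_apply_eq_sum_univ ψ] at h4
    rw [← h4]
    apply Finset.sum_congr rfl
    intro i _
    rw [smul_right, pow_pow hF, LinearMap.pi_apply, hL_apply, smul_eq_mul, mul_comm]
    congr 2
    funext j
    rw [Pi.single_apply]
    simp only [eq_comm]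
  have h5 := Fintype.linearIndependent_iff.1 hu _ h3
  apply LinearMap.ext
  intro c
  rw [LinearMap.pi_apply_eq_sum_univ ψ c, LinearMap.zero_apply]
  apply Finset.sum_eq_zero
  intro i _
  have h6 : ψ (Pi.single i 1) = 0 := by
    have := h5 i
    exact pow_eq_zero_iff (by omega) |>.1 this
  have h7 : (fun j => if i = j then (1 : F) else 0) = Pi.single i 1 := by
    funext j
    rw [Pi.single_apply]
    simp only [eq_comm]
  rw [h7, h6, smul_zero]

theorem card_sol (hF : Fintype.card F = q ^ 2) {κ : Type*} [Fintype κ] (u : κ → (Fin n → F))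
    (hu : LinearIndependent F u) (c : κ → F) :
    Nat.card {y : Fin n → F // ∀ i, hermForm n F q y (u i) = c i} =
      (q ^ 2) ^ (n - Fintype.card κ) := by
  have e : {y : Fin n → F // ∀ i, hermForm n F q y (u i) = c i} ≃
      {y : Fin n → F // (LinearMap.pi (fun i => hL q (u i)) : (Fin n → F) →ₗ[F] (κ → F)) y = c} :=
    Equiv.subtypeEquivRight (fun y => by rw [funext_iff]; rfl)
  rw [Nat.card_congr e, card_fiber _ (pi_surj hF u hu), Module.finrank_fintype_fun_eq_card,
    Module.finrank_fintype_fun_eq_card, Fintype.card_fin, hF]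

theorem exists_sol (hF : Fintype.card F = q ^ 2) {κ : Type*} [Fintype κ] (u : κ → (Fin n → F))
    (hu : LinearIndependent F u) (c : κ → F) : ∃ y : Fin n → F, ∀ i, hermForm n F q y (u i) = c i := by
  obtain ⟨y, hy⟩ := pi_surj hF u hu c
  exact ⟨y, fun i => congrFun hy i⟩

end Cfsg.Agent.Lib.Helper5_ULin
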