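import Mathlib
import Cfsg.Agent.Lib.Helper5_UField

set_option autoImplicit false

namespace Cfsg.Agent.Lib.Helper5_UTrace

open Cfsg.Agent.Lib.Helper5_UField

variable {F : Type*} [Field F] [Fintype F] {q : ℕ}

theorem range_pow_sub (hF : Fintype.card F = q ^ 2) :
    (powMonoidHom (q - 1) : Fˣ →* Fˣ).range = (powMonoidHom (q + 1) : Fˣ →* Fˣ).ker := by
  have h2 := two_le hF
  apply Subgroup.eq_of_le_of_card_ge
  · rintro _ ⟨x, rfl⟩
    rw [MonoidHom.mem_ker, powMonoidHom_apply, powMonoidHom_apply, ← pow_mul,
      ← card_units hF, pow_card_eq_one']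
  · rw [card_norm_one_units hF, IsCyclic.card_powMonoidHom_range, card_units hF,
      Nat.gcd_eq_right (Dvd.intro _ rfl), Nat.mul_div_cancel_left _ (by omega)]

/-- a nonzero element of trace zero -/
theorem exists_skew (hF : Fintype.card F = q ^ 2) : ∃ ε : F, ε ≠ 0 ∧ ε ^ q = -ε := by
  have h2 := two_le hF
  have h1 : (-1 : Fˣ) ∈ (powMonoidHom (q + 1) : Fˣ →* Fˣ).ker := by
    rw [MonoidHom.mem_ker, powMonoidHom_apply]
    apply Units.ext
    rw [Units.val_pow_eq_pow_val, Units.val_neg, Units.val_one, pow_succ, neg_pow hF, one_pow]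
    ring
  rw [← range_pow_sub hF] at h1
  obtain ⟨x, hx⟩ := h1
  refine ⟨x, x.ne_zero, ?_⟩
  have h3 : (x : F) ^ (q - 1) = -1 := by
    have := congrArg Units.val hx
    rwa [powMonoidHom_apply, Units.val_pow_eq_pow_val, Units.val_neg, Units.val_one] at this
  have h4 : (x : F) ^ q = (x : F) ^ ((q - 1) + 1) := by
    congr 1; omega
  rw [h4, pow_succ, h3]; ring

theorem card_fixed (hF : Fintype.card F = q ^ 2) : Nat.card {c : F // c ^ q = c} = q := by
  classical
  have h2 := two_le hF
  have h1 := card_fixed_ne_zero hF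
  have e : {c : F // c ^ q = c} ≃ Option {c : F // c ^ q = c ∧ c ≠ 0} :=
    { toFun := fun c => if h : c.1 = 0 then none else some ⟨c.1, c.2, h⟩
      invFun := fun o => o.elim ⟨0, zero_pow (by omega)⟩ (fun c => ⟨c.1, c.2.1⟩)
      left_inv := fun c => by
        by_cases h : c.1 = 0
        · simp only [h, dif_pos, Option.elim]
          exact Subtype.ext h.symm
        · simp only [h, dif_neg, not_false_eq_true, Option.elim]
      right_inv := fun o => by
        rcases o with _ | c
        · simp
        · simp [c.2.2] }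
  rw [Nat.card_congr e, Finite.card_option, h1]
  omega

/-- the trace as an additive map -/
def tr (hF : Fintype.card F = q ^ 2) : F →+ F where
  toFun x := x + x ^ q
  map_zero' := by
    have h2 := two_le hF
    rw [zero_pow (by omega), add_zero]
  map_add' x y := by
    rw [add_pow hF]; ring

theorem tr_apply (hF : Fintype.card F = q ^ 2) (x : F) : tr hF x = x + x ^ q := rfl

theorem card_ker_tr (hF : Fintype.card F = q ^ 2) : Nat.card (tr hF).ker = q := by
  obtain ⟨ε, hε0, hε⟩ := exists_skew hF
  refine Eq.trans ?_ (card_fixed hF)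
  apply Nat.card_congr
  exact
    { toFun := fun s => ⟨s.1 / ε, by
        have h1 : s.1 + s.1 ^ q = 0 := s.2
        have h2 : s.1 ^ q = - s.1 := eq_neg_of_add_eq_zero_right h1
        rw [div_pow, hε, h2, neg_div_neg_eq]⟩
      invFun := fun c => ⟨c.1 * ε, by
        change c.1 * ε + (c.1 * ε) ^ q = 0
        rw [mul_pow, c.2, hε]; ring⟩
      left_inv := fun s => Subtype.ext (by simp [hε0])
      right_inv := fun c => Subtype.ext (by simp [hε0]) }

theorem tr_fixed (hF : Fintype.card F = q ^ 2) (x : F) : (tr hF x) ^ q = tr hF x := by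
  rw [tr_apply, add_pow hF, pow_pow hF, add_comm]

theorem exists_tr (hF : Fintype.card F = q ^ 2) (c : F) (hc : c ^ q = c) : ∃ x, x + x ^ q = c := by
  classical
  have h2 := two_le hF
  have h1 : Nat.card (tr hF).range = q := by
    have h3 := AddSubgroup.index_mul_card (tr hF).ker
    rw [AddSubgroup.index_ker, card_ker_tr hF, Nat.card_eq_fintype_card (α := F), hF, sq] at h3
    exact Nat.eq_of_mul_eq_mul_right (by omega) h3
  have hsub : ((tr hF).range : Set F) ⊆ {c : F | c ^ q = c} := by
    rintro _ ⟨x, rfl⟩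
    exact tr_fixed hF x
  have heq : ((tr hF).range : Set F) = {c : F | c ^ q = c} := by
    apply Set.eq_of_subset_of_ncard_le hsub _ (Set.toFinite _)
    rw [← Nat.card_coe_set_eq, ← Nat.card_coe_set_eq]
    have h4 : Nat.card ({c : F | c ^ q = c} : Set F) = q := card_fixed hF
    have h5 : Nat.card ((tr hF).range : Set F) = q := h1
    rw [h4, h5]
  have : c ∈ ((tr hF).range : Set F) := by rw [heq]; exact hc
  obtain ⟨x, hx⟩ := this
  exact ⟨x, hx⟩

theorem card_tr_eq (hF : Fintype.card F = q ^ 2) (c : F) (hc : c ^ q = c) :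
    Nat.card {x : F // x + x ^ q = c} = q := by
  obtain ⟨x0, hx0⟩ := exists_tr hF c hc
  refine Eq.trans ?_ (card_ker_tr hF)
  apply Nat.card_congr
  exact
    { toFun := fun x => ⟨x.1 - x0, by
        change (x.1 - x0) + (x.1 - x0) ^ q = 0
        rw [sub_pow hF]
        have := x.2
        linear_combination this - hx0⟩
      invFun := fun s => ⟨s.1 + x0, by
        have h1 : s.1 + s.1 ^ q = 0 := s.2
        rw [add_pow hF]
        linear_combination h1 + hx0⟩
      left_inv := fun x => Subtype.ext (by simp)
      right_inv := fun s => Subtype.ext (by simp) }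

/-- the twisted version used for hermitian forms -/
theorem card_tr_twist (hF : Fintype.card F = q ^ 2) (t : F) (ht : t ≠ 0) (c : F) (hc : c ^ q = c) :
    Nat.card {s : F // s ^ q * t + s * t ^ q = c} = q := by
  refine Eq.trans ?_ (card_tr_eq hF c hc)
  have htq : t ^ q ≠ 0 := pow_ne_zero _ ht
  apply Nat.card_congr
  exact
    { toFun := fun s => ⟨s.1 * t ^ q, by
        have := s.2
        rw [mul_pow, pow_pow hF]
        linear_combination this⟩
      invFun := fun x => ⟨x.1 / t ^ q, by
        have := x.2
        rw [div_pow, pow_pow hF, div_mul_cancel₀ _ ht, div_mul_cancel₀ _ htq]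
        linear_combination this⟩
      left_inv := fun s => Subtype.ext (by simp [htq])
      right_inv := fun x => Subtype.ext (by simp [htq]) }

end Cfsg.Agent.Lib.Helper5_UTrace
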