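import Mathlib
import Cfsg.Prelude.Def_GeometricClasses
import Cfsg.Agent.Lib.Helper5_UGroup
import Cfsg.Agent.Lib.Helper5_ULin
import Cfsg.Agent.Lib.Helper5_UTrace
import Cfsg.Agent.Lib.Helper5_HermOver
import Cfsg.Agent.Lib.Helper5_GLTv

set_option autoImplicit false

namespace Cfsg.Agent.Lib.Helper5_UGen

open Matrix Cfsg Cfsg.Agent.Lib.Helper5_UField Cfsg.Agent.Lib.Helper5_UForm
  Cfsg.Agent.Lib.Helper5_UGroup Cfsg.Agent.Lib.Helper5_ULin Cfsg.Agent.Lib.Helper5_UTrace
  Cfsg.Agent.Lib.Helper5_GLPar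

variable {F : Type*} [Field F] [Fintype F] {q n : ℕ}

/-- the hermitian form as a sesquilinear map -/
noncomputable def hB (hF : Fintype.card F = q ^ 2) :
    (Fin n → F) →ₛₗ[sig hF] (Fin n → F) →ₗ[F] F :=
  LinearMap.mk₂'ₛₗ (sig hF) (RingHom.id F) (fun x y => hermForm n F q y x)
    (fun x x' y => add_right hF y x x')
    (fun c x y => by rw [smul_right, sig_apply, smul_eq_mul])
    (fun x y y' => add_left y y' x)
    (fun c x y => by rw [smul_left]; rfl)

theorem hB_apply (hF : Fintype.card F = q ^ 2) (x y : Fin n → F) :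
    hB hF x y = hermForm n F q y x := rfl

theorem sig_ne (hF : Fintype.card F = q ^ 2) : sig hF ≠ RingHom.id F := by
  intro h
  obtain ⟨ε, hε0, hε⟩ := exists_skew hF
  obtain ⟨a, ha, ha1⟩ := exists_norm_one_ne_one hF
  have h1 : ∀ x : F, x ^ q = x := fun x => by
    rw [← sig_apply hF, h]; rfl
  have h2 := card_fixed hF
  have h3 : Nat.card {c : F // c ^ q = c} = Nat.card F :=
    Nat.card_congr (Equiv.subtypeUnivEquiv h1)
  rw [h2, Nat.card_eq_fintype_card, hF] at h3
  have := two_le hF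
  nlinarith

/-- vectors of prescribed norm orthogonal to a few given vectors -/
theorem exNU (hF : Fintype.card F = q ^ 2) {k : ℕ} (u : Fin k → Fin n → F) (hk : 2 * k < n)
    (ν : F) (hν : ν ^ q = ν) :
    ∃ z, (∀ i, hermForm n F q z (u i) = 0) ∧ hermForm n F q z z = ν := by
  have hS : (hB hF : (Fin n → F) →ₛₗ[sig hF] (Fin n → F) →ₗ[F] F).IsSymm :=
    ⟨fun x y => by rw [hB_apply, hB_apply, sig_apply, conj hF]⟩
  have hN : (hB hF : (Fin n → F) →ₛₗ[sig hF] (Fin n → F) →ₗ[F] F).Nondegenerate := by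
    constructor
    · intro x hx
      exact nondeg_right hF x hx
    · intro y hy
      exact nondeg_left hF y hy
  obtain ⟨z, hz, hzz⟩ := Cfsg.Agent.Lib.Helper5_HermOver.exN (sig_ne hF) (sig_sig hF) (hB hF) hS hN u
    (by rw [Fintype.card_fin]; exact hk) ν (by rw [sig_apply]; exact hν)
  exact ⟨z, hz, hzz⟩

theorem gl_ext (g g' : Matrix.GeneralLinearGroup (Fin n) F)
    (h : ∀ v, (g : Matrix (Fin n) (Fin n) F) *ᵥ v = (g' : Matrix (Fin n) (Fin n) F) *ᵥ v) :
    g = g' := by
  apply Units.ext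
  apply Matrix.toLin'.injective
  apply LinearMap.ext
  intro v
  rw [Matrix.toLin'_apply, Matrix.toLin'_apply]
  exact h v

theorem gl_mul_mulVec (g g' : Matrix.GeneralLinearGroup (Fin n) F) (v : Fin n → F) :
    ((g * g' : Matrix.GeneralLinearGroup (Fin n) F) : Matrix (Fin n) (Fin n) F) *ᵥ v =
      (g : Matrix (Fin n) (Fin n) F) *ᵥ ((g' : Matrix (Fin n) (Fin n) F) *ᵥ v) := by
  rw [Units.val_mul, Matrix.mulVec_mulVec]

/-- `g` acts as the pseudo-reflection `z ↦ z + c h(z,d) d` -/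
def IsPr (q : ℕ) (g : Matrix.GeneralLinearGroup (Fin n) F) (d : Fin n → F) (c : F) : Prop :=
  c + c ^ q + c ^ (q + 1) * hermForm n F q d d = 0 ∧
    ∀ z, (g : Matrix (Fin n) (Fin n) F) *ᵥ z = z + (c * hermForm n F q z d) • d

/-- `g` acts as a unitary transvection -/
def IsTv (q : ℕ) (g : Matrix.GeneralLinearGroup (Fin n) F) (d : Fin n → F) (c : F) : Prop :=
  hermForm n F q d d = 0 ∧ c + c ^ q = 0 ∧
    ∀ z, (g : Matrix (Fin n) (Fin n) F) *ᵥ z = z + (c * hermForm n F q z d) • d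

theorem IsTv.isPr {g : Matrix.GeneralLinearGroup (Fin n) F} {d : Fin n → F} {c : F}
    (h : IsTv q g d c) : IsPr q g d c :=
  ⟨by rw [h.1, mul_zero, add_zero]; exact h.2.1, h.2.2⟩

theorem exists_pr (hF : Fintype.card F = q ^ 2) (d : Fin n → F) (c : F)
    (hc : c + c ^ q + c ^ (q + 1) * hermForm n F q d d = 0) :
    ∃ g : Matrix.GeneralLinearGroup (Fin n) F, IsPr q g d c :=
  ⟨(mkGU hF (unitaryTransvection n q d c) (ut_pres hF d c hc)).1, hc, fun z => ut_mulVec d c z⟩

theorem exists_tv (hF : Fintype.card F = q ^ 2) (d : Fin n → F) (c : F)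
    (hd : hermForm n F q d d = 0) (hc : c + c ^ q = 0) :
    ∃ g : Matrix.GeneralLinearGroup (Fin n) F, IsTv q g d c := by
  obtain ⟨g, hg⟩ := exists_pr hF d c (by rw [hd, mul_zero, add_zero]; exact hc)
  exact ⟨g, hd, hc, hg.2⟩

theorem IsPr.mem_GU (hF : Fintype.card F = q ^ 2) {g : Matrix.GeneralLinearGroup (Fin n) F}
    {d : Fin n → F} {c : F} (h : IsPr q g d c) : g ∈ GU n F q := by
  intro x y
  have := ut_pres hF d c h.1 x y
  rw [ut_mulVec, ut_mulVec] at this
  change hermForm n F q ((g : Matrix (Fin n) (Fin n) F) *ᵥ x)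
    ((g : Matrix (Fin n) (Fin n) F) *ᵥ y) = _
  rw [h.2, h.2]
  exact this

theorem IsTv.mem_SL {g : Matrix.GeneralLinearGroup (Fin n) F}
    {d : Fin n → F} {c : F} (h : IsTv q g d c) : g ∈ Cfsg.Geo.specialLinear (Fin n) F := by
  rw [Cfsg.Agent.Lib.Helper5_GLTv.mem_SL_iff]
  have hdot : (fun j => d j ^ q) ⬝ᵥ (c • d) = 0 := by
    rw [dotProduct_smul, smul_eq_mul]
    have : (fun j => d j ^ q) ⬝ᵥ d = hermForm n F q d d := by
      rw [dotProduct, hermForm]
      exact Finset.sum_congr rfl (fun i _ => mul_comm _ _)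
    rw [this, h.1, mul_zero]
  have : (g : Matrix (Fin n) (Fin n) F) =
      Cfsg.Agent.Lib.Helper5_GLTv.tvM (c • d) (fun j => d j ^ q) := by
    apply Matrix.toLin'.injective
    apply LinearMap.ext
    intro v
    rw [Matrix.toLin'_apply, Matrix.toLin'_apply, h.2.2,
      Cfsg.Agent.Lib.Helper5_GLTv.tvM_mulVec, smul_smul]
    congr 2
    rw [mul_comm]
    congr 1
    rw [dotProduct, hermForm]
    exact Finset.sum_congr rfl (fun i _ => mul_comm _ _)
  rw [this]
  exact Cfsg.Agent.Lib.Helper5_GLTv.det_tvM _ _ hdot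

theorem gu_form {g : Matrix.GeneralLinearGroup (Fin n) F} (hg : g ∈ GU n F q)
    (x y : Fin n → F) : hermForm n F q ((g : Matrix (Fin n) (Fin n) F) *ᵥ x)
      ((g : Matrix (Fin n) (Fin n) F) *ᵥ y) = hermForm n F q x y := hg x y

theorem gu_inv_form {g : Matrix.GeneralLinearGroup (Fin n) F} (hg : g ∈ GU n F q)
    (x y : Fin n → F) :
    hermForm n F q (((g⁻¹ : Matrix.GeneralLinearGroup (Fin n) F) : Matrix (Fin n) (Fin n) F) *ᵥ x) y
      = hermForm n F q x ((g : Matrix (Fin n) (Fin n) F) *ᵥ y) := by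
  rw [← gu_form hg, gl_mulVec_inv]

theorem IsPr.conj {g t : Matrix.GeneralLinearGroup (Fin n) F} (hg : g ∈ GU n F q)
    {d : Fin n → F} {c : F} (h : IsPr q t d c) :
    IsPr q (g * t * g⁻¹) ((g : Matrix (Fin n) (Fin n) F) *ᵥ d) c := by
  refine ⟨by rw [gu_form hg]; exact h.1, fun z => ?_⟩
  rw [gl_mul_mulVec, gl_mul_mulVec, h.2, mulVec_add, gl_mulVec_inv, mulVec_smul, gu_inv_form hg]

theorem IsTv.conj {g t : Matrix.GeneralLinearGroup (Fin n) F} (hg : g ∈ GU n F q)
    {d : Fin n → F} {c : F} (h : IsTv q t d c) :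
    IsTv q (g * t * g⁻¹) ((g : Matrix (Fin n) (Fin n) F) *ᵥ d) c :=
  ⟨by rw [gu_form hg]; exact h.1, h.2.1, (h.isPr.conj hg).2⟩

/-- the subgroup generated by the unitary transvections -/
def T (F : Type*) [Field F] (q n : ℕ) : Subgroup (Matrix.GeneralLinearGroup (Fin n) F) :=
  Subgroup.closure {g | ∃ d c, IsTv q g d c}

theorem IsTv.mem_T {g : Matrix.GeneralLinearGroup (Fin n) F} {d : Fin n → F} {c : F}
    (h : IsTv q g d c) : g ∈ T F q n := Subgroup.subset_closure ⟨d, c, h⟩

theorem T_le_GU (hF : Fintype.card F = q ^ 2) : T F q n ≤ GU n F q := by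
  unfold T
  rw [Subgroup.closure_le]
  rintro g ⟨d, c, h⟩
  exact h.isPr.mem_GU hF

theorem T_le_SL : T F q n ≤ Cfsg.Geo.specialLinear (Fin n) F := by
  unfold T
  rw [Subgroup.closure_le]
  rintro g ⟨d, c, h⟩
  exact h.mem_SL

theorem T_conj {g : Matrix.GeneralLinearGroup (Fin n) F} (hg : g ∈ GU n F q)
    {t : Matrix.GeneralLinearGroup (Fin n) F} (ht : t ∈ T F q n) : g * t * g⁻¹ ∈ T F q n := by
  unfold T at ht
  induction ht using Subgroup.closure_induction with
  | mem x hx =>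
    obtain ⟨d, c, h⟩ := hx
    exact (h.conj hg).mem_T
  | one => simp only [mul_one, mul_inv_cancel]; exact Subgroup.one_mem _
  | mul x y _ _ hx hy =>
    have : g * (x * y) * g⁻¹ = (g * x * g⁻¹) * (g * y * g⁻¹) := by group
    rw [this]
    exact Subgroup.mul_mem _ hx hy
  | inv x _ hx =>
    have : g * x⁻¹ * g⁻¹ = (g * x * g⁻¹)⁻¹ := by group
    rw [this]
    exact Subgroup.inv_mem _ hx

/-- the pseudo-reflection moving `u` to `v`, generic case -/
theorem move1 (hF : Fintype.card F = q ^ 2) (u v : Fin n → F)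
    (huv : hermForm n F q u u = hermForm n F q v v)
    (ht : hermForm n F q u (u - v) ≠ 0) :
    ∃ g c, IsPr q g (u - v) c ∧ (g : Matrix (Fin n) (Fin n) F) *ᵥ u = v := by
  obtain ⟨t, htdef⟩ : ∃ t, t = hermForm n F q u (u - v) := ⟨_, rfl⟩
  rw [← htdef] at ht
  have hdd : hermForm n F q (u - v) (u - v) = t + t ^ q := by
    rw [htdef, conj hF, sub_left u v (u - v), sub_right hF u u v, sub_right hF v u v, sub_left u v u,
      huv]
    ring
  obtain ⟨g, hg⟩ := exists_pr hF (u - v) (-t⁻¹) (by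
    rw [hdd, pow_succ, neg_pow hF, inv_pow]
    have ht' : t ^ q ≠ 0 := pow_ne_zero _ ht
    field_simp
    ring)
  refine ⟨g, _, hg, ?_⟩
  rw [hg.2, ← htdef, neg_mul, inv_mul_cancel₀ ht, neg_smul, one_smul]
  abel

/-- one transvection step -/
theorem tstep (hF : Fintype.card F = q ^ 2) (u v : Fin n → F)
    (huv : hermForm n F q u u = hermForm n F q v v)
    (hd : hermForm n F q (u - v) (u - v) = 0)
    (ht : hermForm n F q u (u - v) ≠ 0) :
    ∃ g ∈ T F q n, (g : Matrix (Fin n) (Fin n) F) *ᵥ u = v := by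
  obtain ⟨g, c, hg, hgu⟩ := move1 hF u v huv ht
  have h1 := hg.1
  rw [hd, mul_zero, add_zero] at h1
  exact ⟨g, IsTv.mem_T ⟨hd, h1, hg.2⟩, hgu⟩

theorem li_pair (hF : Fintype.card F = q ^ 2) (u w : Fin n → F) (hu : hermForm n F q u u = 1)
    (hw : hermForm n F q w w = 1) (huw : hermForm n F q w u = 0) :
    LinearIndependent F ![u, w] := by
  have hwu : hermForm n F q u w = 0 := by
    rw [← conj hF, huw, zero_pow]
    have := two_le hF
    omega
  rw [LinearIndependent.pair_iff]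
  intro s t hst
  constructor
  · have := congrArg (fun x => hermForm n F q x u) hst
    simp only [add_left, smul_left, hu, huw, zero_left] at this
    simpa using this
  · have := congrArg (fun x => hermForm n F q x w) hst
    simp only [add_left, smul_left, hw, hwu, zero_left] at this
    simpa using this

/-- two transvection steps between independent unit vectors -/
theorem tstep2 (hF : Fintype.card F = q ^ 2) (hn : 7 ≤ n) (u v : Fin n → F)
    (hu : hermForm n F q u u = 1) (hv : hermForm n F q v v = 1)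
    (hli : LinearIndependent F ![u, v]) :
    ∃ g ∈ T F q n, (g : Matrix (Fin n) (Fin n) F) *ᵥ u = v := by
  obtain ⟨ε, hε0, hε⟩ := exists_skew hF
  obtain ⟨w0, hw0⟩ := exists_sol hF ![u, v] hli (fun _ => 1 + ε)
  have hw0u : hermForm n F q w0 u = 1 + ε := hw0 0
  have hw0v : hermForm n F q w0 v = 1 + ε := hw0 1
  obtain ⟨z, hz, hzz⟩ := exNU hF ![u, v, w0] (by omega) (1 - hermForm n F q w0 w0)
    (by rw [sub_pow hF, one_pow, self_fixed hF])
  have hzu : hermForm n F q z u = 0 := hz 0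
  have hzv : hermForm n F q z v = 0 := hz 1
  have hzw : hermForm n F q z w0 = 0 := hz 2
  have hwz : hermForm n F q w0 z = 0 := by
    rw [← conj hF, hzw, zero_pow]
    have := two_le hF
    omega
  obtain ⟨w, hwdef⟩ : ∃ w, w = w0 + z := ⟨_, rfl⟩
  have hww : hermForm n F q w w = 1 := by
    rw [hwdef, add_left, add_right hF, add_right hF, hwz, hzw, hzz]
    ring
  have hwu : hermForm n F q w u = 1 + ε := by rw [hwdef, add_left, hw0u, hzu, add_zero]
  have hwv : hermForm n F q w v = 1 + ε := by rw [hwdef, add_left, hw0v, hzv, add_zero]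
  have huw : hermForm n F q u w = 1 - ε := by
    rw [← conj hF, hwu, add_pow hF, one_pow, hε]; ring
  have hvw : hermForm n F q v w = 1 - ε := by
    rw [← conj hF, hwv, add_pow hF, one_pow, hε]; ring
  obtain ⟨g1, hg1, hg1u⟩ := tstep hF u w (by rw [hu, hww])
    (by rw [sub_left, sub_right hF, sub_right hF, hu, huw, hwu, hww]; ring)
    (by rw [sub_right hF, hu, huw]; simpa using hε0)
  obtain ⟨g2, hg2, hg2w⟩ := tstep hF w v (by rw [hv, hww])
    (by rw [sub_left, sub_right hF, sub_right hF, hv, hvw, hwv, hww]; ring)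
    (by rw [sub_right hF, hww, hwv]; simpa using hε0)
  exact ⟨g2 * g1, Subgroup.mul_mem _ hg2 hg1, by rw [gl_mul_mulVec, hg1u, hg2w]⟩

/-- the transvection group is transitive on unit vectors -/
theorem ttrans (hF : Fintype.card F = q ^ 2) (hn : 7 ≤ n) (u v : Fin n → F)
    (hu : hermForm n F q u u = 1) (hv : hermForm n F q v v = 1) :
    ∃ g ∈ T F q n, (g : Matrix (Fin n) (Fin n) F) *ᵥ u = v := by
  obtain ⟨w, hw, hww⟩ := exNU hF ![u, v] (by omega) 1 (one_pow _)
  have hwu : hermForm n F q w u = 0 := hw 0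
  have hwv : hermForm n F q w v = 0 := hw 1
  have hvw : hermForm n F q v w = 0 := by
    rw [← conj hF, hwv, zero_pow]
    have := two_le hF
    omega
  obtain ⟨g1, hg1, hg1u⟩ := tstep2 hF hn u w hu hww (li_pair hF u w hu hww hwu)
  obtain ⟨g2, hg2, hg2w⟩ := tstep2 hF hn w v hww hv (li_pair hF w v hww hv hvw)
  exact ⟨g2 * g1, Subgroup.mul_mem _ hg2 hg1, by rw [gl_mul_mulVec, hg1u, hg2w]⟩

/-- the unitary maps fixing the hyperplane orthogonal to a basis vector -/
def R0 (F : Type*) [Field F] (q : ℕ) {n : ℕ} (i0 : Fin n) :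
    Subgroup (Matrix.GeneralLinearGroup (Fin n) F) where
  carrier := {g | g ∈ GU n F q ∧ ∀ z, hermForm n F q z (Pi.single i0 1) = 0 →
    (g : Matrix (Fin n) (Fin n) F) *ᵥ z = z}
  mul_mem' {a b} ha hb := ⟨Subgroup.mul_mem _ ha.1 hb.1, fun z hz => by
    rw [Units.val_mul, ← Matrix.mulVec_mulVec, hb.2 z hz, ha.2 z hz]⟩
  one_mem' := ⟨Subgroup.one_mem _, fun z _ => by rw [Units.val_one, Matrix.one_mulVec]⟩
  inv_mem' {a} ha := ⟨Subgroup.inv_mem _ ha.1, fun z hz => by
    conv_lhs => rw [← ha.2 z hz]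
    rw [Matrix.mulVec_mulVec, ← Units.val_mul, inv_mul_cancel, Units.val_one, Matrix.one_mulVec]⟩

/-- the product `T R0` -/
def N (F : Type*) [Field F] [Fintype F] (q : ℕ) {n : ℕ} (i0 : Fin n) :
    Subgroup (Matrix.GeneralLinearGroup (Fin n) F) where
  carrier := {g | ∃ t ∈ T F q n, ∃ r ∈ R0 F q i0, g = t * r}
  mul_mem' {a b} ha hb := by
    obtain ⟨t, ht, r, hr, rfl⟩ := ha
    obtain ⟨t', ht', r', hr', rfl⟩ := hb
    refine ⟨t * (r * t' * r⁻¹), Subgroup.mul_mem _ ht (T_conj hr.1 ht'), r * r',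
      Subgroup.mul_mem _ hr hr', by group⟩
  one_mem' := ⟨1, Subgroup.one_mem _, 1, Subgroup.one_mem _, by group⟩
  inv_mem' {a} ha := by
    obtain ⟨t, ht, r, hr, rfl⟩ := ha
    refine ⟨r⁻¹ * t⁻¹ * (r⁻¹)⁻¹, T_conj (Subgroup.inv_mem _ hr.1) (Subgroup.inv_mem _ ht), r⁻¹,
      Subgroup.inv_mem _ hr, by group⟩

theorem T_le_N (i0 : Fin n) : T F q n ≤ N F q i0 :=
  fun t ht => ⟨t, ht, 1, Subgroup.one_mem _, by group⟩

theorem R0_le_N (i0 : Fin n) : R0 F q i0 ≤ N F q i0 :=
  fun r hr => ⟨1, Subgroup.one_mem _, r, hr, by group⟩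

theorem IsPr.mem_N (hF : Fintype.card F = q ^ 2) (hn : 7 ≤ n) (i0 : Fin n)
    {g : Matrix.GeneralLinearGroup (Fin n) F} {d : Fin n → F} {c : F} (h : IsPr q g d c) :
    g ∈ N F q i0 := by
  by_cases hd : hermForm n F q d d = 0
  · apply T_le_N
    have h1 := h.1
    rw [hd, mul_zero, add_zero] at h1
    exact IsTv.mem_T ⟨hd, h1, h.2⟩
  · obtain ⟨l, hl⟩ := exists_norm hF _ (self_fixed hF d)
    have hl0 : l ≠ 0 := by
      rintro rfl
      rw [zero_pow (Nat.succ_ne_zero q)] at hl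
      exact hd hl.symm
    have hd' : hermForm n F q (l⁻¹ • d) (l⁻¹ • d) = 1 := by
      rw [self_smul, ← hl, inv_pow, inv_mul_cancel₀ (pow_ne_zero _ hl0)]
    have he : hermForm n F q (Pi.single i0 1 : Fin n → F) (Pi.single i0 1) = 1 := by
      rw [single_right hF, Pi.single_eq_same]
    obtain ⟨t, ht, htd⟩ := ttrans hF hn _ _ hd' he
    have htd' : (t : Matrix (Fin n) (Fin n) F) *ᵥ d = l • (Pi.single i0 1 : Fin n → F) := by
      rw [← htd, mulVec_smul, smul_smul, mul_inv_cancel₀ hl0, one_smul]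
    have htG := T_le_GU hF ht
    have hr : t * g * t⁻¹ ∈ R0 F q i0 := by
      have hc := h.conj htG
      refine ⟨hc.mem_GU hF, fun z hz => ?_⟩
      rw [hc.2, htd', smul_right, hz, mul_zero, mul_zero, zero_smul, add_zero]
    have : g = t⁻¹ * (t * g * t⁻¹) * t := by group
    rw [this]
    exact Subgroup.mul_mem _ (Subgroup.mul_mem _ (Subgroup.inv_mem _ (T_le_N i0 ht))
      (R0_le_N i0 hr)) (T_le_N i0 ht)

/-- moving a unit vector to another inside `N`, fixing what is orthogonal to both -/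
theorem move_unit (hF : Fintype.card F = q ^ 2) (hn : 7 ≤ n) (i0 : Fin n) (u v : Fin n → F)
    (hu : hermForm n F q u u = 1) (hv : hermForm n F q v v = 1) :
    ∃ s ∈ N F q i0, s ∈ GU n F q ∧ (s : Matrix (Fin n) (Fin n) F) *ᵥ u = v ∧
      ∀ z, hermForm n F q z u = 0 → hermForm n F q z v = 0 →
        (s : Matrix (Fin n) (Fin n) F) *ᵥ z = z := by
  by_cases ht : hermForm n F q u (u - v) = 0
  · obtain ⟨a, ha, ha1⟩ := exists_norm_one_ne_one hF
    have h1 : hermForm n F q u v = 1 := by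
      rw [sub_right hF, hu, sub_eq_zero] at ht
      exact ht.symm
    have h2 : hermForm n F q (a • u) (a • u) = hermForm n F q v v := by
      rw [self_smul, ha, hu, hv, one_mul]
    have h3 : hermForm n F q (a • u) (a • u - v) ≠ 0 := by
      rw [sub_right hF, self_smul, ha, hu, smul_left, h1, one_mul, mul_one]
      exact sub_ne_zero.2 (Ne.symm ha1)
    obtain ⟨g, c, hg, hgu⟩ := move1 hF (a • u) v h2 h3
    obtain ⟨r, hr⟩ := exists_pr hF u (a - 1) (by
      rw [hu, mul_one, sub_pow hF, one_pow]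
      have : (a - 1) ^ (q + 1) = (a ^ q - 1) * (a - 1) := by
        rw [pow_succ, sub_pow hF, one_pow]
      rw [this]
      have h4 : a ^ q * a = 1 := by rw [← pow_succ]; exact ha
      linear_combination h4)
    refine ⟨g * r, Subgroup.mul_mem _ (hg.mem_N hF hn i0) (hr.mem_N hF hn i0),
      Subgroup.mul_mem _ (hg.mem_GU hF) (hr.mem_GU hF), ?_, fun z hzu hzv => ?_⟩
    · rw [gl_mul_mulVec, hr.2, hu, mul_one]
      have : u + (a - 1) • u = a • u := by module
      rw [this, hgu]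
    · rw [gl_mul_mulVec, hr.2, hzu, mul_zero, zero_smul, add_zero, hg.2, sub_right hF, smul_right,
        hzu, hzv, mul_zero, sub_zero, mul_zero, zero_smul, add_zero]
  · obtain ⟨g, c, hg, hgu⟩ := move1 hF u v (by rw [hu, hv]) ht
    refine ⟨g, hg.mem_N hF hn i0, hg.mem_GU hF, hgu, fun z hzu hzv => ?_⟩
    rw [hg.2, sub_right hF, hzu, hzv, sub_zero, mul_zero, zero_smul, add_zero]

theorem GU_le_N_aux (hF : Fintype.card F = q ^ 2) (hn : 7 ≤ n) (i0 : Fin n) (m : ℕ) :
    ∀ k, k + m = n → ∀ g ∈ GU n F q,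
      (∀ j : Fin n, j.val < k → (g : Matrix (Fin n) (Fin n) F) *ᵥ (Pi.single j 1) = Pi.single j 1) →
      g ∈ N F q i0 := by
  induction m with
  | zero =>
    intro k hk g _ hfix
    have : g = 1 := by
      apply Units.ext
      ext i j
      have := congrFun (hfix j (by have := j.2; omega)) i
      rw [Matrix.mulVec_single_one] at this
      rw [Units.val_one, Matrix.one_apply]
      rw [Matrix.col_apply] at this
      rw [this, Pi.single_apply]
    rw [this]
    exact Subgroup.one_mem _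
  | succ m ih =>
    intro k hk g hg hfix
    have hkn : k < n := by omega
    obtain ⟨jk, hjk⟩ : ∃ jk : Fin n, jk.val = k := ⟨⟨k, hkn⟩, rfl⟩
    have he : ∀ j : Fin n, hermForm n F q (Pi.single j 1 : Fin n → F) (Pi.single j 1) = 1 := by
      intro j
      rw [single_right hF, Pi.single_eq_same]
    have hee : ∀ j j' : Fin n, j ≠ j' →
        hermForm n F q (Pi.single j 1 : Fin n → F) (Pi.single j' 1) = 0 := by
      intro j j' hjj
      rw [single_right hF, Pi.single_eq_of_ne (Ne.symm hjj)]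
    obtain ⟨s, hsN, hsG, hsu, hsz⟩ := move_unit hF hn i0
      ((g : Matrix (Fin n) (Fin n) F) *ᵥ (Pi.single jk 1)) (Pi.single jk 1)
      (by rw [gu_form hg, he]) (he jk)
    have h1 : s * g ∈ N F q i0 := by
      apply ih (k + 1) (by omega) (s * g) (Subgroup.mul_mem _ hsG hg)
      intro j hj
      rw [gl_mul_mulVec]
      by_cases hjk' : j = jk
      · rw [hjk', hsu]
      · have hlt : j.val < k := by
          have : j.val ≠ k := fun h => hjk' (Fin.ext (by rw [h, hjk]))
          omega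
        rw [hfix j hlt]
        apply hsz
        · conv_lhs => rw [← hfix j hlt]
          rw [gu_form hg, hee j jk hjk']
        · exact hee j jk hjk'
    have : g = s⁻¹ * (s * g) := by group
    rw [this]
    exact Subgroup.mul_mem _ (Subgroup.inv_mem _ hsN) h1

theorem GU_le_N (hF : Fintype.card F = q ^ 2) (hn : 7 ≤ n) (i0 : Fin n) :
    GU n F q ≤ N F q i0 := fun g hg =>
  GU_le_N_aux hF hn i0 n 0 (by omega) g hg (fun j hj => absurd hj (by omega))

theorem R0_det (hF : Fintype.card F = q ^ 2) (i0 : Fin n)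
    (r : Matrix.GeneralLinearGroup (Fin n) F) (hr : r ∈ R0 F q i0)
    (hdet : (r : Matrix (Fin n) (Fin n) F).det = 1) : r = 1 := by
  classical
  have hee : ∀ j j' : Fin n, j ≠ j' →
      hermForm n F q (Pi.single j 1 : Fin n → F) (Pi.single j' 1) = 0 := by
    intro j j' hjj
    rw [single_right hF, Pi.single_eq_of_ne (Ne.symm hjj)]
  have hfix : ∀ j, j ≠ i0 → (r : Matrix (Fin n) (Fin n) F) *ᵥ (Pi.single j 1) = Pi.single j 1 :=
    fun j hj => hr.2 _ (hee j i0 hj)
  have hcol : ∀ j, j ≠ i0 → ((r : Matrix (Fin n) (Fin n) F) *ᵥ (Pi.single i0 1)) j = 0 := by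
    intro j hj
    rw [← single_right hF ((r : Matrix (Fin n) (Fin n) F) *ᵥ (Pi.single i0 1)) j, ← hfix j hj,
      gu_form hr.1, hee i0 j (Ne.symm hj)]
  have hmat : (r : Matrix (Fin n) (Fin n) F) =
      Matrix.diagonal (Function.update (fun _ => (1 : F)) i0
        ((r : Matrix (Fin n) (Fin n) F) i0 i0)) := by
    ext i j
    by_cases hj : j = i0
    · subst hj
      by_cases hi : i = j
      · subst hi
        rw [Matrix.diagonal_apply_eq, Function.update_self]
      · rw [Matrix.diagonal_apply_ne _ hi]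
        have := hcol i hi
        rwa [Matrix.mulVec_single_one, Matrix.col_apply] at this
    · have := congrFun (hfix j hj) i
      rw [Matrix.mulVec_single_one, Matrix.col_apply] at this
      rw [this, Matrix.diagonal_apply, Pi.single_apply]
      by_cases hi : i = j
      · subst hi
        simp [Function.update_of_ne hj]
      · simp [hi]
  have hdet' : (r : Matrix (Fin n) (Fin n) F) i0 i0 = 1 := by
    rw [hmat, Matrix.det_diagonal, Finset.prod_update_of_mem (Finset.mem_univ i0)] at hdet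
    simpa using hdet
  apply Units.ext
  rw [hmat, hdet', Units.val_one]
  have : Function.update (fun _ => (1 : F)) i0 1 = fun _ => 1 := by
    funext j
    by_cases hj : j = i0
    · rw [hj, Function.update_self]
    · rw [Function.update_of_ne hj]
  rw [this]
  exact Matrix.diagonal_one

/-- the special unitary group is generated by the unitary transvections -/
theorem SU_le_T (hF : Fintype.card F = q ^ 2) (hn : 7 ≤ n) :
    GU n F q ⊓ Cfsg.Geo.specialLinear (Fin n) F ≤ T F q n := by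
  intro g hg
  obtain ⟨t, ht, r, hr, rfl⟩ := GU_le_N hF hn (⟨0, by omega⟩ : Fin n) hg.1
  have h1 := (Cfsg.Agent.Lib.Helper5_GLTv.mem_SL_iff _).1 hg.2
  have h2 := (Cfsg.Agent.Lib.Helper5_GLTv.mem_SL_iff _).1 (T_le_SL ht)
  rw [Units.val_mul, Matrix.det_mul, h2, one_mul] at h1
  rw [R0_det hF _ r hr h1, mul_one]
  exact ht

/-- a subgroup containing all the unitary transvections contains `SU` -/
theorem SU_le_of_tv (hF : Fintype.card F = q ^ 2) (hn : 7 ≤ n)
    (M : Subgroup (Matrix.GeneralLinearGroup (Fin n) F))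
    (h : ∀ g d c, IsTv q g d c → g ∈ M) :
    GU n F q ⊓ Cfsg.Geo.specialLinear (Fin n) F ≤ M := by
  refine le_trans (SU_le_T hF hn) ?_
  unfold T
  rw [Subgroup.closure_le]
  rintro g ⟨d, c, hg⟩
  exact h g d c hg

end Cfsg.Agent.Lib.Helper5_UGen
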