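import Mathlib
import Cfsg.Agent.Lib.Helper5_ULin
import Cfsg.Agent.Lib.Helper5_UTrace
import Cfsg.Agent.Lib.Helper5_UCount

set_option autoImplicit false

namespace Cfsg.Agent.Lib.Helper5_UIso

open Module Cfsg Cfsg.Agent.Lib.Helper5_UField Cfsg.Agent.Lib.Helper5_UForm
  Cfsg.Agent.Lib.Helper5_FormCount Cfsg.Agent.Lib.Helper5_ULin Cfsg.Agent.Lib.Helper5_UTrace
  Cfsg.Agent.Lib.Helper5_UCount

variable {F : Type*} [Field F] [Fintype F] {q n k : ℕ}

/-- isotropic vectors orthogonal to a family -/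
noncomputable def NN (q : ℕ) (u : Fin k → (Fin n → F)) : ℕ :=
  Nat.card {y : Fin n → F // (∀ i, hermForm n F q y (u i) = 0) ∧ hermForm n F q y y = 0}

def PY (q : ℕ) (u : Fin k → (Fin n → F)) (e' : Fin n → F) (t : F) (y : Fin n → F) : Prop :=
  (∀ i, hermForm n F q y (u i) = 0) ∧ hermForm n F q y e' = t

theorem card_PY (hF : Fintype.card F = q ^ 2) (u : Fin k → (Fin n → F)) (e' : Fin n → F)
    (hli : LinearIndependent F (Fin.snoc u e' : Fin (k + 1) → (Fin n → F))) (t : F) :
    Nat.card {y // PY q u e' t y} = (q ^ 2) ^ (n - (k + 1)) := by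
  have h1 := card_sol hF _ hli (Fin.snoc (fun _ => 0) t : Fin (k + 1) → F)
  rw [Fintype.card_fin] at h1
  rw [← h1]
  apply Nat.card_congr
  apply Equiv.subtypeEquivRight
  intro y
  rw [Fin.forall_fin_succ']
  simp only [Fin.snoc_castSucc, Fin.snoc_last]
  rfl

theorem norm_add_smul (hF : Fintype.card F = q ^ 2) (y e' : Fin n → F) (s : F)
    (he' : hermForm n F q e' e' = 0) :
    hermForm n F q (y + s • e') (y + s • e') =
      hermForm n F q y y + (s ^ q * hermForm n F q y e' + s * (hermForm n F q y e') ^ q) := by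
  rw [add_left, add_right hF, add_right hF, smul_left, smul_left, smul_right, smul_right, he',
    conj hF y e']
  ring

theorem card_PY_iso (hF : Fintype.card F = q ^ 2) (u : Fin k → (Fin n → F)) (e' : Fin n → F)
    (hli : LinearIndependent F (Fin.snoc u e' : Fin (k + 1) → (Fin n → F)))
    (hu : ∀ i, hermForm n F q e' (u i) = 0) (he' : hermForm n F q e' e' = 0) (t : F) (ht : t ≠ 0) :
    q * Nat.card {y // PY q u e' t y ∧ hermForm n F q y y = 0} = (q ^ 2) ^ (n - (k + 1)) := by
  classical
  have h2 := two_le hF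
  have hshift : ∀ (y : Fin n → F) (s : F), PY q u e' t y → PY q u e' t (y + s • e') := by
    intro y s hy
    refine ⟨fun i => ?_, ?_⟩
    · rw [add_left, smul_left, hy.1, hu, mul_zero, add_zero]
    · rw [add_left, smul_left, hy.2, he', mul_zero, add_zero]
  let Z := {p : (Fin n → F) × F // PY q u e' t p.1 ∧
    hermForm n F q (p.1 + p.2 • e') (p.1 + p.2 • e') = 0}
  have e1 : Z ≃ Σ y : {y // PY q u e' t y},
      {s : F // s ^ q * t + s * t ^ q = - hermForm n F q y.1 y.1} :=
    { toFun := fun z => ⟨⟨z.1.1, z.2.1⟩, ⟨z.1.2, by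
        have h := z.2.2
        rw [norm_add_smul hF _ _ _ he', z.2.1.2] at h
        exact eq_neg_of_add_eq_zero_right h⟩⟩
      invFun := fun σ => ⟨(σ.1.1, σ.2.1), σ.1.2, by
        rw [norm_add_smul hF _ _ _ he', σ.1.2.2, σ.2.2, add_neg_cancel]⟩
      left_inv := fun z => rfl
      right_inv := fun σ => rfl }
  have e2 : Z ≃ {y // PY q u e' t y ∧ hermForm n F q y y = 0} × F :=
    { toFun := fun z => (⟨z.1.1 + z.1.2 • e', hshift _ _ z.2.1, z.2.2⟩, z.1.2)
      invFun := fun p => ⟨(p.1.1 + (-p.2) • e', p.2), hshift _ _ p.1.2.1, by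
        have : p.1.1 + (-p.2) • e' + p.2 • e' = p.1.1 := by
          rw [neg_smul, neg_add_cancel_right]
        rw [this]
        exact p.1.2.2⟩
      left_inv := fun z => by
        apply Subtype.ext
        apply Prod.ext
        · change z.1.1 + z.1.2 • e' + (-z.1.2) • e' = z.1.1
          rw [neg_smul, add_neg_cancel_right]
        · rfl
      right_inv := fun p => by
        apply Prod.ext
        · apply Subtype.ext
          change p.1.1 + (-p.2) • e' + p.2 • e' = p.1.1
          rw [neg_smul, neg_add_cancel_right]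
        · rfl }
  have h3 : Nat.card Z = (q ^ 2) ^ (n - (k + 1)) * q := by
    have : Fintype {y // PY q u e' t y} := Fintype.ofFinite _
    rw [Nat.card_congr e1, Nat.card_sigma, Finset.sum_congr rfl (fun y _ =>
      card_tr_twist hF t ht _ (by rw [neg_pow hF, self_fixed hF])), Finset.sum_const, Finset.card_univ,
      ← Nat.card_eq_fintype_card, card_PY hF u e' hli, smul_eq_mul]
  have h4 : Nat.card Z = Nat.card {y // PY q u e' t y ∧ hermForm n F q y y = 0} * q ^ 2 := by
    rw [Nat.card_congr e2, Nat.card_prod, Nat.card_eq_fintype_card (α := F), hF]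
  rw [h3] at h4
  apply Nat.eq_of_mul_eq_mul_right (show 0 < q by omega)
  rw [h4]; ring

/-- the recurrence for the number of isotropic vectors in the perp of an isotropic family -/
theorem NN_snoc (hF : Fintype.card F = q ^ 2) (u : Fin k → (Fin n → F)) (e' : Fin n → F)
    (hli : LinearIndependent F (Fin.snoc u e' : Fin (k + 1) → (Fin n → F)))
    (hu : ∀ i, hermForm n F q e' (u i) = 0) (he' : hermForm n F q e' e' = 0) :
    q * NN q u = q * NN q (Fin.snoc u e' : Fin (k + 1) → (Fin n → F)) +
      (q ^ 2 - 1) * (q ^ 2) ^ (n - (k + 1)) := by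
  classical
  have e : {y : Fin n → F // (∀ i, hermForm n F q y (u i) = 0) ∧ hermForm n F q y y = 0} ≃
      Σ t : F, {y // PY q u e' t y ∧ hermForm n F q y y = 0} :=
    { toFun := fun y => ⟨hermForm n F q y.1 e', ⟨y.1, ⟨y.2.1, rfl⟩, y.2.2⟩⟩
      invFun := fun σ => ⟨σ.2.1, σ.2.2.1.1, σ.2.2.2⟩
      left_inv := fun y => rfl
      right_inv := fun σ => by
        obtain ⟨t, y, ⟨hy1, hy2⟩, hy3⟩ := σ
        subst hy2
        rfl }
  have h0 : Nat.card {y // PY q u e' 0 y ∧ hermForm n F q y y = 0} =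
      NN q (Fin.snoc u e' : Fin (k + 1) → (Fin n → F)) := by
    apply Nat.card_congr
    apply Equiv.subtypeEquivRight
    intro y
    rw [Fin.forall_fin_succ']
    simp only [Fin.snoc_castSucc, Fin.snoc_last]
    rfl
  unfold NN at h0 ⊢
  rw [Nat.card_congr e, Nat.card_sigma, Fintype.sum_eq_add_sum_compl (0 : F), h0, mul_add,
    Finset.mul_sum]
  congr 1
  have h1 : ∀ t ∈ ({0}ᶜ : Finset F), q * Nat.card {y // PY q u e' t y ∧ hermForm n F q y y = 0} =
      (q ^ 2) ^ (n - (k + 1)) := by
    intro t ht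
    exact card_PY_iso hF u e' hli hu he' t (by simpa using ht)
  rw [Finset.sum_congr rfl h1, Finset.sum_const, Finset.card_compl, Finset.card_singleton, hF,
    smul_eq_mul]

theorem NN_zero (u : Fin 0 → (Fin n → F)) : NN q u = A F q n 0 := by
  apply Nat.card_congr
  apply Equiv.subtypeEquivRight
  intro y
  constructor
  · exact fun h => h.2
  · exact fun h => ⟨fun i => i.elim0, h⟩

end Cfsg.Agent.Lib.Helper5_UIso
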