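import Mathlib
import Cfsg.Agent.Lib.Helper5_UIso

set_option autoImplicit false

namespace Cfsg.Agent.Lib.Helper5_UIsoFam

open Module Cfsg Cfsg.Agent.Lib.Helper5_UField Cfsg.Agent.Lib.Helper5_UForm
  Cfsg.Agent.Lib.Helper5_FormCount Cfsg.Agent.Lib.Helper5_ULin Cfsg.Agent.Lib.Helper5_UTrace
  Cfsg.Agent.Lib.Helper5_UCount Cfsg.Agent.Lib.Helper5_UIso

variable {F : Type*} [Field F] [Fintype F] {q n : ℕ}

/-- independent totally isotropic families -/
def IsoU (q k : ℕ) (e : Fin k → (Fin n → F)) : Prop :=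
  LinearIndependent F e ∧ ∀ i j, hermForm n F q (e i) (e j) = 0

theorem herm_swap_zero (hF : Fintype.card F = q ^ 2) (u v : Fin n → F) (h : hermForm n F q u v = 0) :
    hermForm n F q v u = 0 := by
  have h2 := two_le hF
  rw [← conj hF, h, zero_pow (by omega)]

theorem isoU_snoc (hF : Fintype.card F = q ^ 2) (k : ℕ) (e : Fin k → (Fin n → F)) (y : Fin n → F) :
    IsoU q (k + 1) (Fin.snoc e y : Fin (k + 1) → (Fin n → F)) ↔
      IsoU q k e ∧ (((∀ i, hermForm n F q y (e i) = 0) ∧ hermForm n F q y y = 0) ∧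
        y ∉ Submodule.span F (Set.range e)) := by
  unfold IsoU
  rw [linearIndependent_finSnoc]
  constructor
  · rintro ⟨⟨h1, h2⟩, h3⟩
    refine ⟨⟨h1, fun i j => ?_⟩, ⟨fun i => ?_, ?_⟩, h2⟩
    · have := h3 i.castSucc j.castSucc
      rwa [Fin.snoc_castSucc, Fin.snoc_castSucc] at this
    · have := h3 (Fin.last k) i.castSucc
      rwa [Fin.snoc_castSucc, Fin.snoc_last] at this
    · have := h3 (Fin.last k) (Fin.last k)
      rwa [Fin.snoc_last] at this
  · rintro ⟨⟨h1, h3⟩, ⟨h4, h5⟩, h2⟩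
    refine ⟨⟨h1, h2⟩, fun i j => ?_⟩
    refine Fin.lastCases ?_ (fun i => ?_) i <;> refine Fin.lastCases ?_ (fun j => ?_) j
    · rw [Fin.snoc_last, h5]
    · rw [Fin.snoc_last, Fin.snoc_castSucc, h4]
    · rw [Fin.snoc_last, Fin.snoc_castSucc, herm_swap_zero hF _ _ (h4 i)]
    · rw [Fin.snoc_castSucc, Fin.snoc_castSucc, h3]

theorem NN_eq (hF : Fintype.card F = q ^ 2) (k : ℕ) (e : Fin k → (Fin n → F)) (he : IsoU q k e) :
    q * NN q e + (q ^ 2 - 1) * ∑ j ∈ Finset.range k, (q ^ 2) ^ (n - (j + 1)) = q * A F q n 0 := by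
  induction k with
  | zero => rw [NN_zero, Finset.range_zero, Finset.sum_empty, mul_zero, add_zero]
  | succ k ih =>
    have hsn : (Fin.snoc (Fin.init e) (e (Fin.last k)) : Fin (k + 1) → (Fin n → F)) = e :=
      Fin.snoc_init_self e
    rw [← hsn] at he
    have h1 := (isoU_snoc hF k _ _).1 he
    have h2 := NN_snoc hF (Fin.init e) (e (Fin.last k)) he.1 h1.2.1.1 h1.2.1.2
    rw [hsn] at h2
    rw [← ih _ h1.1, h2, Finset.sum_range_succ]
    ring

/-- the common value of `NN` on isotropic families of length `k` -/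
noncomputable def Nv (F : Type*) [Field F] (q n k : ℕ) : ℕ :=
  (q * A F q n 0 - (q ^ 2 - 1) * ∑ j ∈ Finset.range k, (q ^ 2) ^ (n - (j + 1))) / q

theorem NN_eq_Nv (hF : Fintype.card F = q ^ 2) (k : ℕ) (e : Fin k → (Fin n → F)) (he : IsoU q k e) :
    NN q e = Nv F q n k := by
  have h2 := two_le hF
  unfold Nv
  rw [← NN_eq hF k e he, Nat.add_sub_cancel, Nat.mul_div_cancel_left _ (by omega)]

theorem iso_span (hF : Fintype.card F = q ^ 2) (S : Set (Fin n → F))
    (h : ∀ a ∈ S, ∀ b ∈ S, hermForm n F q a b = 0) :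
    ∀ u ∈ Submodule.span F S, ∀ w ∈ Submodule.span F S, hermForm n F q u w = 0 := by
  have h1 : ∀ b ∈ S, Submodule.span F S ≤ LinearMap.ker (hL q b) :=
    fun b hb => Submodule.span_le.2 (fun a ha => h a ha b hb)
  intro u hu w hw
  have h2 : Submodule.span F S ≤ LinearMap.ker (hL q u) :=
    Submodule.span_le.2 (fun b hb => by
      change hermForm n F q b u = 0
      exact herm_swap_zero hF _ _ (h1 b hb hu))
  exact herm_swap_zero hF _ _ (h2 hw)

theorem card_ext (hF : Fintype.card F = q ^ 2) (k : ℕ) (e : Fin k → (Fin n → F)) (he : IsoU q k e) :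
    Nat.card {y // ((∀ i, hermForm n F q y (e i) = 0) ∧ hermForm n F q y y = 0) ∧
      y ∉ Submodule.span F (Set.range e)} = Nv F q n k - (q ^ 2) ^ k := by
  have hts := iso_span hF (Set.range e) (by
    rintro _ ⟨i, rfl⟩ _ ⟨j, rfl⟩
    exact he.2 i j)
  have hsub : ((Submodule.span F (Set.range e) : Submodule F (Fin n → F)) : Set (Fin n → F)) ⊆
      {y | (∀ i, hermForm n F q y (e i) = 0) ∧ hermForm n F q y y = 0} := by
    intro y hy
    exact ⟨fun i => hts y hy _ (Submodule.subset_span ⟨i, rfl⟩), hts y hy y hy⟩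
  have h1 : Nat.card {y // ((∀ i, hermForm n F q y (e i) = 0) ∧ hermForm n F q y y = 0) ∧
      y ∉ Submodule.span F (Set.range e)} =
      ({y | (∀ i, hermForm n F q y (e i) = 0) ∧ hermForm n F q y y = 0} \
        ((Submodule.span F (Set.range e) : Submodule F (Fin n → F)) : Set (Fin n → F))).ncard := by
    rw [← Nat.card_coe_set_eq]
    rfl
  rw [h1, Set.ncard_diff hsub (Set.toFinite _), ← Nat.card_coe_set_eq, ← Nat.card_coe_set_eq]
  congr 1
  · exact NN_eq_Nv hF k e he
  · have h2 : Nat.card (Submodule.span F (Set.range e)) = _ :=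
      Module.natCard_eq_pow_finrank (K := F)
    rw [finrank_span_eq_card he.1, Fintype.card_fin, Nat.card_eq_fintype_card (α := F), hF] at h2
    exact h2

theorem card_isoU (hF : Fintype.card F = q ^ 2) (k : ℕ) :
    Nat.card {e : Fin k → (Fin n → F) // IsoU q k e} =
      ∏ j ∈ Finset.range k, (Nv F q n j - (q ^ 2) ^ j) := by
  induction k with
  | zero =>
    have : Unique {e : Fin 0 → (Fin n → F) // IsoU q 0 e} :=
      ⟨⟨⟨fun i => i.elim0, linearIndependent_empty_type, fun i => i.elim0⟩⟩,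
        fun x => Subtype.ext (Subsingleton.elim _ _)⟩
    rw [Nat.card_unique, Finset.range_zero, Finset.prod_empty]
  | succ k ih =>
    rw [Finset.prod_range_succ, ← ih]
    exact card_snoc (IsoU q k) _ (IsoU q (k + 1)) (isoU_snoc hF k) _ (card_ext hF k)

end Cfsg.Agent.Lib.Helper5_UIsoFam
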