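import Mathlib
import Cfsg.Prelude.Def_GeometricClasses
import Cfsg.Agent.Lib.Helper5_UGen

set_option autoImplicit false

namespace Cfsg.Agent.Lib.Helper5_USub

open Matrix Cfsg Cfsg.Agent.Lib.Helper5_UField Cfsg.Agent.Lib.Helper5_UForm
  Cfsg.Agent.Lib.Helper5_UGroup Cfsg.Agent.Lib.Helper5_ULin Cfsg.Agent.Lib.Helper5_UTrace
  Cfsg.Agent.Lib.Helper5_GLPar Cfsg.Agent.Lib.Helper5_UGen

variable {F : Type*} [Field F] [Fintype F] {q n : ℕ}

/-- a rational symplectic structure inside the unitary space -/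
structure Rat (q : ℕ) (V0 : Set (Fin n → F)) (ζ l : F) : Prop where
  zero : (0 : Fin n → F) ∈ V0
  add : ∀ x ∈ V0, ∀ y ∈ V0, x + y ∈ V0
  smul : ∀ c : F, c ^ q = c → ∀ x ∈ V0, c • x ∈ V0
  form : ∀ x ∈ V0, ∀ y ∈ V0, (ζ * hermForm n F q x y) ^ q = ζ * hermForm n F q x y
  alt : ∀ x ∈ V0, hermForm n F q x x = 0
  dec : ∀ x, ∃ x1 ∈ V0, ∃ x2 ∈ V0, x = x1 + l • x2
  z0 : ζ ≠ 0
  zs : ζ + ζ ^ q = 0
  l0 : l ^ q ≠ l

variable {V0 : Set (Fin n → F)} {ζ l : F}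

theorem Rat.sub (hF : Fintype.card F = q ^ 2) (R : Rat q V0 ζ l) (x y : Fin n → F) (hx : x ∈ V0)
    (hy : y ∈ V0) : x - y ∈ V0 := by
  have : x - y = x + (-1 : F) • y := by module
  rw [this]
  exact R.add x hx _ (R.smul (-1) (by rw [neg_pow hF, one_pow]) y hy)

theorem Rat.skew (hF : Fintype.card F = q ^ 2) (R : Rat q V0 ζ l) (x y : Fin n → F) (hx : x ∈ V0)
    (hy : y ∈ V0) : hermForm n F q y x = - hermForm n F q x y := by
  have h := R.alt (x + y) (R.add x hx y hy)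
  rw [add_left, add_right hF, add_right hF, R.alt x hx, R.alt y hy] at h
  linear_combination h

theorem Rat.nd (hF : Fintype.card F = q ^ 2) (R : Rat q V0 ζ l) (x : Fin n → F)
    (hx0 : x ≠ 0) : ∃ y ∈ V0, hermForm n F q x y ≠ 0 := by
  by_contra hc
  push Not at hc
  apply hx0
  apply nondeg_left hF
  intro v
  obtain ⟨v1, hv1, v2, hv2, rfl⟩ := R.dec v
  rw [add_right hF, smul_right, hc v1 hv1, hc v2 hv2, mul_zero, add_zero]

theorem ne_swap (hF : Fintype.card F = q ^ 2) {x y : Fin n → F} (h : hermForm n F q x y ≠ 0) :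
    hermForm n F q y x ≠ 0 := by
  rw [← conj hF]
  exact pow_ne_zero _ h

theorem zero_swap (hF : Fintype.card F = q ^ 2) {x y : Fin n → F} (h : hermForm n F q x y = 0) :
    hermForm n F q y x = 0 := by
  rw [← conj hF, h, zero_pow]
  have := two_le hF
  omega

/-- all the transvections with centre `x` lie in `M` -/
def Sm (q : ℕ) (M : Subgroup (Matrix.GeneralLinearGroup (Fin n) F)) (x : Fin n → F) : Prop :=
  ∀ g c, IsTv q g x c → g ∈ M

theorem Sm.map {M : Subgroup (Matrix.GeneralLinearGroup (Fin n) F)} {x : Fin n → F}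
    (hx : Sm q M x) (p : Matrix.GeneralLinearGroup (Fin n) F) (hp : p ∈ M) (hpG : p ∈ GU n F q) :
    Sm q M ((p : Matrix (Fin n) (Fin n) F) *ᵥ x) := by
  intro g c hg
  have h1 := hg.conj (Subgroup.inv_mem _ hpG)
  rw [gl_inv_mulVec] at h1
  have h2 := hx _ _ h1
  have : g = p * (p⁻¹ * g * p⁻¹⁻¹) * p⁻¹ := by group
  rw [this]
  exact M.mul_mem (M.mul_mem hp h2) (M.inv_mem hp)

theorem Sm.smul (hF : Fintype.card F = q ^ 2)
    {M : Subgroup (Matrix.GeneralLinearGroup (Fin n) F)} {x : Fin n → F}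
    (hx : Sm q M x) (μ : F) : Sm q M (μ • x) := by
  intro g c hg
  by_cases hμ : μ = 0
  · have : g = 1 := by
      apply gl_ext
      intro v
      rw [hg.2.2, hμ, zero_smul, smul_zero, add_zero, Units.val_one, one_mulVec]
    rw [this]
    exact M.one_mem
  · apply hx g (c * μ ^ (q + 1))
    refine ⟨?_, ?_, fun z => ?_⟩
    · have := hg.1
      rw [self_smul] at this
      exact (mul_eq_zero.1 this).resolve_left (pow_ne_zero _ hμ)
    · rw [mul_pow, norm_fixed hF, ← add_mul, hg.2.1, zero_mul]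
    · rw [hg.2.2, smul_right, smul_smul]
      congr 2
      ring

theorem Rat.move1 (hF : Fintype.card F = q ^ 2) (R : Rat q V0 ζ l)
    (M : Subgroup (Matrix.GeneralLinearGroup (Fin n) F)) (hM : ∀ y ∈ V0, Sm q M y)
    (a b : Fin n → F) (ha : a ∈ V0) (hb : b ∈ V0) (hab : hermForm n F q a b ≠ 0) :
    ∃ p ∈ M, p ∈ GU n F q ∧ (p : Matrix (Fin n) (Fin n) F) *ᵥ a = b ∧
      (∀ z ∈ V0, (p : Matrix (Fin n) (Fin n) F) *ᵥ z ∈ V0) ∧
      ∀ z, hermForm n F q z (b - a) = 0 → (p : Matrix (Fin n) (Fin n) F) *ᵥ z = z := by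
  obtain ⟨β, hβ⟩ : ∃ β, β = ζ * hermForm n F q a b := ⟨_, rfl⟩
  have hβ0 : β ≠ 0 := by rw [hβ]; exact mul_ne_zero R.z0 hab
  have hβq : β ^ q = β := by rw [hβ]; exact R.form a ha b hb
  have hβi : (β⁻¹) ^ q = β⁻¹ := by rw [inv_pow, hβq]
  have hsub := R.sub hF b a hb ha
  obtain ⟨p, hp⟩ := exists_tv hF (b - a) (β⁻¹ * ζ) (R.alt _ hsub) (by
    rw [mul_pow, hβi, ← mul_add, R.zs, mul_zero])
  refine ⟨p, hM _ hsub p _ hp, hp.isPr.mem_GU hF, ?_, fun z hz => ?_, fun z hz => ?_⟩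
  · rw [hp.2.2, sub_right hF, R.alt a ha, sub_zero, mul_assoc, ← hβ, inv_mul_cancel₀ hβ0, one_smul]
    abel
  · rw [hp.2.2]
    apply R.add z hz
    apply R.smul _ _ _ hsub
    rw [mul_assoc, mul_pow, hβi, R.form z hz _ hsub]
  · rw [hp.2.2, hz, mul_zero, zero_smul, add_zero]

theorem Rat.move (hF : Fintype.card F = q ^ 2) (R : Rat q V0 ζ l)
    (M : Subgroup (Matrix.GeneralLinearGroup (Fin n) F)) (hM : ∀ y ∈ V0, Sm q M y)
    (x1 a b d : Fin n → F) (ha : a ∈ V0) (hb : b ∈ V0) (hd : d ∈ V0)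
    (h1a : hermForm n F q x1 a = 0) (h1b : hermForm n F q x1 b = 0)
    (h1d : hermForm n F q x1 d = 0) (had : hermForm n F q a d ≠ 0)
    (hbd : hermForm n F q b d ≠ 0) :
    ∃ p ∈ M, p ∈ GU n F q ∧ (p : Matrix (Fin n) (Fin n) F) *ᵥ a = b ∧
      (∀ z ∈ V0, (p : Matrix (Fin n) (Fin n) F) *ᵥ z ∈ V0) ∧
      (p : Matrix (Fin n) (Fin n) F) *ᵥ x1 = x1 := by
  obtain ⟨p1, hp1M, hp1G, hp1a, hp1V, hp1z⟩ := R.move1 hF M hM a d ha hd had
  obtain ⟨p2, hp2M, hp2G, hp2a, hp2V, hp2z⟩ := R.move1 hF M hM d b hd hb (ne_swap hF hbd)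
  refine ⟨p2 * p1, M.mul_mem hp2M hp1M, Subgroup.mul_mem _ hp2G hp1G, ?_, fun z hz => ?_, ?_⟩
  · rw [gl_mul_mulVec, hp1a, hp2a]
  · rw [gl_mul_mulVec]
    exact hp2V _ (hp1V z hz)
  · rw [gl_mul_mulVec, hp1z x1 (by rw [sub_right hF, h1d, h1a, sub_zero]),
      hp2z x1 (by rw [sub_right hF, h1b, h1d, sub_zero])]

/-- a rational vector orthogonal to `x1` and not to `u` -/
theorem Rat.sep (hF : Fintype.card F = q ^ 2) (R : Rat q V0 ζ l) (x1 u : Fin n → F)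
    (hx1 : x1 ∈ V0) (hu : u ∈ V0) (hne : ∀ c : F, c ^ q = c → u ≠ c • x1) :
    ∃ z ∈ V0, hermForm n F q x1 z = 0 ∧ hermForm n F q u z ≠ 0 := by
  by_cases hx0 : x1 = 0
  · have hu0 : u ≠ 0 := by
      have := hne 0 (by rw [zero_pow]; have := two_le hF; omega)
      rwa [zero_smul] at this
    obtain ⟨z, hz, hzu⟩ := R.nd hF u hu0
    exact ⟨z, hz, by rw [hx0, zero_left], hzu⟩
  by_contra hc
  push Not at hc
  obtain ⟨e, he, hxe⟩ := R.nd hF x1 hx0
  obtain ⟨β, hβ⟩ : ∃ β, β = ζ * hermForm n F q x1 e := ⟨_, rfl⟩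
  have hβ0 : β ≠ 0 := by rw [hβ]; exact mul_ne_zero R.z0 hxe
  have hβq : β ^ q = β := by rw [hβ]; exact R.form x1 hx1 e he
  have hβi : (β⁻¹) ^ q = β⁻¹ := by rw [inv_pow, hβq]
  obtain ⟨e', he'def⟩ : ∃ e', e' = β⁻¹ • e := ⟨_, rfl⟩
  have he' : e' ∈ V0 := by rw [he'def]; exact R.smul _ hβi e he
  have hxe' : ζ * hermForm n F q x1 e' = 1 := by
    rw [he'def, smul_right, hβi, mul_left_comm, ← hβ, inv_mul_cancel₀ hβ0]
  obtain ⟨c, hcdef⟩ : ∃ c, c = ζ * hermForm n F q u e' := ⟨_, rfl⟩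
  have hcq : c ^ q = c := by rw [hcdef]; exact R.form u hu e' he'
  apply hne c hcq
  have hsub : u - c • x1 ∈ V0 := R.sub hF _ _ hu (R.smul c hcq x1 hx1)
  by_contra hne'
  obtain ⟨z, hz, hzne⟩ := R.nd hF (u - c • x1) (sub_ne_zero.2 hne')
  apply hzne
  obtain ⟨γ, hγ⟩ : ∃ γ, γ = ζ * hermForm n F q x1 z := ⟨_, rfl⟩
  have hγq : γ ^ q = γ := by rw [hγ]; exact R.form x1 hx1 z hz
  have hz' : z - γ • e' ∈ V0 := R.sub hF _ _ hz (R.smul γ hγq e' he')
  have h1 : hermForm n F q x1 (z - γ • e') = 0 := by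
    rw [sub_right hF, smul_right, hγq]
    have : ζ * (hermForm n F q x1 z - γ * hermForm n F q x1 e') = 0 := by
      rw [mul_sub, ← hγ, mul_left_comm, hxe', mul_one, sub_self]
    exact (mul_eq_zero.1 this).resolve_left R.z0
  have h2 := hc _ hz' h1
  rw [sub_right hF, smul_right, hγq] at h2
  rw [sub_left, smul_left]
  have : ζ * (hermForm n F q u z - c * hermForm n F q x1 z) = 0 := by
    have e1 : ζ * hermForm n F q u z = γ * c := by
      rw [hcdef]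
      linear_combination ζ * h2
    rw [mul_sub, e1, mul_left_comm, ← hγ]
    ring
  exact (mul_eq_zero.1 this).resolve_left R.z0

theorem Rat.sep2 (hF : Fintype.card F = q ^ 2) (R : Rat q V0 ζ l) (x1 u w : Fin n → F)
    (hx1 : x1 ∈ V0) (hu : u ∈ V0) (hw : w ∈ V0) (hne : ∀ c : F, c ^ q = c → u ≠ c • x1)
    (hne' : ∀ c : F, c ^ q = c → w ≠ c • x1) :
    ∃ z ∈ V0, hermForm n F q x1 z = 0 ∧ hermForm n F q u z ≠ 0 ∧ hermForm n F q w z ≠ 0 := by
  obtain ⟨d1, hd1, h1, h1u⟩ := R.sep hF x1 u hx1 hu hne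
  obtain ⟨d2, hd2, h2, h2w⟩ := R.sep hF x1 w hx1 hw hne'
  by_cases h3 : hermForm n F q w d1 = 0
  · by_cases h4 : hermForm n F q u d2 = 0
    · refine ⟨d1 + d2, R.add _ hd1 _ hd2, ?_, ?_, ?_⟩
      · rw [add_right hF, h1, h2, add_zero]
      · rw [add_right hF, h4, add_zero]; exact h1u
      · rw [add_right hF, h3, zero_add]; exact h2w
    · exact ⟨d2, hd2, h2, h4, h2w⟩
  · exact ⟨d1, hd1, h1, h1u, h3⟩

theorem Rat.iso_pair (hF : Fintype.card F = q ^ 2) (R : Rat q V0 ζ l) (x1 x2 : Fin n → F)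
    (h1 : x1 ∈ V0) (h2 : x2 ∈ V0)
    (hiso : hermForm n F q (x1 + l • x2) (x1 + l • x2) = 0) : hermForm n F q x1 x2 = 0 := by
  rw [add_left, add_right hF, add_right hF, smul_left, smul_left, smul_right, smul_right,
    R.alt x1 h1, R.alt x2 h2, R.skew hF x1 x2 h1 h2] at hiso
  have : (l ^ q - l) * hermForm n F q x1 x2 = 0 := by linear_combination hiso
  exact (mul_eq_zero.1 this).resolve_left (sub_ne_zero.2 R.l0)

theorem Rat.all (hF : Fintype.card F = q ^ 2) (R : Rat q V0 ζ l)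
    (M : Subgroup (Matrix.GeneralLinearGroup (Fin n) F)) (hM : ∀ y ∈ V0, Sm q M y)
    (z1 z2 : Fin n → F) (hz1 : z1 ∈ V0) (hz2 : z2 ∈ V0) (hz : Sm q M (z1 + l • z2))
    (hz12 : hermForm n F q z1 z2 = 0) (hz10 : z1 ≠ 0)
    (hzg : ∀ c : F, c ^ q = c → z2 ≠ c • z1) : ∀ x, Sm q M x := by
  intro x g c hg
  have hiso := hg.1
  obtain ⟨x1, hx1, x2, hx2, rfl⟩ := R.dec x
  have hx12 := R.iso_pair hF x1 x2 hx1 hx2 hiso
  by_cases hx10 : x1 = 0
  · rw [hx10, zero_add] at hg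
    exact (hM x2 hx2).smul hF l g c hg
  by_cases hgood : ∃ c : F, c ^ q = c ∧ x2 = c • x1
  · obtain ⟨c', -, hc'⟩ := hgood
    have : x1 + l • x2 = (1 + l * c') • x1 := by
      rw [hc']; module
    rw [this] at hg
    exact (hM x1 hx1).smul hF _ g c hg
  push Not at hgood
  obtain ⟨d, hd, h0d, hz1d, hx1d⟩ := R.sep2 hF 0 z1 x1 R.zero hz1 hx1
    (fun c _ => by rw [smul_zero]; exact hz10) (fun c _ => by rw [smul_zero]; exact hx10)
  obtain ⟨p1, hp1M, hp1G, hp1a, hp1V, -⟩ := R.move hF M hM 0 z1 x1 d hz1 hx1 hd (zero_left _)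
    (zero_left _) (zero_left _) hz1d hx1d
  obtain ⟨z2', hz2'⟩ : ∃ z2', z2' = (p1 : Matrix (Fin n) (Fin n) F) *ᵥ z2 := ⟨_, rfl⟩
  have hz2'V : z2' ∈ V0 := by rw [hz2']; exact hp1V z2 hz2
  have hxz : hermForm n F q x1 z2' = 0 := by rw [hz2', ← hp1a, gu_form hp1G, hz12]
  have hzg' : ∀ c : F, c ^ q = c → z2' ≠ c • x1 := by
    intro c hc hh
    apply hzg c hc
    rw [hz2', ← hp1a, ← mulVec_smul] at hh
    rw [← gl_inv_mulVec p1 z2, hh, gl_inv_mulVec]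
  obtain ⟨d', hd', h1d', hzd', hxd'⟩ := R.sep2 hF x1 z2' x2 hx1 hz2'V hx2 hzg' hgood
  obtain ⟨p2, hp2M, hp2G, hp2a, -, hp2x⟩ := R.move hF M hM x1 z2' x2 d' hz2'V hx2 hd' hxz hx12 h1d'
    hzd' hxd'
  have h1 := (hz.map p1 hp1M hp1G).map p2 hp2M hp2G
  rw [mulVec_add, mulVec_smul, hp1a, ← hz2', mulVec_add, mulVec_smul, hp2x, hp2a] at h1
  exact h1 g c hg

/-- scalars relating rational vectors are rational -/
theorem Rat.scal (hF : Fintype.card F = q ^ 2) (R : Rat q V0 ζ l) (x y : Fin n → F) (μ : F)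
    (hx : x ∈ V0) (hy : y ∈ V0) (hx0 : x ≠ 0) (hxy : x = μ • y) : μ ^ q = μ := by
  obtain ⟨w, hw, hxw⟩ := R.nd hF x hx0
  have h1 := R.form x hx w hw
  have h2 := R.form y hy w hw
  have h3 : ζ * hermForm n F q x w = μ * (ζ * hermForm n F q y w) := by
    rw [hxy, smul_left]; ring
  have h4 : ζ * hermForm n F q y w ≠ 0 := by
    intro hh
    rw [hh, mul_zero] at h3
    exact (mul_ne_zero R.z0 hxw) h3
  rw [h3, mul_pow, h2] at h1
  exact mul_right_cancel₀ h4 h1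

/-- an isometry mapping rational vectors to multiples of rational vectors does so uniformly -/
theorem Rat.uniform (hF : Fintype.card F = q ^ 2) (R : Rat q V0 ζ l)
    (g : Matrix.GeneralLinearGroup (Fin n) F) (hg : g ∈ GU n F q) (v0 : Fin n → F) (hv0 : v0 ∈ V0)
    (hv00 : v0 ≠ 0)
    (h : ∀ v ∈ V0, ∃ μ : F, ∃ y ∈ V0, (g : Matrix (Fin n) (Fin n) F) *ᵥ v = μ • y) :
    ∃ μ0 : F, μ0 ≠ 0 ∧ ∀ v ∈ V0, ∃ y ∈ V0, (g : Matrix (Fin n) (Fin n) F) *ᵥ v = μ0 • y := by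
  obtain ⟨μ0, y0, hy0, hgv0⟩ := h v0 hv0
  have hμ0 : μ0 ≠ 0 := by
    rintro rfl
    rw [zero_smul] at hgv0
    apply hv00
    rw [← gl_inv_mulVec g v0, hgv0, mulVec_zero]
  have key : ∀ v ∈ V0, hermForm n F q v v0 ≠ 0 →
      ∃ y ∈ V0, (g : Matrix (Fin n) (Fin n) F) *ᵥ v = μ0 • y := by
    intro v hv hvv0
    obtain ⟨μ, y, hy, hgv⟩ := h v hv
    have h1 : hermForm n F q v v0 = μ * μ0 ^ q * hermForm n F q y y0 := by
      rw [← gu_form hg, hgv, hgv0, smul_left, smul_right]; ring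
    have h2 := R.form v hv v0 hv0
    have h3 := R.form y hy y0 hy0
    have h4 : ζ * hermForm n F q v v0 = (μ * μ0 ^ q) * (ζ * hermForm n F q y y0) := by
      rw [h1]; ring
    have h5 : ζ * hermForm n F q y y0 ≠ 0 := by
      intro hh
      rw [hh, mul_zero] at h4
      exact (mul_ne_zero R.z0 hvv0) h4
    have h6 : (μ * μ0 ^ q) ^ q = μ * μ0 ^ q := by
      rw [h4, mul_pow, h3] at h2
      exact mul_right_cancel₀ h5 h2
    have hN : (μ0 ^ (q + 1)) ≠ 0 := pow_ne_zero _ hμ0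
    refine ⟨((μ * μ0 ^ q) * (μ0 ^ (q + 1))⁻¹) • y, R.smul _ ?_ y hy, ?_⟩
    · rw [mul_pow, h6, inv_pow, norm_fixed hF]
    · rw [hgv, smul_smul]
      congr 1
      rw [pow_succ]
      field_simp
  refine ⟨μ0, hμ0, fun v hv => ?_⟩
  by_cases hvv0 : hermForm n F q v v0 = 0
  · obtain ⟨v1, hv1, hv01⟩ := R.nd hF v0 hv00
    have hv10 := ne_swap hF hv01
    obtain ⟨y1, hy1, hg1⟩ := key v1 hv1 hv10
    obtain ⟨y2, hy2, hg2⟩ := key (v + v1) (R.add v hv v1 hv1) (by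
      rw [add_left, hvv0, zero_add]; exact hv10)
    refine ⟨y2 - y1, R.sub hF _ _ hy2 hy1, ?_⟩
    rw [smul_sub, ← hg2, ← hg1, mulVec_add, add_sub_cancel_right]
  · exact key v hv hvv0

theorem Rat.l_ne (hF : Fintype.card F = q ^ 2) (R : Rat q V0 ζ l) : l ≠ 0 := by
  intro h
  apply R.l0
  rw [h, zero_pow]
  have := two_le hF
  omega

/-- a transvection with a non-rational centre does not respect the rational structure -/
theorem Rat.not_all (hF : Fintype.card F = q ^ 2) (R : Rat q V0 ζ l) (x1 x2 : Fin n → F)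
    (hx1 : x1 ∈ V0) (hx2 : x2 ∈ V0) (hx10 : x1 ≠ 0) (hgood : ∀ c : F, c ^ q = c → x2 ≠ c • x1)
    (h12 : hermForm n F q x1 x2 = 0) (t : Matrix.GeneralLinearGroup (Fin n) F)
    (ht : IsTv q t (x1 + l • x2) ζ) (μ : F)
    (hmap : ∀ v ∈ V0, ∃ y ∈ V0, (t : Matrix (Fin n) (Fin n) F) *ᵥ v = μ • y) : False := by
  have htx1 : (t : Matrix (Fin n) (Fin n) F) *ᵥ x1 = x1 := by
    rw [ht.2.2, add_right hF, smul_right, R.alt x1 hx1, h12, mul_zero, add_zero, mul_zero, zero_smul,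
      add_zero]
  obtain ⟨y, hy, hty⟩ := hmap x1 hx1
  rw [htx1] at hty
  have hμq := R.scal hF x1 y μ hx1 hy hx10 hty
  have hx20 : x2 ≠ 0 := by
    have := hgood 0 (by rw [zero_pow]; have := two_le hF; omega)
    rwa [zero_smul] at this
  have hgood' : ∀ c : F, c ^ q = c → x1 ≠ c • x2 := by
    intro c hc hh
    have hc0 : c ≠ 0 := by
      rintro rfl
      rw [zero_smul] at hh
      exact hx10 hh
    apply hgood c⁻¹ (by rw [inv_pow, hc])
    rw [hh, smul_smul, inv_mul_cancel₀ hc0, one_smul]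
  obtain ⟨w, hw, hx1w, hx2w⟩ := R.sep hF x1 x2 hx1 hx2 hgood
  obtain ⟨w', hw', hx2w', hx1w'⟩ := R.sep hF x2 x1 hx2 hx1 hgood'
  -- the centre is a multiple of a rational vector
  have hxw : hermForm n F q (x1 + l • x2) w ≠ 0 := by
    rw [add_left, smul_left, hx1w, zero_add]
    exact mul_ne_zero (R.l_ne hF) hx2w
  have hwx := ne_swap hF hxw
  obtain ⟨y', hy', hty'⟩ := hmap w hw
  rw [ht.2.2] at hty'
  obtain ⟨κ, hκ⟩ : ∃ κ, κ = ζ * hermForm n F q w (x1 + l • x2) := ⟨_, rfl⟩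
  have hκ0 : κ ≠ 0 := by rw [hκ]; exact mul_ne_zero R.z0 hwx
  rw [← hκ] at hty'
  obtain ⟨v', hv'def⟩ : ∃ v', v' = μ • y' - w := ⟨_, rfl⟩
  have hv' : v' ∈ V0 := by rw [hv'def]; exact R.sub hF _ _ (R.smul μ hμq y' hy') hw
  have hx : x1 + l • x2 = κ⁻¹ • v' := by
    rw [hv'def, ← hty', add_sub_cancel_left, smul_smul, inv_mul_cancel₀ hκ0, one_smul]
  obtain ⟨ν, hν⟩ : ∃ ν, ν = κ⁻¹ := ⟨_, rfl⟩
  rw [← hν] at hx
  have e1 : l * (ζ * hermForm n F q x2 w) = ν * (ζ * hermForm n F q v' w) := by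
    have := congrArg (fun z => ζ * hermForm n F q z w) hx
    simp only [add_left, smul_left, hx1w, zero_add] at this
    linear_combination this
  have e2 : ζ * hermForm n F q x1 w' = ν * (ζ * hermForm n F q v' w') := by
    have := congrArg (fun z => ζ * hermForm n F q z w') hx
    simp only [add_left, smul_left, hx2w', mul_zero, add_zero] at this
    linear_combination this
  have hC0 : ζ * hermForm n F q x1 w' ≠ 0 := mul_ne_zero R.z0 hx1w'
  have hD0 : ζ * hermForm n F q v' w' ≠ 0 := by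
    intro hh
    rw [hh, mul_zero] at e2
    exact hC0 e2
  have hνq : ν ^ q = ν := by
    have h1 := R.form x1 hx1 w' hw'
    rw [e2, mul_pow, R.form v' hv' w' hw'] at h1
    exact mul_right_cancel₀ hD0 h1
  have hA0 : ζ * hermForm n F q x2 w ≠ 0 := mul_ne_zero R.z0 hx2w
  apply R.l0
  have h2 : (l * (ζ * hermForm n F q x2 w)) ^ q = l * (ζ * hermForm n F q x2 w) := by
    rw [e1, mul_pow, hνq, R.form v' hv' w hw]
  rw [mul_pow, R.form x2 hx2 w hw] at h2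
  exact mul_right_cancel₀ hA0 h2

end Cfsg.Agent.Lib.Helper5_USub
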