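import Mathlib
import Cfsg.Prelude.Def_GeometricClasses
import Cfsg.Agent.Lib.Helper5_USub

set_option autoImplicit false

namespace Cfsg.Agent.Lib.Helper5_USieg

open Matrix Cfsg Cfsg.Agent.Lib.Helper5_UField Cfsg.Agent.Lib.Helper5_UForm
  Cfsg.Agent.Lib.Helper5_UGroup Cfsg.Agent.Lib.Helper5_ULin Cfsg.Agent.Lib.Helper5_UTrace
  Cfsg.Agent.Lib.Helper5_GLPar Cfsg.Agent.Lib.Helper5_UGen Cfsg.Agent.Lib.Helper5_USub

variable {F : Type*} [Field F] [Fintype F] {q n : ℕ}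

theorem dot_h (v z : Fin n → F) : (fun j => v j ^ q) ⬝ᵥ z = hermForm n F q z v := by
  rw [dotProduct, hermForm]
  exact Finset.sum_congr rfl (fun i _ => mul_comm _ _)

/-- `g` acts as the Siegel element `z ↦ z + h(z,a) d - h(z,d) a + γ h(z,a) a` -/
def IsSg (q : ℕ) (g : Matrix.GeneralLinearGroup (Fin n) F) (a d : Fin n → F) (γ : F) : Prop :=
  ∀ z, (g : Matrix (Fin n) (Fin n) F) *ᵥ z =
    z + hermForm n F q z a • d - hermForm n F q z d • a + (γ * hermForm n F q z a) • a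

theorem exists_sg (hF : Fintype.card F = q ^ 2) (a d : Fin n → F) (γ : F)
    (haa : hermForm n F q a a = 0) (hda : hermForm n F q d a = 0)
    (hγ : γ + γ ^ q + hermForm n F q d d = 0) :
    ∃ g : Matrix.GeneralLinearGroup (Fin n) F, g ∈ GU n F q ∧
      g ∈ Cfsg.Geo.specialLinear (Fin n) F ∧ IsSg q g a d γ := by
  have had : hermForm n F q a d = 0 := zero_swap hF hda
  have h1 : (fun j => a j ^ q) ⬝ᵥ (d + (γ + hermForm n F q d d) • a) = 0 := by
    rw [dot_h, add_left, smul_left, hda, haa, mul_zero, add_zero]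
  have h2 : (fun j => d j ^ q) ⬝ᵥ (-a) = 0 := by
    rw [dot_h, neg_left, had, neg_zero]
  have hact : IsSg q (Cfsg.Agent.Lib.Helper5_GLTv.tv (-a) (fun j => d j ^ q) h2 *
      Cfsg.Agent.Lib.Helper5_GLTv.tv (d + (γ + hermForm n F q d d) • a) (fun j => a j ^ q) h1)
      a d γ := by
    intro z
    rw [gl_mul_mulVec, Cfsg.Agent.Lib.Helper5_GLTv.tv_mulVec, Cfsg.Agent.Lib.Helper5_GLTv.tv_mulVec,
      dot_h, dot_h, add_left, smul_left, add_left, smul_left, had, mul_zero, add_zero]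
    module
  obtain ⟨g, hg⟩ : ∃ g, g = Cfsg.Agent.Lib.Helper5_GLTv.tv (-a) (fun j => d j ^ q) h2 *
      Cfsg.Agent.Lib.Helper5_GLTv.tv (d + (γ + hermForm n F q d d) • a) (fun j => a j ^ q) h1 :=
    ⟨_, rfl⟩
  rw [← hg] at hact
  refine ⟨g, ?_, by
    rw [hg]
    exact Subgroup.mul_mem _ (Cfsg.Agent.Lib.Helper5_GLTv.tv_mem_SL _ _ _)
      (Cfsg.Agent.Lib.Helper5_GLTv.tv_mem_SL _ _ _), hact⟩
  intro x y
  change hermForm n F q ((g : Matrix (Fin n) (Fin n) F) *ᵥ x)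
    ((g : Matrix (Fin n) (Fin n) F) *ᵥ y) = _
  rw [hact x, hact y]
  simp only [add_left, sub_left, smul_left, add_right hF, sub_right hF, smul_right, haa, had, hda,
    mul_pow, mul_zero, add_zero, sub_zero, zero_add, zero_sub]
  rw [conj hF y a, conj hF y d]
  linear_combination (hermForm n F q x a * hermForm n F q a y) * hγ

theorem sepU (hF : Fintype.card F = q ^ 2) (S : Submodule F (Fin n → F)) (a : Fin n → F)
    (ha : a ∉ S) : ∃ v, (∀ s ∈ S, hermForm n F q v s = 0) ∧ hermForm n F q v a = 1 := by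
  have hS : (hB hF : (Fin n → F) →ₛₗ[sig hF] (Fin n → F) →ₗ[F] F).IsSymm :=
    ⟨fun x y => by rw [hB_apply, hB_apply, sig_apply, conj hF]⟩
  have hN : (hB hF : (Fin n → F) →ₛₗ[sig hF] (Fin n → F) →ₗ[F] F).Nondegenerate := by
    constructor
    · intro x hx
      exact nondeg_right hF x hx
    · intro y hy
      exact nondeg_left hF y hy
  exact Cfsg.Agent.Lib.Helper5_HermOver.sepN (hB hF) hS hN S a ha

/-- making a vector isotropic by adding a multiple of an isotropic partner -/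
theorem make_iso (hF : Fintype.card F = q ^ 2) (v0 x1 : Fin n → F)
    (hx : hermForm n F q x1 x1 = 0) (h1 : hermForm n F q v0 x1 = 1) :
    ∃ β : F, hermForm n F q (v0 + β • x1) (v0 + β • x1) = 0 := by
  obtain ⟨β, hβ⟩ := exists_tr hF (-hermForm n F q v0 v0) (by rw [neg_pow hF, self_fixed hF])
  refine ⟨β, ?_⟩
  have h2 : hermForm n F q x1 v0 = 1 := by rw [← conj hF, h1, one_pow]
  rw [add_left, add_right hF, add_right hF, smul_left, smul_left, smul_right, smul_right, hx, h1, h2]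
  linear_combination hβ

/-- the parabolic subgroup moves isotropic vectors off `W^⊥` to each other, up to scalars -/
theorem par_move (hF : Fintype.card F = q ^ 2) (W : Submodule F (Fin n → F))
    (hW : ∀ u ∈ W, ∀ v ∈ W, hermForm n F q u v = 0) (x y : Fin n → F)
    (hx : hermForm n F q x x = 0) (hy : hermForm n F q y y = 0)
    (hxW : ∃ w ∈ W, hermForm n F q x w ≠ 0) (hyW : ∃ w ∈ W, hermForm n F q y w ≠ 0) :
    ∃ p : Matrix.GeneralLinearGroup (Fin n) F, p ∈ GU n F q ∧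
      p ∈ Cfsg.Geo.specialLinear (Fin n) F ∧
      (∀ z ∈ W, (p : Matrix (Fin n) (Fin n) F) *ᵥ z ∈ W) ∧
      ∃ l : F, l ≠ 0 ∧ (p : Matrix (Fin n) (Fin n) F) *ᵥ y = l • x := by
  obtain ⟨w1, hw1, hxw1⟩ := hxW
  obtain ⟨w2, hw2, hyw2⟩ := hyW
  obtain ⟨a, ha, hxa, hya⟩ : ∃ a ∈ W, hermForm n F q x a ≠ 0 ∧ hermForm n F q y a ≠ 0 := by
    by_cases h3 : hermForm n F q y w1 = 0
    · by_cases h4 : hermForm n F q x w2 = 0
      · refine ⟨w1 + w2, W.add_mem hw1 hw2, ?_, ?_⟩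
        · rw [add_right hF, h4, add_zero]; exact hxw1
        · rw [add_right hF, h3, zero_add]; exact hyw2
      · exact ⟨w2, hw2, h4, hyw2⟩
    · exact ⟨w1, hw1, hxw1, h3⟩
  obtain ⟨a', ha', hya', hxa'⟩ : ∃ a' ∈ W, hermForm n F q y a' = 1 ∧ hermForm n F q x a' ≠ 0 := by
    refine ⟨((hermForm n F q y a)⁻¹ ^ q) • a, W.smul_mem _ ha, ?_, ?_⟩
    · rw [smul_right, pow_pow hF, inv_mul_cancel₀ hya]
    · rw [smul_right, pow_pow hF]
      exact mul_ne_zero (inv_ne_zero hya) hxa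
  obtain ⟨l, hl⟩ : ∃ l, l = (hermForm n F q x a')⁻¹ := ⟨_, rfl⟩
  have hl0 : l ≠ 0 := by rw [hl]; exact inv_ne_zero hxa'
  have hlx : hermForm n F q (l • x) a' = 1 := by
    rw [smul_left, hl, inv_mul_cancel₀ hxa']
  have hlxx : hermForm n F q (l • x) (l • x) = 0 := by rw [self_smul, hx, mul_zero]
  obtain ⟨d, hd⟩ : ∃ d, d = l • x - y := ⟨_, rfl⟩
  have hda : hermForm n F q d a' = 0 := by rw [hd, sub_left, hlx, hya', sub_self]
  have hγ : hermForm n F q y d + hermForm n F q y d ^ q + hermForm n F q d d = 0 := by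
    rw [conj hF]
    have e : l • x = y + d := by rw [hd]; abel
    rw [e, add_left, add_right hF, add_right hF, hy] at hlxx
    linear_combination hlxx
  obtain ⟨p, hpG, hpS, hp⟩ := exists_sg hF a' d (hermForm n F q y d) (hW a' ha' a' ha') hda hγ
  refine ⟨p, hpG, hpS, fun z hz => ?_, l, hl0, ?_⟩
  · rw [hp z, hW z hz a' ha', zero_smul, add_zero, mul_zero, zero_smul, add_zero]
    exact W.sub_mem hz (W.smul_mem _ ha')
  · rw [hp y, hya', one_smul, mul_one, hd]
    abel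

end Cfsg.Agent.Lib.Helper5_USieg
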