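import Mathlib
import Cfsg.Prelude.Def_GeometricClasses
import Cfsg.Agent.Lib.Helper5_USieg

set_option autoImplicit false

namespace Cfsg.Agent.Lib.Helper5_UPair

open Module Matrix Cfsg Cfsg.Agent.Lib.Helper5_UField Cfsg.Agent.Lib.Helper5_UForm
  Cfsg.Agent.Lib.Helper5_UGroup Cfsg.Agent.Lib.Helper5_ULin Cfsg.Agent.Lib.Helper5_UTrace
  Cfsg.Agent.Lib.Helper5_GLPar Cfsg.Agent.Lib.Helper5_UGen Cfsg.Agent.Lib.Helper5_USub
  Cfsg.Agent.Lib.Helper5_USieg

variable {F : Type*} [Field F] [Fintype F] {q n : ℕ}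

/-- a pair of complementary totally isotropic subspaces -/
structure UPair (q : ℕ) (W W' : Submodule F (Fin n → F)) : Prop where
  ti : ∀ u ∈ W, ∀ v ∈ W, hermForm n F q u v = 0
  ti' : ∀ u ∈ W', ∀ v ∈ W', hermForm n F q u v = 0
  sup : ∀ v, ∃ w ∈ W, ∃ w' ∈ W', v = w + w'

variable {W W' : Submodule F (Fin n → F)}

theorem UPair.symm (h : UPair q W W') : UPair q W' W :=
  ⟨h.ti', h.ti, fun v => by
    obtain ⟨w, hw, w', hw', rfl⟩ := h.sup v
    exact ⟨w', hw', w, hw, add_comm _ _⟩⟩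

theorem UPair.inf (hF : Fintype.card F = q ^ 2) (h : UPair q W W') (v : Fin n → F) (hv : v ∈ W)
    (hv' : v ∈ W') : v = 0 := by
  apply nondeg_right hF
  intro u
  obtain ⟨w, hw, w', hw', rfl⟩ := h.sup u
  rw [add_left, h.ti w hw v hv, h.ti' w' hw' v hv', add_zero]

theorem UPair.max (hF : Fintype.card F = q ^ 2) (h : UPair q W W') (v : Fin n → F)
    (hv : ∀ w ∈ W, hermForm n F q w v = 0) : v ∈ W := by
  obtain ⟨w, hw, w', hw', rfl⟩ := h.sup v
  have : w' = 0 := by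
    apply nondeg_right hF
    intro u
    obtain ⟨x, hx, x', hx', rfl⟩ := h.sup u
    have h1 := hv x hx
    rw [add_right hF, h.ti x hx w hw, zero_add] at h1
    rw [add_left, h1, h.ti' x' hx' w' hw', add_zero]
  rw [this, add_zero]
  exact hw

theorem exKU (W S : Submodule F (Fin n → F)) {k : ℕ} (u : Fin k → (Fin n → F))
    (h : finrank F S + k < finrank F W) :
    ∃ r ∈ W, (∀ i, hermForm n F q r (u i) = 0) ∧ r ∉ S := by
  classical
  set Pm : (Fin n → F) →ₗ[F] (Fin k → F) := LinearMap.pi (fun i => hL q (u i)) with hPm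
  have hmemK : ∀ v, v ∈ LinearMap.ker Pm ↔ ∀ i, hermForm n F q v (u i) = 0 := by
    intro v
    rw [LinearMap.mem_ker, hPm]
    constructor
    · intro h i
      exact congrFun h i
    · intro h
      ext i
      exact h i
  have h1 := LinearMap.finrank_range_add_finrank_ker Pm
  have h2 : finrank F (LinearMap.range Pm) ≤ k := by
    have := Submodule.finrank_le (LinearMap.range Pm)
    simpa using this
  have h3 := Submodule.finrank_sup_add_finrank_inf_eq W (LinearMap.ker Pm)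
  have h4 := Submodule.finrank_le (W ⊔ LinearMap.ker Pm)
  by_contra hcon
  push Not at hcon
  have hle : W ⊓ LinearMap.ker Pm ≤ S := by
    rintro r ⟨hr1, hr2⟩
    exact hcon r hr1 ((hmemK r).1 hr2)
  have h5 := Submodule.finrank_mono hle
  omega

theorem IsSg.conj {p g : Matrix.GeneralLinearGroup (Fin n) F} (hp : p ∈ GU n F q)
    {a d : Fin n → F} {γ : F} (h : IsSg q g a d γ) :
    IsSg q (p * g * p⁻¹) ((p : Matrix (Fin n) (Fin n) F) *ᵥ a)
      ((p : Matrix (Fin n) (Fin n) F) *ᵥ d) γ := by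
  intro z
  rw [gl_mul_mulVec, gl_mul_mulVec, h, mulVec_add, mulVec_sub, mulVec_add, gl_mulVec_inv,
    mulVec_smul, mulVec_smul, mulVec_smul, gu_inv_form hp, gu_inv_form hp]

theorem sg_comm (hF : Fintype.card F = q ^ 2) {g1 g2 t : Matrix.GeneralLinearGroup (Fin n) F}
    {a d d' : Fin n → F} {γ γ' : F} (haa : hermForm n F q a a = 0)
    (hda : hermForm n F q d a = 0) (hd'a : hermForm n F q d' a = 0)
    (h1 : IsSg q g1 a d γ) (h2 : IsSg q g2 a d' γ')
    (ht : ∀ z, (t : Matrix (Fin n) (Fin n) F) *ᵥ z =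
      z + ((hermForm n F q d d' - hermForm n F q d' d) * hermForm n F q z a) • a) :
    g1 * g2 = t * g2 * g1 := by
  have had := zero_swap hF hda
  have had' := zero_swap hF hd'a
  apply gl_ext
  intro z
  rw [gl_mul_mulVec, gl_mul_mulVec, gl_mul_mulVec, h2 z, h1 _, h1 z, h2 _, ht _]
  simp only [add_left, sub_left, smul_left, haa, hda, hd'a, had, had', mul_zero, add_zero, sub_zero]
  module

/-- transvections of a fixed parameter -/
def Sk (q : ℕ) (M : Subgroup (Matrix.GeneralLinearGroup (Fin n) F)) (κ : F) (x : Fin n → F) :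
    Prop := ∀ g, IsTv q g x κ → g ∈ M

theorem Sk.map {M : Subgroup (Matrix.GeneralLinearGroup (Fin n) F)} {κ : F} {x : Fin n → F}
    (hx : Sk q M κ x) (p : Matrix.GeneralLinearGroup (Fin n) F) (hp : p ∈ M) (hpG : p ∈ GU n F q) :
    Sk q M κ ((p : Matrix (Fin n) (Fin n) F) *ᵥ x) := by
  intro g hg
  have h1 := hg.conj (Subgroup.inv_mem _ hpG)
  rw [gl_inv_mulVec] at h1
  have h2 := hx _ h1
  have : g = p * (p⁻¹ * g * p⁻¹⁻¹) * p⁻¹ := by group
  rw [this]
  exact M.mul_mem (M.mul_mem hp h2) (M.inv_mem hp)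

theorem UPair.exists_ab (hF : Fintype.card F = q ^ 2) (h : UPair q W W') (hdim : 3 ≤ finrank F W)
    (β : Fin n → F) (hβ : β ∉ W) (hβ' : β ∉ W') :
    ∃ a₁ ∈ W, ∃ b₁ ∈ W', hermForm n F q b₁ a₁ = 0 ∧ hermForm n F q a₁ β ≠ 0 ∧
      hermForm n F q b₁ β ≠ 0 := by
  obtain ⟨p, hp, p', hp', rfl⟩ := h.sup β
  have hp0 : p ≠ 0 := by
    rintro rfl
    rw [zero_add] at hβ'
    exact hβ' hp'
  have hp'0 : p' ≠ 0 := by
    rintro rfl
    rw [add_zero] at hβ
    exact hβ hp
  obtain ⟨r, hrW, hr1, hr2⟩ := exKU (q := q) W (Submodule.span F {p}) ![p'] (by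
    rw [finrank_span_singleton hp0]; omega)
  have hrp' : hermForm n F q r p' = 0 := hr1 0
  have hp'W : p' ∉ W := fun hh => hp'0 (h.inf hF p' hh hp')
  obtain ⟨a0, ha0, ha0p'⟩ := sepU hF W p' hp'W
  have ha0W : a0 ∈ W := h.max hF a0 (fun w hw => zero_swap hF (ha0 w hw))
  obtain ⟨a1, ha1W, ha1p', ha1S⟩ : ∃ a1 ∈ W, hermForm n F q a1 p' = 1 ∧
      a1 ∉ Submodule.span F {p} := by
    by_cases hc : a0 ∈ Submodule.span F {p}
    · refine ⟨a0 + r, W.add_mem ha0W hrW, by rw [add_left, ha0p', hrp', add_zero], fun hh => ?_⟩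
      apply hr2
      have := Submodule.sub_mem _ hh hc
      rwa [add_sub_cancel_left] at this
    · exact ⟨a0, ha0W, ha0p', hc⟩
  have hpS : p ∉ W' ⊔ Submodule.span F {a1} := by
    intro hh
    obtain ⟨w', hw', y, hy, hsum⟩ := Submodule.mem_sup.1 hh
    obtain ⟨l, rfl⟩ := Submodule.mem_span_singleton.1 hy
    have hw'W : w' ∈ W := by
      have : w' = p - l • a1 := by rw [← hsum]; abel
      rw [this]
      exact W.sub_mem hp (W.smul_mem _ ha1W)
    have := h.inf hF w' hw'W hw'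
    rw [this, zero_add] at hsum
    have hl : l ≠ 0 := by
      rintro rfl
      rw [zero_smul] at hsum
      exact hp0 hsum.symm
    apply ha1S
    rw [Submodule.mem_span_singleton]
    exact ⟨l⁻¹, by rw [← hsum, smul_smul, inv_mul_cancel₀ hl, one_smul]⟩
  obtain ⟨b1, hb1, hb1p⟩ := sepU hF _ p hpS
  have hb1W' : b1 ∈ W' := h.symm.max hF b1
    (fun s hs => zero_swap hF (hb1 s (Submodule.mem_sup_left hs)))
  have hb1a1 : hermForm n F q b1 a1 = 0 :=
    hb1 a1 (Submodule.mem_sup_right (Submodule.mem_span_singleton_self a1))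
  refine ⟨a1, ha1W, b1, hb1W', hb1a1, ?_, ?_⟩
  · rw [add_right hF, h.ti a1 ha1W p hp, zero_add, ha1p']
    exact one_ne_zero
  · rw [add_right hF, h.ti' b1 hb1W' p' hp', add_zero, hb1p]
    exact one_ne_zero

theorem exists_l (hF : Fintype.card F = q ^ 2) : ∃ l : F, l ^ q ≠ l := by
  by_contra hc
  push Not at hc
  apply sig_ne hF
  ext x
  rw [sig_apply, hc]
  rfl

theorem UPair.sg_mem (hF : Fintype.card F = q ^ 2) (h : UPair q W W') (a b : Fin n → F)
    (ha : a ∈ W) (hb : b ∈ W') (hba : hermForm n F q b a = 0) :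
    ∃ g : Matrix.GeneralLinearGroup (Fin n) F, g ∈ GU n F q ∧
      g ∈ Cfsg.Geo.specialLinear (Fin n) F ∧ IsSg q g a b 0 :=
  exists_sg hF a b 0 (h.ti a ha a ha) hba (by
    rw [h.ti' b hb b hb, zero_pow, add_zero, add_zero]
    have := two_le hF
    omega)

theorem UPair.exists_tv (hF : Fintype.card F = q ^ 2) (h : UPair q W W')
    (hdim : 4 ≤ finrank F W) (M : Subgroup (Matrix.GeneralLinearGroup (Fin n) F))
    (hM : ∀ a ∈ W, ∀ b ∈ W', hermForm n F q b a = 0 → ∀ g, IsSg q g a b 0 → g ∈ M)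
    (g : Matrix.GeneralLinearGroup (Fin n) F) (hgM : g ∈ M) (hgG : g ∈ GU n F q) (β : Fin n → F)
    (hβ : β ∉ W) (hβ' : β ∉ W') (hgβ : (g : Matrix (Fin n) (Fin n) F) *ᵥ β ∈ W') :
    ∃ a ∈ W, a ≠ 0 ∧ ∃ κ : F, κ ≠ 0 ∧ κ + κ ^ q = 0 ∧ Sk q M κ a := by
  obtain ⟨a₁, ha₁, b₀, hb₀, hba₀, ha₁β, hb₀β⟩ := h.exists_ab hF (by omega) β hβ hβ'
  obtain ⟨l, hl⟩ := exists_l hF
  obtain ⟨b, hbdef⟩ : ∃ b, b = (g : Matrix (Fin n) (Fin n) F) *ᵥ β := ⟨_, rfl⟩
  obtain ⟨c, hcdef⟩ : ∃ c, c = (g : Matrix (Fin n) (Fin n) F) *ᵥ a₁ := ⟨_, rfl⟩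
  have hbW' : b ∈ W' := by rw [hbdef]; exact hgβ
  have hcb : hermForm n F q c b ≠ 0 := by rw [hcdef, hbdef, gu_form hgG]; exact ha₁β
  have hbc := ne_swap hF hcb
  have hd0b : hermForm n F q ((g : Matrix (Fin n) (Fin n) F) *ᵥ b₀) b ≠ 0 := by
    rw [hbdef, gu_form hgG]; exact hb₀β
  obtain ⟨μ, hμ⟩ : ∃ μ, μ = l / (hermForm n F q b c *
    hermForm n F q ((g : Matrix (Fin n) (Fin n) F) *ᵥ b₀) b) := ⟨_, rfl⟩
  obtain ⟨b₁, hb₁def⟩ : ∃ b₁, b₁ = μ • b₀ := ⟨_, rfl⟩
  have hb₁ : b₁ ∈ W' := by rw [hb₁def]; exact W'.smul_mem _ hb₀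
  have hba₁ : hermForm n F q b₁ a₁ = 0 := by rw [hb₁def, smul_left, hba₀, mul_zero]
  obtain ⟨d, hddef⟩ : ∃ d, d = (g : Matrix (Fin n) (Fin n) F) *ᵥ b₁ := ⟨_, rfl⟩
  have hX : hermForm n F q b c * hermForm n F q d b = l := by
    rw [hddef, hb₁def, mulVec_smul, smul_left, hμ]
    field_simp
  obtain ⟨a, haW, ha1, ha0⟩ := exKU (q := q) W ⊥ ![b, c, d] (by rw [finrank_bot]; omega)
  have ha0' : a ≠ 0 := fun hh => ha0 (by rw [hh]; exact Submodule.zero_mem _)
  have hab : hermForm n F q a b = 0 := ha1 0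
  have hac : hermForm n F q a c = 0 := ha1 1
  have had : hermForm n F q a d = 0 := ha1 2
  have hba := zero_swap hF hab
  obtain ⟨s, hs⟩ := exists_tr hF 1 (one_pow _)
  obtain ⟨σ₁, -, -, hσ₁⟩ := h.sg_mem hF a₁ b₁ ha₁ hb₁ hba₁
  have hσ₁M := hM a₁ ha₁ b₁ hb₁ hba₁ σ₁ hσ₁
  obtain ⟨G, hGdef⟩ : ∃ G, G = g * σ₁ * g⁻¹ := ⟨_, rfl⟩
  have hGM : G ∈ M := by
    rw [hGdef]; exact M.mul_mem (M.mul_mem hgM hσ₁M) (M.inv_mem hgM)
  have hG : IsSg q G c d 0 := by
    rw [hGdef, hcdef, hddef]; exact IsSg.conj hgG hσ₁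
  have hGG : G ∈ GU n F q := by
    obtain ⟨σ', hσ'G, -, hσ'⟩ := h.sg_mem hF a₁ b₁ ha₁ hb₁ hba₁
    have : σ₁ = σ' := gl_ext _ _ (fun v => by rw [hσ₁ v, hσ' v])
    rw [hGdef, this]
    exact Subgroup.mul_mem _ (Subgroup.mul_mem _ hgG hσ'G) (Subgroup.inv_mem _ hgG)
  have hsba : hermForm n F q (s • b) a = 0 := by rw [smul_left, hba, mul_zero]
  obtain ⟨h₁, -, -, hh₁⟩ := h.sg_mem hF a (s • b) haW (W'.smul_mem _ hbW') hsba
  have hh₁M := hM a haW _ (W'.smul_mem _ hbW') hsba h₁ hh₁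
  obtain ⟨h₂, -, -, hh₂⟩ := h.sg_mem hF a b haW hbW' hba
  have hh₂M := hM a haW b hbW' hba h₂ hh₂
  have hGa : (G : Matrix (Fin n) (Fin n) F) *ᵥ a = a := by
    rw [hG a, hac, had, zero_smul, zero_smul, mul_zero, zero_smul, add_zero, sub_zero, add_zero]
  obtain ⟨D, hDdef⟩ : ∃ D, D = (G : Matrix (Fin n) (Fin n) F) *ᵥ (s • b) := ⟨_, rfl⟩
  obtain ⟨E, hEdef⟩ : ∃ E, E = G * h₁ * G⁻¹ := ⟨_, rfl⟩
  have hEM : E ∈ M := by
    rw [hEdef]; exact M.mul_mem (M.mul_mem hGM hh₁M) (M.inv_mem hGM)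
  have hE : IsSg q E a D 0 := by
    have := IsSg.conj hGG hh₁
    rw [hGa, ← hDdef, ← hEdef] at this
    exact this
  have hDa : hermForm n F q D a = 0 := by
    rw [hDdef, ← hGa, gu_form hGG, hsba]
  have hDb : hermForm n F q D b = s * (l - l ^ q) := by
    rw [hDdef, hG (s • b)]
    simp only [add_left, sub_left, smul_left, zero_mul, add_zero, h.ti' b hbW' b hbW', mul_zero,
      zero_add]
    have e1 : l ^ q = hermForm n F q c b * hermForm n F q b d := by
      rw [← hX, mul_pow, conj hF, conj hF]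
    rw [e1, ← hX]
    ring
  have hbD : hermForm n F q b D = s ^ q * (l ^ q - l) := by
    rw [← conj hF, hDb, mul_pow, sub_pow hF, pow_pow hF]
  have hδ : hermForm n F q D b - hermForm n F q b D = l - l ^ q := by
    rw [hDb, hbD]
    linear_combination (l - l ^ q) * hs
  refine ⟨a, haW, ha0', l - l ^ q, sub_ne_zero.2 (Ne.symm hl), ?_, ?_⟩
  · rw [sub_pow hF, pow_pow hF]; ring
  · intro t ht
    have hcomm := sg_comm hF (h.ti a haW a haW) hDa hba hE hh₂ (t := t) (by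
      intro z
      rw [hδ]
      exact ht.2.2 z)
    have : t = E * h₂ * E⁻¹ * h₂⁻¹ := by
      rw [hcomm]; group
    rw [this]
    exact M.mul_mem (M.mul_mem (M.mul_mem hEM hh₂M) (M.inv_mem hEM)) (M.inv_mem hh₂M)

theorem UPair.step (hF : Fintype.card F = q ^ 2) (h : UPair q W W')
    (M : Subgroup (Matrix.GeneralLinearGroup (Fin n) F))
    (hM : ∀ a ∈ W, ∀ b ∈ W', hermForm n F q b a = 0 → ∀ g, IsSg q g a b 0 → g ∈ M) (κ : F)
    (x y : Fin n → F) (hx : x ∈ W) (hy : y ∈ W) (hyM : Sk q M κ y)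
    (hxy : ∀ s t : F, s • x + t • y = 0 → s = 0 ∧ t = 0) : Sk q M κ x := by
  have hyS : y ∉ W' ⊔ Submodule.span F {y - x} := by
    intro hh
    obtain ⟨w', hw', u, hu, hsum⟩ := Submodule.mem_sup.1 hh
    obtain ⟨l, rfl⟩ := Submodule.mem_span_singleton.1 hu
    have hw'W : w' ∈ W := by
      have : w' = y - l • (y - x) := eq_sub_of_add_eq hsum
      rw [this]
      exact W.sub_mem hy (W.smul_mem _ (W.sub_mem hy hx))
    have := h.inf hF w' hw'W hw'
    rw [this, zero_add] at hsum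
    obtain ⟨e1, e2⟩ := hxy (-l) (l - 1) (by
      have : -l • x + (l - 1) • y = l • (y - x) - y := by module
      rw [this, hsum, sub_self])
    rw [neg_eq_zero] at e1
    rw [e1] at e2
    simp at e2
  obtain ⟨b, hb, hby⟩ := sepU hF _ y hyS
  have hbW' : b ∈ W' := h.symm.max hF b
    (fun s hs => zero_swap hF (hb s (Submodule.mem_sup_left hs)))
  have hba : hermForm n F q b (y - x) = 0 :=
    hb _ (Submodule.mem_sup_right (Submodule.mem_span_singleton_self _))
  obtain ⟨p, hpG, -, hp⟩ := h.sg_mem hF (y - x) b (W.sub_mem hy hx) hbW' hba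
  have hpM := hM _ (W.sub_mem hy hx) b hbW' hba p hp
  have hyb : hermForm n F q y b = 1 := by rw [← conj hF, hby, one_pow]
  have h1 := hyM.map p hpM hpG
  rw [hp y, h.ti y hy _ (W.sub_mem hy hx), zero_smul, add_zero, hyb, one_smul, mul_zero, zero_smul,
    add_zero, sub_sub_cancel] at h1
  exact h1

theorem UPair.fill (hF : Fintype.card F = q ^ 2) (h : UPair q W W')
    (hdim : 2 ≤ finrank F W) (M : Subgroup (Matrix.GeneralLinearGroup (Fin n) F))
    (hM : ∀ a ∈ W, ∀ b ∈ W', hermForm n F q b a = 0 → ∀ g, IsSg q g a b 0 → g ∈ M)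
    (a : Fin n → F) (haW : a ∈ W) (ha0 : a ≠ 0) (κ : F) (hκ : κ ≠ 0) (hκt : κ + κ ^ q = 0)
    (haM : Sk q M κ a) : ∀ x ∈ W, Sm q M x := by
  have hind : ∀ x : Fin n → F, x ∉ Submodule.span F {a} →
      ∀ s t : F, s • x + t • a = 0 → s = 0 ∧ t = 0 := by
    intro x hx s t hst
    have hs : s = 0 := by
      by_contra hs
      apply hx
      rw [Submodule.mem_span_singleton]
      refine ⟨-(t / s), ?_⟩
      have : s • x = -(t • a) := eq_neg_of_add_eq_zero_left hst
      have h3 : x = s⁻¹ • (s • x) := by rw [smul_smul, inv_mul_cancel₀ hs, one_smul]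
      rw [h3, this, smul_neg, smul_smul, neg_smul]
      congr 2
      field_simp
    refine ⟨hs, ?_⟩
    rw [hs, zero_smul, zero_add] at hst
    exact (smul_eq_zero.1 hst).resolve_right ha0
  have hone : ∀ (t : Matrix.GeneralLinearGroup (Fin n) F) (c : F), IsTv q t 0 c → t ∈ M := by
    intro t c ht
    have : t = 1 := by
      apply gl_ext
      intro v
      rw [ht.2.2, smul_zero, add_zero, Units.val_one, one_mulVec]
    rw [this]
    exact M.one_mem
  have hall : ∀ x ∈ W, Sk q M κ x := by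
    intro x hx
    by_cases hxa : x ∈ Submodule.span F {a}
    · obtain ⟨l, rfl⟩ := Submodule.mem_span_singleton.1 hxa
      by_cases hl : l = 0
      · rw [hl, zero_smul]
        exact fun t ht => hone t κ ht
      · obtain ⟨x1, hx1W, -, hx1⟩ := exKU (q := q) W (Submodule.span F {a}) (k := 0) Fin.elim0 (by
          rw [finrank_span_singleton ha0]; omega)
        have r1 := h.step hF M hM κ x1 a hx1W haW haM (hind x1 hx1)
        apply h.step hF M hM κ (l • a) x1 hx hx1W r1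
        intro s t hst
        obtain ⟨e1, e2⟩ := hind x1 hx1 t (s * l) (by
          rw [mul_smul, add_comm]
          exact hst)
        exact ⟨(mul_eq_zero.1 e2).resolve_right hl, e1⟩
    · exact h.step hF M hM κ x a hx haW haM (hind x hxa)
  intro x hx t c ht
  have hκq : κ ^ q = -κ := by linear_combination hκt
  have hcq : c ^ q = -c := by linear_combination ht.2.1
  obtain ⟨lam, hlam⟩ := exists_norm hF (c / κ) (by rw [div_pow, hκq, hcq, neg_div_neg_eq])
  apply hall (lam • x) (W.smul_mem _ hx) t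
  refine ⟨by rw [self_smul, ht.1, mul_zero], hκt, fun z => ?_⟩
  rw [ht.2.2, smul_right, smul_smul]
  congr 2
  have : κ * (lam ^ q * hermForm n F q z x) * lam = κ * lam ^ (q + 1) * hermForm n F q z x := by ring
  rw [this, hlam, mul_div_cancel₀ _ hκ]

/-- once all transvections centred in `W ∪ W'` are available, all transvections are -/
theorem UPair.closure (hF : Fintype.card F = q ^ 2) (h : UPair q W W')
    (M : Subgroup (Matrix.GeneralLinearGroup (Fin n) F))
    (h1 : ∀ x ∈ W, Sm q M x) (h2 : ∀ x ∈ W', Sm q M x) : ∀ x, Sm q M x := by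
  have key : ∀ y, Sm q M y → ∀ w' ∈ W', hermForm n F q y w' ≠ 0 →
      hermForm n F q y w' + hermForm n F q y w' ^ q = 0 → Sm q M (y + w') := by
    intro y hy w' hw' hne htr
    obtain ⟨τ, hτ⟩ := Cfsg.Agent.Lib.Helper5_UGen.exists_tv hF w' (hermForm n F q y w')⁻¹ (h.ti' w' hw' w' hw') (by
      have : hermForm n F q y w' ^ q = - hermForm n F q y w' := by linear_combination htr
      rw [inv_pow, this, inv_neg, add_neg_cancel])
    have := hy.map τ (h2 w' hw' τ _ hτ) (hτ.isPr.mem_GU hF)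
    rwa [hτ.2.2, inv_mul_cancel₀ hne, one_smul] at this
  intro x t c ht
  have hiso := ht.1
  obtain ⟨w, hw, w', hw', rfl⟩ := h.sup x
  have htr : hermForm n F q w w' + hermForm n F q w w' ^ q = 0 := by
    rw [add_left, add_right hF, add_right hF, h.ti w hw w hw, h.ti' w' hw' w' hw'] at hiso
    rw [conj hF]
    linear_combination hiso
  by_cases hne : hermForm n F q w w' = 0
  · by_cases hw0 : w = 0
    · rw [hw0, zero_add] at ht
      exact h2 w' hw' t c ht
    · have hwW' : w ∉ W' := fun hh => hw0 (h.inf hF w hw hh)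
      obtain ⟨ε, hε0, hε⟩ := exists_skew hF
      obtain ⟨v, hv, hvw⟩ := sepU hF W' w hwW'
      have hvW' : v ∈ W' := h.symm.max hF v (fun s hs => zero_swap hF (hv s hs))
      have hwv : hermForm n F q w v = 1 := by rw [← conj hF, hvw, one_pow]
      obtain ⟨u, hudef⟩ : ∃ u, u = (ε ^ q) • v := ⟨_, rfl⟩
      have huW' : u ∈ W' := by rw [hudef]; exact W'.smul_mem _ hvW'
      have hwu : hermForm n F q w u = ε := by
        rw [hudef, smul_right, pow_pow hF, hwv, mul_one]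
      have r1 : Sm q M (w + (w' - u)) := by
        apply key w (h1 w hw) _ (W'.sub_mem hw' huW')
        · rw [sub_right hF, hne, hwu, zero_sub]
          exact neg_ne_zero.2 hε0
        · rw [sub_right hF, hne, hwu, zero_sub, neg_pow hF, hε]
          ring
      have e1 : hermForm n F q (w + (w' - u)) u = ε := by
        rw [add_left, hwu, h.ti' _ (W'.sub_mem hw' huW') u huW', add_zero]
      have r2 := key _ r1 u huW' (by rw [e1]; exact hε0) (by rw [e1, hε]; ring)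
      have e2 : w + (w' - u) + u = w + w' := by abel
      rw [e2] at r2
      exact r2 t c ht
  · exact key w (h1 w hw) w' hw' hne htr t c ht

end Cfsg.Agent.Lib.Helper5_UPair
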