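import Mathlib
import Cfsg.Prelude.Def_GeometricClasses
import Cfsg.Agent.Lib.Helper5_UPair
import Cfsg.Agent.Lib.Helper5_UDet
import Cfsg.Agent.S0751

set_option autoImplicit false

namespace Cfsg.Agent.Lib.Helper5_USwap

open Module Matrix Cfsg Cfsg.Agent.Lib.Helper5_UField Cfsg.Agent.Lib.Helper5_UForm
  Cfsg.Agent.Lib.Helper5_UGroup Cfsg.Agent.Lib.Helper5_ULin Cfsg.Agent.Lib.Helper5_UTrace
  Cfsg.Agent.Lib.Helper5_GLPar Cfsg.Agent.Lib.Helper5_UGen Cfsg.Agent.Lib.Helper5_USub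
  Cfsg.Agent.Lib.Helper5_USieg Cfsg.Agent.Lib.Helper5_UPair Cfsg.Agent.Lib.Helper5_GLTv

variable {F : Type*} [Field F] [Fintype F] {q n : ℕ}

theorem sum_left {κ : Type*} (s : Finset κ) (f : κ → (Fin n → F)) (y : Fin n → F) :
    hermForm n F q (∑ i ∈ s, f i) y = ∑ i ∈ s, hermForm n F q (f i) y :=
  map_sum (hL q y) f s

theorem li_of_dual {κ : Type*} [Fintype κ] [DecidableEq κ] (X Z : κ → (Fin n → F))
    (hd : ∀ s s', hermForm n F q (X s) (Z s') = if s = s' then 1 else 0) :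
    LinearIndependent F X := by
  rw [Fintype.linearIndependent_iff]
  intro c hc s'
  have := congrArg (fun v => hermForm n F q v (Z s')) hc
  simp only [sum_left, smul_left, hd, zero_left, mul_ite, mul_one, mul_zero, Finset.sum_ite_eq',
    Finset.mem_univ, if_true] at this
  exact this

theorem det_tvM' (x φ : Fin n → F) : (tvM x φ).det = 1 + φ ⬝ᵥ x := by
  rw [tvM, vecMulVec_eq Unit, det_one_add_replicateCol_mul_replicateRow]

/-- the torus element `e ↦ λ e`, `f ↦ λ^{-q} f` -/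
theorem exists_torus (hF : Fintype.card F = q ^ 2) (e f : Fin n → F)
    (hee : hermForm n F q e e = 0) (hff : hermForm n F q f f = 0) (hef : hermForm n F q e f = 1)
    (lam : F) (hl : lam ≠ 0) :
    ∃ r : Matrix.GeneralLinearGroup (Fin n) F, r ∈ GU n F q ∧
      (r : Matrix (Fin n) (Fin n) F).det = lam * (lam ^ q)⁻¹ ∧
      ∀ z, (r : Matrix (Fin n) (Fin n) F) *ᵥ z =
        z + (((lam ^ q)⁻¹ - 1) * hermForm n F q z e) • f + ((lam - 1) * hermForm n F q z f) • e := by
  have hfe : hermForm n F q f e = 1 := by rw [← conj hF, hef, one_pow]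
  obtain ⟨μ, hμ⟩ : ∃ μ, μ = (lam ^ q)⁻¹ := ⟨_, rfl⟩
  have hlq : lam ^ q ≠ 0 := pow_ne_zero _ hl
  have hμl : μ * lam ^ q = 1 := by rw [hμ, inv_mul_cancel₀ hlq]
  have hμl' : μ ^ q * lam = 1 := by
    have := congrArg (fun x => x ^ q) hμl
    simp only [mul_pow, pow_pow hF, one_pow] at this
    exact this
  rw [← hμ]
  obtain ⟨R, hR⟩ : ∃ R, R = tvM ((lam - 1) • e) (fun j => f j ^ q) *
    tvM ((μ - 1) • f) (fun j => e j ^ q) := ⟨_, rfl⟩
  have hact : ∀ z, R *ᵥ z =
      z + ((μ - 1) * hermForm n F q z e) • f + ((lam - 1) * hermForm n F q z f) • e := by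
    intro z
    rw [hR, ← mulVec_mulVec, tvM_mulVec, tvM_mulVec, dot_h, dot_h, add_left, smul_left, smul_left,
      hff, mul_zero, mul_zero, add_zero, smul_smul, smul_smul]
    congr 2
    · rw [mul_comm]
    · rw [mul_comm]
  have hpres : Pres F q n R := by
    intro x y
    rw [hact x, hact y]
    simp only [add_left, smul_left, add_right hF, smul_right, hee, hff, hef, hfe, mul_pow,
      sub_pow hF, one_pow, mul_zero, add_zero, zero_add, mul_one]
    rw [conj hF y e, conj hF y f]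
    linear_combination (hermForm n F q x e * hermForm n F q f y) * hμl +
      (hermForm n F q x f * hermForm n F q e y) * hμl'
  refine ⟨(mkGU hF R hpres).1, (mkGU hF R hpres).2, ?_, hact⟩
  change R.det = _
  rw [hR, det_mul, det_tvM', det_tvM', dot_h, dot_h, smul_left, smul_left, hef, hfe]
  ring

theorem UPair.exists_swap (hF : Fintype.card F = q ^ 2) {W W' : Submodule F (Fin n → F)}
    (h : UPair q W W') (k : ℕ) (hk : 1 ≤ k) (hW : finrank F W = k) (hW' : finrank F W' = k) :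
    ∃ π : Matrix.GeneralLinearGroup (Fin n) F, π ∈ GU n F q ∧
      π ∈ Cfsg.Geo.specialLinear (Fin n) F ∧
      (∀ x ∈ W, (π : Matrix (Fin n) (Fin n) F) *ᵥ x ∈ W') ∧
      (∀ x ∈ W', (π : Matrix (Fin n) (Fin n) F) *ᵥ x ∈ W) := by
  classical
  have h2q := two_le hF
  let bW := Module.finBasisOfFinrankEq F W hW
  let e : Fin k → (Fin n → F) := fun i => (bW i : Fin n → F)
  have heW : ∀ i, e i ∈ W := fun i => (bW i).2
  have hsumW : ∀ x (hx : x ∈ W), x = ∑ i, bW.repr ⟨x, hx⟩ i • e i := by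
    intro x hx
    have := congrArg Subtype.val (bW.sum_repr ⟨x, hx⟩)
    simp only [Submodule.coe_sum, Submodule.coe_smul] at this
    exact this.symm
  let Ψ : W' →ₗ[F] (Fin k → F) := (LinearMap.pi fun i => hL q (e i)).domRestrict W'
  have hΨ : ∀ (w : W') i, Ψ w i = hermForm n F q (w : Fin n → F) (e i) := fun w i => rfl
  have hΨinj : Function.Injective Ψ := by
    rw [injective_iff_map_eq_zero]
    intro w hw
    apply Subtype.ext
    apply h.inf hF _ _ w.2
    apply h.max hF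
    intro x hx
    apply zero_swap hF
    rw [hsumW x hx, sum_right hF]
    apply Finset.sum_eq_zero
    intro i _
    rw [smul_right, ← hΨ, hw]
    simp
  have hΨsurj : Function.Surjective Ψ :=
    (LinearMap.injective_iff_surjective_of_finrank_eq_finrank
      (by rw [hW', Module.finrank_fin_fun])).1 hΨinj
  choose f' hf' using fun j : Fin k => hΨsurj (Pi.single j 1)
  let f : Fin k → (Fin n → F) := fun j => (f' j : Fin n → F)
  have hfW' : ∀ j, f j ∈ W' := fun j => (f' j).2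
  have hfe : ∀ i j, hermForm n F q (f i) (e j) = if i = j then 1 else 0 := by
    intro i j
    have : hermForm n F q (f i) (e j) = Ψ (f' i) j := rfl
    rw [this, hf', Pi.single_apply]
    simp only [eq_comm]
  have hef : ∀ i j, hermForm n F q (e i) (f j) = if i = j then 1 else 0 := by
    intro i j
    rw [← conj hF, hfe]
    by_cases hij : i = j
    · simp [hij]
    · have : ¬ j = i := fun hh => hij hh.symm
      simp [hij, this, show q ≠ 0 by omega]
  have hsumW' : ∀ x (hx : x ∈ W'), x = ∑ j, Ψ ⟨x, hx⟩ j • f j := by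
    intro x hx
    have h1 : (⟨x, hx⟩ : W') = ∑ j, Ψ ⟨x, hx⟩ j • f' j := by
      apply hΨinj
      rw [map_sum]
      funext k
      simp only [map_smul, hf', Finset.sum_apply, Pi.smul_apply, Pi.single_apply, smul_eq_mul,
        mul_ite, mul_one, mul_zero, Finset.sum_ite_eq, Finset.mem_univ, if_true]
    have := congrArg Subtype.val h1
    simp only [Submodule.coe_sum, Submodule.coe_smul] at this
    exact this
  have hXY : ∀ s s' : Fin k ⊕ Fin k, hermForm n F q (Sum.elim e f s) (Sum.elim f e s') =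
      if s = s' then 1 else 0 := by
    rintro (i | i) (j | j)
    · simp only [Sum.elim_inl, hef, Sum.inl.injEq]
    · simp only [Sum.elim_inl, Sum.elim_inr, h.ti _ (heW i) _ (heW j), reduceCtorEq, if_false]
    · simp only [Sum.elim_inl, Sum.elim_inr, h.ti' _ (hfW' i) _ (hfW' j), reduceCtorEq, if_false]
    · simp only [Sum.elim_inr, hfe, Sum.inr.injEq]
  have hYX : ∀ s s' : Fin k ⊕ Fin k, hermForm n F q (Sum.elim f e s) (Sum.elim e f s') =
      if s = s' then 1 else 0 := by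
    rintro (i | i) (j | j)
    · simp only [Sum.elim_inl, hfe, Sum.inl.injEq]
    · simp only [Sum.elim_inl, Sum.elim_inr, h.ti' _ (hfW' i) _ (hfW' j), reduceCtorEq, if_false]
    · simp only [Sum.elim_inl, Sum.elim_inr, h.ti _ (heW i) _ (heW j), reduceCtorEq, if_false]
    · simp only [Sum.elim_inr, hef, Sum.inr.injEq]
  have hgram : ∀ s s' : Fin k ⊕ Fin k, hermForm n F q (Sum.elim e f s) (Sum.elim e f s') =
      hermForm n F q (Sum.elim f e s) (Sum.elim f e s') := by
    rintro (i | i) (j | j)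
    · simp only [Sum.elim_inl, h.ti _ (heW i) _ (heW j), h.ti' _ (hfW' i) _ (hfW' j)]
    · simp only [Sum.elim_inl, Sum.elim_inr, hef, hfe]
    · simp only [Sum.elim_inl, Sum.elim_inr, hef, hfe]
    · simp only [Sum.elim_inr, h.ti _ (heW i) _ (heW j), h.ti' _ (hfW' i) _ (hfW' j)]
  have hliX := li_of_dual _ _ hXY
  have hliY := li_of_dual _ _ hYX
  have hS : (hB hF : (Fin n → F) →ₛₗ[sig hF] (Fin n → F) →ₗ[F] F).IsSymm :=
    ⟨fun x y => by rw [hB_apply, hB_apply, sig_apply, conj hF]⟩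
  have hN : (hB hF : (Fin n → F) →ₛₗ[sig hF] (Fin n → F) →ₗ[F] F).Nondegenerate := by
    constructor
    · intro x hx
      exact nondeg_right hF x hx
    · intro y hy
      exact nondeg_left hF y hy
  obtain ⟨eq⟩ : Nonempty (Fin (Fintype.card (Fin k ⊕ Fin k)) ≃ (Fin k ⊕ Fin k)) :=
    ⟨(Fintype.equivFin _).symm⟩
  obtain ⟨g, hgiso, hgX⟩ := Cfsg.Agent.S0751.witt_fam (sig_ne hF) (sig_sig hF) (hB hF) hS hN _
    (Sum.elim e f ∘ eq) (Sum.elim f e ∘ eq) (hliX.comp eq eq.injective)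
    (hliY.comp eq eq.injective) (by
      intro i j
      simp only [Function.comp_apply, hB_apply]
      exact hgram _ _)
  have hgX' : ∀ s, g (Sum.elim e f s) = Sum.elim f e s := by
    intro s
    have := hgX (eq.symm s)
    simpa using this
  have hpres : Pres F q n (LinearMap.toMatrix' g.toLinearMap) := by
    intro x y
    rw [LinearMap.toMatrix'_mulVec, LinearMap.toMatrix'_mulVec]
    exact hgiso y x
  obtain ⟨G0, hG0G, hG0⟩ : ∃ G0 : Matrix.GeneralLinearGroup (Fin n) F, G0 ∈ GU n F q ∧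
      ∀ z, (G0 : Matrix (Fin n) (Fin n) F) *ᵥ z = g z :=
    ⟨(mkGU hF _ hpres).1, (mkGU hF _ hpres).2, fun z => LinearMap.toMatrix'_mulVec _ z⟩
  have hG0e : ∀ i, (G0 : Matrix (Fin n) (Fin n) F) *ᵥ e i = f i := fun i => by
    rw [hG0]; exact hgX' (Sum.inl i)
  have hG0f : ∀ i, (G0 : Matrix (Fin n) (Fin n) F) *ᵥ f i = e i := fun i => by
    rw [hG0]; exact hgX' (Sum.inr i)
  have hG0W : ∀ x ∈ W, (G0 : Matrix (Fin n) (Fin n) F) *ᵥ x ∈ W' := by
    intro x hx
    rw [hsumW x hx, ← Matrix.mulVecLin_apply, map_sum]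
    apply Submodule.sum_mem
    intro i _
    rw [map_smul, Matrix.mulVecLin_apply, hG0e]
    exact W'.smul_mem _ (hfW' i)
  have hG0W' : ∀ x ∈ W', (G0 : Matrix (Fin n) (Fin n) F) *ᵥ x ∈ W := by
    intro x hx
    rw [hsumW' x hx, ← Matrix.mulVecLin_apply, map_sum]
    apply Submodule.sum_mem
    intro i _
    rw [map_smul, Matrix.mulVecLin_apply, hG0f]
    exact W.smul_mem _ (heW i)
  -- fix the determinant
  have hdn : (G0 : Matrix (Fin n) (Fin n) F).det ^ (q + 1) = 1 :=
    Cfsg.Agent.Lib.Helper5_UDet.det_norm hF _ hG0G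
  have hd0 : (G0 : Matrix (Fin n) (Fin n) F).det ≠ 0 := by
    intro hh
    rw [hh, zero_pow (Nat.succ_ne_zero q)] at hdn
    exact zero_ne_one hdn
  have hker : Units.mk0 _ hd0 ∈ (powMonoidHom (q + 1) : Fˣ →* Fˣ).ker := by
    rw [MonoidHom.mem_ker, powMonoidHom_apply]
    apply Units.ext
    rw [Units.val_pow_eq_pow_val, Units.val_mk0, Units.val_one, hdn]
  rw [← range_pow_sub hF] at hker
  obtain ⟨lam, hlam⟩ := hker
  have hlam' : (lam : F) ^ (q - 1) = (G0 : Matrix (Fin n) (Fin n) F).det := by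
    have := congrArg Units.val hlam
    rwa [powMonoidHom_apply, Units.val_pow_eq_pow_val, Units.val_mk0] at this
  obtain ⟨i0⟩ : Nonempty (Fin k) := ⟨⟨0, by omega⟩⟩
  obtain ⟨r, hrG, hrdet, hr⟩ := exists_torus hF (e i0) (f i0) (h.ti _ (heW i0) _ (heW i0))
    (h.ti' _ (hfW' i0) _ (hfW' i0)) (by rw [hef, if_pos rfl]) (lam : F) lam.ne_zero
  refine ⟨r * G0, Subgroup.mul_mem _ hrG hG0G, ?_, fun x hx => ?_, fun x hx => ?_⟩
  · rw [mem_SL_iff, Units.val_mul, det_mul, hrdet, ← hlam']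
    have h3 : (lam : F) ^ q = (lam : F) ^ (q - 1) * lam := by
      rw [← pow_succ]; congr 1; omega
    have h4 : (lam : F) ^ q ≠ 0 := pow_ne_zero _ lam.ne_zero
    have h5 : (lam : F) * (lam : F) ^ (q - 1) = (lam : F) ^ q := by rw [h3]; ring
    rw [mul_right_comm, h5, mul_inv_cancel₀ h4]
  · rw [gl_mul_mulVec, hr, h.ti' _ (hG0W x hx) _ (hfW' i0), mul_zero, zero_smul, add_zero]
    exact W'.add_mem (hG0W x hx) (W'.smul_mem _ (hfW' i0))
  · rw [gl_mul_mulVec, hr, h.ti _ (hG0W' x hx) _ (heW i0), mul_zero, zero_smul, add_zero]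
    exact W.add_mem (hG0W' x hx) (W.smul_mem _ (heW i0))

end Cfsg.Agent.Lib.Helper5_USwap
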