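import Mathlib
import Cfsg.Agent.Lib.Helper5_UIsoFam
import Cfsg.Agent.Lib.Helper5_SympStab

set_option autoImplicit false

namespace Cfsg.Agent.Lib.Helper5_UTiSub

open Module Cfsg Cfsg.Agent.Lib.Helper5_UField Cfsg.Agent.Lib.Helper5_UForm
  Cfsg.Agent.Lib.Helper5_UCount Cfsg.Agent.Lib.Helper5_UIsoFam

variable {F : Type*} [Field F] [Fintype F] {q n : ℕ}

instance finSub : Finite (Submodule F (Fin n → F)) :=
  Finite.of_injective (fun W => (W : Set (Fin n → F))) SetLike.coe_injective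

/-- totally isotropic subspaces versus isotropic families -/
theorem card_ti (hF : Fintype.card F = q ^ 2) (k : ℕ) :
    Nat.card {e : Fin k → (Fin n → F) // IsoU q k e} =
      Nat.card {W : Submodule F (Fin n → F) // Module.finrank F W = k ∧
        ∀ u ∈ W, ∀ v ∈ W, hermForm n F q u v = 0} *
      ∏ i : Fin k, ((q ^ 2) ^ k - (q ^ 2) ^ (i : ℕ)) := by
  classical
  let f : {e : Fin k → (Fin n → F) // IsoU q k e} →
      {W : Submodule F (Fin n → F) // Module.finrank F W = k ∧
        ∀ u ∈ W, ∀ v ∈ W, hermForm n F q u v = 0} :=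
    fun e => ⟨Submodule.span F (Set.range e.1), by
      rw [finrank_span_eq_card e.2.1, Fintype.card_fin], by
      apply iso_span hF
      rintro _ ⟨i, rfl⟩ _ ⟨j, rfl⟩
      exact e.2.2 i j⟩
  apply card_of_fibers f
  intro W
  rw [← hF, ← Cfsg.Agent.Lib.Helper5_SympStab.card_bases k W.1 W.2.1]
  apply Nat.card_congr
  exact
    { toFun := fun a => ⟨a.1.1, a.1.2.1, congrArg Subtype.val a.2⟩
      invFun := fun e => ⟨⟨e.1, e.2.1, fun i j =>
        W.2.2 _ ((le_of_eq e.2.2) (Submodule.subset_span ⟨i, rfl⟩)) _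
          ((le_of_eq e.2.2) (Submodule.subset_span ⟨j, rfl⟩))⟩, Subtype.ext e.2.2⟩
      left_inv := fun a => rfl
      right_inv := fun e => rfl }

end Cfsg.Agent.Lib.Helper5_UTiSub
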