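import Mathlib

/-! An element acting by conjugation on an abelian normal subgroup: the commutator map. -/

namespace Cfsg.Agent.Lib.Helper7_AbAct

open scoped IsMulCommutative

variable {G : Type*} [Group G] (Q : Subgroup G) [Q.Normal] [IsMulCommutative Q] (x : G)

/-- `y ↦ x y x⁻¹ y⁻¹` as an endomorphism of the abelian normal subgroup `Q`. -/
noncomputable def commHom : Q →* Q :=
  (MulAut.conjNormal x : MulAut Q).toMonoidHom / MonoidHom.id Q

theorem commHom_apply (y : Q) : ((commHom Q x y : Q) : G) = x * y * x⁻¹ * (y : G)⁻¹ := by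
  unfold commHom
  rw [MonoidHom.div_apply, div_eq_mul_inv]
  simp [MulAut.conjNormal_apply]

/-- The image `[x, Q]`. -/
noncomputable def commSub : Subgroup G := (commHom Q x).range.map Q.subtype

theorem mem_commSub_iff {d : G} : d ∈ commSub Q x ↔ ∃ y ∈ Q, d = x * y * x⁻¹ * y⁻¹ := by
  unfold commSub
  constructor
  · rintro ⟨_, ⟨y, rfl⟩, rfl⟩
    exact ⟨y, y.2, commHom_apply Q x y⟩
  · rintro ⟨y, hy, rfl⟩
    exact ⟨commHom Q x ⟨y, hy⟩, ⟨⟨y, hy⟩, rfl⟩, commHom_apply Q x ⟨y, hy⟩⟩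

theorem commSub_le : commSub Q x ≤ Q := by
  unfold commSub
  exact Subgroup.map_subtype_le _

theorem conj_mem_commSub {d : G} (hd : d ∈ commSub Q x) : x * d * x⁻¹ ∈ commSub Q x := by
  obtain ⟨y, hy, rfl⟩ := (mem_commSub_iff Q x).mp hd
  refine (mem_commSub_iff Q x).mpr ⟨x * y * x⁻¹, ‹Q.Normal›.conj_mem y hy x, ?_⟩
  group

omit [Q.Normal] in
theorem comm_of_mem {a b : G} (ha : a ∈ Q) (hb : b ∈ Q) : a * b = b * a := by
  have := mul_comm' (⟨a, ha⟩ : Q) ⟨b, hb⟩
  exact congrArg Subtype.val this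

theorem conj_mem_commSub' {b d : G} (hb : b ∈ Q) (hd : d ∈ commSub Q x) :
    b * d * b⁻¹ ∈ commSub Q x := by
  rw [comm_of_mem Q hb (commSub_le Q x hd), mul_inv_cancel_right]; exact hd

theorem centralizes_of_centralizes_commSub [Finite G] (hcop : (orderOf x).Coprime (Nat.card Q))
    (h : ∀ d ∈ commSub Q x, x * d = d * x) : ∀ y ∈ Q, x * y = y * x := by
  intro y hy
  set d := x * y * x⁻¹ * y⁻¹ with hd
  have hdm : d ∈ commSub Q x := (mem_commSub_iff Q x).mpr ⟨y, hy, rfl⟩
  have hdx : x * d = d * x := h d hdm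
  have hxy : x * y * x⁻¹ = d * y := by rw [hd]; group
  have hpow : ∀ k : ℕ, x ^ k * y * (x ^ k)⁻¹ = d ^ k * y := by
    intro k
    induction k with
    | zero => simp
    | succ k ih =>
      have h1 : x ^ (k + 1) * y * (x ^ (k + 1))⁻¹ = x * (x ^ k * y * (x ^ k)⁻¹) * x⁻¹ := by
        rw [pow_succ']; group
      have h2 : x * d ^ k = d ^ k * x := (Commute.pow_right (show Commute x d from hdx) k).eq
      rw [h1, ih]
      calc x * (d ^ k * y) * x⁻¹ = (x * d ^ k) * y * x⁻¹ := by group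
        _ = d ^ k * (x * y * x⁻¹) := by rw [h2]; group
        _ = d ^ (k + 1) * y := by rw [hxy, pow_succ]; group
  have h3 := hpow (orderOf x)
  rw [pow_orderOf_eq_one] at h3
  have h4 : d ^ orderOf x = 1 := by
    have : y = d ^ orderOf x * y := by simpa using h3
    exact (mul_eq_right.mp this.symm)
  have h5 : d ^ Nat.card Q = 1 := by
    have := pow_card_eq_one' (x := (⟨d, commSub_le Q x hdm⟩ : Q))
    exact congrArg Subtype.val this
  have h6 : orderOf d ∣ 1 := by
    rw [← Nat.Coprime.gcd_eq_one hcop]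
    exact Nat.dvd_gcd (orderOf_dvd_of_pow_eq_one h4) (orderOf_dvd_of_pow_eq_one h5)
  have h7 : d = 1 := orderOf_eq_one_iff.mp (Nat.dvd_one.mp h6)
  rw [h7, one_mul] at hxy
  calc x * y = (x * y * x⁻¹) * x := by group
    _ = y * x := by rw [hxy]

theorem eq_one_of_commSub_eq [Finite G] (h : commSub Q x = Q) :
    ∀ c ∈ Q, x * c = c * x → c = 1 := by
  intro c hc hxc
  have hsurj : Function.Surjective (commHom Q x) := by
    intro y
    have h1 : (y : G) ∈ commSub Q x := by rw [h]; exact y.2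
    obtain ⟨z, hz, hyz⟩ := (mem_commSub_iff Q x).mp h1
    refine ⟨⟨z, hz⟩, Subtype.ext ?_⟩
    rw [commHom_apply]; exact hyz.symm
  have hinj := Finite.injective_iff_surjective.mpr hsurj
  have h2 : commHom Q x ⟨c, hc⟩ = commHom Q x 1 := by
    apply Subtype.ext
    rw [map_one, commHom_apply]
    show x * c * x⁻¹ * c⁻¹ = 1
    rw [hxc]; group
  have := hinj h2
  exact congrArg Subtype.val this

end Cfsg.Agent.Lib.Helper7_AbAct
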