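import Mathlib
import Cfsg.Agent.Lib.Helper7_Frat2
import Cfsg.Agent.Lib.Helper1_SZ

set_option autoImplicit false

namespace Cfsg.Agent.Lib.Helper7_Prim

open Pointwise Cfsg Cfsg.Agent.Lib.Helper4_Syl Cfsg.Agent.Lib.Helper1_SZ
  Cfsg.Agent.Lib.Helper7_Hall Cfsg.Agent.Lib.Helper7_Max
  Cfsg.Agent.Lib.Helper1_MinNormal Cfsg.Agent.Lib.Helper7_Frat Cfsg.Agent.Lib.Helper7_Frat2

universe u
variable {G : Type u} [Group G]

theorem mk'_eq_one {N : Subgroup G} [N.Normal] {x : G} (h : x ∈ N) : QuotientGroup.mk' N x = 1 :=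
  (QuotientGroup.eq_one_iff x).mpr h

theorem mem_of_mk'_eq_one {N : Subgroup G} [N.Normal] {x : G} (h : QuotientGroup.mk' N x = 1) :
    x ∈ N := (QuotientGroup.eq_one_iff x).mp h

theorem not_le_of_corefree {U : Subgroup G} (hcore : U.normalCore = ⊥) (N : Subgroup G) [N.Normal]
    (hN : N ≠ ⊥) : ¬ N ≤ U := by
  intro h
  apply hN
  rw [eq_bot_iff, ← hcore]
  exact Subgroup.normal_le_normalCore.mpr h

theorem sup_eq_top_of_corefree {U : Subgroup G} (hU : IsCoatom U) (hcore : U.normalCore = ⊥)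
    (N : Subgroup G) [N.Normal] (hN : N ≠ ⊥) : N ⊔ U = ⊤ :=
  sup_eq_top_of_coatom hU (not_le_of_corefree hcore N hN)

theorem centralizer_inf_eq_bot [Finite G] {U : Subgroup G} (hU : IsCoatom U)
    (hcore : U.normalCore = ⊥) (N : Subgroup G) [hNn : N.Normal] (hN : N ≠ ⊥) :
    Subgroup.centralizer (N : Set G) ⊓ U = ⊥ := by
  have hCn : (Subgroup.centralizer (N : Set G)).Normal := inferInstance
  have hn : (Subgroup.centralizer (N : Set G) ⊓ U).Normal := by
    apply normal_of_sup_eq_top N U _ (sup_eq_top_of_corefree hU hcore N hN)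
    · intro a ha d hd
      have := (Subgroup.mem_centralizer_iff.mp hd.1) a ha
      rw [this, mul_inv_cancel_right]; exact hd
    · intro b hb d hd
      exact ⟨hCn.conj_mem d hd.1 b, U.mul_mem (U.mul_mem hb hd.2) (U.inv_mem hb)⟩
  rw [eq_bot_iff, ← hcore]
  exact Subgroup.normal_le_normalCore.mpr inf_le_right

theorem centralizer_minimal [Finite G] {U : Subgroup G} (hU : IsCoatom U)
    (hcore : U.normalCore = ⊥) (N : Subgroup G) [hNn : N.Normal] (hN : N ≠ ⊥)
    (K : Subgroup G) (hKn : K.Normal) (hK : K ≤ Subgroup.centralizer (N : Set G)) :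
    K = ⊥ ∨ K = Subgroup.centralizer (N : Set G) := by
  by_cases hKb : K = ⊥
  · exact Or.inl hKb
  · right
    apply le_antisymm hK
    have h1 := dedekind_le hK (sup_eq_top_of_corefree hU hcore K hKb)
    rwa [centralizer_inf_eq_bot hU hcore N hN, sup_bot_eq] at h1

theorem isComplement'_of_inf_sup {A U : Subgroup G} [A.Normal] (h1 : A ⊓ U = ⊥) (h2 : A ⊔ U = ⊤) :
    Subgroup.IsComplement' A U := by
  apply Subgroup.isComplement'_of_disjoint_and_mul_eq_univ (disjoint_iff.mpr h1)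
  rw [← Subgroup.normal_mul, h2]; rfl

theorem equiv_of_complement (A B U : Subgroup G) [A.Normal] [B.Normal] (hAB : A ⊓ B = ⊥)
    (hBU : B ⊓ U = ⊥) (hsup : B ⊔ U = ⊤) : Nonempty (A ≃* ↥((A ⊔ B) ⊓ U)) := by
  set W := (A ⊔ B) ⊓ U with hW
  set χ : A →* G ⧸ B := (QuotientGroup.mk' B).comp A.subtype with hχ
  set ψ : W →* G ⧸ B := (QuotientGroup.mk' B).comp W.subtype with hψ
  have hχi : Function.Injective χ := by
    rw [injective_iff_map_eq_one]
    intro a ha
    have h1 : (a : G) ∈ B := (QuotientGroup.eq_one_iff _).mp ha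
    have h2 : (a : G) ∈ A ⊓ B := ⟨a.2, h1⟩
    rw [hAB] at h2
    exact Subtype.ext h2
  have hψi : Function.Injective ψ := by
    rw [injective_iff_map_eq_one]
    intro a ha
    have h1 : (a : G) ∈ B := (QuotientGroup.eq_one_iff _).mp ha
    have h2 : (a : G) ∈ B ⊓ U := ⟨h1, a.2.2⟩
    rw [hBU] at h2
    exact Subtype.ext h2
  have hrange : χ.range = ψ.range := by
    apply le_antisymm
    · rintro _ ⟨a, rfl⟩
      have h1 : (a : G) ∈ B ⊔ ((A ⊔ B) ⊓ U) :=
        dedekind_le (le_sup_right : B ≤ A ⊔ B) hsup (Subgroup.mem_sup_left a.2)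
      rw [Subgroup.mem_sup_of_normal_left] at h1
      obtain ⟨b, hb, w, hw, hbw⟩ := h1
      refine ⟨⟨w, hw⟩, ?_⟩
      show QuotientGroup.mk' B w = QuotientGroup.mk' B a
      rw [← hbw, map_mul, mk'_eq_one hb, one_mul]
    · rintro _ ⟨w, rfl⟩
      have h1 : (w : G) ∈ A ⊔ B := w.2.1
      rw [Subgroup.mem_sup_of_normal_left] at h1
      obtain ⟨a, ha, b, hb, hab⟩ := h1
      refine ⟨⟨a, ha⟩, ?_⟩
      show QuotientGroup.mk' B a = QuotientGroup.mk' B w
      rw [← hab, map_mul, mk'_eq_one hb, mul_one]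
  exact ⟨(MonoidHom.ofInjective hχi).trans ((MulEquiv.subgroupCongr hrange).trans
    (MonoidHom.ofInjective hψi).symm)⟩

theorem two_minimal_normal [Finite G] (U : Subgroup G) (hU : IsCoatom U)
    (hcore : U.normalCore = ⊥) (A B : Subgroup G) [hAn : A.Normal] [hBn : B.Normal] (hA : A ≠ ⊥)
    (hB : B ≠ ⊥) (hAmin : ∀ K : Subgroup G, K.Normal → K ≤ A → K = ⊥ ∨ K = A)
    (hBmin : ∀ K : Subgroup G, K.Normal → K ≤ B → K = ⊥ ∨ K = B) (hAB : A ≠ B) :
    Subgroup.centralizer (B : Set G) = A ∧ Subgroup.centralizer (A : Set G) = B ∧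
      Subgroup.IsComplement' A U ∧ Subgroup.IsComplement' B U ∧ ¬ IsMulCommutative A ∧
      Nonempty (A ≃* B) ∧ Nonempty (A ≃* ↥((A ⊔ B) ⊓ U)) := by
  have hinf : A ⊓ B = ⊥ := by
    rcases hAmin (A ⊓ B) inferInstance inf_le_left with h | h
    · exact h
    · exfalso
      have h1 : A ≤ B := h ▸ inf_le_right
      rcases hBmin A hAn h1 with h2 | h2
      · exact hA h2
      · exact hAB h2
  have hcomm : ⁅A, B⁆ = ⊥ := by
    rw [eq_bot_iff, ← hinf]; exact Subgroup.commutator_le_inf A B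
  have hAC : A ≤ Subgroup.centralizer (B : Set G) :=
    Subgroup.commutator_eq_bot_iff_le_centralizer.mp hcomm
  have hBC : B ≤ Subgroup.centralizer (A : Set G) := Subgroup.le_centralizer_iff.mp hAC
  have e1 : Subgroup.centralizer (B : Set G) = A :=
    ((centralizer_minimal hU hcore B hB A hAn hAC).resolve_left hA).symm
  have e2 : Subgroup.centralizer (A : Set G) = B :=
    ((centralizer_minimal hU hcore A hA B hBn hBC).resolve_left hB).symm
  have hAU : A ⊓ U = ⊥ := by
    have := centralizer_inf_eq_bot hU hcore B hB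
    rwa [e1] at this
  have hBU : B ⊓ U = ⊥ := by
    have := centralizer_inf_eq_bot hU hcore A hA
    rwa [e2] at this
  have sA := sup_eq_top_of_corefree hU hcore A hA
  have sB := sup_eq_top_of_corefree hU hcore B hB
  obtain ⟨f⟩ := equiv_of_complement A B U hinf hBU sB
  obtain ⟨g⟩ := equiv_of_complement B A U (inf_comm A B ▸ hinf) hAU sA
  refine ⟨e1, e2, isComplement'_of_inf_sup hAU sA, isComplement'_of_inf_sup hBU sB, ?_, ?_, ⟨f⟩⟩
  · intro hc
    apply hA
    have h1 : A ≤ Subgroup.centralizer (A : Set G) := Subgroup.le_centralizer_iff_isMulCommutative.mpr hc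
    rw [e2] at h1
    rw [eq_bot_iff, ← hinf]
    exact le_inf le_rfl h1
  · have e : (B ⊔ A) ⊓ U = (A ⊔ B) ⊓ U := by rw [sup_comm]
    exact ⟨f.trans ((MulEquiv.subgroupCongr e).symm.trans g.symm)⟩

theorem corefree_maximal_conj [Finite G] [Group.IsSolvable G] (U V : Subgroup G) (hU : IsCoatom U)
    (hV : IsCoatom V) (hUc : U.normalCore = ⊥) (hVc : V.normalCore = ⊥) :
    ∃ g : G, MulAut.conj g • U = V := by
  have hnt : Nontrivial G := by
    by_contra h
    rw [not_nontrivial_iff_subsingleton] at h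
    exact hU.1 (Subsingleton.elim _ _)
  obtain ⟨p, N, hp, hNn, hNne, hNc, hNp, hNmin⟩ := exists_normal_elementary_abelian (G := G)
  have := Fact.mk hp
  have hNC : N ≤ Subgroup.centralizer (N : Set G) := Subgroup.le_centralizer_iff_isMulCommutative.mpr hNc
  have hC : Subgroup.centralizer (N : Set G) = N :=
    ((centralizer_minimal hU hUc N hNne N hNn hNC).resolve_left hNne).symm
  have hNU : N ⊓ U = ⊥ := by
    have := centralizer_inf_eq_bot hU hUc N hNne
    rwa [hC] at this
  have hNV : N ⊓ V = ⊥ := by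
    have := centralizer_inf_eq_bot hV hVc N hNne
    rwa [hC] at this
  have sU := sup_eq_top_of_corefree hU hUc N hNne
  have sV := sup_eq_top_of_corefree hV hVc N hNne
  by_cases hNtop : N = ⊤
  · refine ⟨1, ?_⟩
    rw [hNtop, top_inf_eq] at hNU hNV
    rw [hNU, hNV]; simp
  have : Nontrivial (G ⧸ N) := QuotientGroup.nontrivial_iff.mpr hNtop
  obtain ⟨q, Lb, hq, hLbn, hLbne, -, hLbq, -⟩ := exists_normal_elementary_abelian (G := G ⧸ N)
  have := Fact.mk hq
  set L := Lb.comap (QuotientGroup.mk' N) with hL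
  have hLn : L.Normal := hLbn.comap _
  have hNL : N ≤ L := by
    intro x hx
    show QuotientGroup.mk' N x ∈ Lb
    rw [mk'_eq_one hx]; exact Lb.one_mem
  have hLN : ¬ L ≤ N := by
    intro h
    apply hLbne
    rw [eq_bot_iff]
    intro y hy
    obtain ⟨x, rfl⟩ := QuotientGroup.mk'_surjective N y
    exact mk'_eq_one (h hy)
  have hqp : q ≠ p := by
    rintro rfl
    apply hLN
    have hLp : IsPGroup q L := by
      intro x
      refine ⟨2, ?_⟩
      have h1 : (QuotientGroup.mk' N (x : G)) ^ q = 1 := hLbq _ x.2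
      rw [← map_pow] at h1
      have h2 := hNp _ (mem_of_mk'_eq_one h1)
      apply Subtype.ext
      rw [Subgroup.coe_pow, pow_two, pow_mul]
      exact h2
    have hLnil : Group.IsNilpotent L := hLp.isNilpotent
    have h1 : L ≤ Cfsg.fittingSubgroup G := le_sSup ⟨hLn, hLnil⟩
    have h2 := fitting_le_centralizer_min N hNne hNmin
    rw [hC] at h2
    exact h1.trans h2
  have hrel : N.relIndex L = Nat.card Lb := by
    have h1 := card_comap_mk' N Lb
    have h2 := card_mul_relIndex hNL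
    rw [← hL] at h1
    rw [h1, mul_comm] at h2
    exact Nat.eq_of_mul_eq_mul_right Nat.card_pos h2
  have hcop : (Nat.card N).Coprime (N.relIndex L) := by
    obtain ⟨a, ha⟩ := IsPGroup.iff_card.mp (isPGroup_of_pow_eq_one hNp)
    obtain ⟨b, hb⟩ := IsPGroup.iff_card.mp (isPGroup_of_pow_eq_one hLbq)
    rw [hrel, ha, hb]
    exact Nat.Coprime.pow _ _ ((Nat.coprime_primes hp hq).mpr (Ne.symm hqp))
  have cU : Nat.card (U ⊓ L : Subgroup G) = N.relIndex L :=
    dedekind_card (isComplement'_of_inf_sup hNU sU) hNL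
  have cV : Nat.card (V ⊓ L : Subgroup G) = N.relIndex L :=
    dedekind_card (isComplement'_of_inf_sup hNV sV) hNL
  obtain ⟨x, -, hx⟩ := SZ_rel_conj hNL (by rw [Subgroup.normalizer_eq_top_iff.mpr hNn]; exact le_top)
    hcop (Or.inl inferInstance) (inf_le_right : U ⊓ L ≤ L) (inf_le_right : V ⊓ L ≤ L) cU cV
  have hLb1 : Nat.card Lb ≠ 1 := by
    intro h
    exact hLbne (Subgroup.card_eq_one.mp h)
  have norm_eq : ∀ W : Subgroup G, IsCoatom W → W.normalCore = ⊥ →
      Nat.card (W ⊓ L : Subgroup G) = N.relIndex L →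
      Subgroup.normalizer ((W ⊓ L : Subgroup G) : Set G) = W := by
    intro W hW hWc hWcard
    have h1 : W ≤ Subgroup.normalizer ((W ⊓ L : Subgroup G) : Set G) := by
      intro w hw
      apply mem_normalizer_of_conj_mem
      intro d hd
      exact ⟨W.mul_mem (W.mul_mem hw hd.1) (W.inv_mem hw), hLn.conj_mem d hd.2 w⟩
    rcases hW.le_iff.mp h1 with h2 | h2
    · exfalso
      have h3 : (W ⊓ L).Normal := Subgroup.normalizer_eq_top_iff.mp h2
      have h4 : W ⊓ L = ⊥ := by
        rw [eq_bot_iff, ← hWc]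
        exact Subgroup.normal_le_normalCore.mpr inf_le_left
      rw [h4, hrel] at hWcard
      apply hLb1
      rw [← hWcard]; simp
    · exact h2
  refine ⟨x, ?_⟩
  rw [← norm_eq U hU hUc cU, ← normalizer_conj, hx, norm_eq V hV hVc cV]

end Cfsg.Agent.Lib.Helper7_Prim
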