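import Mathlib
import Cfsg.Prelude.Def_SolvableStructure
import Cfsg.Agent.Lib.Helper7_Idx
import Cfsg.Agent.Lib.Helper7_Hall

set_option autoImplicit false

namespace Cfsg.Agent.Lib.Helper7_SysNorm

open Pointwise Cfsg Cfsg.Agent.Lib.Helper4_Syl Cfsg.Agent.Lib.Helper1_SZ Cfsg.Agent.Lib.Helper7_Idx
  Cfsg.Agent.Lib.Helper1_PNil Cfsg.Agent.Lib.Helper7_Hall Cfsg.Agent.Lib.Helper7_Max

universe u
variable {G : Type u} [Group G]

theorem card_coprime_of_index [Finite G] {p : ℕ} (hp : p.Prime) {H : Subgroup G}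
    (h : H.index = p ^ (Nat.card G).factorization p) : (Nat.card H).Coprime p := by
  have h1 := Subgroup.card_mul_index H
  have h2 := Nat.ordProj_mul_ordCompl_eq_self (Nat.card G) p
  have h3 : Nat.card H = Nat.card G / p ^ (Nat.card G).factorization p := by
    rw [h] at h1
    have hpos : 0 < p ^ (Nat.card G).factorization p := pow_pos hp.pos _
    apply Nat.eq_of_mul_eq_mul_right hpos
    rw [h1, mul_comm, h2]
  rw [h3]
  exact (Nat.coprime_ordCompl hp Nat.card_pos.ne').symm

theorem index_eq_of_coprime [Finite G] {p : ℕ} (hp : p.Prime) {H : Subgroup G} {k : ℕ}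
    (h : H.index = p ^ k) (hc : (Nat.card H).Coprime p) :
    H.index = p ^ (Nat.card G).factorization p := by
  have h1 := Subgroup.card_mul_index H
  rw [h] at h1
  rw [h, ← h1, Nat.factorization_mul Nat.card_pos.ne' (pow_pos hp.pos _).ne']
  have h2 : (Nat.card H).factorization p = 0 :=
    Nat.factorization_eq_zero_of_not_dvd
      (fun hd => (Nat.Prime.coprime_iff_not_dvd hp).mp hc.symm hd)
  simp [h2, hp.factorization_self]

theorem cs_card_coprime [Finite G] {K : Nat.Primes → Subgroup G}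
    (hK : IsComplementSystem K) (p : Nat.Primes) : (Nat.card (K p)).Coprime p :=
  card_coprime_of_index p.2 (hK p)

theorem systemNormalizer_le (K : Nat.Primes → Subgroup G) (p : Nat.Primes) :
    systemNormalizer K ≤ Subgroup.normalizer (K p : Set G) := iInf_le _ p

theorem mem_systemNormalizer {K : Nat.Primes → Subgroup G} {x : G} :
    x ∈ systemNormalizer K ↔ ∀ p, x ∈ Subgroup.normalizer (K p : Set G) := by
  simp [systemNormalizer, Subgroup.mem_iInf]

/-- a finite group with normal `p`-complements for all primes is nilpotent -/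
theorem isNilpotent_of_forall_isNPC [Finite G]
    (h : ∀ p : Nat.Primes, ∃ N : Subgroup G, IsNPC (p : ℕ) N) : Group.IsNilpotent G := by
  choose N hN using h
  rw [(Group.isNilpotent_of_finite_tfae (G := G)).out 0 3 rfl rfl]
  intro p hp P
  set R : Subgroup G := ⨅ q : {q : Nat.Primes // (q : ℕ) ≠ p}, N q.1 with hR
  have hRn : R.Normal := by
    have : ∀ q : {q : Nat.Primes // (q : ℕ) ≠ p}, (N q.1).Normal := fun q => (hN q.1).1
    exact Subgroup.normal_iInf_normal this
  have hmem : ∀ x : G, x ∈ R ↔ ∀ q : Nat.Primes, (q : ℕ) ≠ p → (orderOf x).Coprime q := by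
    intro x
    rw [hR, Subgroup.mem_iInf]
    constructor
    · intro h q hq
      have := Fact.mk q.2
      exact ((hN q).mem_iff x).mp (h ⟨q, hq⟩)
    · intro h q
      have := Fact.mk q.1.2
      exact ((hN q.1).mem_iff x).mpr (h q.1 q.2)
  have hPR : (P : Subgroup G) ≤ R := by
    intro x hx
    rw [hmem]
    intro q hq
    obtain ⟨k, hk⟩ := (IsPGroup.iff_orderOf.mp P.isPGroup') ⟨x, hx⟩
    rw [Subgroup.orderOf_mk] at hk
    rw [hk]
    exact Nat.Coprime.pow_left _ ((Nat.coprime_primes hp.out q.2).mpr (Ne.symm hq))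
  have hRp : IsPGroup p R := by
    rw [IsPGroup.iff_orderOf]
    intro x
    refine ⟨_, Nat.eq_prime_pow_of_unique_prime_dvd (orderOf_pos x).ne' ?_⟩
    intro d hd hdx
    by_contra hne
    have h1 := (hmem x).mp x.2 ⟨d, hd⟩ hne
    rw [Subgroup.orderOf_coe] at h1
    exact hd.one_lt.ne' (Nat.eq_one_of_dvd_coprimes h1 hdx dvd_rfl)
  have : R = P := P.is_maximal' hRp hPR
  rw [← this]; exact hRn

theorem systemNormalizer_isNilpotent [Finite G] (K : Nat.Primes → Subgroup G)
    (hK : IsComplementSystem K) : Group.IsNilpotent (systemNormalizer K) := by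
  apply isNilpotent_of_forall_isNPC
  intro p
  refine ⟨(K p).subgroupOf (systemNormalizer K), ?_, ?_, ?_⟩
  · exact Subgroup.normal_subgroupOf_of_le_normalizer (systemNormalizer_le K p)
  · have h1 : Nat.card ((K p).subgroupOf (systemNormalizer K)) ∣ Nat.card (K p) :=
      Subgroup.card_comap_dvd_of_injective _ _ (Subgroup.subtype_injective _)
    exact Nat.Coprime.coprime_dvd_left h1 (cs_card_coprime hK p)
  · have h1 := relIndex_dvd_index_of_le_normalizer (K p) _ (systemNormalizer_le K p)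
    rw [hK p] at h1
    obtain ⟨j, -, hj⟩ := (Nat.dvd_prime_pow p.2).mp h1
    exact ⟨j, hj⟩

theorem cs_conj {K : Nat.Primes → Subgroup G} (hK : IsComplementSystem K) (g : G) :
    IsComplementSystem (fun p => MulAut.conj g • K p) :=
  fun p => by rw [index_conj_smul]; exact hK p

theorem cs_eq_top {K : Nat.Primes → Subgroup G} (hK : IsComplementSystem K) (p : Nat.Primes)
    (hp : ¬ (p : ℕ) ∣ Nat.card G) : K p = ⊤ := by
  rw [← Subgroup.index_eq_one, hK p, Nat.factorization_eq_zero_of_not_dvd hp, pow_zero]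

theorem prime_dvd_index_iInf [Finite G] (H : Nat.Primes → Subgroup G)
    (hH : ∀ p : Nat.Primes, ∃ k : ℕ, (H p).index = (p : ℕ) ^ k) (T : Finset Nat.Primes) :
    ∀ r : Nat.Primes, (r : ℕ) ∣ (⨅ p ∈ T, H p).index → r ∈ T := by
  classical
  induction T using Finset.induction_on with
  | empty =>
    intro r hr
    simp only [Finset.notMem_empty, iInf_false, iInf_top, Subgroup.index_top, Nat.dvd_one] at hr
    exact absurd hr r.2.one_lt.ne'
  | insert q T hq ih =>
    intro r hr
    rw [Finset.iInf_insert] at hr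
    obtain ⟨k, hk⟩ := hH q
    have hcop : (H q).index.Coprime (⨅ p ∈ T, H p).index := by
      rw [hk]
      exact Nat.Coprime.pow_left _ ((Nat.Prime.coprime_iff_not_dvd q.2).mpr (fun h => hq (ih q h)))
    rw [index_inf_of_coprime _ _ hcop, r.2.dvd_mul] at hr
    rcases hr with hr | hr
    · rw [hk] at hr
      have := (Nat.prime_dvd_prime_iff_eq r.2 q.2).mp (r.2.dvd_of_dvd_pow hr)
      rw [Subtype.ext this]
      exact Finset.mem_insert_self _ _
    · exact Finset.mem_insert_of_mem (ih r hr)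

theorem coprime_index_iInf [Finite G] (H : Nat.Primes → Subgroup G)
    (hH : ∀ p : Nat.Primes, ∃ k : ℕ, (H p).index = (p : ℕ) ^ k) (T : Finset Nat.Primes)
    (q : Nat.Primes) (hq : q ∉ T) (k : ℕ) : (⨅ p ∈ T, H p).index.Coprime ((q : ℕ) ^ k) :=
  (Nat.Coprime.pow_left _ ((Nat.Prime.coprime_iff_not_dvd q.2).mpr
    (fun h => hq (prime_dvd_index_iInf H hH T q h)))).symm

theorem card_eq_of_index_eq [Finite G] {H K : Subgroup G} (h : H.index = K.index) :
    Nat.card H = Nat.card K := by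
  have h1 := Subgroup.card_mul_index H
  have h2 := Subgroup.card_mul_index K
  rw [← h2, h] at h1
  exact Nat.eq_of_mul_eq_mul_right (Nat.pos_of_ne_zero Subgroup.index_ne_zero_of_finite) h1

theorem cs_conj_finset [Finite G] [Group.IsSolvable G] (K L : Nat.Primes → Subgroup G)
    (hK : IsComplementSystem K) (hL : IsComplementSystem L) (T : Finset Nat.Primes) :
    ∃ g : G, ∀ p ∈ T, MulAut.conj g • K p = L p := by
  classical
  induction T using Finset.induction_on with
  | empty => exact ⟨1, fun p hp => absurd hp (Finset.notMem_empty p)⟩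
  | insert q T hq ih =>
    obtain ⟨g₀, hg₀⟩ := ih
    have hidx : (MulAut.conj g₀ • K q).index = (L q).index := by
      rw [index_conj_smul, hK q, hL q]
    have hcop : (Nat.card (MulAut.conj g₀ • K q : Subgroup G)).Coprime
        (MulAut.conj g₀ • K q : Subgroup G).index := by
      rw [card_conj_smul, index_conj_smul, hK q]
      exact Nat.Coprime.pow_right _ (cs_card_coprime hK q)
    obtain ⟨x, hx⟩ := Cfsg.Agent.S0004.result _ _ (Subgroup.card_mul_index _).symm hcop
      (MulAut.conj g₀ • K q) (L q) rfl (card_eq_of_index_eq hidx).symm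
    have hc2 : (⨅ p ∈ T, L p).index.Coprime (MulAut.conj g₀ • K q : Subgroup G).index := by
      rw [index_conj_smul, hK q]
      exact coprime_index_iInf L (fun p => ⟨_, hL p⟩) T q hq _
    obtain ⟨d, hd, k, hk, hxdk⟩ := exists_mul_of_coprime_index _ _ hc2 x
    refine ⟨d * g₀, ?_⟩
    intro p hp
    rw [conj_mul_smul]
    rcases Finset.mem_insert.mp hp with rfl | hp
    · rw [← hx, hxdk, conj_mul_smul, conj_smul_eq_of_mem hk]
    · rw [hg₀ p hp]
      apply conj_smul_eq_of_mem
      have := (Subgroup.mem_iInf.mp hd) p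
      exact (Subgroup.mem_iInf.mp this) hp

theorem finite_primes_dvd (n : ℕ) (hn : n ≠ 0) : {p : Nat.Primes | (p : ℕ) ∣ n}.Finite := by
  have h1 : {p : Nat.Primes | (p : ℕ) ∣ n} ⊆ (fun p : Nat.Primes => (p : ℕ)) ⁻¹' (n.primeFactors : Set ℕ) := by
    intro p hp
    exact Finset.mem_coe.mpr (Nat.mem_primeFactors.mpr ⟨p.2, hp, hn⟩)
  exact (Set.Finite.preimage (Set.injOn_of_injective Subtype.val_injective)
    (Finset.finite_toSet _)).subset h1

theorem cs_conjugate [Finite G] [Group.IsSolvable G] (K L : Nat.Primes → Subgroup G)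
    (hK : IsComplementSystem K) (hL : IsComplementSystem L) :
    ∃ g : G, ∀ p : Nat.Primes, MulAut.conj g • K p = L p := by
  obtain ⟨g, hg⟩ := cs_conj_finset K L hK hL
    (finite_primes_dvd (Nat.card G) Nat.card_pos.ne').toFinset
  refine ⟨g, fun p => ?_⟩
  by_cases hp : (p : ℕ) ∣ Nat.card G
  · exact hg p ((Set.Finite.mem_toFinset _).mpr hp)
  · rw [cs_eq_top hK p hp, cs_eq_top hL p hp]
    exact conj_smul_eq_of_mem (Subgroup.mem_top g)

theorem cs_map [Finite G] {K : Nat.Primes → Subgroup G} (hK : IsComplementSystem K)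
    (N : Subgroup G) [N.Normal] :
    IsComplementSystem (fun p => (K p).map (QuotientGroup.mk' N)) := by
  intro p
  have h1 : ((K p).map (QuotientGroup.mk' N)).index ∣ (p : ℕ) ^ (Nat.card G).factorization p := by
    rw [← hK p]; exact Subgroup.index_map_dvd _ (QuotientGroup.mk'_surjective N)
  obtain ⟨j, -, hj⟩ := (Nat.dvd_prime_pow p.2).mp h1
  exact index_eq_of_coprime p.2 hj
    (Nat.Coprime.coprime_dvd_left (Subgroup.card_map_dvd _ _) (cs_card_coprime hK p))

theorem exists_mem_normalizer_of_map [Finite G] [Group.IsSolvable G] {K : Nat.Primes → Subgroup G}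
    (hK : IsComplementSystem K) (N : Subgroup G) [hN : N.Normal] (p : Nat.Primes) {x : G}
    (hx : QuotientGroup.mk' N x ∈
      Subgroup.normalizer (((K p).map (QuotientGroup.mk' N) : Subgroup (G ⧸ N)) : Set (G ⧸ N))) :
    ∃ n ∈ N, n⁻¹ * x ∈ Subgroup.normalizer (K p : Set G) := by
  have hle : MulAut.conj x • K p ≤ N ⊔ K p := by
    intro y hy
    rw [mem_conj_smul] at hy
    have h1 : QuotientGroup.mk' N (x⁻¹ * y * x) ∈ (K p).map (QuotientGroup.mk' N) := ⟨_, hy, rfl⟩
    have h2 := (Subgroup.mem_normalizer_iff.mp hx _).mp h1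
    obtain ⟨k, hk, hky⟩ := h2
    have h3 : QuotientGroup.mk' N k = QuotientGroup.mk' N y := by
      rw [hky, ← map_inv, ← map_mul, ← map_mul]
      congr 1; group
    have h4 : y * k⁻¹ ∈ N := by
      have h5 : QuotientGroup.mk' N (y * k⁻¹) = 1 := by rw [map_mul, map_inv, h3, mul_inv_cancel]
      exact (QuotientGroup.eq_one_iff _).mp h5
    have h6 : y = (y * k⁻¹) * k := by group
    rw [h6]
    exact Subgroup.mul_mem _ (Subgroup.mem_sup_left h4) (Subgroup.mem_sup_right hk)
  have hcop : (Nat.card (K p)).Coprime ((K p).relIndex (N ⊔ K p)) := by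
    have h1 : (K p).relIndex (N ⊔ K p) ∣ (K p).index := Subgroup.relIndex_dvd_index_of_le le_sup_right
    rw [hK p] at h1
    exact Nat.Coprime.coprime_dvd_right h1 (Nat.Coprime.pow_right _ (cs_card_coprime hK p))
  obtain ⟨l, hl, hlx⟩ := hall_conj_rel (N ⊔ K p) (K p) (MulAut.conj x • K p) le_sup_right hle
    (card_conj_smul x (K p)).symm hcop
  rw [Subgroup.mem_sup_of_normal_left] at hl
  obtain ⟨n, hn, k, hk, rfl⟩ := hl
  refine ⟨n, hn, ?_⟩
  rw [conj_mul_smul, conj_smul_eq_of_mem hk] at hlx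
  rw [mem_normalizer_iff_conj_smul, conj_mul_smul, ← hlx, conj_inv_smul_smul]

theorem inter_mul [Finite G] (H₁ H₂ N : Subgroup G) [hN : N.Normal]
    (hcop : H₁.index.Coprime H₂.index) {x : G} (h₁ : ∃ n ∈ N, n⁻¹ * x ∈ H₁)
    (h₂ : ∃ n ∈ N, n⁻¹ * x ∈ H₂) : ∃ n ∈ N, n⁻¹ * x ∈ H₁ ⊓ H₂ := by
  obtain ⟨n₁, hn₁, hx₁⟩ := h₁
  obtain ⟨n₂, hn₂, hx₂⟩ := h₂
  have hc : (H₁.subgroupOf N).index.Coprime (H₂.subgroupOf N).index :=
    Nat.Coprime.coprime_dvd_left (relIndex_dvd_index_of_normal_right H₁ N)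
      (Nat.Coprime.coprime_dvd_right (relIndex_dvd_index_of_normal_right H₂ N) hcop)
  have hmem : (n₁⁻¹ * x) * (n₂⁻¹ * x)⁻¹ ∈ N := by
    have : (n₁⁻¹ * x) * (n₂⁻¹ * x)⁻¹ = n₁⁻¹ * n₂ := by group
    rw [this]; exact N.mul_mem (N.inv_mem hn₁) hn₂
  obtain ⟨a, ha, b, hb, hab⟩ := exists_mul_of_coprime_index _ _ hc (⟨_, hmem⟩ : N)
  have hab' : (n₁⁻¹ * x) * (n₂⁻¹ * x)⁻¹ = (a : G) * (b : G) := congrArg Subtype.val hab
  refine ⟨n₁ * a, N.mul_mem hn₁ a.2, ?_, ?_⟩
  · have : (n₁ * (a : G))⁻¹ * x = (a : G)⁻¹ * (n₁⁻¹ * x) := by group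
    rw [this]
    exact H₁.mul_mem (H₁.inv_mem ha) hx₁
  · have : (n₁ * (a : G))⁻¹ * x = (b : G) * (n₂⁻¹ * x) := by
      calc (n₁ * (a : G))⁻¹ * x = (a : G)⁻¹ * ((n₁⁻¹ * x) * (n₂⁻¹ * x)⁻¹) * (n₂⁻¹ * x) := by group
        _ = (b : G) * (n₂⁻¹ * x) := by rw [hab']; group
    rw [this]
    exact H₂.mul_mem hb hx₂

theorem normalizer_index_pow [Finite G] {K : Nat.Primes → Subgroup G} (hK : IsComplementSystem K)
    (p : Nat.Primes) : ∃ k : ℕ, (Subgroup.normalizer (K p : Set G)).index = (p : ℕ) ^ k := by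
  have h1 : (Subgroup.normalizer (K p : Set G)).index ∣ (K p).index :=
    Subgroup.index_dvd_of_le Subgroup.le_normalizer
  rw [hK p] at h1
  obtain ⟨j, -, hj⟩ := (Nat.dvd_prime_pow p.2).mp h1
  exact ⟨j, hj⟩

theorem systemNormalizer_map [Finite G] [Group.IsSolvable G] {K : Nat.Primes → Subgroup G}
    (hK : IsComplementSystem K) (N : Subgroup G) [hN : N.Normal] :
    systemNormalizer (fun p => (K p).map (QuotientGroup.mk' N)) =
      (systemNormalizer K).map (QuotientGroup.mk' N) := by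
  classical
  apply le_antisymm
  · intro y hy
    obtain ⟨x, rfl⟩ := QuotientGroup.mk'_surjective N y
    rw [mem_systemNormalizer] at hy
    have key : ∀ T : Finset Nat.Primes,
        ∃ n ∈ N, n⁻¹ * x ∈ ⨅ p ∈ T, Subgroup.normalizer (K p : Set G) := by
      intro T
      induction T using Finset.induction_on with
      | empty => exact ⟨1, N.one_mem, by simp⟩
      | insert q T hq ih =>
        rw [Finset.iInf_insert]
        apply inter_mul _ _ N _ (exists_mem_normalizer_of_map hK N q (hy q)) ih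
        obtain ⟨k, hk⟩ := normalizer_index_pow hK q
        rw [hk]
        exact (coprime_index_iInf _ (normalizer_index_pow hK) T q hq k).symm
    obtain ⟨n, hn, hnx⟩ := key (finite_primes_dvd (Nat.card G) Nat.card_pos.ne').toFinset
    refine ⟨n⁻¹ * x, ?_, ?_⟩
    · show n⁻¹ * x ∈ systemNormalizer K
      rw [mem_systemNormalizer]
      intro p
      by_cases hp : (p : ℕ) ∣ Nat.card G
      · exact (Subgroup.mem_iInf.mp ((Subgroup.mem_iInf.mp hnx) p)) ((Set.Finite.mem_toFinset _).mpr hp)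
      · rw [cs_eq_top hK p hp]
        have : Subgroup.normalizer (((⊤ : Subgroup G) : Subgroup G) : Set G) = ⊤ :=
          Subgroup.normalizer_eq_top_iff.mpr inferInstance
        rw [this]; exact Subgroup.mem_top _
    · rw [map_mul, map_inv]
      have : QuotientGroup.mk' N n = 1 := (QuotientGroup.eq_one_iff n).mpr hn
      rw [this]; simp
  · rintro _ ⟨x, hx, rfl⟩
    rw [mem_systemNormalizer]
    intro p
    exact Subgroup.le_normalizer_map _ ⟨x, (mem_systemNormalizer.mp hx) p, rfl⟩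

end Cfsg.Agent.Lib.Helper7_SysNorm
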