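import Mathlib
import Cfsg.Prelude.Def_SolvableStructure
import Cfsg.Agent.Lib.Helper7_Prim
import Cfsg.Agent.Lib.Helper7_SysNorm
import Cfsg.Agent.Lib.Helper7_Subnormal

set_option autoImplicit false

namespace Cfsg.Agent.Lib.Helper7_Carter

open Pointwise Cfsg Cfsg.Agent.Lib.Helper4_Syl Cfsg.Agent.Lib.Helper1_SZ Cfsg.Agent.Lib.Helper7_Idx
  Cfsg.Agent.Lib.Helper1_PNil Cfsg.Agent.Lib.Helper7_Hall Cfsg.Agent.Lib.Helper7_Max
  Cfsg.Agent.Lib.Helper7_SysNorm Cfsg.Agent.Lib.Helper1_MinNormal Cfsg.Agent.Lib.Helper7_Frat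
  Cfsg.Agent.Lib.Helper7_Frat2 Cfsg.Agent.Lib.Helper7_Prim Cfsg.Agent.Lib.Helper3_Comp
  Cfsg.Agent.Lib.Helper7_Subnormal

universe u
variable {G : Type u} [Group G]

/-- Fitting: the join of two nilpotent subgroups normalizing each other is nilpotent -/
theorem nilpotent_sup [Finite G] (X Y : Subgroup G) (hX : Group.IsNilpotent X)
    (hY : Group.IsNilpotent Y) (hYX : Y ≤ Subgroup.normalizer (X : Set G))
    (hXY : X ≤ Subgroup.normalizer (Y : Set G)) : Group.IsNilpotent (X ⊔ Y : Subgroup G) := by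
  set E := X ⊔ Y with hE
  have hXE : X ≤ E := le_sup_left
  have hYE : Y ≤ E := le_sup_right
  have hXn : (X.subgroupOf E).Normal :=
    (Subgroup.normal_subgroupOf_iff_le_normalizer hXE).mpr (sup_le Subgroup.le_normalizer hYX)
  have hYn : (Y.subgroupOf E).Normal :=
    (Subgroup.normal_subgroupOf_iff_le_normalizer hYE).mpr (sup_le hXY Subgroup.le_normalizer)
  have hX' : Group.IsNilpotent (X.subgroupOf E) :=
    (Group.isNilpotent_congr (Subgroup.subgroupOfEquivOfLe hXE)).mpr hX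
  have hY' : Group.IsNilpotent (Y.subgroupOf E) :=
    (Group.isNilpotent_congr (Subgroup.subgroupOfEquivOfLe hYE)).mpr hY
  have h1 : X.subgroupOf E ≤ Cfsg.fittingSubgroup E := le_sSup ⟨hXn, hX'⟩
  have h2 : Y.subgroupOf E ≤ Cfsg.fittingSubgroup E := le_sSup ⟨hYn, hY'⟩
  have h3 : Cfsg.fittingSubgroup E = ⊤ := by
    have h5 : X.subgroupOf E ⊔ Y.subgroupOf E = ⊤ := by
      rw [← Subgroup.subgroupOf_sup hXE hYE]
      exact Subgroup.subgroupOf_self E
    rw [eq_top_iff, ← h5]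
    exact sup_le h1 h2
  have h4 := fittingSubgroup_isNilpotent E
  rw [h3] at h4
  exact Group.isNilpotent_top.mp h4

theorem nilpotent_of_quotient_frattini [Finite G] (B : Subgroup G) [B.Normal]
    (hB : B ≤ frattini G) (h : Group.IsNilpotent (G ⧸ B)) : Group.IsNilpotent G := by
  rw [← Group.isNilpotent_top]
  apply nilpotent_of_mod_frattini ⊤ B le_top hB
  have e : (↥(⊤ : Subgroup G) ⧸ B.subgroupOf ⊤) ≃* G ⧸ B :=
    QuotientGroup.congr _ _ Subgroup.topEquiv (by
      ext x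
      constructor
      · rintro ⟨y, hy, rfl⟩
        exact hy
      · intro hx
        exact ⟨⟨x, Subgroup.mem_top x⟩, hx, rfl⟩)
  exact (Group.isNilpotent_congr e).mpr h

/-- nilpotent supplements -/
theorem exists_nilpotent_supplement [Finite G] (N C₁ : Subgroup G) [hN : N.Normal] (hNC : N ≤ C₁)
    (h : Group.IsNilpotent (C₁.map (QuotientGroup.mk' N))) :
    ∃ C : Subgroup G, C ≤ C₁ ∧ Group.IsNilpotent C ∧ C ⊔ N = C₁ := by
  classical
  have hex : ∃ n : ℕ, ∃ C : Subgroup G, C ≤ C₁ ∧ C ⊔ N = C₁ ∧ Nat.card C = n :=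
    ⟨_, C₁, le_rfl, sup_eq_left.mpr hNC, rfl⟩
  obtain ⟨C, hCC₁, hCN, hCn⟩ := Nat.find_spec hex
  have hmin : ∀ C' : Subgroup G, C' ≤ C₁ → C' ⊔ N = C₁ → Nat.card C ≤ Nat.card C' := by
    intro C' h1 h2
    rw [hCn]
    exact Nat.find_min' hex ⟨C', h1, h2, rfl⟩
  refine ⟨C, hCC₁, ?_, hCN⟩
  apply nilpotent_of_quotient_frattini (N.subgroupOf C)
  · rw [le_frattini_iff]
    intro M' hM'
    by_contra hle
    have hsup := sup_eq_top_of_coatom hM' hle
    have h1 : M'.map C.subtype ⊔ N = C₁ := by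
      apply le_antisymm (sup_le ((Subgroup.map_subtype_le M').trans hCC₁) hNC)
      rw [← hCN]
      apply sup_le _ le_sup_right
      intro c hc
      have h2 : (⟨c, hc⟩ : C) ∈ N.subgroupOf C ⊔ M' := hsup ▸ Subgroup.mem_top _
      rw [Subgroup.mem_sup_of_normal_left] at h2
      obtain ⟨b, hb, m, hm, hbm⟩ := h2
      have h3 : c = (b : G) * (m : G) := (congrArg Subtype.val hbm).symm
      rw [h3]
      exact Subgroup.mul_mem _ (Subgroup.mem_sup_right hb) (Subgroup.mem_sup_left ⟨m, hm, rfl⟩)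
    have h2 := hmin _ ((Subgroup.map_subtype_le M').trans hCC₁) h1
    rw [card_map_subtype] at h2
    exact hM'.1 ((Subgroup.card_eq_iff_eq_top M').mp (le_antisymm (Subgroup.card_le_card_group M') h2))
  · set φ : C →* G ⧸ N := (QuotientGroup.mk' N).comp C.subtype with hφ
    have hker : φ.ker = N.subgroupOf C := by
      ext x
      rw [MonoidHom.mem_ker, Subgroup.mem_subgroupOf]
      exact QuotientGroup.eq_one_iff (x : G)
    have hrange : φ.range ≤ C₁.map (QuotientGroup.mk' N) := by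
      rintro _ ⟨x, rfl⟩
      exact ⟨x, hCC₁ x.2, rfl⟩
    have h1 : Group.IsNilpotent φ.range := isNilpotent_of_le h hrange
    have h2 : Group.IsNilpotent (C ⧸ φ.ker) :=
      (Group.isNilpotent_congr (QuotientGroup.quotientKerEquivRange φ)).mpr h1
    exact (Group.isNilpotent_congr (QuotientGroup.quotientMulEquivOfEq hker)).mp h2

theorem isNilpotent_of_comm (N : Subgroup G) [hc : IsMulCommutative N] : Group.IsNilpotent N := by
  open scoped IsMulCommutative in infer_instance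

/-- lifting Carter subgroups through an abelian normal subgroup -/
theorem exists_carter_of_quotient [Finite G] (N : Subgroup G) [hN : N.Normal] [IsMulCommutative N]
    (Kb : Subgroup (G ⧸ N)) (hKb : IsCarterSubgroup Kb) :
    ∃ C : Subgroup G, IsCarterSubgroup C ∧ C ⊔ N = Kb.comap (QuotientGroup.mk' N) := by
  classical
  set C₁ := Kb.comap (QuotientGroup.mk' N) with hC₁
  have hmap : C₁.map (QuotientGroup.mk' N) = Kb :=
    Subgroup.map_comap_eq_self_of_surjective (QuotientGroup.mk'_surjective N) Kb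
  have hNC₁ : N ≤ C₁ := by
    intro x hx
    show QuotientGroup.mk' N x ∈ Kb
    rw [mk'_eq_one hx]; exact Kb.one_mem
  set 𝒞 : Set (Subgroup G) := {C | C ≤ C₁ ∧ Group.IsNilpotent C ∧ C ⊔ N = C₁} with h𝒞
  have hne : 𝒞.Nonempty := by
    obtain ⟨C, h1, h2, h3⟩ := exists_nilpotent_supplement N C₁ hNC₁ (hmap.symm ▸ hKb.1)
    exact ⟨C, h1, h2, h3⟩
  obtain ⟨C, ⟨hCC₁, hCnil, hCN⟩, hmax⟩ := Set.exists_max_image 𝒞 (fun C => Nat.card C)
    (Set.toFinite _) hne
  refine ⟨C, ⟨hCnil, ?_⟩, hCN⟩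
  set E := Subgroup.normalizer (C : Set G) with hE
  have hCE : C ≤ E := Subgroup.le_normalizer
  have hEC₁ : E ≤ C₁ := by
    intro x hx
    have h1 : x ∈ Subgroup.normalizer ((C ⊔ N : Subgroup G) : Set G) := by
      apply normalizer_inf_le_normalizer_sup
      refine ⟨hx, ?_⟩
      rw [Subgroup.normalizer_eq_top_iff.mpr hN]; exact Subgroup.mem_top x
    rw [hCN] at h1
    have h2 : QuotientGroup.mk' N x ∈ Subgroup.normalizer
        ((C₁.map (QuotientGroup.mk' N) : Subgroup (G ⧸ N)) : Set (G ⧸ N)) :=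
      Subgroup.le_normalizer_map _ ⟨x, h1, rfl⟩
    rw [hmap, hKb.2] at h2
    exact h2
  have hEsup : C ⊔ (N ⊓ E) = E := by
    apply le_antisymm (sup_le hCE inf_le_right)
    intro x hx
    have h1 : x ∈ C ⊔ N := hCN ▸ hEC₁ hx
    rw [Subgroup.mem_sup_of_normal_right] at h1
    obtain ⟨c, hc, n, hn, rfl⟩ := h1
    have h2 : n ∈ E := by
      have := E.mul_mem (E.inv_mem (hCE hc)) hx
      simpa using this
    exact Subgroup.mul_mem _ (Subgroup.mem_sup_left hc)
      (Subgroup.mem_sup_right (Subgroup.mem_inf.mpr ⟨hn, h2⟩))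
  have hEnil : Group.IsNilpotent E := by
    rw [← hEsup]
    apply nilpotent_sup C (N ⊓ E) hCnil (isNilpotent_of_le (isNilpotent_of_comm N) inf_le_left)
      inf_le_right
    intro c hc
    apply mem_normalizer_of_conj_mem
    intro d hd
    exact ⟨hN.conj_mem d hd.1 c, E.mul_mem (E.mul_mem (hCE hc) hd.2) (E.inv_mem (hCE hc))⟩
  have hE𝒞 : E ∈ 𝒞 := by
    refine ⟨hEC₁, hEnil, le_antisymm (sup_le hEC₁ hNC₁) ?_⟩
    rw [← hCN]
    exact sup_le_sup_right hCE N
  exact (Subgroup.eq_of_le_of_card_ge hCE (hmax E hE𝒞)).symm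

def RelConj (G : Type u) [Group G] : Prop :=
  ∀ L : Subgroup G, L ≠ ⊤ → ∀ C D : Subgroup G, C ≤ L → D ≤ L → Group.IsNilpotent C →
    Group.IsNilpotent D → Subgroup.normalizer (C : Set G) ⊓ L ≤ C →
    Subgroup.normalizer (D : Set G) ⊓ L ≤ D → ∃ l ∈ L, MulAut.conj l • C = D

theorem carter_subgroupOf {C L : Subgroup G} (hCL : C ≤ L) (hC : Group.IsNilpotent C)
    (hn : Subgroup.normalizer (C : Set G) ⊓ L ≤ C) : IsCarterSubgroup (C.subgroupOf L) := by
  refine ⟨(Group.isNilpotent_congr (Subgroup.subgroupOfEquivOfLe hCL)).mpr hC, ?_⟩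
  rw [← Subgroup.subgroupOf_normalizer_eq hCL, ← Subgroup.inf_subgroupOf_right]
  congr 1
  exact le_antisymm hn (le_inf Subgroup.le_normalizer hCL)

theorem card_lt_of_ne_top [Finite G] {L : Subgroup G} (hL : L ≠ ⊤) : Nat.card L < Nat.card G :=
  lt_of_le_of_ne (Subgroup.card_le_card_group L) (fun h => hL ((Subgroup.card_eq_iff_eq_top L).mp h))

theorem relConj_of_ih [Finite G] [Group.IsSolvable G]
    (ih : ∀ (H : Type u) [Group H] [Finite H] [Group.IsSolvable H], Nat.card H < Nat.card G →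
      ∀ C D : Subgroup H, IsCarterSubgroup C → IsCarterSubgroup D → ∃ g : H, MulAut.conj g • C = D) :
    RelConj G := by
  intro L hL C D hCL hDL hC hD hCn hDn
  obtain ⟨l, hl⟩ := ih L (card_lt_of_ne_top hL) _ _ (carter_subgroupOf hCL hC hCn)
    (carter_subgroupOf hDL hD hDn)
  refine ⟨l, l.2, ?_⟩
  have := congrArg (Subgroup.map L.subtype) hl
  rwa [map_subtype_conj_smul, Subgroup.map_subgroupOf_eq_of_le hCL,
    Subgroup.map_subgroupOf_eq_of_le hDL] at this

theorem carter_smul {C : Subgroup G} (hC : IsCarterSubgroup C) (g : G) :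
    IsCarterSubgroup (MulAut.conj g • C) :=
  ⟨isNilpotent_conj hC.1 g, by rw [normalizer_conj, hC.2]⟩

theorem map_conj_smul {H : Type*} [Group H] (f : G →* H) (y : G) (C : Subgroup G) :
    (MulAut.conj y • C).map f = MulAut.conj (f y) • C.map f := by
  have h : f.comp (MulAut.conj y).toMonoidHom = (MulAut.conj (f y)).toMonoidHom.comp f := by
    ext; simp
  rw [← map_conj_eq, ← map_conj_eq, Subgroup.map_map, Subgroup.map_map, h]

theorem conj_le_sup_of_map_normalizer (C N : Subgroup G) [N.Normal] {x : G}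
    (hx : QuotientGroup.mk' N x ∈
      Subgroup.normalizer ((C.map (QuotientGroup.mk' N) : Subgroup (G ⧸ N)) : Set (G ⧸ N))) :
    MulAut.conj x • C ≤ C ⊔ N := by
  have h1 : (MulAut.conj x • C).map (QuotientGroup.mk' N) = C.map (QuotientGroup.mk' N) := by
    rw [map_conj_smul]; exact mem_normalizer_iff_conj_smul.mp hx
  have h2 := Subgroup.le_comap_map (QuotientGroup.mk' N) (MulAut.conj x • C)
  rwa [h1, Subgroup.comap_map_eq, QuotientGroup.ker_mk'] at h2

theorem carter_map [Finite G] (hrel : RelConj G) {C : Subgroup G} (hC : IsCarterSubgroup C)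
    (N : Subgroup G) [N.Normal] : IsCarterSubgroup (C.map (QuotientGroup.mk' N)) := by
  refine ⟨?_, ?_⟩
  · have := hC.1
    exact Group.nilpotent_of_surjective ((QuotientGroup.mk' N).subgroupMap C)
      ((QuotientGroup.mk' N).subgroupMap_surjective C)
  · apply le_antisymm _ Subgroup.le_normalizer
    intro y hy
    obtain ⟨x, rfl⟩ := QuotientGroup.mk'_surjective N y
    have hle := conj_le_sup_of_map_normalizer C N hy
    have hx : x ∈ C ⊔ N := by
      by_cases hL : C ⊔ N = ⊤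
      · rw [hL]; exact Subgroup.mem_top x
      · obtain ⟨l, hl, hlx⟩ := hrel (C ⊔ N) hL C (MulAut.conj x • C) le_sup_left hle hC.1
          (isNilpotent_conj hC.1 x) (by rw [hC.2]; exact inf_le_left)
          (by rw [normalizer_conj, hC.2]; exact inf_le_left)
        have h1 : l⁻¹ * x ∈ Subgroup.normalizer (C : Set G) := by
          rw [mem_normalizer_iff_conj_smul, conj_mul_smul, ← hlx, conj_inv_smul_smul]
        rw [hC.2] at h1
        have h2 : x = l * (l⁻¹ * x) := by group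
        rw [h2]
        exact Subgroup.mul_mem _ hl (Subgroup.mem_sup_left h1)
    rw [Subgroup.mem_sup_of_normal_right] at hx
    obtain ⟨c, hc, n, hn, rfl⟩ := hx
    refine ⟨c, hc, ?_⟩
    rw [map_mul, mk'_eq_one hn, mul_one]

theorem eq_top_of_carter_of_nilpotent [Group.IsNilpotent G] {C : Subgroup G}
    (hC : IsCarterSubgroup C) : C = ⊤ := by
  by_contra h
  have h1 := Group.normalizerCondition_of_isNilpotent (G := G) C (lt_top_iff_ne_top.mpr h)
  rw [hC.2] at h1
  exact lt_irrefl _ h1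

/-- the Hall `p'`-subgroup of a nilpotent supplement of a normal `p`-subgroup -/
theorem hall_of_supplement [Finite G] (p : ℕ) [hp : Fact p.Prime] (N : Subgroup G) [N.Normal]
    (hNp : IsPGroup p N) (C : Subgroup G) (hC : Group.IsNilpotent C) (hCN : C ⊔ N = ⊤) :
    ∃ Q : Subgroup G, Q ≤ C ∧ C ≤ Subgroup.normalizer (Q : Set G) ∧ (Nat.card Q).Coprime p ∧
      (∃ k : ℕ, Q.index = p ^ k) ∧
      ∀ c ∈ C, ∃ q ∈ Q, ∃ s ∈ Subgroup.centralizer (Q : Set G), c = q * s := by
  obtain ⟨N₁, hN₁⟩ := exists_isNPC_of_nilpotent (G := C) p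
  refine ⟨N₁.map C.subtype, Subgroup.map_subtype_le _, ?_, ?_, ?_, ?_⟩
  · intro c hc
    apply mem_normalizer_of_conj_mem
    rintro _ ⟨d, hd, rfl⟩
    exact ⟨⟨c, hc⟩ * d * ⟨c, hc⟩⁻¹, hN₁.1.conj_mem d hd _, rfl⟩
  · rw [card_map_subtype]; exact hN₁.2.1
  · obtain ⟨k, hk⟩ := hN₁.2.2
    have h1 : C.index ∣ Nat.card N := by
      rw [← Subgroup.relIndex_top_right, ← hCN, relIndex_sup_of_normal]
      exact Subgroup.relIndex_dvd_card C N
    obtain ⟨a, ha⟩ := IsPGroup.iff_card.mp hNp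
    rw [ha] at h1
    obtain ⟨j, -, hj⟩ := (Nat.dvd_prime_pow hp.out).mp h1
    exact ⟨k + j, by rw [Subgroup.index_map_subtype, hk, hj, pow_add]⟩
  · intro c hc
    obtain ⟨S⟩ : Nonempty (Sylow p C) := inferInstance
    obtain ⟨⟨⟨a, ha⟩, ⟨b, hb⟩⟩, hab⟩ := (hN₁.isComplement' S).2 ⟨c, hc⟩
    refine ⟨a, ⟨a, ha, rfl⟩, b, ?_, (congrArg Subtype.val hab).symm⟩
    rw [Subgroup.mem_centralizer_iff]
    rintro _ ⟨q, hq, rfl⟩
    have h1 : Commute q b := by
      apply Cfsg.Agent.Lib.Helper7_Nilp.commute_of_coprime_orderOf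
      obtain ⟨i, hi⟩ := (IsPGroup.iff_orderOf.mp S.isPGroup') ⟨b, hb⟩
      rw [Subgroup.orderOf_mk] at hi
      rw [hi]
      exact Nat.Coprime.pow_right _ ((hN₁.mem_iff q).mp hq)
    exact congrArg Subtype.val h1

theorem nilpotent_of_normal_hall [Finite G] (p : ℕ) [hp : Fact p.Prime] (N : Subgroup G)
    [hN : N.Normal] (hNp : IsPGroup p N) (D Q : Subgroup G) (hDN : D ⊔ N = ⊤) [hQn : Q.Normal]
    (hQnil : Group.IsNilpotent Q) (hQc : (Nat.card Q).Coprime p) (hQi : ∃ k : ℕ, Q.index = p ^ k)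
    (hdec : ∀ c ∈ D, ∃ q ∈ Q, ∃ s ∈ Subgroup.centralizer (Q : Set G), c = q * s) :
    Group.IsNilpotent G := by
  set Z := Subgroup.centralizer (Q : Set G) with hZ
  have hZn : Z.Normal := inferInstance
  have hZnil : Group.IsNilpotent Z := by
    obtain ⟨k, hk⟩ := hQi
    have hpg : IsPGroup p (G ⧸ Q) := IsPGroup.of_card (n := k) (by rw [← Subgroup.index_eq_card, hk])
    have := hpg.isNilpotent
    apply Subgroup.isNilpotent_of_ker_le_center ((QuotientGroup.mk' Q).comp Z.subtype)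
    intro z hz
    have hzQ : (z : G) ∈ Q := mem_of_mk'_eq_one hz
    rw [Subgroup.mem_center_iff]
    intro w
    exact Subtype.ext (((Subgroup.mem_centralizer_iff.mp w.2) z hzQ).symm)
  have hNZ : N ≤ Z := by
    have hdisj : Disjoint N Q := by
      apply Subgroup.disjoint_of_coprime_natCard
      obtain ⟨a, ha⟩ := IsPGroup.iff_card.mp hNp
      rw [ha]
      exact (Nat.Coprime.pow_right _ hQc).symm
    intro n hn
    rw [hZ, Subgroup.mem_centralizer_iff]
    intro q hq
    exact (Subgroup.commute_of_normal_of_disjoint N Q hN hQn hdisj n q hn hq).symm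
  have hsup : Q ⊔ Z = ⊤ := by
    rw [eq_top_iff, ← hDN]
    apply sup_le _ (hNZ.trans le_sup_right)
    intro c hc
    obtain ⟨q, hq, s, hs, rfl⟩ := hdec c hc
    exact Subgroup.mul_mem _ (Subgroup.mem_sup_left hq) (Subgroup.mem_sup_right hs)
  have h1 := nilpotent_sup Q Z hQnil hZnil
    (by rw [Subgroup.normalizer_eq_top_iff.mpr hQn]; exact le_top)
    (by rw [Subgroup.normalizer_eq_top_iff.mpr hZn]; exact le_top)
  rw [hsup] at h1
  exact Group.isNilpotent_top.mp h1

theorem carter_conj_of_sup_eq_top [Finite G] [Group.IsSolvable G] (hrel : RelConj G) (p : ℕ)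
    [hp : Fact p.Prime] (N : Subgroup G) [N.Normal] (hNp : IsPGroup p N) (C D : Subgroup G)
    (hC : IsCarterSubgroup C) (hD : IsCarterSubgroup D) (hCN : C ⊔ N = ⊤) (hDN : D ⊔ N = ⊤) :
    ∃ g : G, MulAut.conj g • C = D := by
  obtain ⟨Q₁, hQ₁C, hCQ₁, hQ₁c, ⟨k₁, hk₁⟩, -⟩ := hall_of_supplement p N hNp C hC.1 hCN
  obtain ⟨Q, hQD, hDQ, hQc, ⟨k, hk⟩, hdec⟩ := hall_of_supplement p N hNp D hD.1 hDN
  have hidx : Q₁.index = Q.index := by
    rw [index_eq_of_coprime hp.out hk₁ hQ₁c, index_eq_of_coprime hp.out hk hQc]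
  obtain ⟨g, hg⟩ := Cfsg.Agent.S0004.result _ _ (Subgroup.card_mul_index Q₁).symm
    (by rw [hk₁]; exact Nat.Coprime.pow_right _ hQ₁c) Q₁ Q rfl (card_eq_of_index_eq hidx).symm
  have hC' := carter_smul hC g
  have hC'Q : MulAut.conj g • C ≤ Subgroup.normalizer (Q : Set G) := by
    rw [← hg, normalizer_conj]
    exact Subgroup.pointwise_smul_le_pointwise_smul_iff.mpr hCQ₁
  by_cases hM : Subgroup.normalizer (Q : Set G) = ⊤
  · have hQn : Q.Normal := Subgroup.normalizer_eq_top_iff.mp hM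
    have hnil := nilpotent_of_normal_hall p N hNp D Q hDN (isNilpotent_of_le hD.1 hQD) hQc ⟨k, hk⟩ hdec
    refine ⟨1, ?_⟩
    rw [eq_top_of_carter_of_nilpotent hC, eq_top_of_carter_of_nilpotent hD]
    exact conj_smul_eq_of_mem (Subgroup.mem_top 1)
  · obtain ⟨l, -, hl⟩ := hrel _ hM (MulAut.conj g • C) D hC'Q hDQ hC'.1 hD.1
      (by rw [hC'.2]; exact inf_le_left) (by rw [hD.2]; exact inf_le_left)
    exact ⟨l * g, by rw [conj_mul_smul]; exact hl⟩

theorem carter_main : ∀ (n : ℕ) (G : Type u) [Group G] [Finite G] [Group.IsSolvable G],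
    Nat.card G = n → (∃ C : Subgroup G, IsCarterSubgroup C) ∧
      ∀ C D : Subgroup G, IsCarterSubgroup C → IsCarterSubgroup D →
        ∃ g : G, MulAut.conj g • C = D := by
  intro n
  induction n using Nat.strong_induction_on with
  | _ n ih =>
  intro G _ _ _ hn
  by_cases hs : Subsingleton G
  · refine ⟨⟨⊤, inferInstance, Subgroup.normalizer_eq_top_iff.mpr inferInstance⟩, ?_⟩
    intro C D _ _
    have : Subsingleton (Subgroup G) := Subgroup.subsingleton_iff.mpr hs
    exact ⟨1, Subsingleton.elim _ _⟩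
  rw [not_subsingleton_iff_nontrivial] at hs
  obtain ⟨p, N, hp, hNn, hNne, hNc, hNp, -⟩ := exists_normal_elementary_abelian (G := G)
  have := Fact.mk hp
  have hlt : Nat.card (G ⧸ N) < n := by
    rw [← hn]
    have h3 := Subgroup.card_eq_card_quotient_mul_card_subgroup N
    have h4 : 0 < Nat.card (G ⧸ N) := Nat.card_pos
    have h5 : 1 < Nat.card N := (Subgroup.one_lt_card_iff_ne_bot N).mpr hNne
    nlinarith
  obtain ⟨⟨Kb, hKb⟩, hconjQ⟩ := ih _ hlt (G ⧸ N) rfl
  refine ⟨?_, ?_⟩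
  · obtain ⟨C, hC, -⟩ := exists_carter_of_quotient N Kb hKb
    exact ⟨C, hC⟩
  · intro C D hC hD
    have hrel : RelConj G := relConj_of_ih (fun H _ _ _ hH => (ih _ (hn ▸ hH) H rfl).2)
    obtain ⟨yb, hyb⟩ := hconjQ _ _ (carter_map hrel hC N) (carter_map hrel hD N)
    obtain ⟨y, rfl⟩ := QuotientGroup.mk'_surjective N yb
    rw [← map_conj_smul] at hyb
    have hC' := carter_smul hC y
    have hsup : MulAut.conj y • C ⊔ N = D ⊔ N := by
      have := congrArg (Subgroup.comap (QuotientGroup.mk' N)) hyb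
      rwa [Subgroup.comap_map_eq, Subgroup.comap_map_eq, QuotientGroup.ker_mk'] at this
    by_cases hL : D ⊔ N = ⊤
    · obtain ⟨g, hg⟩ := carter_conj_of_sup_eq_top hrel p N (isPGroup_of_pow_eq_one hNp) _ D hC' hD
        (hsup.trans hL) hL
      exact ⟨g * y, by rw [conj_mul_smul]; exact hg⟩
    · obtain ⟨l, -, hl⟩ := hrel _ hL (MulAut.conj y • C) D (hsup ▸ le_sup_left) le_sup_left hC'.1 hD.1
        (by rw [hC'.2]; exact inf_le_left) (by rw [hD.2]; exact inf_le_left)
      exact ⟨l * y, by rw [conj_mul_smul]; exact hl⟩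

theorem exists_carter (G : Type u) [Group G] [Finite G] [Group.IsSolvable G] :
    ∃ C : Subgroup G, IsCarterSubgroup C := (carter_main _ G rfl).1

theorem carter_conj [Finite G] [Group.IsSolvable G] {C D : Subgroup G} (hC : IsCarterSubgroup C)
    (hD : IsCarterSubgroup D) : ∃ g : G, MulAut.conj g • C = D := (carter_main _ G rfl).2 C D hC hD

theorem relConj (G : Type u) [Group G] [Finite G] [Group.IsSolvable G] : RelConj G :=
  relConj_of_ih (fun _ _ _ _ _ _ _ hC hD => carter_conj hC hD)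

end Cfsg.Agent.Lib.Helper7_Carter
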