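import Mathlib
import Cfsg.Agent.Lib.Helper7_SysNorm
import Cfsg.Agent.Lib.Helper7_Frat2

set_option autoImplicit false

namespace Cfsg.Agent.Lib.Helper7_SysNorm2

open Pointwise Cfsg Cfsg.Agent.Lib.Helper4_Syl Cfsg.Agent.Lib.Helper1_SZ Cfsg.Agent.Lib.Helper7_Idx
  Cfsg.Agent.Lib.Helper1_PNil Cfsg.Agent.Lib.Helper7_Hall Cfsg.Agent.Lib.Helper7_Max
  Cfsg.Agent.Lib.Helper7_SysNorm Cfsg.Agent.Lib.Helper1_MinNormal Cfsg.Agent.Lib.Helper7_Frat2

universe u
variable {G : Type u} [Group G]

theorem center_le_systemNormalizer (K : Nat.Primes → Subgroup G) :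
    Subgroup.center G ≤ systemNormalizer K := by
  intro z hz
  rw [mem_systemNormalizer]
  intro p
  rw [Subgroup.mem_normalizer_iff]
  intro h
  rw [← (Subgroup.mem_center_iff.mp hz) h, mul_inv_cancel_right]

theorem normalClosure_systemNormalizer [Finite G] [Group.IsSolvable G]
    {K : Nat.Primes → Subgroup G} (hK : IsComplementSystem K) :
    Subgroup.normalClosure ((systemNormalizer K : Subgroup G) : Set G) = ⊤ := by
  by_contra hne
  set N := Subgroup.normalClosure ((systemNormalizer K : Subgroup G) : Set G) with hN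
  have : Nontrivial (G ⧸ N) := QuotientGroup.nontrivial_iff.mpr hne
  obtain ⟨Mb, hMbn, hMbp⟩ := exists_normal_prime_index (G := G ⧸ N)
  set M := Mb.comap (QuotientGroup.mk' N) with hM
  have hMn : M.Normal := hMbn.comap _
  have hMidx : M.index = Mb.index :=
    Subgroup.index_comap_of_surjective _ (QuotientGroup.mk'_surjective N)
  have hNM : N ≤ M := by
    intro x hx
    show QuotientGroup.mk' N x ∈ Mb
    have h1 : QuotientGroup.mk' N x = 1 := (QuotientGroup.eq_one_iff x).mpr hx
    rw [h1]; exact Mb.one_mem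
  have h1 := systemNormalizer_map hK M
  have hp : M.index.Prime := hMidx ▸ hMbp
  have := Fact.mk hp
  have hcyc : IsCyclic (G ⧸ M) := isCyclic_of_prime_card (p := M.index) (Subgroup.index_eq_card M).symm
  have hcomm : ∀ a b : G ⧸ M, a * b = b * a := IsCyclic.commGroup.mul_comm
  have h2 : systemNormalizer (fun p => (K p).map (QuotientGroup.mk' M)) = ⊤ := by
    rw [eq_top_iff]
    refine le_trans ?_ (center_le_systemNormalizer _)
    intro z _
    rw [Subgroup.mem_center_iff]
    intro g; exact hcomm g z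
  have h3 : (systemNormalizer K).map (QuotientGroup.mk' M) = ⊥ := by
    rw [Subgroup.map_eq_bot_iff, QuotientGroup.ker_mk']
    exact (Subgroup.le_normalClosure).trans hNM
  rw [h2, h3] at h1
  have h4 : Subsingleton (G ⧸ M) := by
    rw [← Subgroup.subsingleton_iff]
    exact subsingleton_of_top_le_bot h1.le
  have h5 : M.index = 1 := by
    rw [Subgroup.index_eq_card]; exact Nat.card_of_subsingleton 1
  rw [h5] at hp
  exact Nat.not_prime_one hp

theorem min_normal_inf_systemNormalizer [Finite G] [Group.IsSolvable G]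
    {K : Nat.Primes → Subgroup G} (hK : IsComplementSystem K) (B : Subgroup G) [hBn : B.Normal]
    (hB : B ≠ ⊥) (hmin : ∀ M : Subgroup G, M.Normal → M ≤ B → M = ⊥ ∨ M = B)
    (hnc : ¬ B ≤ Subgroup.center G) : B ⊓ systemNormalizer K = ⊥ := by
  obtain ⟨hBc, p, hp, hBp⟩ := minimal_normal_elementary_abelian B hB hmin
  have := Fact.mk hp
  set C := Subgroup.centralizer (B : Set G) with hC
  have hCne : C ≠ ⊤ := by
    intro h
    apply hnc
    intro x hx
    rw [Subgroup.mem_center_iff]
    intro g
    have hg : g ∈ C := h ▸ Subgroup.mem_top g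
    exact ((Subgroup.mem_centralizer_iff.mp hg) x hx).symm
  have : Nontrivial (G ⧸ C) := QuotientGroup.nontrivial_iff.mpr hCne
  obtain ⟨q, Lb, hq, hLbn, hLbne, -, hLbq, -⟩ := exists_normal_elementary_abelian (G := G ⧸ C)
  have := Fact.mk hq
  set L := Lb.comap (QuotientGroup.mk' C) with hL
  have hLn : L.Normal := hLbn.comap _
  have hZ : B ⊓ Subgroup.centralizer (L : Set G) = ⊥ := by
    rcases hmin (B ⊓ Subgroup.centralizer (L : Set G)) inferInstance inf_le_left with h | h
    · exact h
    · exfalso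
      have h1 : B ≤ Subgroup.centralizer (L : Set G) := h ▸ inf_le_right
      have h2 : L ≤ C := Subgroup.le_centralizer_iff.mp h1
      apply hLbne
      rw [eq_bot_iff]
      intro y hy
      obtain ⟨x, rfl⟩ := QuotientGroup.mk'_surjective C y
      exact (QuotientGroup.eq_one_iff x).mpr (h2 hy)
  -- general principle: an element of `B` commuting with a set of representatives of `Lb` is trivial
  have princ : ∀ (R : Subgroup G), Lb ≤ R.map (QuotientGroup.mk' C) → ∀ z ∈ B,
      (∀ r ∈ R, r * z = z * r) → z = 1 := by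
    intro R hR z hz hcomm
    have h1 : z ∈ B ⊓ Subgroup.centralizer (L : Set G) := by
      refine Subgroup.mem_inf.mpr ⟨hz, ?_⟩
      rw [Subgroup.mem_centralizer_iff]
      intro l hl
      obtain ⟨r, hr, hrl⟩ := hR hl
      have h2 : r⁻¹ * l ∈ C := by
        rw [← QuotientGroup.eq]; exact hrl
      have h3 := (Subgroup.mem_centralizer_iff.mp h2) z hz
      have h4 := hcomm r hr
      calc l * z = r * ((r⁻¹ * l) * z) := by group
        _ = r * (z * (r⁻¹ * l)) := by rw [h3]
        _ = (r * z) * (r⁻¹ * l) := by group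
        _ = (z * r) * (r⁻¹ * l) := by rw [h4]
        _ = z * l := by group
    rw [hZ] at h1
    exact h1
  have hBpg : IsPGroup p B := isPGroup_of_pow_eq_one hBp
  have hLbpg : IsPGroup q Lb := isPGroup_of_pow_eq_one hLbq
  by_cases hqp : q = p
  · exfalso
    subst hqp
    obtain ⟨S⟩ : Nonempty (Sylow q G) := inferInstance
    have hBS : B ≤ S := normal_pgroup_le_sylow B hBpg S
    have hLS : Lb ≤ (S : Subgroup G).map (QuotientGroup.mk' C) := by
      have := normal_pgroup_le_sylow Lb hLbpg (S.mapSurjective (QuotientGroup.mk'_surjective C))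
      rwa [Sylow.coe_mapSurjective] at this
    have hSnil : Group.IsNilpotent (S : Subgroup G) := S.isPGroup'.isNilpotent
    have h1 : B.subgroupOf S ≠ ⊥ := by
      intro h2
      rw [Subgroup.subgroupOf_eq_bot, disjoint_iff, inf_eq_left.mpr hBS] at h2
      exact hB h2
    apply Cfsg.Agent.Lib.Helper4_Nilp.normal_inf_center_ne_bot (B.subgroupOf S) h1
    rw [eq_bot_iff]
    intro z hz
    have h2 : (z : G) = 1 := by
      apply princ S hLS z hz.1
      intro r hr
      have := (Subgroup.mem_center_iff.mp hz.2) ⟨r, hr⟩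
      exact congrArg Subtype.val this
    exact Subtype.ext h2
  · rw [eq_bot_iff]
    intro e he
    set p' : Nat.Primes := ⟨p, hp⟩ with hp'
    have hLK : Lb ≤ (K p').map (QuotientGroup.mk' C) := by
      apply normal_le_of_coprime_index
      obtain ⟨j, hj⟩ := IsPGroup.iff_card.mp hLbpg
      have h1 : ((K p').map (QuotientGroup.mk' C)).index ∣ p ^ (Nat.card G).factorization p := by
        have := hK p'
        rw [← this]; exact Subgroup.index_map_dvd _ (QuotientGroup.mk'_surjective C)
      rw [hj]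
      exact Nat.Coprime.coprime_dvd_right h1
        (Nat.Coprime.pow _ _ ((Nat.coprime_primes hq hp).mpr hqp))
    have hdisj : B ⊓ K p' = ⊥ := by
      apply Subgroup.inf_eq_bot_of_coprime
      obtain ⟨j, hj⟩ := IsPGroup.iff_card.mp hBpg
      rw [hj]
      exact (Nat.Coprime.pow_right _ (cs_card_coprime hK p')).symm
    apply princ (K p') hLK e he.1
    intro k hk
    have hen := (mem_systemNormalizer.mp he.2) p'
    have h1 : e * k⁻¹ * e⁻¹ ∈ K p' := (Subgroup.mem_normalizer_iff.mp hen _).mp ((K p').inv_mem hk)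
    have h2 : k * e * k⁻¹ ∈ B := hBn.conj_mem e he.1 k
    have h3 : k * e * k⁻¹ * e⁻¹ ∈ B ⊓ K p' := by
      refine ⟨B.mul_mem h2 (B.inv_mem he.1), ?_⟩
      have : k * e * k⁻¹ * e⁻¹ = k * (e * k⁻¹ * e⁻¹) := by group
      rw [this]; exact (K p').mul_mem hk h1
    rw [hdisj, Subgroup.mem_bot] at h3
    calc k * e = (k * e * k⁻¹ * e⁻¹) * (e * k) := by group
      _ = e * k := by rw [h3, one_mul]

theorem covers_avoids [Finite G] [Group.IsSolvable G] {K : Nat.Primes → Subgroup G}
    (hK : IsComplementSystem K) (A B : Subgroup G) [hAn : A.Normal] [hBn : B.Normal] (hAB : A < B)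
    (hchief : ∀ N : Subgroup G, N.Normal → A ≤ N → N ≤ B → N = A ∨ N = B) :
    (⁅B, (⊤ : Subgroup G)⁆ ≤ A → B ≤ A ⊔ systemNormalizer K) ∧
      (¬ ⁅B, (⊤ : Subgroup G)⁆ ≤ A → B ⊓ systemNormalizer K ≤ A) := by
  have hmap := systemNormalizer_map hK A
  have hcen : ⁅B, (⊤ : Subgroup G)⁆ ≤ A ↔ B.map (QuotientGroup.mk' A) ≤ Subgroup.center (G ⧸ A) := by
    constructor
    · rintro h _ ⟨b, hb, rfl⟩
      rw [Subgroup.mem_center_iff]
      intro y
      obtain ⟨g, rfl⟩ := QuotientGroup.mk'_surjective A y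
      have h1 : b * g * b⁻¹ * g⁻¹ ∈ A := h (Subgroup.commutator_mem_commutator hb (Subgroup.mem_top g))
      have h2 : QuotientGroup.mk' A (b * g * b⁻¹ * g⁻¹) = 1 := (QuotientGroup.eq_one_iff _).mpr h1
      have h3 : QuotientGroup.mk' A (b * g) = QuotientGroup.mk' A (b * g * b⁻¹ * g⁻¹) *
          QuotientGroup.mk' A (g * b) := by
        rw [← map_mul]; congr 1; group
      rw [h2, one_mul, map_mul, map_mul] at h3
      exact h3.symm
    · intro h
      rw [Subgroup.commutator_le]
      intro b hb g _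
      have h1 := (Subgroup.mem_center_iff.mp (h ⟨b, hb, rfl⟩)) (QuotientGroup.mk' A g)
      show b * g * b⁻¹ * g⁻¹ ∈ A
      rw [← QuotientGroup.eq_one_iff]
      show QuotientGroup.mk' A (b * g * b⁻¹ * g⁻¹) = 1
      rw [map_mul, map_mul, map_mul, ← h1, map_inv, map_inv]
      group
  constructor
  · intro h b hb
    have h1 : QuotientGroup.mk' A b ∈ (systemNormalizer K).map (QuotientGroup.mk' A) := by
      rw [← hmap]
      exact center_le_systemNormalizer _ (hcen.mp h ⟨b, hb, rfl⟩)
    obtain ⟨d, hd, hdb⟩ := h1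
    have h2 : b * d⁻¹ ∈ A := by
      rw [← QuotientGroup.eq_one_iff]
      show QuotientGroup.mk' A (b * d⁻¹) = 1
      rw [map_mul, map_inv, hdb, mul_inv_cancel]
    have h3 : b = (b * d⁻¹) * d := by group
    rw [h3]
    exact Subgroup.mul_mem _ (Subgroup.mem_sup_left h2) (Subgroup.mem_sup_right hd)
  · intro h x hx
    have hBbn : (B.map (QuotientGroup.mk' A)).Normal := hBn.map _ (QuotientGroup.mk'_surjective A)
    have hBbne : B.map (QuotientGroup.mk' A) ≠ ⊥ := by
      intro h1
      rw [Subgroup.map_eq_bot_iff, QuotientGroup.ker_mk'] at h1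
      exact absurd hAB (not_lt_of_ge h1)
    have hBbmin : ∀ M : Subgroup (G ⧸ A), M.Normal → M ≤ B.map (QuotientGroup.mk' A) →
        M = ⊥ ∨ M = B.map (QuotientGroup.mk' A) := by
      intro M hMn hMB
      have e : (M.comap (QuotientGroup.mk' A)).map (QuotientGroup.mk' A) = M :=
        Subgroup.map_comap_eq_self_of_surjective (QuotientGroup.mk'_surjective A) M
      have h1 : A ≤ M.comap (QuotientGroup.mk' A) := by
        intro a ha
        show QuotientGroup.mk' A a ∈ M
        have h2 : QuotientGroup.mk' A a = 1 := (QuotientGroup.eq_one_iff a).mpr ha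
        rw [h2]; exact M.one_mem
      have h2 : M.comap (QuotientGroup.mk' A) ≤ B := by
        intro y hy
        obtain ⟨b, hb, hby⟩ := hMB hy
        have h3 : b⁻¹ * y ∈ A := by rw [← QuotientGroup.eq]; exact hby
        have h4 : y = b * (b⁻¹ * y) := by group
        rw [h4]; exact B.mul_mem hb (hAB.le h3)
      rcases hchief _ (hMn.comap _) h1 h2 with h3 | h3
      · left
        rw [← e, h3, Subgroup.map_eq_bot_iff, QuotientGroup.ker_mk']
      · right
        rw [← e, h3]
    have h1 := min_normal_inf_systemNormalizer (cs_map hK A) (B.map (QuotientGroup.mk' A))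
      hBbne hBbmin (fun h2 => h (hcen.mpr h2))
    have h2 : QuotientGroup.mk' A x ∈ B.map (QuotientGroup.mk' A) ⊓
        systemNormalizer (fun p => (K p).map (QuotientGroup.mk' A)) := by
      refine ⟨⟨x, hx.1, rfl⟩, ?_⟩
      rw [hmap]
      exact ⟨x, hx.2, rfl⟩
    rw [h1] at h2
    exact (QuotientGroup.eq_one_iff x).mp h2

end Cfsg.Agent.Lib.Helper7_SysNorm2
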