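import Mathlib
import Cfsg.Agent.Lib.Helper7_Carter
import Cfsg.Agent.Lib.Helper7_SysNorm2
import Cfsg.Agent.S0003

set_option autoImplicit false

namespace Cfsg.Agent.Lib.Helper7_Carter2

open Pointwise Cfsg Cfsg.Agent.Lib.Helper4_Syl Cfsg.Agent.Lib.Helper1_SZ Cfsg.Agent.Lib.Helper7_Idx
  Cfsg.Agent.Lib.Helper1_PNil Cfsg.Agent.Lib.Helper7_Hall Cfsg.Agent.Lib.Helper7_Max
  Cfsg.Agent.Lib.Helper7_SysNorm Cfsg.Agent.Lib.Helper1_MinNormal Cfsg.Agent.Lib.Helper7_Frat
  Cfsg.Agent.Lib.Helper7_Frat2 Cfsg.Agent.Lib.Helper7_Prim Cfsg.Agent.Lib.Helper3_Comp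
  Cfsg.Agent.Lib.Helper7_Subnormal Cfsg.Agent.Lib.Helper7_Carter Cfsg.Agent.Lib.Helper7_SysNorm2

universe u
variable {G : Type u} [Group G]

/-- the complement system `K` reduces into `L` -/
def Red (K : Nat.Primes → Subgroup G) (L : Subgroup G) : Prop :=
  ∀ p : Nat.Primes, ∃ k : ℕ, (K p).relIndex L = (p : ℕ) ^ k

theorem cs_subgroupOf [Finite G] {K : Nat.Primes → Subgroup G} (hK : IsComplementSystem K)
    {L : Subgroup G} (hL : Red K L) : IsComplementSystem (fun p => (K p).subgroupOf L) := by
  intro p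
  obtain ⟨k, hk⟩ := hL p
  apply index_eq_of_coprime p.2 hk
  exact Nat.Coprime.coprime_dvd_left
    (Subgroup.card_comap_dvd_of_injective _ _ (Subgroup.subtype_injective _)) (cs_card_coprime hK p)

theorem red_top {K : Nat.Primes → Subgroup G} (hK : IsComplementSystem K) : Red K ⊤ :=
  fun p => ⟨_, by rw [Subgroup.relIndex_top_right]; exact hK p⟩

theorem red_systemNormalizer {K : Nat.Primes → Subgroup G} (hK : IsComplementSystem K) :
    Red K (systemNormalizer K) := by
  intro p
  have h1 := relIndex_dvd_index_of_le_normalizer (K p) _ (systemNormalizer_le K p)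
  rw [hK p] at h1
  obtain ⟨j, -, hj⟩ := (Nat.dvd_prime_pow p.2).mp h1
  exact ⟨j, hj⟩

theorem red_comap [Finite G] {K : Nat.Primes → Subgroup G} (hK : IsComplementSystem K)
    (N : Subgroup G) [hN : N.Normal] (Cb : Subgroup (G ⧸ N))
    (h : Red (fun p => (K p).map (QuotientGroup.mk' N)) Cb) :
    Red K (Cb.comap (QuotientGroup.mk' N)) := by
  intro p
  set L := Cb.comap (QuotientGroup.mk' N) with hL
  have hNL : N ≤ L := by
    intro x hx
    show QuotientGroup.mk' N x ∈ Cb
    rw [mk'_eq_one hx]; exact Cb.one_mem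
  obtain ⟨k, hk⟩ := h p
  have h1 : (K p ⊔ N).relIndex L = (p : ℕ) ^ k := by
    have h2 := Subgroup.relIndex_comap ((K p).map (QuotientGroup.mk' N)) (QuotientGroup.mk' N) L
    rw [Subgroup.comap_map_eq, QuotientGroup.ker_mk', hL,
      Subgroup.map_comap_eq_self_of_surjective (QuotientGroup.mk'_surjective N)] at h2
    rw [hL, h2]; exact hk
  have h3 := Subgroup.relIndex_inf_mul_relIndex (K p) (K p ⊔ N) L
  rw [inf_eq_left.mpr (le_sup_left : K p ≤ K p ⊔ N), h1] at h3
  -- the first factor
  have h4 : (K p ⊔ N) ⊓ L = (K p ⊓ L) ⊔ N := by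
    apply le_antisymm
    · intro x hx
      have hx1 : x ∈ K p ⊔ N := hx.1
      rw [Subgroup.mem_sup_of_normal_right] at hx1
      obtain ⟨a, ha, n, hn, rfl⟩ := hx1
      have haL : a ∈ L := by
        have := L.mul_mem hx.2 (L.inv_mem (hNL hn))
        simpa using this
      exact Subgroup.mul_mem _ (Subgroup.mem_sup_left ⟨ha, haL⟩) (Subgroup.mem_sup_right hn)
    · exact sup_le (le_inf (inf_le_left.trans le_sup_left) inf_le_right) (le_inf le_sup_right hNL)
  have h5 : (K p).relIndex ((K p ⊔ N) ⊓ L) = (K p).relIndex N := by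
    have e1 : K p ⊓ ((K p ⊔ N) ⊓ L) = (K p ⊓ L) ⊓ ((K p ⊔ N) ⊓ L) := by
      apply le_antisymm
      · exact le_inf (le_inf inf_le_left (inf_le_right.trans inf_le_right)) inf_le_right
      · exact le_inf (inf_le_left.trans inf_le_left) inf_le_right
    rw [← Subgroup.inf_relIndex_right, e1, Subgroup.inf_relIndex_right, h4, relIndex_sup_of_normal,
      ← Subgroup.inf_relIndex_right, inf_assoc, inf_eq_right.mpr hNL, Subgroup.inf_relIndex_right]
  have h6 : (K p).relIndex N ∣ (p : ℕ) ^ (Nat.card G).factorization p := by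
    rw [← hK p]; exact relIndex_dvd_index_of_normal_right (K p) N
  obtain ⟨j, -, hj⟩ := (Nat.dvd_prime_pow p.2).mp h6
  exact ⟨j + k, by rw [← h3, h5, hj, pow_add]⟩

theorem nilpotent_quotient_subgroupOf (N L : Subgroup G) [hN : N.Normal]
    (h : Group.IsNilpotent (L.map (QuotientGroup.mk' N))) :
    Group.IsNilpotent (L ⧸ N.subgroupOf L) := by
  set φ : L →* G ⧸ N := (QuotientGroup.mk' N).comp L.subtype with hφ
  have hker : φ.ker = N.subgroupOf L := by
    ext x
    rw [MonoidHom.mem_ker, Subgroup.mem_subgroupOf]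
    exact QuotientGroup.eq_one_iff (x : G)
  have hrange : φ.range ≤ L.map (QuotientGroup.mk' N) := by
    rintro _ ⟨x, rfl⟩
    exact ⟨x, x.2, rfl⟩
  have h1 : Group.IsNilpotent φ.range := isNilpotent_of_le h hrange
  have h2 : Group.IsNilpotent (L ⧸ φ.ker) :=
    (Group.isNilpotent_congr (QuotientGroup.quotientKerEquivRange φ)).mpr h1
  exact (Group.isNilpotent_congr (QuotientGroup.quotientMulEquivOfEq hker)).mp h2

/-- a Carter subgroup of the preimage of a Carter subgroup of `G ⧸ N` is a Carter subgroup of `G` -/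
theorem carter_of_carter_comap [Finite G] [Group.IsSolvable G] (N : Subgroup G) [hN : N.Normal]
    (Cb : Subgroup (G ⧸ N)) (hCb : IsCarterSubgroup Cb) (L : Subgroup G)
    (hL : L = Cb.comap (QuotientGroup.mk' N))
    (C' : Subgroup L) (hC' : IsCarterSubgroup C') :
    IsCarterSubgroup (C'.map L.subtype) := by
  have hmap : L.map (QuotientGroup.mk' N) = Cb := by
    rw [hL]
    exact Subgroup.map_comap_eq_self_of_surjective (QuotientGroup.mk'_surjective N) Cb
  have hNL : N ≤ L := by
    intro x hx
    rw [hL]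
    show QuotientGroup.mk' N x ∈ Cb
    rw [mk'_eq_one hx]; exact Cb.one_mem
  have hnilq : Group.IsNilpotent (L ⧸ N.subgroupOf L) :=
    nilpotent_quotient_subgroupOf N L (hmap.symm ▸ hCb.1)
  have h1 := eq_top_of_carter_of_nilpotent (carter_map (relConj L) hC' (N.subgroupOf L))
  have h2 : C' ⊔ N.subgroupOf L = ⊤ := by
    have := congrArg (Subgroup.comap (QuotientGroup.mk' (N.subgroupOf L))) h1
    rwa [Subgroup.comap_map_eq, QuotientGroup.ker_mk', Subgroup.comap_top] at this
  set C := C'.map L.subtype with hC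
  have hCN : C ⊔ N = L := by
    have := congrArg (Subgroup.map L.subtype) h2
    rwa [Subgroup.map_sup, Subgroup.map_subgroupOf_eq_of_le hNL, ← MonoidHom.range_eq_map,
      Subgroup.range_subtype] at this
  refine ⟨(Group.isNilpotent_congr (C'.equivMapOfInjective L.subtype L.subtype_injective)).mp hC'.1, ?_⟩
  apply le_antisymm _ Subgroup.le_normalizer
  intro x hx
  have hxL : x ∈ L := by
    have h3 : x ∈ Subgroup.normalizer ((C ⊔ N : Subgroup G) : Set G) := by
      apply normalizer_inf_le_normalizer_sup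
      refine ⟨hx, ?_⟩
      rw [Subgroup.normalizer_eq_top_iff.mpr hN]; exact Subgroup.mem_top x
    rw [hCN] at h3
    have h4 : QuotientGroup.mk' N x ∈ Subgroup.normalizer
        ((L.map (QuotientGroup.mk' N) : Subgroup (G ⧸ N)) : Set (G ⧸ N)) :=
      Subgroup.le_normalizer_map _ ⟨x, h3, rfl⟩
    rw [hmap, hCb.2] at h4
    rw [hL]
    exact h4
  have h5 : (⟨x, hxL⟩ : L) ∈ Subgroup.normalizer (C' : Set L) := by
    rw [Subgroup.mem_normalizer_iff] at hx ⊢
    intro y
    constructor
    · intro hy
      obtain ⟨z, hz, hzy⟩ := (hx y).mp ⟨y, hy, rfl⟩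
      have : z = ⟨x, hxL⟩ * y * ⟨x, hxL⟩⁻¹ := Subtype.ext hzy
      rw [← this]; exact hz
    · intro hy
      obtain ⟨z, hz, hzy⟩ := (hx y).mpr ⟨_, hy, rfl⟩
      have : z = y := Subtype.ext hzy
      rw [← this]; exact hz
  rw [hC'.2] at h5
  exact ⟨_, h5, rfl⟩

theorem systemNormalizer_eq_top_of_nilpotent [Finite G] [Group.IsNilpotent G]
    {K : Nat.Primes → Subgroup G} (hK : IsComplementSystem K) : systemNormalizer K = ⊤ := by
  by_contra hne
  obtain ⟨M, hM, hle⟩ := (eq_top_or_exists_le_coatom _).resolve_left hne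
  have hMn : M.Normal :=
    Subgroup.NormalizerCondition.normal_of_coatom M (Group.normalizerCondition_of_isNilpotent (G := G)) hM
  have h1 := normalClosure_systemNormalizer hK
  have h2 : Subgroup.normalClosure ((systemNormalizer K : Subgroup G) : Set G) ≤ M :=
    Subgroup.normalClosure_le_normal hle
  rw [h1] at h2
  exact hM.1 (top_le_iff.mp h2)

/-- the case `G ⧸ N` nilpotent, `N` an eccentric minimal normal subgroup -/
theorem carter_systemNormalizer [Finite G] [Group.IsSolvable G] {K : Nat.Primes → Subgroup G}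
    (hK : IsComplementSystem K) (N : Subgroup G) [hN : N.Normal] [hNc : IsMulCommutative N]
    (hNne : N ≠ ⊥) (hmin : ∀ M : Subgroup G, M.Normal → M ≤ N → M = ⊥ ∨ M = N)
    (hq : Group.IsNilpotent (G ⧸ N)) (hnc : ¬ N ≤ Subgroup.center G) :
    IsCarterSubgroup (systemNormalizer K) := by
  set D := systemNormalizer K with hD
  have hDN : D ⊔ N = ⊤ := by
    have h1 := systemNormalizer_eq_top_of_nilpotent (cs_map hK N)
    rw [systemNormalizer_map hK N] at h1
    have := congrArg (Subgroup.comap (QuotientGroup.mk' N)) h1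
    rwa [Subgroup.comap_map_eq, QuotientGroup.ker_mk', Subgroup.comap_top] at this
  have hdisj : N ⊓ D = ⊥ := min_normal_inf_systemNormalizer hK N hNne hmin hnc
  have hcen : N ⊓ Subgroup.center G = ⊥ := by
    rcases hmin (N ⊓ Subgroup.center G) inferInstance inf_le_left with h | h
    · exact h
    · exact absurd (h ▸ inf_le_right) hnc
  refine ⟨systemNormalizer_isNilpotent K hK, ?_⟩
  apply le_antisymm _ Subgroup.le_normalizer
  intro x hx
  have hx' : x ∈ D ⊔ N := hDN ▸ Subgroup.mem_top x
  rw [Subgroup.mem_sup_of_normal_right] at hx'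
  obtain ⟨d, hd, n, hn, rfl⟩ := hx'
  have hnN : n ∈ Subgroup.normalizer (D : Set G) := by
    have := Subgroup.mul_mem _ (Subgroup.inv_mem _ (Subgroup.le_normalizer hd)) hx
    simpa using this
  have hn1 : n = 1 := by
    have h1 : n ∈ N ⊓ Subgroup.center G := by
      refine ⟨hn, ?_⟩
      have h2 : Subgroup.centralizer ({n} : Set G) = ⊤ := by
        rw [eq_top_iff, ← hDN]
        apply sup_le
        · intro d' hd'
          rw [Subgroup.mem_centralizer_singleton_iff]
          have h3 : n * d' * n⁻¹ * d'⁻¹ ∈ N ⊓ D := by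
            refine ⟨?_, ?_⟩
            · have : n * d' * n⁻¹ * d'⁻¹ = n * (d' * n⁻¹ * d'⁻¹) := by group
              rw [this]
              exact N.mul_mem hn (hN.conj_mem _ (N.inv_mem hn) d')
            · exact D.mul_mem ((Subgroup.mem_normalizer_iff.mp hnN d').mp hd') (D.inv_mem hd')
          rw [hdisj, Subgroup.mem_bot] at h3
          calc d' * n = (n * d' * n⁻¹ * d'⁻¹)⁻¹ * (n * d') := by group
            _ = n * d' := by rw [h3]; simp
        · intro n' hn'
          rw [Subgroup.mem_centralizer_singleton_iff]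
          have := hNc.is_comm.comm (⟨n', hn'⟩ : N) ⟨n, hn⟩
          exact congrArg Subtype.val this
      show n ∈ Subgroup.center G
      rw [Subgroup.mem_center_iff]
      intro g
      have hg : g ∈ Subgroup.centralizer ({n} : Set G) := h2 ▸ Subgroup.mem_top g
      rw [Subgroup.mem_centralizer_singleton_iff] at hg
      exact hg
    rw [hcen] at h1
    exact h1
  rw [hn1, mul_one]; exact hd

theorem main_aux : ∀ (n : ℕ) (G : Type u) [Group G] [Finite G] [Group.IsSolvable G],
    Nat.card G = n → ∀ K : Nat.Primes → Subgroup G, IsComplementSystem K →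
      ∃ C : Subgroup G, IsCarterSubgroup C ∧ systemNormalizer K ≤ C ∧ Red K C := by
  intro n
  induction n using Nat.strong_induction_on with
  | _ n ih =>
  intro G _ _ _ hn K hK
  have htop : Group.IsNilpotent G → ∃ C : Subgroup G, IsCarterSubgroup C ∧ systemNormalizer K ≤ C ∧
      Red K C := fun h =>
    ⟨⊤, ⟨Group.isNilpotent_top.mpr h, Subgroup.normalizer_eq_top_iff.mpr inferInstance⟩, le_top,
      red_top hK⟩
  by_cases hs : Subsingleton G
  · exact htop inferInstance
  rw [not_subsingleton_iff_nontrivial] at hs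
  obtain ⟨p, N, hp, hNn, hNne, hNc, hNp, hNmin⟩ := exists_normal_elementary_abelian (G := G)
  have hlt : Nat.card (G ⧸ N) < n := by
    rw [← hn]
    have h3 := Subgroup.card_eq_card_quotient_mul_card_subgroup N
    have h4 : 0 < Nat.card (G ⧸ N) := Nat.card_pos
    have h5 : 1 < Nat.card N := (Subgroup.one_lt_card_iff_ne_bot N).mpr hNne
    nlinarith
  obtain ⟨Cb, hCb, hDCb, hRed⟩ := ih _ hlt (G ⧸ N) rfl _ (cs_map hK N)
  set L := Cb.comap (QuotientGroup.mk' N) with hL
  have hRedL : Red K L := red_comap hK N Cb hRed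
  have hDL : systemNormalizer K ≤ L := by
    intro d hd
    apply hDCb
    rw [systemNormalizer_map hK N]
    exact ⟨d, hd, rfl⟩
  by_cases hLtop : L = ⊤
  · have hCbtop : Cb = ⊤ := by
      rw [← Subgroup.map_comap_eq_self_of_surjective (QuotientGroup.mk'_surjective N) Cb, ← hL, hLtop,
        ← MonoidHom.range_eq_map, MonoidHom.range_eq_top]
      exact QuotientGroup.mk'_surjective N
    have hq : Group.IsNilpotent (G ⧸ N) := by
      have := hCb.1
      rw [hCbtop] at this
      exact Group.isNilpotent_top.mp this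
    by_cases hcen : N ≤ Subgroup.center G
    · apply htop
      apply Subgroup.isNilpotent_of_ker_le_center (QuotientGroup.mk' N)
      rw [QuotientGroup.ker_mk']; exact hcen
    · exact ⟨_, carter_systemNormalizer hK N hNne hNmin hq hcen, le_rfl, red_systemNormalizer hK⟩
  · obtain ⟨C', hC', hDC', hRedC'⟩ := ih _ (hn ▸ card_lt_of_ne_top hLtop) L rfl _
      (cs_subgroupOf hK hRedL)
    refine ⟨C'.map L.subtype, carter_of_carter_comap N Cb hCb L hL C' hC', ?_, ?_⟩
    · intro d hd
      refine ⟨⟨d, hDL hd⟩, hDC' ?_, rfl⟩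
      rw [mem_systemNormalizer] at hd ⊢
      intro q
      have h1 := hd q
      rw [Subgroup.mem_normalizer_iff] at h1 ⊢
      intro y
      exact h1 y
    · intro q
      obtain ⟨k, hk⟩ := hRedC' q
      refine ⟨k, ?_⟩
      rw [← hk, ← Subgroup.relIndex_subgroupOf (Subgroup.map_subtype_le C')]
      congr 1
      exact Subgroup.comap_map_eq_self_of_injective L.subtype_injective C'

theorem exists_complementSystem (G : Type u) [Group G] [Finite G] [Group.IsSolvable G] :
    ∃ K : Nat.Primes → Subgroup G, IsComplementSystem K := by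
  have h : ∀ p : Nat.Primes, ∃ H : Subgroup G, H.index = (p : ℕ) ^ (Nat.card G).factorization p := by
    intro p
    have h1 := Nat.ordProj_mul_ordCompl_eq_self (Nat.card G) p
    obtain ⟨H, hH⟩ := Cfsg.Agent.S0003.result (G := G) (Nat.card G / (p : ℕ) ^ (Nat.card G).factorization p)
      ((p : ℕ) ^ (Nat.card G).factorization p) (by rw [mul_comm]; exact h1.symm)
      ((Nat.coprime_ordCompl p.2 Nat.card_pos.ne').pow_left _).symm
    refine ⟨H, ?_⟩
    have h2 := Subgroup.card_mul_index H
    have hpos : 0 < Nat.card H := Nat.card_pos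
    have h3 : Nat.card H * H.index = Nat.card H * (p : ℕ) ^ (Nat.card G).factorization p := by
      rw [h2, hH, mul_comm]; exact h1.symm
    exact Nat.eq_of_mul_eq_mul_left hpos h3
  choose K hK using h
  exact ⟨K, hK⟩

theorem systemNormalizer_conj (K : Nat.Primes → Subgroup G) (g : G) :
    systemNormalizer (fun p => MulAut.conj g • K p) = MulAut.conj g • systemNormalizer K := by
  ext x
  rw [mem_conj_smul, mem_systemNormalizer, mem_systemNormalizer]
  constructor
  · intro h p
    have := h p
    rwa [normalizer_conj, mem_conj_smul] at this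
  · intro h p
    rw [normalizer_conj, mem_conj_smul]
    exact h p

theorem carter_and_systemNormalizers [Finite G] [Group.IsSolvable G] :
    (∀ C : Subgroup G, IsCarterSubgroup C → ∃ K : Nat.Primes → Subgroup G,
      IsComplementSystem K ∧ systemNormalizer K ≤ C) ∧
    ∀ K : Nat.Primes → Subgroup G, IsComplementSystem K →
      ∃ C : Subgroup G, IsCarterSubgroup C ∧ systemNormalizer K ≤ C := by
  constructor
  · intro C hC
    obtain ⟨K₀, hK₀⟩ := exists_complementSystem G
    obtain ⟨C₀, hC₀, hle, -⟩ := main_aux _ G rfl K₀ hK₀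
    obtain ⟨g, hg⟩ := carter_conj hC₀ hC
    refine ⟨fun p => MulAut.conj g • K₀ p, cs_conj hK₀ g, ?_⟩
    rw [systemNormalizer_conj, ← hg]
    exact Subgroup.pointwise_smul_le_pointwise_smul_iff.mpr hle
  · intro K hK
    obtain ⟨C, hC, hle, -⟩ := main_aux _ G rfl K hK
    exact ⟨C, hC, hle⟩

theorem sup_eq_top_of_carter_of_nilpotent_quotient [Finite G] [Group.IsSolvable G] {C : Subgroup G}
    (hC : IsCarterSubgroup C) (F : Subgroup G) [F.Normal] (hGF : Group.IsNilpotent (G ⧸ F)) :
    C ⊔ F = ⊤ := by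
  have h1 := eq_top_of_carter_of_nilpotent (carter_map (relConj G) hC F)
  have := congrArg (Subgroup.comap (QuotientGroup.mk' F)) h1
  rwa [Subgroup.comap_map_eq, QuotientGroup.ker_mk', Subgroup.comap_top] at this

theorem carter_le_systemNormalizer_aux : ∀ (n : ℕ) (G : Type u) [Group G] [Finite G]
    [Group.IsSolvable G], Nat.card G = n → ∀ (F : Subgroup G) [F.Normal], Group.IsNilpotent F →
    Group.IsNilpotent (G ⧸ F) → ∀ K : Nat.Primes → Subgroup G, IsComplementSystem K →
    ∀ C : Subgroup G, IsCarterSubgroup C → systemNormalizer K ≤ C → C ≤ systemNormalizer K := by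
  intro n
  induction n using Nat.strong_induction_on with
  | _ n ih =>
  intro G _ _ _ hn F hFn hF hGF K hK C hC hDC
  by_cases hFb : F = ⊥
  · have hnil : Group.IsNilpotent G := by
      apply Subgroup.isNilpotent_of_ker_le_center (QuotientGroup.mk' F)
      rw [QuotientGroup.ker_mk', hFb]; exact bot_le
    rw [systemNormalizer_eq_top_of_nilpotent hK]; exact le_top
  obtain ⟨N, hNn, hNne, hNF, hNmin⟩ := exists_minimal_normal_le F hFb
  obtain ⟨hNc, p, hp, hNp⟩ := minimal_normal_elementary_abelian N hNne hNmin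
  have hlt : Nat.card (G ⧸ N) < n := by
    rw [← hn]
    have h3 := Subgroup.card_eq_card_quotient_mul_card_subgroup N
    have h4 : 0 < Nat.card (G ⧸ N) := Nat.card_pos
    have h5 : 1 < Nat.card N := (Subgroup.one_lt_card_iff_ne_bot N).mpr hNne
    nlinarith
  have hFbn : (F.map (QuotientGroup.mk' N)).Normal := hFn.map _ (QuotientGroup.mk'_surjective N)
  have hFbnil : Group.IsNilpotent (F.map (QuotientGroup.mk' N)) :=
    Group.nilpotent_of_surjective ((QuotientGroup.mk' N).subgroupMap F)
      ((QuotientGroup.mk' N).subgroupMap_surjective F)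
  have hq : Group.IsNilpotent ((G ⧸ N) ⧸ F.map (QuotientGroup.mk' N)) := by
    apply Group.nilpotent_of_surjective (QuotientGroup.map F (F.map (QuotientGroup.mk' N))
      (QuotientGroup.mk' N) (Subgroup.le_comap_map _ _))
    intro y
    obtain ⟨y', rfl⟩ := QuotientGroup.mk'_surjective _ y
    obtain ⟨x, rfl⟩ := QuotientGroup.mk'_surjective N y'
    exact ⟨QuotientGroup.mk' F x, rfl⟩
  have h1 := ih _ hlt (G ⧸ N) rfl (F.map (QuotientGroup.mk' N)) hFbnil hq _ (cs_map hK N)
    (C.map (QuotientGroup.mk' N)) (carter_map (relConj G) hC N)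
    (by rw [systemNormalizer_map hK N]; exact Subgroup.map_mono hDC)
  rw [systemNormalizer_map hK N] at h1
  have h2 : C ≤ systemNormalizer K ⊔ N := by
    have := Subgroup.comap_mono (f := QuotientGroup.mk' N) h1
    rw [Subgroup.comap_map_eq, Subgroup.comap_map_eq, QuotientGroup.ker_mk'] at this
    exact le_sup_left.trans this
  by_cases hcen : N ≤ Subgroup.center G
  · exact h2.trans (sup_le le_rfl (hcen.trans (center_le_systemNormalizer K)))
  have hCF := sup_eq_top_of_carter_of_nilpotent_quotient hC F hGF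
  have hFN : F ≤ Subgroup.centralizer (N : Set G) :=
    (le_sSup ⟨hFn, hF⟩ : F ≤ Cfsg.fittingSubgroup G).trans (fitting_le_centralizer_min N hNne hNmin)
  have hnorm : (C ⊓ N).Normal := by
    apply normal_of_sup_eq_top C F (C ⊓ N) hCF
    · intro c hc d hd
      exact ⟨C.mul_mem (C.mul_mem hc hd.1) (C.inv_mem hc), hNn.conj_mem d hd.2 c⟩
    · intro f hf d hd
      have := (Subgroup.mem_centralizer_iff.mp (hFN hf)) d hd.2
      rw [← this, mul_inv_cancel_right]; exact hd
  have hcenb : N ⊓ Subgroup.center G = ⊥ := by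
    rcases hNmin (N ⊓ Subgroup.center G) inferInstance inf_le_left with h | h
    · exact h
    · exact absurd (h ▸ inf_le_right) hcen
  have hCN : C ⊓ N = ⊥ := by
    rcases hNmin (C ⊓ N) hnorm inf_le_right with h | h
    · exact h
    · exfalso
      have hNC : N ≤ C := h ▸ inf_le_left
      have := hC.1
      have h3 : N.subgroupOf C ≠ ⊥ := by
        intro h4
        rw [Subgroup.subgroupOf_eq_bot, disjoint_iff, inf_eq_left.mpr hNC] at h4
        exact hNne h4
      apply Cfsg.Agent.Lib.Helper4_Nilp.normal_inf_center_ne_bot (N.subgroupOf C) h3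
      rw [eq_bot_iff]
      intro z hz
      have h4 : (z : G) ∈ N ⊓ Subgroup.center G := by
        refine ⟨hz.1, ?_⟩
        have h5 : Subgroup.centralizer ({(z : G)} : Set G) = ⊤ := by
          rw [eq_top_iff, ← hCF]
          apply sup_le
          · intro c hc
            rw [Subgroup.mem_centralizer_singleton_iff]
            exact congrArg Subtype.val ((Subgroup.mem_center_iff.mp hz.2) ⟨c, hc⟩)
          · intro f hf
            rw [Subgroup.mem_centralizer_singleton_iff]
            exact ((Subgroup.mem_centralizer_iff.mp (hFN hf)) z hz.1).symm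
        show (z : G) ∈ Subgroup.center G
        rw [Subgroup.mem_center_iff]
        intro g
        have hg : g ∈ Subgroup.centralizer ({(z : G)} : Set G) := h5 ▸ Subgroup.mem_top g
        rw [Subgroup.mem_centralizer_singleton_iff] at hg
        exact hg
      rw [hcenb] at h4
      exact Subtype.ext h4
  intro c hc
  have h3 := h2 hc
  rw [Subgroup.mem_sup_of_normal_right] at h3
  obtain ⟨d, hd, m, hm, rfl⟩ := h3
  have h4 : m ∈ C ⊓ N := by
    refine ⟨?_, hm⟩
    have := C.mul_mem (C.inv_mem (hDC hd)) hc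
    simpa using this
  rw [hCN, Subgroup.mem_bot] at h4
  rw [h4, mul_one]; exact hd

theorem carter_iff_systemNormalizer [Finite G] (F : Subgroup G) [F.Normal]
    (hF : Group.IsNilpotent F) (hGF : Group.IsNilpotent (G ⧸ F)) (C : Subgroup G) :
    IsCarterSubgroup C ↔ ∃ K : Nat.Primes → Subgroup G, IsComplementSystem K ∧
      C = systemNormalizer K := by
  have hsol : Group.IsSolvable G :=
    Group.isSolvable_of_ker_le_range F.subtype (QuotientGroup.mk' F) (by simp)
  constructor
  · intro hC
    obtain ⟨K, hK, hle⟩ := carter_and_systemNormalizers.1 C hC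
    exact ⟨K, hK, le_antisymm (carter_le_systemNormalizer_aux _ G rfl F hF hGF K hK C hC hle) hle⟩
  · rintro ⟨K, hK, rfl⟩
    obtain ⟨C', hC', hle⟩ := carter_and_systemNormalizers.2 K hK
    have := le_antisymm (carter_le_systemNormalizer_aux _ G rfl F hF hGF K hK C' hC' hle) hle
    rw [← this]; exact hC'

end Cfsg.Agent.Lib.Helper7_Carter2
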