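import Mathlib
import Cfsg.Agent.Lib.Helper7_Class

set_option autoImplicit false
set_option linter.style.haveILetI false

/-! Frobenius' theorem on the number of solutions of `x ^ n = c` (M. Hall's proof). -/

namespace Cfsg.Agent.Lib.Helper7_Frobenius

open Cfsg.Agent.Lib.Helper7_Class
open Finset

universe u

/-- number of `n`-th roots of `c` -/
noncomputable def R {G : Type*} [Group G] (n : ℕ) (c : G) : ℕ := Nat.card {x : G // x ^ n = c}

section basic
variable {G : Type*} [Group G]

theorem R_eq_card [Fintype G] [DecidableEq G] (n : ℕ) (c : G) :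
    R n c = #{x : G | x ^ n = c} := by
  rw [R, Nat.card_eq_fintype_card, Fintype.card_subtype]

theorem R_conj (n : ℕ) (g c : G) : R n (g * c * g⁻¹) = R n c := by
  unfold R
  refine Nat.card_congr (Equiv.subtypeEquiv (MulAut.conj g⁻¹).toEquiv (fun x => ?_))
  show x ^ n = g * c * g⁻¹ ↔ (MulAut.conj g⁻¹ x) ^ n = c
  rw [← map_pow]
  constructor
  · intro h
    rw [h]
    simp [mul_assoc]
  · intro h
    have := congrArg (MulAut.conj g) h
    simpa [MulAut.conj_apply, mul_assoc] using this

theorem dvd_sum_of_class [Fintype G] [DecidableEq G] (F : G → ℕ)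
    (hF : ∀ g y : G, F (g * y * g⁻¹) = F y) (D : Finset G)
    (hD : ∀ g : G, ∀ y ∈ D, g * y * g⁻¹ ∈ D) (d : ℕ)
    (h : ∀ y ∈ D, d ∣ (Subgroup.centralizer ({y} : Set G)).index * F y) :
    d ∣ ∑ y ∈ D, F y := by
  classical
  rw [← Finset.sum_fiberwise D (ConjClasses.mk) F]
  refine Finset.dvd_sum (fun j _ => ?_)
  by_cases hne : (D.filter (fun y => ConjClasses.mk y = j)).Nonempty
  · obtain ⟨y₀, hy₀⟩ := hne
    rw [Finset.mem_filter] at hy₀
    obtain ⟨hy₀D, rfl⟩ := hy₀
    have h1 : D.filter (fun y => ConjClasses.mk y = ConjClasses.mk y₀) =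
        univ.filter (fun y => IsConj y₀ y) := by
      ext y
      simp only [mem_filter, mem_univ, true_and, ConjClasses.mk_eq_mk_iff_isConj]
      constructor
      · rintro ⟨_, h⟩; exact h.symm
      · intro h
        obtain ⟨g, hg⟩ := isConj_iff.1 h
        exact ⟨hg ▸ hD g y₀ hy₀D, h.symm⟩
    rw [h1]
    have h2 : ∑ y ∈ univ.filter (fun y => IsConj y₀ y), F y =
        #(univ.filter (fun y => IsConj y₀ y)) * F y₀ := by
      rw [Finset.sum_congr rfl (g := fun _ => F y₀), Finset.sum_const, smul_eq_mul]
      intro y hy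
      obtain ⟨g, hg⟩ := isConj_iff.1 (Finset.mem_filter.1 hy).2
      rw [← hg, hF]
    rw [h2]
    have h3 := index_centralizer_eq_card_class y₀
    rw [Nat.card_eq_fintype_card, Fintype.card_subtype] at h3
    rw [← h3]; exact h y₀ hy₀D
  · rw [Finset.not_nonempty_iff_eq_empty.1 hne]; simp

theorem R_mul [Fintype G] [DecidableEq G] (a b : ℕ) (c : G) :
    R (a * b) c = ∑ y ∈ univ.filter (fun y : G => y ^ b = c), R a y := by
  rw [R_eq_card, Finset.card_eq_sum_card_fiberwise (f := fun x : G => x ^ a)
    (t := univ.filter (fun y : G => y ^ b = c))]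
  · refine Finset.sum_congr rfl (fun y hy => ?_)
    rw [R_eq_card]
    congr 1
    ext x
    simp only [mem_filter, mem_univ, true_and] at hy ⊢
    constructor
    · exact fun h => h.2
    · intro h
      exact ⟨by rw [pow_mul, h, hy], h⟩
  · intro x hx
    simp only [coe_filter, mem_univ, true_and, Set.mem_ofPred_eq] at hx ⊢
    rw [← pow_mul, hx]

theorem sum_R [Fintype G] [DecidableEq G] (n : ℕ) : ∑ c : G, R n c = Fintype.card G := by
  rw [← Finset.card_univ, Finset.card_eq_sum_card_fiberwise (f := fun x : G => x ^ n)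
    (t := univ) (fun _ _ => by simp)]
  refine Finset.sum_congr rfl (fun y _ => ?_)
  rw [R_eq_card]

theorem R_centralizer (n : ℕ) (c : G) :
    R n c = R (G := Subgroup.centralizer ({c} : Set G)) n
      ⟨c, Subgroup.mem_centralizer_singleton_iff.2 rfl⟩ := by
  unfold R
  refine Nat.card_congr ⟨fun x => ⟨⟨x.1, ?_⟩, ?_⟩, fun x => ⟨x.1.1, ?_⟩, ?_, ?_⟩
  · obtain ⟨x, rfl⟩ := x
    rw [Subgroup.mem_centralizer_singleton_iff, ← pow_succ', ← pow_succ]
  · apply Subtype.ext
    exact x.2
  · exact congrArg Subtype.val x.2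
  · intro x; rfl
  · intro x; rfl

theorem R_central_coprime [Finite G] {q : ℕ} {c : G} (hc : c ∈ Subgroup.center G)
    (hcop : q.Coprime (orderOf c)) : R q c = R q (1 : G) := by
  obtain ⟨t, ht⟩ := exists_pow_eq_self_of_coprime hcop
  unfold R
  refine Nat.card_congr (Equiv.subtypeEquiv (Equiv.mulRight (c ^ t)⁻¹) (fun x => ?_))
  show x ^ q = c ↔ (x * (c ^ t)⁻¹) ^ q = 1
  have hcomm : Commute x (c ^ t)⁻¹ := by
    apply Commute.inv_right
    apply Commute.pow_right
    exact (Subgroup.mem_center_iff.1 hc x)
  rw [hcomm.mul_pow, inv_pow, ← pow_mul, mul_comm t q, pow_mul, ht, mul_inv_eq_one]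

theorem orderOf_root [Finite G] {x c : G} {p e : ℕ} (hp : p.Prime) (hx : x ^ (p ^ e) = c)
    (hc : p ∣ orderOf c) : orderOf x = p ^ e * orderOf c := by
  have h1 : orderOf c = orderOf x / Nat.gcd (orderOf x) (p ^ e) := by
    rw [← hx, orderOf_pow]
  obtain ⟨j, hj, hd⟩ := (Nat.dvd_prime_pow hp).1 (Nat.gcd_dvd_right (orderOf x) (p ^ e))
  have h2 : orderOf x = p ^ j * orderOf c := by
    rw [h1, hd]
    exact (Nat.mul_div_cancel' (hd ▸ Nat.gcd_dvd_left _ _)).symm
  rcases hj.lt_or_eq with hlt | rfl
  · exfalso
    have h3 : p ^ (j + 1) ∣ Nat.gcd (orderOf x) (p ^ e) := by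
      apply Nat.dvd_gcd
      · rw [h2, pow_succ]
        exact Nat.mul_dvd_mul_left _ hc
      · exact pow_dvd_pow _ hlt
    rw [hd] at h3
    exact absurd ((Nat.pow_dvd_pow_iff_le_right hp.one_lt).1 h3) (by omega)
  · exact h2

open Classical in
theorem card_fiber [Fintype G] {p e : ℕ} (hp : p.Prime) (c : G)
    (hc : p ∣ orderOf c) (x : G) (hx : x ^ (p ^ e) = c) :
    #{x' : G | x' ^ (p ^ e) = c ∧ Subgroup.zpowers x' = Subgroup.zpowers x} = p ^ e := by
  classical
  set m := orderOf c with hm
  have hm2 : 2 ≤ m := le_trans hp.two_le (Nat.le_of_dvd (orderOf_pos c) hc)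
  have hox : orderOf x = p ^ e * m := orderOf_root hp hx hc
  have hq : 0 < p ^ e := pow_pos hp.pos e
  have hset : ({x' : G | x' ^ (p ^ e) = c ∧ Subgroup.zpowers x' = Subgroup.zpowers x} : Finset G) =
      (range (p ^ e)).image (fun j => x ^ (1 + j * m)) := by
    ext x'
    simp only [mem_filter, mem_univ, true_and, mem_image, mem_range]
    constructor
    · rintro ⟨h1, h2⟩
      have h3 : x' ∈ Subgroup.zpowers x := h2 ▸ Subgroup.mem_zpowers x'
      rw [← mem_powers_iff_mem_zpowers, mem_powers_iff_mem_range_orderOf] at h3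
      simp only [mem_image, mem_range] at h3
      obtain ⟨i, hi, rfl⟩ := h3
      have h4 : x ^ (i * p ^ e) = x ^ (1 * p ^ e) := by
        rw [pow_mul, h1, one_mul, hx]
      rw [pow_eq_pow_iff_modEq, hox, mul_comm (p ^ e) m] at h4
      have h5 : i ≡ 1 [MOD m] := Nat.ModEq.mul_right_cancel' hq.ne' h4
      have h6 : i % m = 1 := by
        rw [h5]
        exact Nat.mod_eq_of_lt hm2
      refine ⟨i / m, ?_, ?_⟩
      · apply Nat.div_lt_of_lt_mul
        rw [mul_comm]
        exact hox ▸ hi
      · congr 1
        have := Nat.div_add_mod i m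
        rw [h6] at this
        rw [mul_comm (i / m) m]
        omega
    · rintro ⟨j, -, rfl⟩
      have h1 : (x ^ (1 + j * m)) ^ (p ^ e) = c := by
        rw [← pow_mul, add_mul, one_mul, pow_add, hx, mul_assoc, mul_comm m, mul_comm j, pow_mul,
          ← hox, pow_orderOf_eq_one, one_pow, mul_one]
      refine ⟨h1, ?_⟩
      apply Subgroup.eq_of_le_of_card_ge
      · rw [Subgroup.zpowers_le]
        exact Subgroup.pow_mem _ (Subgroup.mem_zpowers x) _
      · rw [Nat.card_zpowers, Nat.card_zpowers, hox, orderOf_root hp h1 hc]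
  rw [hset, Finset.card_image_of_injOn, card_range]
  intro j hj j' hj' hjj
  simp only [coe_range, Set.mem_Iio] at hj hj'
  simp only at hjj
  rw [pow_eq_pow_iff_modEq, hox] at hjj
  have h1 : j * m ≡ j' * m [MOD p ^ e * m] := Nat.ModEq.add_left_cancel' 1 hjj
  have h2 : j ≡ j' [MOD p ^ e] := Nat.ModEq.mul_right_cancel' (by omega) h1
  exact Nat.ModEq.eq_of_lt_of_lt h2 hj hj'

theorem pow_dvd_R [Finite G] {p e : ℕ} (hp : p.Prime) (c : G) (hc : p ∣ orderOf c) :
    p ^ e ∣ R (p ^ e) c := by
  classical
  haveI := Fintype.ofFinite G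
  rw [R_eq_card, Finset.card_eq_sum_card_fiberwise (f := fun x : G => Subgroup.zpowers x)
    (t := (univ.filter (fun x : G => x ^ (p ^ e) = c)).image (fun x : G => Subgroup.zpowers x))
    (fun x hx => by simpa using Finset.mem_image_of_mem _ hx)]
  refine Finset.dvd_sum (fun C hC => ?_)
  obtain ⟨x, hx, rfl⟩ := Finset.mem_image.1 hC
  rw [Finset.filter_filter]
  have h1 := card_fiber hp c hc x (Finset.mem_filter.1 hx).2
  have h2 : #{a : G | a ^ p ^ e = c ∧ Subgroup.zpowers a = Subgroup.zpowers x} = p ^ e := by
    convert h1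
  rw [h2]

theorem coprime_card_central_regular [Fintype G] [DecidableEq G] {p : ℕ} (hp : p.Prime) :
    (#{c : G | c ∈ Subgroup.center G ∧ ¬ p ∣ orderOf c}).Coprime p := by
  classical
  let Z' : Subgroup G :=
    { carrier := {c | c ∈ Subgroup.center G ∧ ¬ p ∣ orderOf c}
      one_mem' := ⟨one_mem _, by rw [orderOf_one]; exact hp.one_lt.ne' ∘ Nat.dvd_one.1⟩
      mul_mem' := by
        rintro a b ⟨ha, ha'⟩ ⟨hb, hb'⟩
        refine ⟨mul_mem ha hb, fun h => ?_⟩
        have hcomm : Commute a b := (Subgroup.mem_center_iff.1 hb a)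
        rcases (hp.dvd_mul).1 (h.trans hcomm.orderOf_mul_dvd_mul_orderOf) with h | h
        · exact ha' h
        · exact hb' h
      inv_mem' := by
        rintro a ⟨ha, ha'⟩
        exact ⟨inv_mem ha, by rwa [orderOf_inv]⟩ }
  have h1 : #{c : G | c ∈ Subgroup.center G ∧ ¬ p ∣ orderOf c} = Nat.card Z' := by
    have h0 : Nat.card Z' = Nat.card {c : G // c ∈ Subgroup.center G ∧ ¬ p ∣ orderOf c} := rfl
    rw [h0, Nat.card_eq_fintype_card, Fintype.card_subtype]
  rw [h1, Nat.coprime_comm, Nat.Prime.coprime_iff_not_dvd hp]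
  intro hdvd
  haveI : Fact p.Prime := ⟨hp⟩
  obtain ⟨z, hz⟩ := exists_prime_orderOf_dvd_card' p hdvd
  apply z.2.2
  rw [Subgroup.orderOf_coe, hz]

end basic

theorem gcd_dvd_index_mul {n i k r : ℕ} (h : Nat.gcd n k ∣ r) : Nat.gcd n (i * k) ∣ i * r := by
  have h1 : Nat.gcd n (i * k) ∣ Nat.gcd (i * n) (i * k) :=
    Nat.dvd_gcd ((Nat.gcd_dvd_left _ _).trans (Dvd.intro_left _ rfl)) (Nat.gcd_dvd_right _ _)
  rw [Nat.gcd_mul_left] at h1
  exact h1.trans (Nat.mul_dvd_mul_left _ h)

theorem central_aux (N : ℕ) : ∀ (G : Type u) [Group G] [Finite G], Nat.card G = N →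
    ∀ (n : ℕ) (c : G), c ∈ Subgroup.center G → Nat.gcd n N ∣ R n c := by
  induction N using Nat.strong_induction_on with
  | _ N ihN =>
    intro G _ _ hN
    classical
    haveI := Fintype.ofFinite G
    have nonc : ∀ (n : ℕ) (y : G), y ∉ Subgroup.center G →
        Nat.gcd n (Nat.card (Subgroup.centralizer ({y} : Set G))) ∣ R n y := by
      intro n y hy
      rw [R_centralizer]
      apply ihN _ ?_ _ rfl
      · rw [Subgroup.mem_center_iff]
        intro g
        apply Subtype.ext
        exact (Subgroup.mem_centralizer_singleton_iff.1 g.2)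
      · rw [← hN]
        refine lt_of_le_of_ne (Subgroup.card_le_card_group _) (fun h => hy ?_)
        have htop := Subgroup.eq_top_of_card_eq _ h
        rw [Subgroup.mem_center_iff]
        intro g
        have : g ∈ Subgroup.centralizer ({y} : Set G) := htop ▸ Subgroup.mem_top g
        exact (Subgroup.mem_centralizer_singleton_iff.1 this)
    have hidx : ∀ y : G, (Subgroup.centralizer ({y} : Set G)).index *
        Nat.card (Subgroup.centralizer ({y} : Set G)) = N := by
      intro y; rw [mul_comm, Subgroup.card_mul_index, hN]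
    intro n
    induction n using Nat.strong_induction_on with
    | _ n ihn =>
      intro c hc
      have gen : ∀ n' < n, ∀ y : G,
          Nat.gcd n' (Nat.card (Subgroup.centralizer ({y} : Set G))) ∣ R n' y := by
        intro n' hn' y
        by_cases hy : y ∈ Subgroup.center G
        · have : Subgroup.centralizer ({y} : Set G) = ⊤ := by
            rw [Subgroup.centralizer_eq_top_iff_subset]; simpa using hy
          rw [this, Subgroup.card_top, hN]
          exact ihn n' hn' y hy
        · exact nonc n' y hy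
      have step : ∀ a b, a * b = n → a < n → Nat.gcd a N ∣ R n c := by
        intro a b hab ha
        rw [← hab, R_mul]
        apply dvd_sum_of_class (R a) (fun g y => R_conj a g y)
        · intro g y hy
          simp only [mem_filter, mem_univ, true_and] at hy ⊢
          rw [conj_pow, hy, Subgroup.mem_center_iff.1 hc g, mul_inv_cancel_right]
        · intro y _
          rw [← hidx y]
          exact gcd_dvd_index_mul (gen a ha y)
      rcases Nat.eq_zero_or_pos n with rfl | hnpos
      · rw [Nat.gcd_zero_left]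
        by_cases h1 : c = 1
        · subst h1
          have : R 0 (1 : G) = N := by
            rw [R_eq_card, ← hN, Nat.card_eq_fintype_card, ← Finset.card_univ]
            congr 1
            ext x; simp
          rw [this]
        · have : R 0 c = 0 := by
            rw [R_eq_card, Finset.card_eq_zero]
            ext x; simp [Ne.symm h1]
          rw [this]; exact dvd_zero _
      by_cases hn1 : n = 1
      · subst hn1; rw [Nat.gcd_one_left]; exact one_dvd _
      obtain ⟨p, hpp, hpn⟩ := Nat.exists_prime_and_dvd hn1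
      obtain ⟨e, b, hb, hnb⟩ := Nat.exists_eq_pow_mul_and_not_dvd hnpos.ne' p hpp.ne_one
      have he : e ≠ 0 := by
        rintro rfl
        apply hb
        rw [pow_zero, one_mul] at hnb
        rw [← hnb]; exact hpn
      by_cases hb1 : b = 1
      · subst hb1
        rw [mul_one] at hnb
        subst hnb
        by_cases hpc : p ∣ orderOf c
        · exact (Nat.gcd_dvd_left _ _).trans (pow_dvd_R hpp c hpc)
        · have hcop : (p ^ e).Coprime (orderOf c) :=
            Nat.Coprime.pow_left _ ((Nat.Prime.coprime_iff_not_dvd hpp).2 hpc)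
          rw [R_central_coprime hc hcop]
          have hsum := sum_R (G := G) (p ^ e)
          set d := Nat.gcd (p ^ e) N with hd
          have hdN : d ∣ Fintype.card G := by
            rw [← Nat.card_eq_fintype_card, hN]; exact Nat.gcd_dvd_right _ _
          rw [← Finset.sum_filter_add_sum_filter_not univ (fun c : G => c ∈ Subgroup.center G),
            ← Finset.sum_filter_add_sum_filter_not
              (univ.filter (fun c : G => c ∈ Subgroup.center G)) (fun c : G => p ∣ orderOf c),
            Finset.filter_filter, Finset.filter_filter] at hsum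
          have d1 : d ∣ ∑ c ∈ univ.filter (fun c : G => c ∉ Subgroup.center G), R (p ^ e) c := by
            apply dvd_sum_of_class (R (p ^ e)) (fun g y => R_conj _ g y)
            · intro g y hy
              simp only [mem_filter, mem_univ, true_and] at hy ⊢
              intro h
              apply hy
              have := (inferInstance : (Subgroup.center G).Normal).conj_mem _ h g⁻¹
              simpa [mul_assoc] using this
            · intro y hy
              simp only [mem_filter, mem_univ, true_and] at hy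
              rw [hd, ← hidx y]
              exact gcd_dvd_index_mul (nonc _ y hy)
          have d2 : d ∣ ∑ c ∈ univ.filter (fun c : G => c ∈ Subgroup.center G ∧ p ∣ orderOf c),
              R (p ^ e) c := by
            refine Finset.dvd_sum (fun y hy => ?_)
            simp only [mem_filter, mem_univ, true_and] at hy
            exact (Nat.gcd_dvd_left _ _).trans (pow_dvd_R hpp y hy.2)
          have d3 : ∑ c ∈ univ.filter (fun c : G => c ∈ Subgroup.center G ∧ ¬ p ∣ orderOf c),
              R (p ^ e) c =
              #(univ.filter (fun c : G => c ∈ Subgroup.center G ∧ ¬ p ∣ orderOf c)) *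
                R (p ^ e) (1 : G) := by
            rw [Finset.sum_congr rfl (g := fun _ => R (p ^ e) (1 : G)), Finset.sum_const,
              smul_eq_mul]
            intro y hy
            simp only [mem_filter, mem_univ, true_and] at hy
            exact R_central_coprime hy.1
              (Nat.Coprime.pow_left _ ((Nat.Prime.coprime_iff_not_dvd hpp).2 hy.2))
          rw [← hsum, d3] at hdN
          have h4 := (Nat.dvd_add_left d1).1 hdN
          have h5 := (Nat.dvd_add_right d2).1 h4
          have h6 : Nat.Coprime d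
              #(univ.filter (fun c : G => c ∈ Subgroup.center G ∧ ¬ p ∣ orderOf c)) := by
            have h7 : Nat.Coprime p
                #(univ.filter (fun c : G => c ∈ Subgroup.center G ∧ ¬ p ∣ orderOf c)) := by
              apply Nat.Coprime.symm
              convert (coprime_card_central_regular (G := G) hpp)
            exact Nat.Coprime.coprime_dvd_left (m := d) (k := p ^ e) (Nat.gcd_dvd_left (p ^ e) N)
              (Nat.Coprime.pow_left e h7)
          exact h6.dvd_of_dvd_mul_left h5
      · have hbpos : 0 < b := by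
          rcases Nat.eq_zero_or_pos b with rfl | h
          · simp at hnb; omega
          · exact h
        have hpe : 1 < p ^ e := Nat.one_lt_pow he hpp.one_lt
        have h1 : Nat.gcd (p ^ e) N ∣ R n c := step (p ^ e) b hnb.symm (by
          rw [hnb]; exact lt_mul_of_one_lt_right (by omega) (by omega))
        have h2 : Nat.gcd b N ∣ R n c := step b (p ^ e) (by rw [mul_comm]; exact hnb.symm) (by
          rw [hnb]; exact lt_mul_of_one_lt_left hbpos hpe)
        have hcop : Nat.Coprime (p ^ e) b :=
          Nat.Coprime.pow_left _ ((Nat.Prime.coprime_iff_not_dvd hpp).2 hb)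
        have hg : Nat.gcd n N = Nat.gcd (p ^ e) N * Nat.gcd b N := by
          rw [hnb, Nat.gcd_comm, Nat.Coprime.gcd_mul _ hcop, Nat.gcd_comm N, Nat.gcd_comm N]
        rw [hg]
        apply Nat.Coprime.mul_dvd_of_dvd_of_dvd _ h1 h2
        exact Nat.Coprime.coprime_dvd_left (Nat.gcd_dvd_left _ _)
          (Nat.Coprime.coprime_dvd_right (Nat.gcd_dvd_left _ _) hcop)

/-- **Frobenius**: `gcd (n, |C_G(c)|)` divides the number of solutions of `x ^ n = c`. -/
theorem gcd_dvd_R {G : Type u} [Group G] [Finite G] (n : ℕ) (c : G) :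
    Nat.gcd n (Nat.card (Subgroup.centralizer ({c} : Set G))) ∣ R n c := by
  rw [R_centralizer]
  apply central_aux _ _ rfl
  rw [Subgroup.mem_center_iff]
  intro g
  apply Subtype.ext
  exact (Subgroup.mem_centralizer_singleton_iff.1 g.2)

/-- **Frobenius**: if `m ∣ |G|` then `m` divides the number of solutions of `x ^ m = 1`. -/
theorem dvd_card_pow_eq_one {G : Type u} [Group G] [Finite G] (m : ℕ) (hm : m ∣ Nat.card G) :
    m ∣ Nat.card {g : G // g ^ m = 1} := by
  have := central_aux _ G rfl m 1 (one_mem _)
  rwa [Nat.gcd_eq_left hm] at this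

theorem card_roots_class {G : Type*} [Group G] [Finite G] (c : G) (n : ℕ) :
    Nat.card {x : G // IsConj c (x ^ n)} = Nat.card {y : G // IsConj c y} * R n c := by
  classical
  haveI := Fintype.ofFinite G
  rw [Nat.card_eq_fintype_card, Nat.card_eq_fintype_card, Fintype.card_subtype,
    Fintype.card_subtype, Finset.card_eq_sum_card_fiberwise (f := fun x : G => x ^ n)
    (t := univ.filter (fun y : G => IsConj c y)) (fun x hx => by simpa using hx),
    Finset.sum_congr rfl (g := fun _ => R n c), Finset.sum_const, smul_eq_mul]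
  intro y hy
  have hy' : IsConj c y := (Finset.mem_filter.1 hy).2
  obtain ⟨g, hg⟩ := isConj_iff.1 hy'
  rw [← R_conj n g c, hg, R_eq_card]
  congr 1
  ext x
  simp only [mem_filter, mem_univ, true_and]
  constructor
  · exact fun h => h.2
  · intro h
    exact ⟨h ▸ hy', h⟩

/-- **Frobenius**, class version. -/
theorem gcd_dvd_card_roots_class {G : Type u} [Group G] [Finite G] (c : G) (n : ℕ) :
    Nat.gcd (Nat.card {y : G // IsConj c y} * n) (Nat.card G) ∣
      Nat.card {x : G // IsConj c (x ^ n)} := by
  rw [card_roots_class, ← index_centralizer_eq_card_class,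
    ← Subgroup.card_mul_index (Subgroup.centralizer ({c} : Set G)),
    mul_comm (Nat.card _) (Subgroup.index _), Nat.gcd_mul_left]
  exact Nat.mul_dvd_mul_left _ (gcd_dvd_R n c)

end Cfsg.Agent.Lib.Helper7_Frobenius
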