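import Mathlib
import Cfsg.Agent.Lib.Helper7_ZStar2

set_option autoImplicit false

namespace Cfsg.Agent.Lib.Helper7_IsoSyl

open Cfsg

universe u

variable {G : Type u} [Group G]

/-- conjugating a Sylow subgroup by an isolated involution is the same as conjugating by an
element of the odd core. -/
theorem exists_core_smul [Finite G] {z : G} (hz : IsIsolatedInvolution z) {p : ℕ} [Fact p.Prime]
    (P : Sylow p G) : ∃ o ∈ pPrimeCore 2 G, z • P = o • P := by
  haveI hO : (pPrimeCore 2 G).Normal := Cfsg.Agent.Lib.Helper7_ZStar2.core_normal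
  set O := pPrimeCore 2 G with hOdef
  set L := O ⊔ (P : Subgroup G) with hL
  have hPL : (P : Subgroup G) ≤ L := le_sup_right
  have hzPL : ((z • P : Sylow p G) : Subgroup G) ≤ L := by
    intro y hy
    rw [Sylow.coe_subgroup_smul] at hy
    obtain ⟨x, hx, rfl⟩ := hy
    have h1 := Cfsg.Agent.Lib.Helper7_ZStar.zstar hz x
    have h2 : (MulAut.conj z) x = (z * x * z⁻¹ * x⁻¹) * x := by simp
    show (MulAut.conj z) x ∈ L
    rw [h2]
    exact L.mul_mem (Subgroup.mem_sup_left h1) (hPL hx)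
  obtain ⟨l, hl⟩ := MulAction.exists_smul_eq L (P.subtype hPL) ((z • P).subtype hzPL)
  rw [Sylow.smul_subtype] at hl
  have hl' : (l : G) • P = z • P := by
    have h1 : (((l • P : Sylow p G).subtype (Sylow.smul_le hPL l) : Sylow p L) : Subgroup L) =
      (((z • P).subtype hzPL : Sylow p L) : Subgroup L) := congrArg _ hl
    apply Sylow.ext
    have h2 : ((l • P : Sylow p G) : Subgroup G).subgroupOf L =
      ((z • P : Sylow p G) : Subgroup G).subgroupOf L := h1
    have h3 := congrArg (Subgroup.map L.subtype) h2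
    rw [Subgroup.subgroupOf_map_subtype, Subgroup.subgroupOf_map_subtype,
      inf_eq_left.mpr (Sylow.smul_le hPL l), inf_eq_left.mpr hzPL] at h3
    exact h3
  have hlmem : (l : G) ∈ ((O ⊔ (P : Subgroup G) : Subgroup G) : Set G) := l.2
  rw [Subgroup.normal_mul] at hlmem
  obtain ⟨o, ho, x, hx, hox⟩ := Set.mem_mul.mp hlmem
  refine ⟨o, ho, ?_⟩
  rw [← hl', ← hox, mul_smul]
  congr 1
  exact Sylow.smul_eq_iff_mem_normalizer.mpr (Subgroup.le_normalizer hx)

/-- an isolated involution normalizes some Sylow `p`-subgroup. -/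
theorem exists_invariant [Finite G] {z : G} (hz : IsIsolatedInvolution z) (p : ℕ) [Fact p.Prime] :
    ∃ P : Sylow p G, z ∈ Subgroup.normalizer ((P : Subgroup G) : Set G) := by
  classical
  haveI : Fact (Nat.Prime 2) := ⟨Nat.prime_two⟩
  haveI hO : (pPrimeCore 2 G).Normal := Cfsg.Agent.Lib.Helper7_ZStar2.core_normal
  have hzz : z * z = 1 := by rw [← pow_two, ← hz.1, pow_orderOf_eq_one]
  obtain ⟨P0⟩ : Nonempty (Sylow p G) := inferInstance
  set O := pPrimeCore 2 G with hOdef
  let 𝒮 : Set (Sylow p G) := {P | ∃ o ∈ O, P = o • P0}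
  have hstab : ∀ P ∈ 𝒮, z • P ∈ 𝒮 := by
    rintro P ⟨o, ho, rfl⟩
    obtain ⟨o', ho', e⟩ := exists_core_smul hz P0
    refine ⟨(z * o * z⁻¹) * o', O.mul_mem (hO.conj_mem o ho z) ho', ?_⟩
    rw [mul_smul, ← e, ← mul_smul, ← mul_smul]
    congr 1
    group
  haveI : Fintype 𝒮 := Fintype.ofFinite _
  let σ : Equiv.Perm 𝒮 :=
    { toFun := fun P => ⟨z • P.1, hstab P.1 P.2⟩
      invFun := fun P => ⟨z • P.1, hstab P.1 P.2⟩
      left_inv := fun P => Subtype.ext (by show z • z • P.1 = P.1; rw [← mul_smul, hzz, one_smul])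
      right_inv := fun P => Subtype.ext (by show z • z • P.1 = P.1; rw [← mul_smul, hzz, one_smul]) }
  have hσ : σ ^ 2 ^ 1 = 1 := by
    apply Equiv.ext
    intro P
    apply Subtype.ext
    show z • z • P.1 = P.1
    rw [← mul_smul, hzz, one_smul]
  have hcard : ¬ 2 ∣ Fintype.card 𝒮 := by
    have h1 : 𝒮 = MulAction.orbit O P0 := by
      ext P
      constructor
      · rintro ⟨o, ho, rfl⟩
        exact ⟨⟨o, ho⟩, rfl⟩
      · rintro ⟨o, rfl⟩
        exact ⟨o, o.2, rfl⟩
    have h2 : Nat.card 𝒮 ∣ Nat.card O := by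
      rw [h1, Nat.card_congr (MulAction.orbitEquivQuotientStabilizer O P0)]
      exact Subgroup.index_dvd_card _
    have h3 : Odd (Nat.card O) := Cfsg.Agent.Lib.Helper7_ZStar2.core_odd
    rw [← Nat.card_eq_fintype_card]
    intro h4
    exact (Nat.not_even_iff_odd.mpr h3) (even_iff_two_dvd.mpr (h4.trans h2))
  obtain ⟨P, hP⟩ := Equiv.Perm.exists_fixed_point_of_prime hcard hσ
  refine ⟨P.1, ?_⟩
  have : z • P.1 = P.1 := congrArg Subtype.val hP
  exact Sylow.smul_eq_iff_mem_normalizer.mp this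

end Cfsg.Agent.Lib.Helper7_IsoSyl
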