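import Mathlib

set_option autoImplicit false

namespace Cfsg.Agent.Lib.Helper7_Klein

variable {G : Type*} [Group G]

/-- two distinct commuting involutions generate a four-group. -/
theorem exists_klein {z x : G} (hz : orderOf z = 2) (hx : orderOf x = 2) (hc : Commute z x)
    (hne : x ≠ z) : ∃ E : Subgroup G, IsKleinFour E ∧ z ∈ E ∧ x ∈ E := by
  classical
  have e1 : z * z = 1 := by rw [← pow_two, ← hz, pow_orderOf_eq_one]
  have e2 : x * x = 1 := by rw [← pow_two, ← hx, pow_orderOf_eq_one]
  have e3 : x * z = z * x := hc.eq.symm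
  have z1 : z ≠ 1 := by intro h; rw [h, orderOf_one] at hz; norm_num at hz
  have x1 : x ≠ 1 := by intro h; rw [h, orderOf_one] at hx; norm_num at hx
  have e4 : z * (z * x) = x := by rw [← mul_assoc, e1, one_mul]
  have e5 : x * (z * x) = z := by rw [← mul_assoc, e3, mul_assoc, e2, mul_one]
  have e6 : z * x * z = x := by rw [mul_assoc, e3, e4]
  have e7 : z * x * x = z := by rw [mul_assoc, e2, mul_one]
  have e8 : z * x * (z * x) = 1 := by rw [← mul_assoc, e6, e2]
  have zx1 : z * x ≠ 1 := by
    intro h
    apply hne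
    have h1 : z * x = z * z := by rw [h, e1]
    exact mul_left_cancel h1
  let E : Subgroup G :=
    { carrier := {g | g = 1 ∨ g = z ∨ g = x ∨ g = z * x}
      one_mem' := Or.inl rfl
      mul_mem' := by
        intro a b ha hb
        simp only [Set.mem_setOf_eq] at ha hb ⊢
        rcases ha with ha | ha | ha | ha <;> rcases hb with hb | hb | hb | hb <;> rw [ha, hb] <;>
          simp [e1, e2, e3, e4, e5, e6, e7, e8]
      inv_mem' := by
        intro a ha
        simp only [Set.mem_setOf_eq] at ha ⊢
        rcases ha with ha | ha | ha | ha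
        · left; rw [ha, inv_one]
        · right; left; rw [ha]; exact inv_eq_of_mul_eq_one_left e1
        · right; right; left; rw [ha]; exact inv_eq_of_mul_eq_one_left e2
        · right; right; right; rw [ha]; exact inv_eq_of_mul_eq_one_left e8 }
  have hmem : ∀ g : G, g ∈ E ↔ (g = 1 ∨ g = z ∨ g = x ∨ g = z * x) := fun g => Iff.rfl
  have hcard : Nat.card E = 4 := by
    have h1 : Nat.card E = ({1, z, x, z * x} : Finset G).card :=
      Nat.subtype_card _ (fun g => by simp [hmem])
    rw [h1]
    rw [Finset.card_insert_of_notMem, Finset.card_insert_of_notMem, Finset.card_insert_of_notMem,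
      Finset.card_singleton]
    · simp [z1]
    · simp [hne.symm, x1]
    · simp [z1.symm, x1.symm, zx1.symm]
  refine ⟨E, ⟨hcard, ?_⟩, Or.inr (Or.inl rfl), Or.inr (Or.inr (Or.inl rfl))⟩
  have h1 : Monoid.exponent E ∣ 2 := by
    apply Monoid.exponent_dvd_of_forall_pow_eq_one
    intro g
    apply Subtype.ext
    rw [pow_two]
    rcases (hmem _).mp g.2 with h | h | h | h <;> simp [h, e1, e2, e8]
  rcases (Nat.dvd_prime Nat.prime_two).mp h1 with h | h
  · exfalso
    have := Monoid.exp_eq_one_iff.mp h
    rw [Nat.card_eq_one_iff_unique.mpr ⟨this, ⟨1⟩⟩] at hcard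
    norm_num at hcard
  · exact h

end Cfsg.Agent.Lib.Helper7_Klein
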