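import Mathlib
import Cfsg.Prelude.Def_SolvableStructure
import Cfsg.Agent.Lib.Helper1_SZ

/-! Supersolvable groups: basic API. -/

namespace Cfsg.Agent.Lib.Helper7_SS

open Cfsg

universe u v

theorem ss_of_subsingleton (G : Type u) [Group G] [Subsingleton G] : IsSupersolvable G :=
  ⟨0, fun _ => ⊥, rfl, Subsingleton.elim _ _, fun _ => inferInstance, fun i => i.elim0⟩

theorem ss_of_surjective {G : Type u} {G' : Type v} [Group G] [Group G'] (f : G →* G')
    (hf : Function.Surjective f) (h : IsSupersolvable G) : IsSupersolvable G' := by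
  obtain ⟨n, H, h0, hn, hnorm, hstep⟩ := h
  refine ⟨n, fun i => (H i).map f, by simp [h0], ?_, fun i => (hnorm i).map f hf, ?_⟩
  · show (H (Fin.last n)).map f = ⊤
    rw [hn, Subgroup.map_top_of_surjective f hf]
  · intro i
    obtain ⟨g, hg⟩ := hstep i
    refine ⟨f g, ?_⟩
    show (H i.succ).map f = (H i.castSucc).map f ⊔ Subgroup.zpowers (f g)
    rw [hg, Subgroup.map_sup, MonoidHom.map_zpowers]

theorem eq_zpowers_of_isCyclic {G : Type u} [Group G] (N : Subgroup G) [IsCyclic N] :
    ∃ g : G, N = Subgroup.zpowers g := by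
  obtain ⟨g, hg⟩ := IsCyclic.exists_generator (α := N)
  refine ⟨g, le_antisymm ?_ ?_⟩
  · intro x hx
    obtain ⟨k, hk⟩ := Subgroup.mem_zpowers_iff.mp (hg ⟨x, hx⟩)
    refine Subgroup.mem_zpowers_iff.mpr ⟨k, ?_⟩
    have := congrArg Subtype.val hk
    simpa using this
  · rw [Subgroup.zpowers_le]; exact g.2

theorem ss_of_cyclic_normal {G : Type u} [Group G] (N : Subgroup G) [N.Normal] [IsCyclic N]
    (h : IsSupersolvable (G ⧸ N)) : IsSupersolvable G := by
  obtain ⟨n, H, h0, hn, hnorm, hstep⟩ := h
  have hsurj : Function.Surjective (QuotientGroup.mk' N) := QuotientGroup.mk'_surjective N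
  refine ⟨n + 1, Fin.cons ⊥ (fun i => (H i).comap (QuotientGroup.mk' N)), by simp, ?_, ?_, ?_⟩
  · rw [← Fin.succ_last, Fin.cons_succ, hn, Subgroup.comap_top]
  · intro i
    refine Fin.cases ?_ (fun j => ?_) i
    · rw [Fin.cons_zero]; infer_instance
    · rw [Fin.cons_succ]; exact (hnorm j).comap _
  · intro i
    refine Fin.cases ?_ (fun j => ?_) i
    · obtain ⟨g, hg⟩ := eq_zpowers_of_isCyclic N
      refine ⟨g, ?_⟩
      rw [Fin.cons_succ, Fin.castSucc_zero, Fin.cons_zero, h0, bot_sup_eq, ← hg]
      rw [MonoidHom.comap_bot, QuotientGroup.ker_mk']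
    · obtain ⟨g, hg⟩ := hstep j
      obtain ⟨g', rfl⟩ := hsurj g
      refine ⟨g', ?_⟩
      rw [Fin.cons_succ, ← Fin.succ_castSucc, Fin.cons_succ, hg]
      have hN : N ≤ (H j.castSucc).comap (QuotientGroup.mk' N) := by
        intro x hx
        rw [Subgroup.mem_comap]
        have : QuotientGroup.mk' N x = 1 := (QuotientGroup.eq_one_iff x).mpr hx
        rw [this]; exact Subgroup.one_mem _
      rw [← Subgroup.comap_sup_eq _ _ _ hsurj, ← MonoidHom.map_zpowers, Subgroup.comap_map_eq,
        QuotientGroup.ker_mk', sup_comm (Subgroup.zpowers g') N, ← sup_assoc, sup_eq_left.mpr hN]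

theorem ss_of_surjective_cyclic_ker {G : Type u} {Q : Type v} [Group G] [Group Q] (f : G →* Q)
    (hf : Function.Surjective f) [IsCyclic f.ker] (h : IsSupersolvable Q) : IsSupersolvable G := by
  apply ss_of_cyclic_normal f.ker
  exact ss_of_surjective (QuotientGroup.quotientKerEquivOfSurjective f hf).symm.toMonoidHom
    (QuotientGroup.quotientKerEquivOfSurjective f hf).symm.surjective h

/-- A nontrivial supersolvable group has a nontrivial cyclic normal subgroup with
supersolvable quotient. -/
theorem exists_cyclic_normal {G : Type u} [Group G] [Nontrivial G] (h : IsSupersolvable G) :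
    ∃ N : Subgroup G, N.Normal ∧ N ≠ ⊥ ∧ IsCyclic N := by
  obtain ⟨n, H, h0, hn, hnorm, hstep⟩ := h
  induction n with
  | zero =>
    exfalso
    have : (⊥ : Subgroup G) = ⊤ := by rw [← h0, ← hn]; rfl
    exact bot_ne_top this
  | succ n ih =>
    by_cases h1 : H 1 = ⊥
    · refine ih (fun i => H i.succ) ?_ ?_ (fun i => hnorm _) ?_
      · exact h1
      · show H (Fin.last n).succ = ⊤
        rw [Fin.succ_last]; exact hn
      · intro i
        obtain ⟨g, hg⟩ := hstep i.succ
        refine ⟨g, ?_⟩
        show H i.succ.succ = H i.castSucc.succ ⊔ Subgroup.zpowers g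
        rw [hg, Fin.succ_castSucc]
    · refine ⟨H 1, hnorm 1, h1, ?_⟩
      obtain ⟨g, hg⟩ := hstep 0
      have : H 1 = Subgroup.zpowers g := by
        have h2 : H (0 : Fin (n + 1)).succ = H 1 := rfl
        rw [← h2, hg, Fin.castSucc_zero, h0, bot_sup_eq]
      rw [this]
      infer_instance

theorem ss_quotient {G : Type u} [Group G] (h : IsSupersolvable G) (N : Subgroup G) [N.Normal] :
    IsSupersolvable (G ⧸ N) :=
  ss_of_surjective (QuotientGroup.mk' N) (QuotientGroup.mk'_surjective N) h

/-- A nontrivial finite supersolvable group has a normal subgroup of prime order. -/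
theorem exists_prime_normal {G : Type u} [Group G] [Finite G] [Nontrivial G]
    (h : IsSupersolvable G) : ∃ N : Subgroup G, N.Normal ∧ (Nat.card N).Prime := by
  classical
  obtain ⟨N, hN, hne, hcyc⟩ := exists_cyclic_normal h
  have hcard : Nat.card N ≠ 1 := by
    intro h1
    exact hne (Subgroup.card_eq_one.mp h1)
  obtain ⟨p, hp, hpN⟩ := Nat.exists_prime_and_dvd hcard
  haveI := Fact.mk hp
  obtain ⟨x, hx⟩ := exists_prime_orderOf_dvd_card' (G := N) p hpN
  -- the subgroup generated by x
  refine ⟨Subgroup.zpowers (x : G), ?_, ?_⟩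
  · constructor
    intro y hy g
    -- g y g⁻¹ ∈ N has order dividing p, so it is in zpowers x
    have hyN : y ∈ N := (Subgroup.zpowers_le.mpr x.2) hy
    have hyp : y ^ p = 1 := by
      obtain ⟨k, rfl⟩ := Subgroup.mem_zpowers_iff.mp hy
      rw [← zpow_natCast, ← zpow_mul, mul_comm, zpow_mul, zpow_natCast]
      have : (x : G) ^ p = 1 := by
        have := pow_orderOf_eq_one x
        rw [hx] at this
        exact_mod_cast congrArg Subtype.val this
      rw [this, one_zpow]
    have hz : g * y * g⁻¹ ∈ N := hN.conj_mem y hyN g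
    have hzp : (⟨g * y * g⁻¹, hz⟩ : N) ^ p = 1 := by
      apply Subtype.ext
      show (g * y * g⁻¹) ^ p = 1
      rw [conj_pow, hyp]; simp
    -- in a cyclic group, solutions of z^p = 1 number at most p
    haveI : Fintype N := Fintype.ofFinite N
    have hle := IsCyclic.card_pow_eq_one_le (α := N) hp.pos
    have hsub : (Finset.univ.filter (fun a : N => a ∈ Subgroup.zpowers x))
        ⊆ Finset.univ.filter (fun a : N => a ^ p = 1) := by
      intro a ha
      simp only [Finset.mem_filter, Finset.mem_univ, true_and] at ha ⊢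
      obtain ⟨k, rfl⟩ := Subgroup.mem_zpowers_iff.mp ha
      rw [← zpow_natCast, ← zpow_mul, mul_comm, zpow_mul, zpow_natCast]
      have := pow_orderOf_eq_one x
      rw [hx] at this
      rw [this, one_zpow]
    have hcardz : (Finset.univ.filter (fun a : N => a ∈ Subgroup.zpowers x)).card = p := by
      rw [← hx, ← Nat.card_zpowers, Nat.card_eq_fintype_card, Fintype.card_subtype]
    have heq := Finset.eq_of_subset_of_card_le hsub (by rw [hcardz]; exact hle)
    have hmem : (⟨g * y * g⁻¹, hz⟩ : N) ∈ Finset.univ.filter (fun a : N => a ^ p = 1) := by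
      simp only [Finset.mem_filter, Finset.mem_univ, true_and]; exact hzp
    rw [← heq] at hmem
    simp only [Finset.mem_filter, Finset.mem_univ, true_and] at hmem
    obtain ⟨k, hk⟩ := Subgroup.mem_zpowers_iff.mp hmem
    refine Subgroup.mem_zpowers_iff.mpr ⟨k, ?_⟩
    have := congrArg Subtype.val hk
    simpa using this
  · rw [Nat.card_zpowers, Subgroup.orderOf_coe, hx]; exact hp

/-- Induction principle for finite supersolvable groups. -/
theorem ss_induction {P : ∀ (G : Type u) [Group G], Prop}
    (h1 : ∀ (G : Type u) [Group G] [Subsingleton G], P G)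
    (h2 : ∀ (G : Type u) [Group G] [Finite G] (N : Subgroup G) [N.Normal],
      (Nat.card N).Prime → IsSupersolvable G → P (G ⧸ N) → P G) :
    ∀ (G : Type u) [Group G] [Finite G], IsSupersolvable G → P G := by
  have key : ∀ n : ℕ, ∀ (G : Type u) [Group G] [Finite G], Nat.card G = n →
      IsSupersolvable G → P G := by
    intro n
    induction n using Nat.strong_induction_on with
    | _ n ih =>
      intro G _ _ hn hG
      rcases subsingleton_or_nontrivial G with hs | hs
      · exact h1 G
      · obtain ⟨N, hN, hp⟩ := exists_prime_normal hG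
        refine h2 G N hp hG (ih _ ?_ (G ⧸ N) rfl (ss_quotient hG N))
        have h3 := Subgroup.card_eq_card_quotient_mul_card_subgroup N
        have h4 : 0 < Nat.card (G ⧸ N) := Nat.card_pos
        have h5 := hp.one_lt
        rw [← hn, h3]
        nlinarith
  intro G _ _ hG
  exact key _ G rfl hG

theorem isCyclic_of_prime_card' {G : Type u} [Group G] (N : Subgroup G) (hp : (Nat.card N).Prime) :
    IsCyclic N := by
  haveI := Fact.mk hp
  exact isCyclic_of_prime_card rfl

theorem ss_subgroup {G : Type u} [Group G] [Finite G] (h : IsSupersolvable G) (K : Subgroup G) :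
    IsSupersolvable K := by
  revert K
  refine ss_induction (P := fun G _ => ∀ K : Subgroup G, IsSupersolvable K) ?_ ?_ G h
  · intro G _ _ K; exact ss_of_subsingleton K
  · intro G _ _ N _ hp _ ih K
    let φ : K →* G ⧸ N := (QuotientGroup.mk' N).comp K.subtype
    have h1 : IsSupersolvable φ.range := ih φ.range
    haveI : IsCyclic N := isCyclic_of_prime_card' N hp
    haveI : IsCyclic φ.rangeRestrict.ker := by
      have hmem : ∀ x : φ.rangeRestrict.ker, ((x : K) : G) ∈ N := by
        intro x
        have h2 : φ.rangeRestrict x = 1 := x.2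
        have h3 : φ x = 1 := by
          have := congrArg Subtype.val h2
          simpa using this
        exact (QuotientGroup.eq_one_iff _).mp h3
      let ψ : φ.rangeRestrict.ker →* N :=
        { toFun := fun x => ⟨((x : K) : G), hmem x⟩
          map_one' := rfl
          map_mul' := fun _ _ => rfl }
      apply isCyclic_of_injective ψ
      intro x y hxy
      have := congrArg Subtype.val hxy
      exact Subtype.ext (Subtype.ext this)
    exact ss_of_surjective_cyclic_ker φ.rangeRestrict φ.rangeRestrict_surjective h1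

theorem ss_prod {G : Type u} {H : Type v} [Group G] [Group H] [Finite G]
    (hG : IsSupersolvable G) (hH : IsSupersolvable H) : IsSupersolvable (G × H) := by
  refine ss_induction (P := fun G _ => IsSupersolvable (G × H)) ?_ ?_ G hG
  · intro G _ _
    exact ss_of_surjective (MonoidHom.inr G H)
      (fun x => ⟨x.2, Prod.ext (Subsingleton.elim _ _) rfl⟩) hH
  · intro G _ _ N _ hp _ ih
    let f : G × H →* (G ⧸ N) × H := (QuotientGroup.mk' N).prodMap (MonoidHom.id H)
    have hf : Function.Surjective f := by
      rintro ⟨a, b⟩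
      obtain ⟨a', rfl⟩ := QuotientGroup.mk'_surjective N a
      exact ⟨(a', b), rfl⟩
    haveI : IsCyclic N := isCyclic_of_prime_card' N hp
    haveI : IsCyclic f.ker := by
      have hmem : ∀ x : f.ker, (x : G × H).1 ∈ N ∧ (x : G × H).2 = 1 := by
        intro x
        have h2 : f x = 1 := x.2
        have h3 := congrArg Prod.fst h2
        have h4 := congrArg Prod.snd h2
        exact ⟨(QuotientGroup.eq_one_iff _).mp h3, h4⟩
      let ψ : f.ker →* N :=
        { toFun := fun x => ⟨(x : G × H).1, (hmem x).1⟩
          map_one' := rfl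
          map_mul' := fun _ _ => rfl }
      apply isCyclic_of_injective ψ
      intro x y hxy
      have := congrArg Subtype.val hxy
      exact Subtype.ext (Prod.ext this ((hmem x).2.trans (hmem y).2.symm))
    exact ss_of_surjective_cyclic_ker f hf ih

theorem commutator_le_centralizer_of_cyclic {G : Type u} [Group G] (N : Subgroup G) [N.Normal]
    [IsCyclic N] : commutator G ≤ Subgroup.centralizer (N : Set G) := by
  let f : G →* (ZMod (Nat.card N))ˣ :=
    (IsCyclic.mulAutMulEquiv N).toMonoidHom.comp MulAut.conjNormal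
  have h1 : commutator G ≤ f.ker := Abelianization.commutator_subset_ker f
  refine h1.trans ?_
  intro g hg
  have h2 : (MulAut.conjNormal g : MulAut N) = 1 := by
    have h3 : (IsCyclic.mulAutMulEquiv N) (MulAut.conjNormal g) = 1 := hg
    exact (IsCyclic.mulAutMulEquiv N).injective (by rw [h3, map_one])
  rw [Subgroup.mem_centralizer_iff]
  intro n hn
  have h4 : (MulAut.conjNormal g : MulAut N) ⟨n, hn⟩ = ⟨n, hn⟩ := by rw [h2]; rfl
  have h5 := congrArg Subtype.val h4
  rw [MulAut.conjNormal_apply] at h5
  have h6 : g * n * g⁻¹ = n := h5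
  calc n * g = (g * n * g⁻¹) * g := by rw [h6]
    _ = g * n := by group

theorem commutator_isNilpotent {G : Type u} [Group G] [Finite G] (h : IsSupersolvable G) :
    Group.IsNilpotent (commutator G) := by
  refine ss_induction (P := fun G _ => Group.IsNilpotent (commutator G)) ?_ ?_ G h
  · intro G _ _; infer_instance
  · intro G _ _ N _ hp _ ih
    haveI : IsCyclic N := isCyclic_of_prime_card' N hp
    have hmap : ∀ x : commutator G, QuotientGroup.mk' N (x : G) ∈ commutator (G ⧸ N) := by
      intro x
      have h1 : QuotientGroup.mk' N (x : G) ∈ (commutator G).map (QuotientGroup.mk' N) :=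
        Subgroup.mem_map_of_mem _ x.2
      have h0 : (commutator G).map (QuotientGroup.mk' N) ≤ commutator (G ⧸ N) := by
        rw [commutator_def, Subgroup.map_commutator, commutator_def]
        exact Subgroup.commutator_mono le_top le_top
      exact h0 h1
    let f : commutator G →* commutator (G ⧸ N) :=
      ((QuotientGroup.mk' N).comp (commutator G).subtype).codRestrict _ hmap
    have hker : f.ker ≤ Subgroup.center (commutator G) := by
      intro x hx
      have h2 : f x = 1 := hx
      have h3 : QuotientGroup.mk' N (x : G) = 1 := congrArg Subtype.val h2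
      have h4 : (x : G) ∈ N := (QuotientGroup.eq_one_iff _).mp h3
      rw [Subgroup.mem_center_iff]
      intro y
      have h5 := commutator_le_centralizer_of_cyclic N y.2
      rw [Subgroup.mem_centralizer_iff] at h5
      exact Subtype.ext (h5 _ h4).symm
    exact Subgroup.isNilpotent_of_ker_le_center f hker

theorem isCoatom_map_mk {G : Type u} [Group G] (N M : Subgroup G) [N.Normal] (hNM : N ≤ M)
    (hM : IsCoatom M) : IsCoatom (M.map (QuotientGroup.mk' N)) := by
  have hsurj : Function.Surjective (QuotientGroup.mk' N) := QuotientGroup.mk'_surjective N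
  have hcm : (M.map (QuotientGroup.mk' N)).comap (QuotientGroup.mk' N) = M := by
    rw [Subgroup.comap_map_eq, QuotientGroup.ker_mk', sup_eq_left.mpr hNM]
  refine ⟨?_, ?_⟩
  · intro h
    rw [h, Subgroup.comap_top] at hcm
    exact hM.1 hcm.symm
  · intro b hb
    have h1 : M ≤ b.comap (QuotientGroup.mk' N) := by
      rw [← hcm]; exact Subgroup.comap_mono hb.le
    rcases h1.lt_or_eq with h2 | h2
    · have h3 := hM.2 _ h2
      have h4 := Subgroup.map_comap_eq_self_of_surjective hsurj b
      rw [h3, Subgroup.map_top_of_surjective _ hsurj] at h4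
      exact h4.symm
    · exfalso
      have h4 := Subgroup.map_comap_eq_self_of_surjective hsurj b
      rw [← h2] at h4
      exact hb.ne h4

theorem index_map_mk {G : Type u} [Group G] (N M : Subgroup G) [N.Normal] (hNM : N ≤ M) :
    (M.map (QuotientGroup.mk' N)).index = M.index := by
  have hcm : (M.map (QuotientGroup.mk' N)).comap (QuotientGroup.mk' N) = M := by
    rw [Subgroup.comap_map_eq, QuotientGroup.ker_mk', sup_eq_left.mpr hNM]
  conv_rhs => rw [← hcm]
  rw [Subgroup.index_comap_of_surjective _ (QuotientGroup.mk'_surjective N)]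

theorem index_prime_of_isCoatom {G : Type u} [Group G] [Finite G] (h : IsSupersolvable G)
    (M : Subgroup G) (hM : IsCoatom M) : M.index.Prime := by
  revert M
  refine ss_induction (P := fun G _ => ∀ M : Subgroup G, IsCoatom M → M.index.Prime) ?_ ?_ G h
  · intro G _ _ M hM
    exact absurd (Subsingleton.elim M ⊤) hM.1
  · intro G _ _ N _ hp _ ih M hM
    by_cases hNM : N ≤ M
    · rw [← index_map_mk N M hNM]
      exact ih _ (isCoatom_map_mk N M hNM hM)
    · have h1 : N ⊔ M = ⊤ := by
        apply hM.2
        exact lt_of_le_of_ne le_sup_right (fun h2 => hNM (h2 ▸ le_sup_left))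
      have h2 : N ⊓ M = ⊥ := by
        haveI := Fact.mk hp
        have h3 := Subgroup.eq_bot_or_eq_top_of_prime_card (M.subgroupOf N)
        rcases h3 with h3 | h3
        · rw [Subgroup.subgroupOf_eq_bot] at h3
          rw [inf_comm]; exact h3.eq_bot
        · rw [Subgroup.subgroupOf_eq_top] at h3
          exact absurd h3 hNM
      have h3 : Subgroup.IsComplement' N M := by
        apply Subgroup.isComplement'_of_disjoint_and_mul_eq_univ (disjoint_iff.mpr h2)
        rw [← Subgroup.normal_mul, h1]; rfl
      rw [h3.index_eq_card]; exact hp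

theorem hasSubgroupOfEveryOrder {G : Type u} [Group G] [Finite G] (h : IsSupersolvable G) :
    HasSubgroupOfEveryOrder G := by
  refine ss_induction (P := fun G _ => HasSubgroupOfEveryOrder G) ?_ ?_ G h
  · intro G _ _ d hd
    rw [Nat.card_eq_one_iff_unique.mpr ⟨inferInstance, ⟨1⟩⟩, Nat.dvd_one] at hd
    exact ⟨⊥, by rw [hd]; simp⟩
  · intro G _ _ N _ hp _ ih d hd
    have hcard := Subgroup.card_eq_card_quotient_mul_card_subgroup N
    by_cases hpd : Nat.card N ∣ d
    · obtain ⟨e, rfl⟩ := hpd
      have he : e ∣ Nat.card (G ⧸ N) := by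
        rw [hcard, mul_comm (Nat.card (G ⧸ N))] at hd
        exact Nat.dvd_of_mul_dvd_mul_left hp.pos hd
      obtain ⟨K, hK⟩ := ih e he
      refine ⟨K.comap (QuotientGroup.mk' N), ?_⟩
      rw [Cfsg.Agent.Lib.Helper1_SZ.card_comap_mk', hK, mul_comm]
    · have hcop : (Nat.card N).Coprime d := (Nat.Prime.coprime_iff_not_dvd hp).mpr hpd
      have he : d ∣ Nat.card (G ⧸ N) := by
        rw [hcard] at hd
        exact hcop.symm.dvd_of_dvd_mul_right hd
      obtain ⟨K, hK⟩ := ih d he
      have hNK : N ≤ K.comap (QuotientGroup.mk' N) := by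
        intro x hx
        rw [Subgroup.mem_comap]
        have : QuotientGroup.mk' N x = 1 := (QuotientGroup.eq_one_iff x).mpr hx
        rw [this]; exact Subgroup.one_mem _
      have hc1 : Nat.card (K.comap (QuotientGroup.mk' N)) = d * Nat.card N := by
        rw [Cfsg.Agent.Lib.Helper1_SZ.card_comap_mk', hK]
      have hc2 : Nat.card (N.subgroupOf (K.comap (QuotientGroup.mk' N))) = Nat.card N :=
        Nat.card_congr (Subgroup.subgroupOfEquivOfLe hNK).toEquiv
      have hc3 : (N.subgroupOf (K.comap (QuotientGroup.mk' N))).index = d := by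
        have h5 := Subgroup.card_mul_index (N.subgroupOf (K.comap (QuotientGroup.mk' N)))
        rw [hc2, hc1, mul_comm] at h5
        exact Nat.eq_of_mul_eq_mul_right hp.pos h5
      obtain ⟨C, hC⟩ := Subgroup.exists_right_complement'_of_coprime
        (N := N.subgroupOf (K.comap (QuotientGroup.mk' N))) (by rw [hc2, hc3]; exact hcop)
      refine ⟨C.map (Subgroup.subtype _), ?_⟩
      rw [Subgroup.card_map_of_injective (Subgroup.subtype_injective _)]
      have h6 := hC.symm.index_eq_card
      rw [← h6, hc3]

theorem card_quotient_lt {G : Type u} [Group G] [Finite G] (N : Subgroup G) (hN : N ≠ ⊥) :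
    Nat.card (G ⧸ N) < Nat.card G := by
  have h3 := Subgroup.card_eq_card_quotient_mul_card_subgroup N
  have h4 : 0 < Nat.card (G ⧸ N) := Nat.card_pos
  have h5 : 1 < Nat.card N := (Subgroup.one_lt_card_iff_ne_bot N).mpr hN
  rw [h3]
  nlinarith

theorem ss_of_isPGroup (p : ℕ) [Fact p.Prime] {G : Type u} [Group G] [Finite G]
    (hG : IsPGroup p G) : IsSupersolvable G := by
  have key : ∀ n : ℕ, ∀ (G : Type u) [Group G] [Finite G], Nat.card G = n → IsPGroup p G →
      IsSupersolvable G := by
    intro n
    induction n using Nat.strong_induction_on with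
    | _ n ih =>
      intro G _ _ hn hG
      rcases subsingleton_or_nontrivial G with hs | hs
      · exact ss_of_subsingleton G
      · haveI := hG.center_nontrivial
        obtain ⟨z, hz⟩ := exists_ne (1 : Subgroup.center G)
        have hzc : (z : G) ∈ Subgroup.center G := z.2
        haveI : (Subgroup.zpowers (z : G)).Normal := by
          constructor
          intro y hy g
          have hyc : y ∈ Subgroup.center G := (Subgroup.zpowers_le.mpr hzc) hy
          rw [Subgroup.mem_center_iff] at hyc
          rw [hyc g, mul_inv_cancel_right]; exact hy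
        have hne : Subgroup.zpowers (z : G) ≠ ⊥ := by
          rw [Ne, Subgroup.zpowers_eq_bot]
          intro h; exact hz (Subtype.ext h)
        apply ss_of_cyclic_normal (Subgroup.zpowers (z : G))
        exact ih _ (hn ▸ card_quotient_lt _ hne) _ rfl (hG.to_quotient _)
  exact key _ G rfl hG

end Cfsg.Agent.Lib.Helper7_SS
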