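import Mathlib
import Cfsg.Agent.Lib.Helper7_Frobenius

set_option autoImplicit false
set_option linter.style.haveILetI false

/-! The number of subgroups of order `p ^ k` is `≡ 1 (mod p)` (Frobenius). -/

namespace Cfsg.Agent.Lib.Helper7_SubgroupCount

open Cfsg.Agent.Lib.Helper7_Frobenius
open Finset

universe u

/-- number of subgroups of order `d` -/
noncomputable def sc (X : Type*) [Group X] (d : ℕ) : ℕ :=
  Nat.card {B : Subgroup X // Nat.card B = d}

theorem sum_modEq_card {α : Type*} (s : Finset α) (f : α → ℕ) (p : ℕ)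
    (h : ∀ a ∈ s, f a ≡ 1 [MOD p]) : ∑ a ∈ s, f a ≡ #s [MOD p] := by
  classical
  induction s using Finset.induction_on with
  | empty => simp [Nat.ModEq.refl]
  | insert a s ha ih =>
    rw [Finset.sum_insert ha, Finset.card_insert_of_notMem ha, add_comm]
    exact Nat.ModEq.add (ih (fun b hb => h b (Finset.mem_insert_of_mem hb)))
      (h a (Finset.mem_insert_self a s))

theorem sc_prime_modEq_one {X : Type u} [Group X] [Finite X] {p : ℕ} (hp : p.Prime)
    (hdvd : p ∣ Nat.card X) : sc X p ≡ 1 [MOD p] := by
  classical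
  haveI := Fintype.ofFinite X
  set E : Finset X := univ.filter (fun x => orderOf x = p) with hE
  set T : Finset (Subgroup X) := univ.filter (fun C => Nat.card C = p) with hT
  have hscT : sc X p = #T := by
    rw [sc, Nat.card_eq_fintype_card, Fintype.card_subtype]
  have hfib : ∀ C ∈ T, #(E.filter (fun x => Subgroup.zpowers x = C)) = p - 1 := by
    intro C hC
    have hCp : Nat.card C = p := (Finset.mem_filter.1 hC).2
    have h1 : E.filter (fun x => Subgroup.zpowers x = C) = (univ.filter (· ∈ C)).erase 1 := by
      ext x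
      simp only [hE, mem_filter, mem_univ, true_and, mem_erase]
      constructor
      · rintro ⟨hx, rfl⟩
        refine ⟨?_, Subgroup.mem_zpowers x⟩
        rintro rfl
        rw [orderOf_one] at hx
        exact hp.one_lt.ne hx
      · rintro ⟨hx1, hxC⟩
        have hle : Subgroup.zpowers x ≤ C := by rwa [Subgroup.zpowers_le]
        have hdv : orderOf x ∣ p := by
          rw [← hCp, ← Nat.card_zpowers]
          exact Subgroup.card_dvd_of_le hle
        have hox : orderOf x = p := by
          rcases (Nat.dvd_prime hp).1 hdv with h | h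
          · exact absurd (orderOf_eq_one_iff.1 h) hx1
          · exact h
        exact ⟨hox, Subgroup.eq_of_le_of_card_ge hle (by rw [Nat.card_zpowers, hox, hCp])⟩
    rw [h1, Finset.card_erase_of_mem (by simp [one_mem]), ← hCp, Nat.card_eq_fintype_card,
      Fintype.card_subtype]
  have hEcard : #E = #T * (p - 1) := by
    rw [Finset.card_eq_sum_card_fiberwise (f := fun x : X => Subgroup.zpowers x) (t := T),
      Finset.sum_congr rfl hfib, Finset.sum_const, smul_eq_mul]
    intro x hx
    simp only [hE, hT, coe_filter, mem_univ, true_and, Set.mem_ofPred_eq] at hx ⊢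
    rw [Nat.card_zpowers, hx]
  have hS : Nat.card {x : X // x ^ p = 1} = #E + 1 := by
    rw [Nat.card_eq_fintype_card, Fintype.card_subtype]
    have h1 : (univ.filter (fun x : X => x ^ p = 1)) = insert 1 E := by
      ext x
      simp only [hE, mem_filter, mem_univ, true_and, mem_insert]
      rw [← orderOf_dvd_iff_pow_eq_one, Nat.dvd_prime hp, orderOf_eq_one_iff]
    rw [h1, Finset.card_insert_of_notMem]
    simp only [hE, mem_filter, mem_univ, true_and, orderOf_one]
    exact hp.one_lt.ne
  have hfrob := dvd_card_pow_eq_one (G := X) p hdvd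
  rw [hS, hEcard] at hfrob
  rw [hscT]
  obtain ⟨c, hc⟩ := hfrob
  apply (Nat.modEq_iff_dvd).2
  refine ⟨(c : ℤ) - #T, ?_⟩
  have hp1 : 1 ≤ p := hp.one_lt.le
  have hc' : ((#T : ℤ) * ((p : ℤ) - 1) + 1) = (p : ℤ) * c := by
    have := congrArg (fun n : ℕ => (n : ℤ)) hc
    push_cast [Nat.cast_sub hp1] at this
    exact this
  push_cast
  linarith

theorem card_over_normal {X : Type*} [Group X] [Finite X] (N : Subgroup X) [N.Normal] (d : ℕ) :
    Nat.card {B : Subgroup X // N ≤ B ∧ Nat.card B = Nat.card N * d} = sc (X ⧸ N) d := by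
  rw [sc]
  symm
  apply Nat.card_congr
  refine (Equiv.subtypeEquiv (QuotientGroup.comapMk'OrderIso N).toEquiv
    (q := fun H => Nat.card H.1 = Nat.card N * d) (fun C => ?_)).trans
    (Equiv.subtypeSubtypeEquivSubtypeInter (fun B : Subgroup X => N ≤ B)
      (fun B => Nat.card B = Nat.card N * d))
  have h1 : Nat.card (C.comap (QuotientGroup.mk' N)) = Nat.card N * Nat.card C :=
    QuotientGroup.card_preimage_mk N (C : Set (X ⧸ N))
  show Nat.card C = d ↔ Nat.card (C.comap (QuotientGroup.mk' N)) = Nat.card N * d
  rw [h1]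
  constructor
  · rintro rfl; rfl
  · intro h; exact Nat.eq_of_mul_eq_mul_left Nat.card_pos h

theorem card_under {G : Type*} [Group G] (M : Subgroup G) (P : Subgroup G → Prop) :
    Nat.card {B : Subgroup M // P (B.map M.subtype)} =
      Nat.card {B : Subgroup G // B ≤ M ∧ P B} := by
  apply Nat.card_congr
  exact (Equiv.subtypeEquiv (Subgroup.MapSubtype.orderIso M).toEquiv
    (q := fun H => P H.1) (fun C => Iff.rfl)).trans
    (Equiv.subtypeSubtypeEquivSubtypeInter (fun B : Subgroup G => B ≤ M) P)

theorem card_above_modEq_one {G : Type u} [Group G] [Finite G] {p k : ℕ} [hp : Fact p.Prime]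
    (hdvd : p ^ (k + 1) ∣ Nat.card G) (A : Subgroup G) (hA : Nat.card A = p ^ k) :
    Nat.card {B : Subgroup G // A ≤ B ∧ Nat.card B = p ^ (k + 1)} ≡ 1 [MOD p] := by
  set N := Subgroup.normalizer (A : Set G) with hN
  have hAN : A ≤ N := Subgroup.le_normalizer
  have h1 : Nat.card {B : Subgroup G // A ≤ B ∧ Nat.card B = p ^ (k + 1)} =
      Nat.card {B : Subgroup G // B ≤ N ∧ (A ≤ B ∧ Nat.card B = p ^ (k + 1))} := by
    apply Nat.card_congr
    apply Equiv.subtypeEquivRight
    intro B
    constructor
    · rintro ⟨hAB, hB⟩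
      refine ⟨?_, hAB, hB⟩
      rw [hN, ← Subgroup.normal_subgroupOf_iff_le_normalizer hAB]
      apply Subgroup.normal_of_index_eq_minFac_card
      rw [hB, Nat.Prime.pow_minFac hp.out (Nat.succ_ne_zero k)]
      have h2 := Subgroup.card_mul_index (A.subgroupOf B)
      have h3 : Nat.card (A.subgroupOf B) = p ^ k := by
        rw [← Subgroup.card_map_of_injective B.subtype_injective,
          Subgroup.map_subgroupOf_eq_of_le hAB, hA]
      rw [h3, hB, pow_succ] at h2
      exact Nat.eq_of_mul_eq_mul_left (pow_pos hp.out.pos k) h2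
    · exact fun h => h.2
  have hA'card : Nat.card (A.subgroupOf N) = p ^ k := by
    rw [← Subgroup.card_map_of_injective N.subtype_injective,
      Subgroup.map_subgroupOf_eq_of_le hAN, hA]
  have h2 : Nat.card {B : Subgroup N // A ≤ B.map N.subtype ∧
      Nat.card (B.map N.subtype) = p ^ (k + 1)} =
      Nat.card {B : Subgroup N // A.subgroupOf N ≤ B ∧
        Nat.card B = Nat.card (A.subgroupOf N) * p} := by
    apply Nat.card_congr
    apply Equiv.subtypeEquivRight
    intro B
    rw [Subgroup.card_map_of_injective N.subtype_injective, hA'card, pow_succ]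
    apply and_congr_left'
    constructor
    · intro h x hx
      obtain ⟨y, hy, hyx⟩ := h (Subgroup.mem_subgroupOf.1 hx)
      have : y = x := Subtype.ext hyx
      rwa [← this]
    · intro h x hx
      exact ⟨⟨x, hAN hx⟩, h (Subgroup.mem_subgroupOf.2 hx), rfl⟩
  rw [h1, ← card_under N (fun B => A ≤ B ∧ Nat.card B = p ^ (k + 1)), h2, card_over_normal]
  exact sc_prime_modEq_one hp.out (Sylow.prime_dvd_card_quotient_normalizer hdvd hA)

theorem sc_modEq_one_aux (p : ℕ) [hp : Fact p.Prime] (n : ℕ) :
    ∀ (G : Type u) [Group G] [Finite G], Nat.card G = n → ∀ k : ℕ, p ^ k ∣ n →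
      sc G (p ^ k) ≡ 1 [MOD p] := by
  induction n using Nat.strong_induction_on with
  | _ n ih =>
    intro G _ _ hn k
    induction k with
    | zero =>
      intro _
      have : sc G (p ^ 0) = 1 := by
        rw [sc, pow_zero, Nat.card_eq_one_iff_unique]
        refine ⟨⟨fun a b => ?_⟩, ⟨⟨⊥, Subgroup.card_bot⟩⟩⟩
        apply Subtype.ext
        rw [Subgroup.card_eq_one.1 a.2, Subgroup.card_eq_one.1 b.2]
      rw [this]
    | succ k ihk =>
      intro hdvd
      by_cases hnk : n = p ^ (k + 1)
      · have : sc G (p ^ (k + 1)) = 1 := by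
          rw [sc, Nat.card_eq_one_iff_unique]
          refine ⟨⟨fun a b => ?_⟩, ⟨⟨⊤, by rw [Subgroup.card_top, hn, hnk]⟩⟩⟩
          apply Subtype.ext
          rw [Subgroup.eq_top_of_card_eq a.1 (by rw [a.2, hn, hnk]),
            Subgroup.eq_top_of_card_eq b.1 (by rw [b.2, hn, hnk])]
        rw [this]
      · classical
        haveI := Fintype.ofFinite G
        have ihk' := ihk ((pow_dvd_pow p (Nat.le_succ k)).trans hdvd)
        have hnpos : 0 < n := hn ▸ Nat.card_pos
        have hlt : p ^ (k + 1) < n := lt_of_le_of_ne (Nat.le_of_dvd hnpos hdvd) (Ne.symm hnk)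
        set S : Finset (Subgroup G) := univ.filter (fun A => Nat.card A = p ^ k) with hS
        set T : Finset (Subgroup G) := univ.filter (fun B => Nat.card B = p ^ (k + 1)) with hT
        have hscS : sc G (p ^ k) = #S := by
          rw [sc, Nat.card_eq_fintype_card, Fintype.card_subtype]
        have hscT : sc G (p ^ (k + 1)) = #T := by
          rw [sc, Nat.card_eq_fintype_card, Fintype.card_subtype]
        have hdc := Finset.sum_card_bipartiteAbove_eq_sum_card_bipartiteBelow (s := S) (t := T)
          (fun A B : Subgroup G => A ≤ B)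
        have h1 : ∑ A ∈ S, #(T.bipartiteAbove (fun A B : Subgroup G => A ≤ B) A) ≡ #S [MOD p] := by
          apply sum_modEq_card
          intro A hA
          have hA' : Nat.card A = p ^ k := (Finset.mem_filter.1 hA).2
          have h2 := card_above_modEq_one (hn ▸ hdvd) A hA'
          rw [Nat.card_eq_fintype_card, Fintype.card_subtype] at h2
          convert h2 using 2
          ext B
          simp only [Finset.bipartiteAbove, hT, mem_filter, mem_univ, true_and]
          exact and_comm
        have h2 : ∑ B ∈ T, #(S.bipartiteBelow (fun A B : Subgroup G => A ≤ B) B) ≡ #T [MOD p] := by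
          apply sum_modEq_card
          intro B hB
          have hB' : Nat.card B = p ^ (k + 1) := (Finset.mem_filter.1 hB).2
          have h3 := ih _ hlt B hB' k (pow_dvd_pow p (Nat.le_succ k))
          have h4 : sc B (p ^ k) = Nat.card {A : Subgroup G // A ≤ B ∧ Nat.card A = p ^ k} := by
            rw [← card_under B (fun A => Nat.card A = p ^ k), sc]
            apply Nat.card_congr
            apply Equiv.subtypeEquivRight
            intro A
            rw [Subgroup.card_map_of_injective B.subtype_injective]
          rw [h4, Nat.card_eq_fintype_card, Fintype.card_subtype] at h3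
          convert h3 using 2
          ext A
          simp only [Finset.bipartiteBelow, hS, mem_filter, mem_univ, true_and]
          exact and_comm
        rw [hscT]
        rw [hscS] at ihk'
        rw [hdc] at h1
        exact (h2.symm.trans h1).trans ihk'

/-- **Frobenius**: the number of subgroups of order `p ^ k` is `≡ 1 (mod p)`. -/
theorem card_subgroups_modEq_one {G : Type u} [Group G] [Finite G] (p k : ℕ) (hp : p.Prime)
    (hdiv : p ^ k ∣ Nat.card G) : Nat.card {H : Subgroup G // Nat.card H = p ^ k} ≡ 1 [MOD p] := by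
  haveI : Fact p.Prime := ⟨hp⟩
  exact sc_modEq_one_aux p _ G rfl k hdiv

open scoped Pointwise in
/-- In a `p`-group the number of normal subgroups of order `p ^ s` is `≡ 1 (mod p)`. -/
theorem card_normal_subgroups_modEq_one {G : Type u} [Group G] [Finite G] (p m s : ℕ)
    (hp : p.Prime) (hG : Nat.card G = p ^ m) (hs : s ≤ m) :
    Nat.card {H : Subgroup G // H.Normal ∧ Nat.card H = p ^ s} ≡ 1 [MOD p] := by
  haveI : Fact p.Prime := ⟨hp⟩
  have h1 := card_subgroups_modEq_one (G := G) p s hp (hG ▸ pow_dvd_pow p hs)
  let X : SubMulAction (ConjAct G) (Subgroup G) :=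
    { carrier := {H | Nat.card H = p ^ s}
      smul_mem' := fun g H hH => by
        show Nat.card (g • H : Subgroup G) = p ^ s
        rw [← hH]
        exact (Nat.card_congr (Subgroup.equivSMul g H).toEquiv).symm }
  have hpg : IsPGroup p (ConjAct G) := IsPGroup.of_card (n := m) hG
  have h2 := hpg.card_modEq_card_fixedPoints X
  have h3 : Nat.card X = Nat.card {H : Subgroup G // Nat.card H = p ^ s} := rfl
  have h4 : Nat.card (MulAction.fixedPoints (ConjAct G) X) =
      Nat.card {H : Subgroup G // H.Normal ∧ Nat.card H = p ^ s} := by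
    apply Nat.card_congr
    refine ⟨fun x => ⟨x.1.1, ?_, x.1.2⟩, fun H => ⟨⟨H.1, H.2.2⟩, ?_⟩, fun x => rfl, fun H => rfl⟩
    · refine ⟨fun n hn g => ?_⟩
      have h5 := x.2 (ConjAct.toConjAct g)
      have h6 : (ConjAct.toConjAct g • x.1.1 : Subgroup G) = x.1.1 := congrArg Subtype.val h5
      rw [← h6]
      exact ⟨n, hn, rfl⟩
    · intro g
      apply Subtype.ext
      show (g • H.1 : Subgroup G) = H.1
      haveI := H.2.1
      apply Subgroup.eq_of_le_of_card_ge
      · rintro _ ⟨n, hn, rfl⟩
        exact H.2.1.conj_mem n hn (ConjAct.ofConjAct g)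
      · exact (Nat.card_congr (Subgroup.equivSMul g H.1).toEquiv).le
  rw [← h4]
  rw [h3] at h2
  exact h2.symm.trans h1

end Cfsg.Agent.Lib.Helper7_SubgroupCount
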