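import Mathlib
import Cfsg.Prelude.Def_FusionSystem
import Cfsg.Agent.Lib.Helper9_AlperinCor
import Cfsg.Agent.Lib.Helper9_FusionGroup

set_option autoImplicit false

namespace Cfsg.Agent.Lib.Helper9_AutTwo

open Cfsg Cfsg.FusionSystem Cfsg.Agent.Lib.Helper9_FusionBasic Cfsg.Agent.Lib.Helper9_FusionSat
  Cfsg.Agent.Lib.Helper9_AlperinCor Cfsg.Agent.Lib.Helper9_Alperin
  Cfsg.Agent.Lib.Helper9_FusionGroup

section Abstract

variable {X : Type*} [Group X]

theorem aut_eq_one {ρ σ : X} {j : ℕ} (hρ : orderOf ρ = 2 ^ j)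
    (hall : ∀ x : X, (∃ a : ℕ, x = ρ ^ a) ∨ ∃ a : ℕ, x = σ * ρ ^ a)
    (hord : ∀ a : ℕ, orderOf (σ * ρ ^ a) ≠ 2 ^ j)
    (β : MulAut X) {q : ℕ} (hq : q.Prime) (hq2 : q ≠ 2) (hβ : β ^ q = 1) : β = 1 := by
  have hco : Nat.Coprime q (2 ^ j) :=
    Nat.Coprime.pow_right j ((Nat.coprime_primes hq Nat.prime_two).2 hq2)
  -- image of ρ
  have hβρ : orderOf (β ρ) = 2 ^ j := by
    rw [← hρ]
    exact MulEquiv.orderOf_eq β ρ
  obtain ⟨i, hi⟩ : ∃ i : ℕ, β ρ = ρ ^ i := by
    rcases hall (β ρ) with h | ⟨a, ha⟩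
    · exact h
    · exfalso
      rw [ha] at hβρ
      exact hord a hβρ
  have hpow : ∀ t : ℕ, (β ^ t) ρ = ρ ^ (i ^ t) := by
    intro t
    induction t with
    | zero => simp
    | succ t ih =>
      rw [pow_succ', MulAut.mul_apply, ih, map_pow, hi, ← pow_mul, pow_succ']
  have h1 : ρ ^ (i ^ q) = ρ ^ 1 := by
    rw [← hpow q, hβ, pow_one]; rfl
  have h2 : i ^ q ≡ 1 [MOD 2 ^ j] := by
    rw [← hρ]
    exact pow_eq_pow_iff_modEq.1 h1
  have h3 : ((i : ZMod (2 ^ j))) ^ q = 1 := by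
    have := (ZMod.natCast_eq_natCast_iff _ _ _).2 h2
    simpa using this
  have hci : Nat.Coprime i (2 ^ j) := by
    have hu : IsUnit ((i : ZMod (2 ^ j))) := by
      apply IsUnit.of_pow_eq_one h3 hq.ne_zero
    exact (ZMod.isUnit_iff_coprime i (2 ^ j)).1 hu
  have h4 : ((i : ZMod (2 ^ j))) ^ (Nat.totient (2 ^ j)) = 1 := by
    have := (ZMod.natCast_eq_natCast_iff _ _ _).2 (Nat.ModEq.pow_totient hci)
    simpa using this
  have h5 : (i : ZMod (2 ^ j)) = 1 := by
    have d1 := orderOf_dvd_of_pow_eq_one h3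
    have d2 := orderOf_dvd_of_pow_eq_one h4
    have hco2 : Nat.Coprime q (Nat.totient (2 ^ j)) := by
      rcases Nat.eq_zero_or_pos j with rfl | hj
      · simp
      · rw [Nat.totient_prime_pow Nat.prime_two hj]
        simp only [Nat.add_one_sub_one, mul_one]
        exact Nat.Coprime.pow_right _ ((Nat.coprime_primes hq Nat.prime_two).2 hq2)
    have d3 : orderOf (i : ZMod (2 ^ j)) ∣ 1 := by
      rw [← hco2]
      exact Nat.dvd_gcd d1 d2
    exact orderOf_eq_one_iff.1 (Nat.dvd_one.1 d3)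
  have hfix : β ρ = ρ := by
    rw [hi]
    have : i ≡ 1 [MOD orderOf ρ] := by
      rw [hρ]
      apply (ZMod.natCast_eq_natCast_iff _ _ _).1
      simpa using h5
    have := pow_eq_pow_iff_modEq.2 this
    rw [this, pow_one]
  have hfix' : ∀ a : ℕ, β (ρ ^ a) = ρ ^ a := fun a => by rw [map_pow, hfix]
  -- image of σ
  have hσ : ∀ a : ℕ, σ ≠ ρ ^ a := by
    intro a ha
    -- then the group is cyclic generated by ρ and σ * ρ ^ b has the wrong order for a suitable b
    have hinv : ∃ b : ℕ, ρ ^ a * ρ ^ b = ρ := by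
      refine ⟨(2 ^ j - 1) * a + 1, ?_⟩
      rw [← pow_add]
      have : a + ((2 ^ j - 1) * a + 1) = 2 ^ j * a + 1 := by
        have h1 : 1 ≤ 2 ^ j := Nat.one_le_two_pow
        obtain ⟨m, hm⟩ : ∃ m, 2 ^ j = m + 1 := ⟨2 ^ j - 1, by omega⟩
        rw [hm]
        simp only [Nat.add_one_sub_one]
        ring
      rw [this, pow_add, pow_mul, ← hρ, pow_orderOf_eq_one, one_pow, one_mul, pow_one]
    obtain ⟨b, hb⟩ := hinv
    apply hord b
    rw [ha, hb, hρ]
  obtain ⟨c, hc⟩ : ∃ c : ℕ, β σ = σ * ρ ^ c := by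
    rcases hall (β σ) with ⟨a, ha⟩ | h
    · exfalso
      rw [← hfix' a] at ha
      exact hσ a (β.injective ha)
    · exact h
  have hpow2 : ∀ t : ℕ, (β ^ t) σ = σ * ρ ^ (t * c) := by
    intro t
    induction t with
    | zero => simp
    | succ t ih =>
      rw [pow_succ', MulAut.mul_apply, ih, map_mul, hc, hfix', mul_assoc, ← pow_add]
      congr 2
      ring
  have h6 : ρ ^ (q * c) = 1 := by
    have := hpow2 q
    rw [hβ] at this
    have h7 : σ = σ * ρ ^ (q * c) := this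
    exact (mul_eq_left.1 h7.symm)
  have h7 : ρ ^ c = 1 := by
    have d := orderOf_dvd_of_pow_eq_one h6
    rw [hρ] at d
    have d' : 2 ^ j ∣ c := (Nat.Coprime.dvd_mul_left hco.symm).1 d
    rw [← hρ] at d'
    exact orderOf_dvd_iff_pow_eq_one.1 d'
  have hfixσ : β σ = σ := by rw [hc, h7, mul_one]
  ext x
  rcases hall x with ⟨a, rfl⟩ | ⟨a, rfl⟩
  · exact hfix' a
  · rw [map_mul, hfixσ, hfix']; rfl

theorem isPGroup_mulAut [Finite X] {ρ σ : X} {j : ℕ} (hρ : orderOf ρ = 2 ^ j)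
    (hall : ∀ x : X, (∃ a : ℕ, x = ρ ^ a) ∨ ∃ a : ℕ, x = σ * ρ ^ a)
    (hord : ∀ a : ℕ, orderOf (σ * ρ ^ a) ≠ 2 ^ j) : IsPGroup 2 (MulAut X) := by
  have : Finite (MulAut X) :=
    Finite.of_injective (fun α : MulAut X => (α : X → X)) (fun _ _ h => MulEquiv.ext (congrFun h))
  have hcard : ∀ q : ℕ, q.Prime → q ∣ Nat.card (MulAut X) → q = 2 := by
    intro q hq hdvd
    by_contra hq2
    have := Fact.mk hq
    obtain ⟨β, hβ⟩ := exists_prime_orderOf_dvd_card' q hdvd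
    have h1 : β ^ q = 1 := by rw [← hβ]; exact pow_orderOf_eq_one β
    have h2 := aut_eq_one hρ hall hord β hq hq2 h1
    rw [h2, orderOf_one] at hβ
    exact hq.one_lt.ne hβ
  have hne : Nat.card (MulAut X) ≠ 0 := Nat.card_pos.ne'
  have := Nat.eq_prime_pow_of_unique_prime_dvd hne (fun {d} hd hdvd => hcard d hd hdvd)
  exact IsPGroup.of_card this

end Abstract

theorem dihedral (j : ℕ) (hj : 2 ≤ j) : IsPGroup 2 (MulAut (DihedralGroup (2 ^ j))) := by
  have : NeZero (2 ^ j) := ⟨by positivity⟩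
  apply isPGroup_mulAut (ρ := DihedralGroup.r 1) (σ := DihedralGroup.sr 0) (j := j)
    DihedralGroup.orderOf_r_one
  · intro x
    cases x with
    | r i =>
      left
      refine ⟨i.val, ?_⟩
      rw [DihedralGroup.r_one_pow, ZMod.natCast_zmod_val]
    | sr i =>
      right
      refine ⟨i.val, ?_⟩
      rw [DihedralGroup.r_one_pow, ZMod.natCast_zmod_val, DihedralGroup.sr_mul_r, zero_add]
  · intro a
    rw [DihedralGroup.r_one_pow, DihedralGroup.sr_mul_r, DihedralGroup.orderOf_sr]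
    intro h
    have : 2 ^ 2 ≤ 2 ^ j := Nat.pow_le_pow_right (by norm_num) hj
    omega

theorem quaternion (k : ℕ) (hk : 2 ≤ k) : IsPGroup 2 (MulAut (QuaternionGroup (2 ^ k))) := by
  have : NeZero (2 ^ k) := ⟨by positivity⟩
  have ho : orderOf (QuaternionGroup.a 1 : QuaternionGroup (2 ^ k)) = 2 ^ (k + 1) := by
    rw [QuaternionGroup.orderOf_a_one, pow_succ, mul_comm]
  apply isPGroup_mulAut (ρ := QuaternionGroup.a 1) (σ := QuaternionGroup.xa 0) (j := k + 1) ho
  · intro x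
    cases x with
    | a i =>
      left
      refine ⟨i.val, ?_⟩
      rw [QuaternionGroup.a_one_pow, ZMod.natCast_zmod_val]
    | xa i =>
      right
      refine ⟨i.val, ?_⟩
      rw [QuaternionGroup.a_one_pow, ZMod.natCast_zmod_val, QuaternionGroup.xa_mul_a, zero_add]
  · intro a
    rw [QuaternionGroup.a_one_pow, QuaternionGroup.xa_mul_a, QuaternionGroup.orderOf_xa]
    intro h
    have : 2 ^ 3 ≤ 2 ^ (k + 1) := Nat.pow_le_pow_right (by norm_num) (by omega)
    omega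

variable {Ω : Type*} [Group Ω] {S : Subgroup Ω}

theorem autGroup_eq_inn [Finite S] (hS : IsPGroup 2 S) (F : FusionSystem S) (hF : F.IsSaturated 2)
    (hA : IsPGroup 2 (MulAut S)) : F.autGroup S = Inn S := by
  have : Fact (Nat.Prime 2) := ⟨Nat.prime_two⟩
  have hfa := (sat_fullyNormalized 2 hS F hF (fullyNormalized_self F)).1
  have hs : SylIn 2 (autInducedBy S S) (F.autGroup S) := hfa.2
  have h1 : F.autGroup S ≤ autInducedBy S S :=
    hs.max _ le_rfl (hA.to_subgroup _) inf_le_right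
  apply le_antisymm _ (inn_le_autGroup F le_rfl)
  intro α hα
  obtain ⟨g, hg, h⟩ := (mem_autInducedBy_iff S S α).1 (h1 hα)
  refine ⟨⟨g, hg⟩, ?_⟩
  ext x
  exact (h x).symm

end Cfsg.Agent.Lib.Helper9_AutTwo
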