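import Mathlib

set_option autoImplicit false

namespace Cfsg.Agent.Lib.Helper9_Cocycle

/-- a 1-cocycle vanishing on a subgroup of index prime to the order of the module is a
coboundary -/
theorem cocycle_coboundary {G A : Type*} [Group G] [Finite G] [CommGroup A]
    (ρ : G →* MulAut A) (T : Subgroup G) (hcop : (Nat.card A).Coprime T.index) (c : G → A)
    (hc : ∀ g h, c (g * h) = c g * ρ g (c h)) (hT : ∀ t ∈ T, c t = 1) :
    ∃ z : A, ∀ h, c h = z * (ρ h z)⁻¹ := by
  classical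
  have := Fintype.ofFinite (G ⧸ T)
  have hcT : ∀ g, ∀ t ∈ T, c (g * t) = c g := by
    intro g t ht
    rw [hc, hT t ht, map_one, mul_one]
  have hout : ∀ (h : G) (q : G ⧸ T), c ((h • q).out) = c (h * q.out) := by
    intro h q
    have h1 : h • q = ((h * q.out : G) : G ⧸ T) := by
      conv_lhs => rw [← QuotientGroup.out_eq' q]
      rfl
    rw [h1]
    obtain ⟨t, ht⟩ := QuotientGroup.mk_out_eq_mul T (h * q.out)
    rw [ht, hcT _ _ t.2]
  have hw : ∀ h : G, (∏ q : G ⧸ T, c q.out) = c h ^ T.index * ρ h (∏ q : G ⧸ T, c q.out) := by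
    intro h
    have h1 : ∏ q : G ⧸ T, c ((h • q).out) = ∏ q : G ⧸ T, c q.out :=
      Equiv.prod_comp (MulAction.toPerm h) (fun q : G ⧸ T => c q.out)
    have h2 : ∏ q : G ⧸ T, c ((h • q).out) =
        c h ^ T.index * ρ h (∏ q : G ⧸ T, c q.out) := by
      simp only [hout, hc]
      rw [Finset.prod_mul_distrib, Finset.prod_const, map_prod, Finset.card_univ,
        Subgroup.index_eq_card, Nat.card_eq_fintype_card]
    rw [← h2, h1]
  obtain ⟨z, hz⟩ := (powCoprime hcop).surjective (∏ q : G ⧸ T, c q.out)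
  rw [powCoprime_apply] at hz
  refine ⟨z, fun h => ?_⟩
  apply (powCoprime hcop).injective
  rw [powCoprime_apply, powCoprime_apply, mul_pow, inv_pow, ← map_pow, hz]
  have := hw h
  rw [eq_mul_inv_iff_mul_eq]
  exact this.symm

theorem cocycle_coboundary' {G A : Type*} [Group G] [Finite G] [inst : Group A]
    (hcomm : ∀ a b : A, a * b = b * a)
    (ρ : G →* MulAut A) (T : Subgroup G) (hcop : (Nat.card A).Coprime T.index) (c : G → A)
    (hc : ∀ g h, c (g * h) = c g * ρ g (c h)) (hT : ∀ t ∈ T, c t = 1) :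
    ∃ z : A, ∀ h, c h = z * (ρ h z)⁻¹ := by
  let _ : CommGroup A := { inst with mul_comm := hcomm }
  exact cocycle_coboundary ρ T hcop c hc hT

/-- rigidity: an automorphism fixing a Sylow subgroup elementwise, in a group with a
self-centralizing normal `p`-subgroup -/
theorem rigid {G : Type*} [Group G] [Finite G] {p : ℕ} [Fact p.Prime] (T : Sylow p G)
    (Q : Subgroup G) [hQ : Q.Normal] (hQT : Q ≤ T) (hcen : Subgroup.centralizer (Q : Set G) ≤ Q)
    (ψ : G ≃* G) (hψ : ∀ x ∈ T, ψ x = x) :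
    ∃ z ∈ Subgroup.centralizer (Q : Set G), ∀ g, ψ g = z * g * z⁻¹ := by
  have hmem : ∀ g : G, ψ g * g⁻¹ ∈ Subgroup.centralizer (Q : Set G) := by
    intro g
    rw [Subgroup.mem_centralizer_iff]
    intro x hx
    have hy : g⁻¹ * x * g⁻¹⁻¹ ∈ Q := hQ.conj_mem x hx g⁻¹
    have h1 : ψ (g⁻¹ * x * g⁻¹⁻¹) = g⁻¹ * x * g⁻¹⁻¹ := hψ _ (hQT hy)
    have h2 : ψ x = x := hψ _ (hQT hx)
    rw [inv_inv, map_mul, map_mul, h2, map_inv] at h1
    calc x * (ψ g * g⁻¹) = ψ g * ((ψ g)⁻¹ * x * ψ g) * g⁻¹ := by group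
      _ = ψ g * (g⁻¹ * x * g) * g⁻¹ := by rw [h1]
      _ = ψ g * g⁻¹ * x := by group
  have hcomm : ∀ a b : ↥(Subgroup.centralizer (Q : Set G)), a * b = b * a := by
    intro a b
    exact Subtype.ext ((Subgroup.mem_centralizer_iff.1 b.2) a (hcen a.2))
  have hp : IsPGroup p ↥(Subgroup.centralizer (Q : Set G)) := T.isPGroup'.to_le (hcen.trans hQT)
  obtain ⟨k, hk⟩ := hp.exists_card_eq
  have hcop : (Nat.card ↥(Subgroup.centralizer (Q : Set G))).Coprime (T : Subgroup G).index := by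
    rw [hk]
    exact Nat.Coprime.pow_left k ((Nat.Prime.coprime_iff_not_dvd Fact.out).2 T.not_dvd_index)
  obtain ⟨z, hz⟩ := cocycle_coboundary' hcomm
    (MulAut.conjNormal (H := Subgroup.centralizer (Q : Set G))) (T : Subgroup G) hcop
    (fun g => ⟨ψ g * g⁻¹, hmem g⟩) (by
      intro g h
      apply Subtype.ext
      show ψ (g * h) * (g * h)⁻¹ = ψ g * g⁻¹ * (g * (ψ h * h⁻¹) * g⁻¹)
      rw [map_mul]
      group) (by
      intro t ht
      apply Subtype.ext
      show ψ t * t⁻¹ = 1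
      rw [hψ t ht, mul_inv_cancel])
  refine ⟨z, z.2, fun g => ?_⟩
  have h1 : ψ g * g⁻¹ = z * (g * z * g⁻¹)⁻¹ := congrArg Subtype.val (hz g)
  calc ψ g = (ψ g * g⁻¹) * g := by group
    _ = z * (g * z * g⁻¹)⁻¹ * g := by rw [h1]
    _ = _ := by group

end Cfsg.Agent.Lib.Helper9_Cocycle
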