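import Cfsg.Statements.S5459

set_option autoImplicit false
open Cfsg

namespace Cfsg.Agent.Lib.Helper9_CommLift

variable {G : Type*} [Group G]

def Rel (d x y : G) : Prop :=
  ∃ (hx : x ∈ conjugatesOf d) (hy : y ∈ conjugatesOf d),
    (commutingGraph (conjugatesOf d)).Reachable ⟨x, hx⟩ ⟨y, hy⟩

lemma mem_conj_iff {d x : G} : x ∈ conjugatesOf d ↔ IsConj d x := Iff.rfl

lemma conj_mem' {d x : G} (g : G) (hx : x ∈ conjugatesOf d) : g * x * g⁻¹ ∈ conjugatesOf d := by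
  rw [mem_conj_iff] at hx ⊢
  exact hx.trans (isConj_iff.2 ⟨g, rfl⟩)

lemma Rel.refl' {d x : G} (hx : x ∈ conjugatesOf d) : Rel d x x :=
  ⟨hx, hx, SimpleGraph.Reachable.refl _⟩

lemma Rel.symm' {d x y : G} (h : Rel d x y) : Rel d y x := by
  obtain ⟨a, b, c⟩ := h; exact ⟨b, a, c.symm⟩

lemma Rel.trans' {d x y z : G} (h : Rel d x y) (h' : Rel d y z) : Rel d x z := by
  obtain ⟨a, b, c⟩ := h; obtain ⟨_, b', c'⟩ := h'; exact ⟨a, b', c.trans c'⟩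

lemma Rel.of_comm {d x y : G} (hx : x ∈ conjugatesOf d) (hy : y ∈ conjugatesOf d)
    (h : Commute x y) : Rel d x y := by
  by_cases hxy : x = y
  · subst hxy; exact Rel.refl' hx
  · refine ⟨hx, hy, SimpleGraph.Adj.reachable ?_⟩
    rw [commutingGraph, SimpleGraph.fromRel_adj]
    exact ⟨fun h => hxy (congrArg Subtype.val h), Or.inl h⟩

lemma Rel.conj {d x y : G} (g : G) (h : Rel d x y) : Rel d (g * x * g⁻¹) (g * y * g⁻¹) := by
  obtain ⟨hx, hy, hr⟩ := h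
  let f : commutingGraph (conjugatesOf d) →g commutingGraph (conjugatesOf d) :=
    { toFun := fun u => ⟨g * u.1 * g⁻¹, conj_mem' g u.2⟩
      map_rel' := by
        intro u v huv
        rw [commutingGraph, SimpleGraph.fromRel_adj] at huv ⊢
        refine ⟨fun h => huv.1 ?_, ?_⟩
        · apply Subtype.ext
          have := congrArg Subtype.val h
          simpa using this
        · have hc : u.1 * v.1 = v.1 * u.1 := huv.2.elim (fun h => h) (fun h => h.symm)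
          left
          show (g * u.1 * g⁻¹) * (g * v.1 * g⁻¹) = (g * v.1 * g⁻¹) * (g * u.1 * g⁻¹)
          calc g * u.1 * g⁻¹ * (g * v.1 * g⁻¹) = g * (u.1 * v.1) * g⁻¹ := by group
            _ = g * (v.1 * u.1) * g⁻¹ := by rw [hc]
            _ = _ := by group }
  exact ⟨conj_mem' g hx, conj_mem' g hy, hr.map f⟩

lemma inv_of_conj {Z : Subgroup G} [hZ : Z.Normal] {d : G} (hinv : ∀ c ∈ Z, d * c * d⁻¹ = c⁻¹)
    {x : G} (hx : x ∈ conjugatesOf d) {c : G} (hc : c ∈ Z) : x * c * x⁻¹ = c⁻¹ := by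
  rw [mem_conj_iff, isConj_iff] at hx
  obtain ⟨g, rfl⟩ := hx
  have h1 : g⁻¹ * c * g ∈ Z := by simpa using hZ.conj_mem c hc g⁻¹
  have h2 := hinv _ h1
  calc g * d * g⁻¹ * c * (g * d * g⁻¹)⁻¹ = g * (d * (g⁻¹ * c * g) * d⁻¹) * g⁻¹ := by group
    _ = g * (g⁻¹ * c * g)⁻¹ * g⁻¹ := by rw [h2]
    _ = c⁻¹ := by group

lemma root {Z : Subgroup G} [Finite G] (k : ℕ) (hk : Nat.Coprime (Nat.card Z) k) {z : G}
    (hz : z ∈ Z) : ∃ r ∈ Z, r ^ k = z := by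
  obtain ⟨r, hr⟩ := (powCoprime hk).surjective ⟨z, hz⟩
  exact ⟨r.1, r.2, by simpa using congrArg Subtype.val hr⟩

lemma swap_of_inv {t r : G} (h : t * r * t⁻¹ = r⁻¹) : t * r = r⁻¹ * t ∧ t * r⁻¹ = r * t := by
  have e : t * r = r⁻¹ * t := by
    calc t * r = (t * r * t⁻¹) * t := by group
      _ = _ := by rw [h]
  refine ⟨e, ?_⟩
  calc t * r⁻¹ = r * (r⁻¹ * t) * r⁻¹ := by group
    _ = r * (t * r) * r⁻¹ := by rw [e]
    _ = _ := by group

lemma step {Z : Subgroup G} [Z.Normal] [Finite G] {d : G} (hodd : Odd (Nat.card Z))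
    (hinv : ∀ c ∈ Z, d * c * d⁻¹ = c⁻¹) {y t : G} (hy : y ∈ conjugatesOf d)
    (ht : t ∈ conjugatesOf d) (hc : y * t * y⁻¹ * t⁻¹ ∈ Z) :
    ∃ r ∈ Z, Commute y (r⁻¹ * t * r) := by
  have hcop : Nat.Coprime (Nat.card Z) 4 := by
    have : Nat.Coprime (Nat.card Z) 2 := hodd.coprime_two_right
    exact Nat.Coprime.pow_right 2 this
  obtain ⟨r, hr, hr4⟩ := root 4 hcop (Z.inv_mem hc)
  refine ⟨r, hr, ?_⟩
  obtain ⟨e2, e1⟩ := swap_of_inv (inv_of_conj hinv hy hr)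
  obtain ⟨e3, e3'⟩ := swap_of_inv (inv_of_conj hinv ht hr)
  have e4 : y * t = (r ^ 4)⁻¹ * t * y := by
    rw [hr4]; group
  show y * (r⁻¹ * t * r) = (r⁻¹ * t * r) * y
  calc y * (r⁻¹ * t * r) = (y * r⁻¹) * t * r := by group
    _ = r * (y * t) * r := by rw [e1]; group
    _ = r * ((r ^ 4)⁻¹ * t * y) * r := by rw [e4]
    _ = r * (r ^ 4)⁻¹ * t * (y * r) := by group
    _ = r * (r ^ 4)⁻¹ * (t * r⁻¹) * y := by rw [e2]; group
    _ = r * (r ^ 4)⁻¹ * (r * t) * y := by rw [e3']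
    _ = r⁻¹ * (r⁻¹ * t) * y := by group
    _ = r⁻¹ * (t * r) * y := by rw [e3]
    _ = r⁻¹ * t * r * y := by group

lemma lift {Z : Subgroup G} [Z.Normal] [Finite G] {d : G} (hodd : Odd (Nat.card Z))
    (hinv : ∀ c ∈ Z, d * c * d⁻¹ = c⁻¹)
    (u v : conjugatesOf (QuotientGroup.mk d : G ⧸ Z))
    (h : (commutingGraph (conjugatesOf (QuotientGroup.mk d : G ⧸ Z))).Reachable u v) :
    ∀ x ∈ conjugatesOf d, (QuotientGroup.mk x : G ⧸ Z) = u.1 →
      ∃ y, (QuotientGroup.mk y : G ⧸ Z) = v.1 ∧ Rel d x y := by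
  rw [SimpleGraph.reachable_iff_reflTransGen] at h
  induction h with
  | refl => intro x hx hxu; exact ⟨x, hxu, Rel.refl' hx⟩
  | @tail b c _ hadj ih =>
    intro x hx hxu
    obtain ⟨y, hyv, hxy⟩ := ih x hx hxu
    have hyC : y ∈ conjugatesOf d := hxy.2.1
    have hw := c.2
    rw [mem_conj_iff, isConj_iff] at hw
    obtain ⟨gb, hgb⟩ := hw
    obtain ⟨g, rfl⟩ := QuotientGroup.mk_surjective gb
    have htC : g * d * g⁻¹ ∈ conjugatesOf d := conj_mem' g (mem_conjugatesOf_self)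
    rw [commutingGraph, SimpleGraph.fromRel_adj] at hadj
    have hcm : b.1 * c.1 = c.1 * b.1 := hadj.2.elim (fun h => h) (fun h => h.symm)
    have hmt : (QuotientGroup.mk (g * d * g⁻¹) : G ⧸ Z) = c.1 := by
      rw [← hgb]; rfl
    have hcz : y * (g * d * g⁻¹) * y⁻¹ * (g * d * g⁻¹)⁻¹ ∈ Z := by
      rw [← QuotientGroup.eq_one_iff]
      rw [QuotientGroup.mk_mul, QuotientGroup.mk_mul, QuotientGroup.mk_mul, QuotientGroup.mk_inv,
        QuotientGroup.mk_inv, hmt, hyv, hcm]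
      group
    obtain ⟨r, hr, hcomm⟩ := step hodd hinv hyC htC hcz
    have hy'C : r⁻¹ * (g * d * g⁻¹) * r ∈ conjugatesOf d := by
      simpa using conj_mem' r⁻¹ htC
    refine ⟨r⁻¹ * (g * d * g⁻¹) * r, ?_, hxy.trans' (Rel.of_comm hyC hy'C hcomm)⟩
    have hr1 : (QuotientGroup.mk r : G ⧸ Z) = 1 := (QuotientGroup.eq_one_iff r).2 hr
    rw [QuotientGroup.mk_mul, QuotientGroup.mk_mul, QuotientGroup.mk_inv, hr1, hmt]
    simp

def Hsub (d : G) : Subgroup G where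
  carrier := {g | Rel d d (g * d * g⁻¹)}
  one_mem' := by
    show Rel d d (1 * d * 1⁻¹)
    have : (1 : G) * d * 1⁻¹ = d := by group
    rw [this]
    exact Rel.refl' mem_conjugatesOf_self
  mul_mem' := by
    intro a b ha hb
    have h2 : Rel d d (a * (b * d * b⁻¹) * a⁻¹) := Rel.trans' ha (Rel.conj a hb)
    show Rel d d (a * b * d * (a * b)⁻¹)
    have e : a * b * d * (a * b)⁻¹ = a * (b * d * b⁻¹) * a⁻¹ := by group
    rw [e]; exact h2
  inv_mem' := by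
    intro a ha
    have h := (Rel.conj a⁻¹ ha).symm'
    have e : a⁻¹ * (a * d * a⁻¹) * a⁻¹⁻¹ = d := by group
    rw [e] at h
    exact h

theorem core [Finite G] (L Z : Subgroup G) [Z.Normal] (d : G)
    (hZL : Z ≤ L) (hcent : ∀ c ∈ Z, ∀ a ∈ L, c * a = a * c)
    (hperf : ∀ H : Subgroup G, (∀ a ∈ L, ∀ b ∈ L, a * b * a⁻¹ * b⁻¹ ∈ H) → L ≤ H)
    (hgen : L ⊔ Subgroup.zpowers d = ⊤) (hodd : Odd (Nat.card Z))
    (hinv : ∀ c ∈ Z, d * c * d⁻¹ = c⁻¹)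
    (hconn : (commutingGraph (conjugatesOf (QuotientGroup.mk d : G ⧸ Z))).Connected) :
    (commutingGraph (conjugatesOf d)).Connected := by
  have hdC : d ∈ conjugatesOf d := mem_conjugatesOf_self
  have hZH : ∀ g : G, ∃ r ∈ Z, r⁻¹ * g ∈ Hsub d := by
    intro g
    have htC : g * d * g⁻¹ ∈ conjugatesOf d := conj_mem' g hdC
    have hv : (QuotientGroup.mk (g * d * g⁻¹) : G ⧸ Z) ∈
        conjugatesOf (QuotientGroup.mk d : G ⧸ Z) := by
      rw [mem_conj_iff, isConj_iff]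
      exact ⟨QuotientGroup.mk g, rfl⟩
    obtain ⟨y, hy, hrel⟩ := lift hodd hinv ⟨_, mem_conjugatesOf_self⟩ ⟨_, hv⟩
      (hconn.preconnected _ _) d hdC rfl
    have hc : (g * d * g⁻¹)⁻¹ * y ∈ Z := QuotientGroup.eq.1 hy.symm
    obtain ⟨r, hr, hr2⟩ := root 2 hodd.coprime_two_right hc
    refine ⟨r, hr, ?_⟩
    obtain ⟨e3, _⟩ := swap_of_inv (inv_of_conj hinv htC hr)
    show Rel d d (r⁻¹ * g * d * (r⁻¹ * g)⁻¹)
    have e : r⁻¹ * g * d * (r⁻¹ * g)⁻¹ = y := by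
      calc r⁻¹ * g * d * (r⁻¹ * g)⁻¹ = (r⁻¹ * (g * d * g⁻¹)) * r := by group
        _ = (g * d * g⁻¹) * r * r := by rw [← e3]
        _ = (g * d * g⁻¹) * r ^ 2 := by rw [pow_two, mul_assoc]
        _ = y := by rw [hr2]; group
    rw [e]; exact hrel
  have k1 : ∀ z ∈ Z, ∀ X ∈ L, z⁻¹ * X * z = X := fun z hz X hX => by
    rw [mul_assoc, ← hcent z hz X hX]; group
  have hLH : L ≤ Hsub d := by
    apply hperf
    intro a ha b hb
    obtain ⟨ra, hra, hha⟩ := hZH a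
    obtain ⟨rb, hrb, hhb⟩ := hZH b
    have hbL : rb⁻¹ * b ∈ L := L.mul_mem (L.inv_mem (hZL hrb)) hb
    have A : ∀ X ∈ L, (ra⁻¹ * a) * X * (ra⁻¹ * a)⁻¹ = a * X * a⁻¹ := by
      intro X hX
      have := k1 ra hra (a * X * a⁻¹) (L.mul_mem (L.mul_mem ha hX) (L.inv_mem ha))
      calc _ = ra⁻¹ * (a * X * a⁻¹) * ra := by group
        _ = _ := this
    have Bq : a * (rb⁻¹ * b) * a⁻¹ * (rb⁻¹ * b)⁻¹ = a * b * a⁻¹ * b⁻¹ := by
      have h1 : a * rb⁻¹ = rb⁻¹ * a := by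
        have := hcent rb hrb a ha
        calc a * rb⁻¹ = rb⁻¹ * (rb * a) * rb⁻¹ := by group
          _ = rb⁻¹ * (a * rb) * rb⁻¹ := by rw [this]
          _ = _ := by group
      calc a * (rb⁻¹ * b) * a⁻¹ * (rb⁻¹ * b)⁻¹ = (a * rb⁻¹) * b * a⁻¹ * b⁻¹ * rb := by group
        _ = rb⁻¹ * (a * b * a⁻¹ * b⁻¹) * rb := by rw [h1]; group
        _ = _ := k1 rb hrb _ (L.mul_mem (L.mul_mem (L.mul_mem ha hb) (L.inv_mem ha)) (L.inv_mem hb))
    rw [← Bq, ← A (rb⁻¹ * b) hbL]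
    exact (Hsub d).mul_mem ((Hsub d).mul_mem ((Hsub d).mul_mem hha hhb) ((Hsub d).inv_mem hha))
      ((Hsub d).inv_mem hhb)
  have hdH : d ∈ Hsub d := by
    show Rel d d (d * d * d⁻¹)
    have : d * d * d⁻¹ = d := by group
    rw [this]; exact Rel.refl' hdC
  have htop : Hsub d = ⊤ := by
    rw [eq_top_iff, ← hgen, sup_le_iff]
    exact ⟨hLH, by rw [Subgroup.zpowers_le]; exact hdH⟩
  have hall : ∀ x (hx : x ∈ conjugatesOf d),
      (commutingGraph (conjugatesOf d)).Reachable ⟨d, hdC⟩ ⟨x, hx⟩ := by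
    intro x hx
    have hx' := hx
    rw [mem_conj_iff, isConj_iff] at hx'
    obtain ⟨g, rfl⟩ := hx'
    have : g ∈ Hsub d := by rw [htop]; trivial
    obtain ⟨_, _, h⟩ := (this : Rel d d (g * d * g⁻¹))
    exact h
  have : Nonempty (conjugatesOf d) := ⟨⟨d, hdC⟩⟩
  refine ⟨fun u v => ?_⟩
  exact (hall u.1 u.2).symm.trans (hall v.1 v.2)

end Cfsg.Agent.Lib.Helper9_CommLift
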