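import Mathlib
import Cfsg.Prelude.Def_Transfer

set_option autoImplicit false

namespace Cfsg.Agent.Lib.Helper9_ExInner

open Cfsg
open scoped commutatorElement

variable {E : Type*} [Group E]

theorem base (hE : IsExtraspecial 2 E) : ∃ z : E, z ≠ 1 ∧ z * z = 1 ∧ (∀ q, z * q = q * z) ∧
    (∀ c ∈ Subgroup.center E, c = 1 ∨ c = z) ∧
    (∀ a b : E, a * b * a⁻¹ * b⁻¹ = 1 ∨ a * b * a⁻¹ * b⁻¹ = z) := by
  obtain ⟨y₀, hy₀, huniq⟩ := (Nat.card_eq_two_iff' (1 : Subgroup.center E)).1 hE.2
  have hz1 : (y₀ : E) ≠ 1 := fun h => hy₀ (Subtype.ext h)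
  have hcen : ∀ c ∈ Subgroup.center E, c = 1 ∨ c = (y₀ : E) := by
    intro c hc
    by_cases h1 : c = 1
    · exact Or.inl h1
    · right
      have e1 : (⟨c, hc⟩ : Subgroup.center E) = y₀ := huniq _ (fun h => h1 (congrArg Subtype.val h))
      exact congrArg Subtype.val e1
  refine ⟨y₀, hz1, ?_, fun q => ((Subgroup.mem_center_iff.1 y₀.2) q).symm, hcen, fun a b => ?_⟩
  · rcases hcen _ (Subgroup.mul_mem _ y₀.2 y₀.2) with h | h
    · exact h
    · exfalso
      apply hz1
      calc (y₀ : E) = (y₀ : E)⁻¹ * ((y₀ : E) * y₀) := by group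
        _ = (y₀ : E)⁻¹ * y₀ := by rw [h]
        _ = 1 := by group
  · have h1 : ⁅a, b⁆ ∈ commutator E :=
      Subgroup.commutator_mem_commutator (Subgroup.mem_top _) (Subgroup.mem_top _)
    rw [hE.1.2.2] at h1
    exact hcen _ h1

theorem alt {z : E} (hcomm : ∀ a b : E, a * b * a⁻¹ * b⁻¹ = 1 ∨ a * b * a⁻¹ * b⁻¹ = z) (g y : E) :
    g * y * g⁻¹ = y ∨ g * y * g⁻¹ = z * y := by
  have e : g * y * g⁻¹ = (g * y * g⁻¹ * y⁻¹) * y := by group
  rcases hcomm g y with k | k
  · left; rw [e, k, one_mul]
  · right; rw [e, k]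

theorem cent {z : E} (hz2 : z * z = 1) (hzc : ∀ q, z * q = q * z)
    (hcen : ∀ c ∈ Subgroup.center E, c = 1 ∨ c = z)
    (hcomm : ∀ a b : E, a * b * a⁻¹ * b⁻¹ = 1 ∨ a * b * a⁻¹ * b⁻¹ = z) (s : Finset E) :
    ∀ x, x ∉ Subgroup.closure ((s : Set E) ∪ {z}) →
    ∃ g, (∀ a ∈ s, g * a * g⁻¹ = a) ∧ g * x * g⁻¹ = z * x := by
  classical
  induction s using Finset.induction_on with
  | empty =>
    intro x hxn
    have h1 : x ≠ 1 := by
      rintro rfl
      exact hxn (Subgroup.one_mem _)
    have h2 : x ≠ z := by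
      rintro rfl
      exact hxn (Subgroup.subset_closure (Or.inr rfl))
    have h3 : x ∉ Subgroup.center E := fun h => (hcen x h).elim h1 h2
    rw [Subgroup.mem_center_iff] at h3
    push Not at h3
    obtain ⟨h, hh⟩ := h3
    refine ⟨h, fun a ha => absurd ha (Finset.notMem_empty a), ?_⟩
    rcases alt hcomm h x with k | k
    · exfalso
      apply hh
      calc h * x = (h * x * h⁻¹) * h := by group
        _ = x * h := by rw [k]
    · exact k
  | insert a s _ ih =>
    intro x hxn
    have hmono : Subgroup.closure ((s : Set E) ∪ {z}) ≤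
        Subgroup.closure (((insert a s : Finset E) : Set E) ∪ {z}) := by
      apply Subgroup.closure_mono
      apply Set.union_subset_union_left
      intro b hb
      exact Finset.mem_coe.2 (Finset.mem_insert_of_mem (Finset.mem_coe.1 hb))
    have haC : a ∈ Subgroup.closure (((insert a s : Finset E) : Set E) ∪ {z}) :=
      Subgroup.subset_closure (Or.inl (Finset.mem_coe.2 (Finset.mem_insert_self a s)))
    have h1 : x ∉ Subgroup.closure ((s : Set E) ∪ {z}) := fun h => hxn (hmono h)
    have h2 : x * a ∉ Subgroup.closure ((s : Set E) ∪ {z}) := by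
      intro h
      apply hxn
      have := Subgroup.mul_mem _ (hmono h) (Subgroup.inv_mem _ haC)
      rwa [mul_inv_cancel_right] at this
    obtain ⟨g, gs, gx⟩ := ih x h1
    obtain ⟨g', gs', gx'⟩ := ih (x * a) h2
    rcases alt hcomm g a with ga | ga
    · refine ⟨g, fun b hb => ?_, gx⟩
      rcases Finset.mem_insert.1 hb with rfl | hb
      · exact ga
      · exact gs b hb
    rcases alt hcomm g' a with ga' | ga'
    · refine ⟨g', fun b hb => ?_, ?_⟩
      · rcases Finset.mem_insert.1 hb with rfl | hb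
        · exact ga'
        · exact gs' b hb
      · have : g' * x * g'⁻¹ = (g' * (x * a) * g'⁻¹) * (g' * a * g'⁻¹)⁻¹ := by group
        rw [this, gx', ga']
        group
    · have gx'' : g' * x * g'⁻¹ = x := by
        have : g' * x * g'⁻¹ = (g' * (x * a) * g'⁻¹) * (g' * a * g'⁻¹)⁻¹ := by group
        rw [this, gx', ga']
        have : z * (x * a) * (z * a)⁻¹ = (z * x) * z⁻¹ := by group
        rw [this, hzc x, mul_inv_cancel_right]
      have gv : g * z * g⁻¹ = z := by
        rw [← hzc g, mul_inv_cancel_right]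
      refine ⟨g * g', fun b hb => ?_, ?_⟩
      · rcases Finset.mem_insert.1 hb with rfl | hb
        · have : g * g' * b * (g * g')⁻¹ = g * (g' * b * g'⁻¹) * g⁻¹ := by group
          rw [this, ga']
          have : g * (z * b) * g⁻¹ = (g * z * g⁻¹) * (g * b * g⁻¹) := by group
          rw [this, gv, ga, ← mul_assoc, hz2, one_mul]
        · have : g * g' * b * (g * g')⁻¹ = g * (g' * b * g'⁻¹) * g⁻¹ := by group
          rw [this, gs' b hb, gs b hb]
      · have : g * g' * x * (g * g')⁻¹ = g * (g' * x * g'⁻¹) * g⁻¹ := by group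
        rw [this, gx'', gx]

theorem inner [Finite E] (hE : IsExtraspecial 2 E) (φ : E ≃* E)
    (hφ : ∀ x : E, φ x * x⁻¹ ∈ Subgroup.center E) : ∃ g : E, ∀ x : E, φ x = g * x * g⁻¹ := by
  classical
  obtain ⟨z, hz1, hz2, hzc, hcen, hcomm⟩ := base hE
  have hφalt : ∀ x, φ x = x ∨ φ x = z * x := by
    intro x
    have e : φ x = (φ x * x⁻¹) * x := by group
    rcases hcen _ (hφ x) with k | k
    · left; rw [e, k, one_mul]
    · right; rw [e, k]
  have hφz : φ z = z := by
    rcases hφalt z with h | h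
    · exact h
    · exfalso
      rw [hz2] at h
      exact hz1 (φ.injective (h.trans (map_one φ).symm))
  have key : ∀ s : Finset E, ∃ g, ∀ a ∈ s, g * a * g⁻¹ = φ a := by
    intro s
    induction s using Finset.induction_on with
    | empty => exact ⟨1, fun a ha => absurd ha (Finset.notMem_empty a)⟩
    | insert a s _ ih =>
      obtain ⟨g, hg⟩ := ih
      by_cases hga : g * a * g⁻¹ = φ a
      · refine ⟨g, fun b hb => ?_⟩
        rcases Finset.mem_insert.1 hb with rfl | hb
        · exact hga
        · exact hg b hb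
      have hna : a ∉ Subgroup.closure ((s : Set E) ∪ {z}) := by
        intro h
        apply hga
        have : Set.EqOn (MulAut.conj g).toMonoidHom φ.toMonoidHom ((s : Set E) ∪ {z}) := by
          rintro b (hb | hb)
          · exact hg b (Finset.mem_coe.1 hb)
          · rw [Set.mem_singleton_iff.1 hb]
            show g * z * g⁻¹ = φ z
            rw [hφz, ← hzc g, mul_inv_cancel_right]
        exact MonoidHom.eqOn_closure this h
      obtain ⟨h, hs, ha⟩ := cent hz2 hzc hcen hcomm s a hna
      refine ⟨g * h, fun b hb => ?_⟩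
      have e : g * h * b * (g * h)⁻¹ = g * (h * b * h⁻¹) * g⁻¹ := by group
      rcases Finset.mem_insert.1 hb with rfl | hb
      · rw [e, ha]
        have e2 : g * (z * b) * g⁻¹ = (g * z * g⁻¹) * (g * b * g⁻¹) := by group
        have gv : g * z * g⁻¹ = z := by rw [← hzc g, mul_inv_cancel_right]
        rw [e2, gv]
        rcases alt hcomm g b with k | k <;> rcases hφalt b with l | l
        · exact absurd (k.trans l.symm) hga
        · rw [k, l]
        · rw [k, l, ← mul_assoc, hz2, one_mul]
        · exact absurd (k.trans l.symm) hga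
      · rw [e, hs b hb, hg b hb]
  obtain ⟨g, hg⟩ := key (Set.toFinite (Set.univ : Set E)).toFinset
  exact ⟨g, fun x => (hg x ((Set.Finite.mem_toFinset _).2 (Set.mem_univ x))).symm⟩

end Cfsg.Agent.Lib.Helper9_ExInner
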