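import Mathlib
import Cfsg.Prelude.Def_MonsterType
import Cfsg.Agent.Lib.Helper9_LargeEx

set_option autoImplicit false

namespace Cfsg.Agent.Lib.Helper9_LargeEx4

open Cfsg Cfsg.Agent.Lib.Helper9_LargeEx
open scoped commutatorElement

variable {G : Type*} [Group G]

/-- basic structure of an extraspecial 2-subgroup -/
theorem exists_center_gen {Q : Subgroup G} (hE : IsExtraspecial 2 ↥Q) :
    ∃ z ∈ Q, z ≠ 1 ∧ (∀ q ∈ Q, z * q = q * z) ∧
      (∀ c, c ∈ (Subgroup.center Q).map Q.subtype ↔ c = 1 ∨ c = z) ∧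
      (∀ a ∈ Q, ∀ b ∈ Q, a * b * a⁻¹ * b⁻¹ = 1 ∨ a * b * a⁻¹ * b⁻¹ = z) := by
  obtain ⟨y₀, hy₀, huniq⟩ := (Nat.card_eq_two_iff' (1 : Subgroup.center Q)).1 hE.2
  have hz1 : ((y₀ : Q) : G) ≠ 1 := fun h => hy₀ (Subtype.ext (Subtype.ext h))
  have hcen : ∀ c, c ∈ (Subgroup.center Q).map Q.subtype ↔ c = 1 ∨ c = ((y₀ : Q) : G) := by
    intro c
    constructor
    · rintro ⟨c', hc', rfl⟩
      by_cases h1 : c' = 1
      · left; rw [h1]; rfl
      · right
        have e1 : (⟨c', hc'⟩ : Subgroup.center Q) = y₀ := huniq _ (fun h => h1 (congrArg Subtype.val h))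
        exact congrArg (fun t : Subgroup.center Q => ((t : Q) : G)) e1
    · rintro (rfl | rfl)
      · exact Subgroup.one_mem _
      · exact ⟨y₀, y₀.2, rfl⟩
  refine ⟨((y₀ : Q) : G), (y₀ : Q).2, hz1, fun q hq => ?_, hcen, fun a ha b hb => ?_⟩
  · have := Subgroup.mem_center_iff.1 y₀.2 ⟨q, hq⟩
    exact (congrArg Subtype.val this).symm
  · have h1 : ⁅(⟨a, ha⟩ : Q), ⟨b, hb⟩⁆ ∈ commutator Q :=
      Subgroup.commutator_mem_commutator (Subgroup.mem_top _) (Subgroup.mem_top _)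
    rw [hE.1.2.2] at h1
    exact (hcen _).1 ⟨_, h1, rfl⟩

theorem eq_one_of_mem_odd_two {K P : Subgroup G} [Finite G] (hK : Odd (Nat.card K))
    (hP : IsPGroup 2 P) {k : G} (h1 : k ∈ K) (h2 : k ∈ P) : k = 1 := by
  obtain ⟨n, hn⟩ := hP ⟨k, h2⟩
  have hn' : k ^ 2 ^ n = 1 := congrArg Subtype.val hn
  have h3 : k ^ Nat.card K = 1 := by
    have := pow_card_eq_one' (G := K) (x := ⟨k, h1⟩)
    exact congrArg Subtype.val this
  have hco : Nat.Coprime (2 ^ n) (Nat.card K) :=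
    Nat.Coprime.pow_left n (Nat.coprime_two_left.2 hK)
  have := orderOf_dvd_of_pow_eq_one hn'
  have h4 := orderOf_dvd_of_pow_eq_one h3
  have h5 : orderOf k ∣ 1 := by
    rw [← hco]
    exact Nat.dvd_gcd this h4
  exact orderOf_eq_one_iff.1 (Nat.dvd_one.1 h5)

/-- a fixed-point-free involution inverts -/
theorem inverts [Finite G] {K : Subgroup G} {t : G} (ht : t * t = 1)
    (hn : ∀ k ∈ K, t * k * t⁻¹ ∈ K) (hfix : ∀ k ∈ K, t * k = k * t → k = 1) :
    ∀ k ∈ K, t * k * t⁻¹ = k⁻¹ := by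
  let f : K → K := fun k => ⟨(k : G)⁻¹ * (t * k * t⁻¹), K.mul_mem (K.inv_mem k.2) (hn k k.2)⟩
  have hinj : Function.Injective f := by
    intro k l hkl
    have h1 : (k : G)⁻¹ * (t * k * t⁻¹) = (l : G)⁻¹ * (t * l * t⁻¹) := congrArg Subtype.val hkl
    have h2 : t * ((l : G) * (k : G)⁻¹) = ((l : G) * (k : G)⁻¹) * t := by
      have e1 : t * ((l : G) * (k : G)⁻¹) = (l : G) * ((l : G)⁻¹ * (t * l * t⁻¹)) * (t * (k : G)⁻¹) := by
        group
      rw [e1, ← h1]
      group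
    have h3 := hfix _ (K.mul_mem l.2 (K.inv_mem k.2)) h2
    exact Subtype.ext (mul_inv_eq_one.1 h3).symm
  have hsurj := Finite.surjective_of_injective hinj
  intro k hk
  obtain ⟨m, hm⟩ := hsurj ⟨k, hk⟩
  have e : k = (m : G)⁻¹ * (t * m * t⁻¹) := (congrArg Subtype.val hm).symm
  have ht' : t⁻¹ = t := inv_eq_of_mul_eq_one_left ht
  rw [e, ht']
  have l : t * ((m : G)⁻¹ * (t * m * t)) * t = t * (m : G)⁻¹ * t * m * (t * t) := by group
  have e2 : ((m : G)⁻¹ * (t * m * t))⁻¹ = t⁻¹ * (m : G)⁻¹ * t⁻¹ * m := by group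
  rw [l, ht, mul_one, e2, ht']

theorem large [Finite G] (Q : Subgroup G) (hL1 : IsExtraspecial 2 ↥Q)
    (hL2 : Subgroup.centralizer (Q : Set G) = ((Subgroup.center ↥Q).map Q.subtype))
    (hL3 : Subgroup.centralizer (((Subgroup.center ↥Q).map Q.subtype) : Set G) ≤
      Subgroup.normalizer (Q : Set G)) (b : G) (hbQ : b ∈ Q)
    (hbZ : b ∉ ((Subgroup.center ↥Q).map Q.subtype)) (hb : orderOf b = 2)
    (hZ : ((Subgroup.center ↥Q).map Q.subtype) ≤ coreOf 2 (cen b)) : IsLargeExtraspecial Q := by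
  refine ⟨hL1, hL2, hL3, fun K hK hQK => ?_⟩
  obtain ⟨z, hzQ, hz1, hzc, hcen, hcomm⟩ := exists_center_gen hL1
  have hQ2 : IsPGroup 2 Q := hL1.1.1
  have hnorm : ∀ q ∈ Q, ∀ k ∈ K, q * k * q⁻¹ ∈ K := fun q hq k hk =>
    (Subgroup.mem_normalizer_iff.1 (hQK hq) k).1 hk
  have hzZ : z ∈ (Subgroup.center ↥Q).map Q.subtype := (hcen z).2 (Or.inr rfl)
  have hz2 : z * z = 1 := by
    have h1 : z * z ∈ (Subgroup.center ↥Q).map Q.subtype := Subgroup.mul_mem _ hzZ hzZ
    rcases (hcen _).1 h1 with h | h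
    · exact h
    · exfalso
      apply hz1
      calc z = z⁻¹ * (z * z) := by group
        _ = z⁻¹ * z := by rw [h]
        _ = 1 := by group
  have hb2 : b * b = 1 := by
    rw [← pow_two, ← hb]; exact pow_orderOf_eq_one b
  -- step A
  have stepA : ∀ k ∈ K, z * k = k * z → k = 1 := by
    intro k hk hkz
    have h1 : k ∈ Subgroup.centralizer (((Subgroup.center ↥Q).map Q.subtype) : Set G) := by
      rw [Subgroup.mem_centralizer_iff]
      intro c hc
      rcases (hcen c).1 hc with rfl | rfl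
      · simp
      · exact hkz
    have h2 := hL3 h1
    have h3 : k ∈ Subgroup.centralizer (Q : Set G) := by
      rw [Subgroup.mem_centralizer_iff]
      intro q hq
      have c1 : k * q * k⁻¹ * q⁻¹ ∈ Q :=
        Q.mul_mem ((Subgroup.mem_normalizer_iff.1 h2 q).1 hq) (Q.inv_mem hq)
      have c2 : k * q * k⁻¹ * q⁻¹ ∈ K := by
        have := K.mul_mem hk (hnorm q hq _ (K.inv_mem hk))
        have e : k * (q * k⁻¹ * q⁻¹) = k * q * k⁻¹ * q⁻¹ := by group
        rwa [e] at this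
      have c3 := eq_one_of_mem_odd_two hK hQ2 c2 c1
      calc q * k = (k * q * k⁻¹ * q⁻¹)⁻¹ * (k * q) := by group
        _ = k * q := by rw [c3]; group
    rw [hL2] at h3
    have h4 : k ∈ Q := by
      obtain ⟨c, -, rfl⟩ := h3
      exact c.2
    exact eq_one_of_mem_odd_two hK hQ2 hk h4
  -- step B
  have stepB : ∀ k ∈ K, b * k = k * b → k = 1 := by
    intro k hk hkb
    apply stepA k hk
    have hkc : k ∈ cen b := mem_cen.2 hkb
    have hzO : z ∈ coreOf 2 (cen b) := hZ hzZ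
    have c1 : k * z * k⁻¹ * z⁻¹ ∈ coreOf 2 (cen b) :=
      Subgroup.mul_mem _ (coreOf_conj hkc hzO) (Subgroup.inv_mem _ hzO)
    have c2 : k * z * k⁻¹ * z⁻¹ ∈ K := by
      have := K.mul_mem hk (hnorm z hzQ _ (K.inv_mem hk))
      have e : k * (z * k⁻¹ * z⁻¹) = k * z * k⁻¹ * z⁻¹ := by group
      rwa [e] at this
    have c3 := eq_one_of_mem_odd_two hK (coreOf_isPGroup 2 (cen b)) c2 c1
    calc z * k = (k * z * k⁻¹ * z⁻¹)⁻¹ * (k * z) := by group
      _ = k * z := by rw [c3]; group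
  have invz := inverts hz2 (hnorm z hzQ) stepA
  have invb := inverts hb2 (hnorm b hbQ) stepB
  -- a conjugate of b
  have hbnc : ∃ q ∈ Q, q * b * q⁻¹ * b⁻¹ = z := by
    by_contra hcon
    push Not at hcon
    apply hbZ
    refine ⟨⟨b, hbQ⟩, ?_, rfl⟩
    show (⟨b, hbQ⟩ : Q) ∈ Subgroup.center Q
    rw [Subgroup.mem_center_iff]
    intro q
    apply Subtype.ext
    show (q : G) * b = b * q
    rcases hcomm q q.2 b hbQ with h | h
    · calc (q : G) * b = ((q : G) * b * (q : G)⁻¹ * b⁻¹) * (b * q) := by group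
        _ = b * q := by rw [h, one_mul]
    · exact absurd h (hcon q q.2)
  obtain ⟨q, hq, hqb⟩ := hbnc
  have hqb' : q * b * q⁻¹ = z * b := by rw [← hqb]; group
  rw [Subgroup.eq_bot_iff_forall]
  intro k hk
  have h1 : (z * b) * k = k * (z * b) := by
    have e1 := invb k hk
    have e2 := invz _ (K.inv_mem hk)
    rw [inv_inv] at e2
    calc (z * b) * k = z * (b * k * b⁻¹) * z⁻¹ * (z * b) := by group
      _ = k * (z * b) := by rw [e1, e2]
  have hk' : q⁻¹ * k * q ∈ K := by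
    have := hnorm q⁻¹ (Q.inv_mem hq) k hk
    rwa [inv_inv] at this
  have h2 : b * (q⁻¹ * k * q) = (q⁻¹ * k * q) * b := by
    calc b * (q⁻¹ * k * q) = q⁻¹ * ((q * b * q⁻¹) * k) * q := by group
      _ = q⁻¹ * (k * (q * b * q⁻¹)) * q := by rw [hqb', h1]
      _ = _ := by group
  have h3 := stepB _ hk' h2
  calc k = q * (q⁻¹ * k * q) * q⁻¹ := by group
    _ = 1 := by rw [h3]; group

end Cfsg.Agent.Lib.Helper9_LargeEx4
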