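import Mathlib
import Cfsg.Prelude.Def_MonsterType
import Cfsg.Agent.Lib.Helper9_LargeEx4
import Cfsg.Agent.Lib.Helper9_GenExtraB
import Cfsg.Agent.Lib.Helper7_Frat2
import Cfsg.Agent.Lib.Helper1_Coprime

set_option autoImplicit false

namespace Cfsg.Agent.Lib.Helper9_LargeEx5

open Cfsg Cfsg.Agent.Lib.Helper9_LargeEx Cfsg.Agent.Lib.Helper9_LargeEx4
open scoped commutatorElement

theorem extraspecial_of {R : Type*} [Group R] [Finite R] (hR2 : IsPGroup 2 R) {z : R} (hz1 : z ≠ 1)
    (hzc : ∀ r, z * r = r * z) (hcomm : ∀ a b : R, ⁅a, b⁆ = 1 ∨ ⁅a, b⁆ = z)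
    (hcen : ∀ w ∈ Subgroup.center R, w = 1 ∨ w = z) (hna : ∃ a b : R, a * b ≠ b * a) :
    IsExtraspecial 2 R := by
  have : Fact (Nat.Prime 2) := ⟨Nat.prime_two⟩
  have hzcen : z ∈ Subgroup.center R := Subgroup.mem_center_iff.2 (fun g => (hzc g).symm)
  have hzcomm : z ∈ commutator R := by
    obtain ⟨a, b, hab⟩ := hna
    have h1 : ⁅a, b⁆ ∈ commutator R :=
      Subgroup.commutator_mem_commutator (Subgroup.mem_top _) (Subgroup.mem_top _)
    rcases hcomm a b with h | h
    · exact absurd (commutatorElement_eq_one_iff_mul_comm.1 h) hab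
    · rwa [h] at h1
  have h1 : commutator R = Subgroup.center R := by
    apply le_antisymm
    · rw [commutator_eq_closure, Subgroup.closure_le]
      rintro _ ⟨a, b, rfl⟩
      rcases hcomm a b with h | h
      · rw [h]; exact Subgroup.one_mem _
      · rw [h]; exact hzcen
    · intro w hw
      rcases hcen w hw with rfl | rfl
      · exact Subgroup.one_mem _
      · exact hzcomm
  have hcard : Nat.card (Subgroup.center R) = 2 := by
    rw [Nat.card_eq_two_iff' (1 : Subgroup.center R)]
    refine ⟨⟨z, hzcen⟩, fun h => hz1 (congrArg Subtype.val h), fun y hy => ?_⟩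
    rcases hcen y y.2 with h | h
    · exact absurd (Subtype.ext h) hy
    · exact Subtype.ext h
  have hcard' : Nat.card (commutator R) = 2 := by rw [h1]; exact hcard
  refine ⟨⟨hR2, ?_, h1⟩, hcard⟩
  apply le_antisymm
  · intro x hx
    by_contra hxc
    rw [Subgroup.mem_center_iff] at hxc
    push Not at hxc
    obtain ⟨y, hy⟩ := hxc
    have hyc : y ∉ Subgroup.center R := fun h => hy (Subgroup.mem_center_iff.1 h x).symm
    have hidx := Cfsg.Agent.Lib.Helper9_GenExtraB.index_centralizer hR2 hcard' y hyc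
    have hco := Cfsg.Agent.Lib.Helper9_GenExtraB.isCoatom_of_index_prime Nat.prime_two hidx
    have hxM := frattini_le_coatom hco hx
    rw [Subgroup.mem_centralizer_singleton_iff] at hxM
    exact hy hxM.symm
  · rw [← h1]
    have : Group.IsNilpotent R := hR2.isNilpotent
    exact Cfsg.Agent.Lib.Helper7_Frat2.commutator_le_frattini_of_nilpotent

variable {G : Type*} [Group G]

theorem extraspecial_sub [Finite G] {R : Subgroup G} (hR2 : IsPGroup 2 R) {z : G} (hzR : z ∈ R)
    (hz1 : z ≠ 1) (hzc : ∀ r ∈ R, z * r = r * z)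
    (hcomm : ∀ a ∈ R, ∀ b ∈ R, a * b * a⁻¹ * b⁻¹ = 1 ∨ a * b * a⁻¹ * b⁻¹ = z)
    (hcen : ∀ w ∈ R, (∀ r ∈ R, w * r = r * w) → w = 1 ∨ w = z)
    (hna : ∃ a ∈ R, ∃ b ∈ R, a * b ≠ b * a) : IsExtraspecial 2 ↥R := by
  apply extraspecial_of hR2 (z := ⟨z, hzR⟩)
  · exact fun h => hz1 (congrArg Subtype.val h)
  · exact fun r => Subtype.ext (hzc r r.2)
  · intro a b
    rcases hcomm a a.2 b b.2 with h | h
    · left; exact Subtype.ext h
    · right; exact Subtype.ext h
  · intro w hw
    rcases hcen w w.2 (fun r hr =>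
      (congrArg Subtype.val (Subgroup.mem_center_iff.1 hw ⟨r, hr⟩)).symm) with h | h
    · left; exact Subtype.ext h
    · right; exact Subtype.ext h
  · obtain ⟨a, ha, b, hb, hab⟩ := hna
    exact ⟨⟨a, ha⟩, ⟨b, hb⟩, fun h => hab (congrArg Subtype.val h)⟩

theorem main [Finite G] (Q : Subgroup G) (hQ : IsLargeExtraspecial Q) (A : Subgroup G)
    (hA : A ≤ Subgroup.normalizer (Q : Set G)) (hAodd : Odd (Nat.card ↥A)) (hA1 : A ≠ ⊥) :
    (Q ⊓ Subgroup.centralizer (A : Set G)) ⊔ ⁅Q, A⁆ = Q ∧
    (∀ x ∈ Q ⊓ Subgroup.centralizer (A : Set G), ∀ y ∈ ⁅Q, A⁆, x * y = y * x) ∧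
    IsExtraspecial 2 ↥⁅Q, A⁆ ∧
    (Q ⊓ Subgroup.centralizer (A : Set G) = ((Subgroup.center ↥Q).map Q.subtype) ∨
      IsExtraspecial 2 ↥(Q ⊓ Subgroup.centralizer (A : Set G))) := by
  obtain ⟨hL1, hL2, -, -⟩ := hQ
  obtain ⟨z, hzQ, hz1, hzc, hcen, hcomm⟩ := exists_center_gen hL1
  have hQ2 : IsPGroup 2 Q := hL1.1.1
  set C := Q ⊓ Subgroup.centralizer (A : Set G) with hC
  set D := ⁅Q, A⁆ with hD
  have hconj : ∀ a ∈ A, ∀ q ∈ Q, a * q * a⁻¹ ∈ Q := fun a ha q hq =>
    (Subgroup.mem_normalizer_iff.1 (hA ha) q).1 hq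
  have hconj' : ∀ a ∈ A, ∀ q ∈ Q, a⁻¹ * q * a ∈ Q := fun a ha q hq => by
    have := hconj a⁻¹ (A.inv_mem ha) q hq
    rwa [inv_inv] at this
  have hDQ : D ≤ Q := by
    rw [hD, Subgroup.commutator_le]
    intro q hq a ha
    have := Q.mul_mem hq (hconj a ha _ (Q.inv_mem hq))
    have e : q * (a * q⁻¹ * a⁻¹) = ⁅q, a⁆ := by rw [commutatorElement_def]; group
    rwa [e] at this
  -- `A` centralizes `z`
  have hAz : ∀ a ∈ A, a * z * a⁻¹ = z := by
    intro a ha
    have h1 : a * z * a⁻¹ ∈ Subgroup.centralizer (Q : Set G) := by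
      rw [Subgroup.mem_centralizer_iff]
      intro q hq
      have h2 := hzc _ (hconj' a ha q hq)
      calc q * (a * z * a⁻¹) = a * ((a⁻¹ * q * a) * z) * a⁻¹ := by group
        _ = a * (z * (a⁻¹ * q * a)) * a⁻¹ := by rw [h2]
        _ = _ := by group
    rw [hL2] at h1
    rcases (hcen _).1 h1 with h | h
    · exfalso
      apply hz1
      calc z = a⁻¹ * (a * z * a⁻¹) * a := by group
        _ = 1 := by rw [h]; group
    · exact h
  -- `A` normalizes `D`
  have hAD : A ≤ Subgroup.normalizer (D : Set G) := by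
    have key : ∀ a ∈ A, ∀ x ∈ D, a * x * a⁻¹ ∈ D := by
      intro a ha
      have : D ≤ D.comap (MulAut.conj a).toMonoidHom := by
        conv_lhs => rw [hD]
        rw [Subgroup.commutator_le]
        intro q hq b hb
        rw [Subgroup.mem_comap]
        show a * ⁅q, b⁆ * a⁻¹ ∈ D
        have e : a * ⁅q, b⁆ * a⁻¹ = ⁅a * q * a⁻¹, a * b * a⁻¹⁆ := by
          simp only [commutatorElement_def]; group
        rw [e]
        exact Subgroup.commutator_mem_commutator (hconj a ha q hq)
          (A.mul_mem (A.mul_mem ha hb) (A.inv_mem ha))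
      exact fun x hx => this hx
    intro a ha
    rw [Subgroup.mem_normalizer_iff]
    intro x
    refine ⟨key a ha x, fun h => ?_⟩
    have := key a⁻¹ (A.inv_mem ha) _ h
    have e : a⁻¹ * (a * x * a⁻¹) * a⁻¹⁻¹ = x := by group
    rwa [e] at this
  have hcop : (Nat.card A).Coprime (Nat.card Q) := by
    obtain ⟨n, hn⟩ := IsPGroup.iff_card.1 hQ2
    rw [hn]
    exact Nat.Coprime.pow_right n (Nat.coprime_two_right.2 hAodd)
  have hsolv : Group.IsSolvable Q := by
    have : Group.IsNilpotent Q := hQ2.isNilpotent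
    infer_instance
  -- claim 1
  have claim1 : C ⊔ D = Q := by
    apply le_antisymm (sup_le inf_le_left hDQ)
    intro x hx
    obtain ⟨d, hd, hxd⟩ := Cfsg.Agent.Lib.Helper1_Coprime.exists_mul_mem_centralizer hA hcop
      (Or.inr hsolv) hDQ hAD hx (fun a ha => by
        have := Subgroup.commutator_mem_commutator (Q.inv_mem hx) ha
        rw [commutatorElement_def, inv_inv] at this
        exact this)
    have h1 : x * d ∈ C := ⟨Q.mul_mem hx (hDQ hd), hxd⟩
    have h2 : x = (x * d) * d⁻¹ := by group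
    rw [h2]
    exact Subgroup.mul_mem _ (Subgroup.mem_sup_left h1) (Subgroup.mem_sup_right (D.inv_mem hd))
  -- claim 2
  have claim2' : ⁅⁅Q, A⁆, C⁆ = ⊥ := by
    apply Subgroup.commutator_commutator_eq_bot_of_rotate
    · have : ⁅A, C⁆ = ⊥ := by
        rw [Subgroup.commutator_eq_bot_iff_le_centralizer, Subgroup.le_centralizer_iff]
        exact inf_le_right
      rw [this, Subgroup.commutator_bot_left]
    · rw [Subgroup.commutator_eq_bot_iff_le_centralizer, Subgroup.commutator_le]
      intro c hc q hq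
      rw [Subgroup.mem_centralizer_iff]
      intro a ha
      rcases hcomm c hc.1 q hq with h | h
      · rw [commutatorElement_def, h]; simp
      · rw [commutatorElement_def, h]
        have := hAz a ha
        calc a * z = (a * z * a⁻¹) * a := by group
          _ = z * a := by rw [this]
  have claim2 : ∀ x ∈ C, ∀ y ∈ D, x * y = y * x := by
    intro x hx y hy
    rw [Subgroup.commutator_eq_bot_iff_le_centralizer] at claim2'
    exact Subgroup.mem_centralizer_iff.1 (claim2' hy) x hx
  -- elements commuting with C and D are central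
  have central : ∀ w : G, (∀ r ∈ C, w * r = r * w) → (∀ r ∈ D, w * r = r * w) → w = 1 ∨ w = z := by
    intro w h1 h2
    have h3 : C ⊔ D ≤ Subgroup.centralizer ({w} : Set G) := by
      apply sup_le
      · intro r hr
        exact mem_cen.2 (h1 r hr)
      · intro r hr
        exact mem_cen.2 (h2 r hr)
    rw [claim1] at h3
    have h4 : w ∈ Subgroup.centralizer (Q : Set G) := by
      rw [Subgroup.mem_centralizer_iff]
      intro q hq
      exact (mem_cen.1 (h3 hq)).symm
    rw [hL2] at h4
    exact (hcen w).1 h4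
  -- `A` does not centralize `Q`
  have hnotcent : ¬ ∀ a ∈ A, ∀ q ∈ Q, a * q = q * a := by
    intro h
    apply hA1
    rw [Subgroup.eq_bot_iff_forall]
    intro a ha
    have h1 : a ∈ Subgroup.centralizer (Q : Set G) := by
      rw [Subgroup.mem_centralizer_iff]
      intro q hq
      exact (h a ha q hq).symm
    rw [hL2] at h1
    obtain ⟨c, -, rfl⟩ := h1
    exact eq_one_of_mem_odd_two hAodd hQ2 ha c.2
  -- `D` is not abelian
  have hDna : ∃ a ∈ D, ∃ b ∈ D, a * b ≠ b * a := by
    by_contra hcon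
    push Not at hcon
    have hDz : ∀ w ∈ D, w = 1 ∨ w = z := fun w hw =>
      central w (fun r hr => (claim2 r hr w hw).symm) (fun r hr => hcon w hw r hr)
    apply hnotcent
    intro a ha q hq
    -- `a ^ 2` commutes with `q`
    have h1 : ∀ q ∈ Q, a * q * a⁻¹ = q ∨ a * q * a⁻¹ = z * q := by
      intro q hq
      have h2 := Subgroup.commutator_mem_commutator (Q.inv_mem hq) ha
      rw [commutatorElement_def, inv_inv] at h2
      rcases hDz _ h2 with h | h
      · left
        calc a * q * a⁻¹ = q * (q⁻¹ * a * q * a⁻¹) := by group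
          _ = q := by rw [h, mul_one]
      · right
        calc a * q * a⁻¹ = q * (q⁻¹ * a * q * a⁻¹) := by group
          _ = z * q := by rw [h, hzc q hq]
    have hz2 : z * z = 1 := by
      have hzZ : z ∈ (Subgroup.center ↥Q).map Q.subtype := (hcen z).2 (Or.inr rfl)
      rcases (hcen _).1 (Subgroup.mul_mem _ hzZ hzZ) with h | h
      · exact h
      · exfalso
        apply hz1
        calc z = z⁻¹ * (z * z) := by group
          _ = z⁻¹ * z := by rw [h]
          _ = 1 := by group
    have h2 : Commute (a ^ 2) q := by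
      show a ^ 2 * q = q * a ^ 2
      have e : a ^ 2 * q = (a * (a * q * a⁻¹) * a⁻¹) * a ^ 2 := by
        rw [pow_two]; group
      rw [e]
      rcases h1 q hq with h | h
      · rw [h, h]
      · rw [h]
        have e2 : a * (z * q) * a⁻¹ = (a * z * a⁻¹) * (a * q * a⁻¹) := by group
        rw [e2, hAz a ha, h, ← mul_assoc, hz2, one_mul]
    have hodd : Odd (orderOf a) := by
      have : orderOf a ∣ Nat.card A := by
        have := orderOf_dvd_natCard (⟨a, ha⟩ : A)
        rwa [Subgroup.orderOf_mk] at this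
      exact Odd.of_dvd_nat hAodd this
    obtain ⟨m, hm⟩ := hodd
    have h3 : (a ^ 2) ^ (m + 1) = a := by
      rw [← pow_mul]
      have : 2 * (m + 1) = orderOf a + 1 := by omega
      rw [this, pow_succ, pow_orderOf_eq_one, one_mul]
    have h4 := h2.pow_left (m + 1)
    rw [h3] at h4
    exact h4
  have hzD : z ∈ D := by
    obtain ⟨a, ha, b, hb, hab⟩ := hDna
    have h1 : a * b * a⁻¹ * b⁻¹ ∈ D :=
      D.mul_mem (D.mul_mem (D.mul_mem ha hb) (D.inv_mem ha)) (D.inv_mem hb)
    rcases hcomm a (hDQ ha) b (hDQ hb) with h | h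
    · exfalso
      apply hab
      calc a * b = (a * b * a⁻¹ * b⁻¹) * (b * a) := by group
        _ = b * a := by rw [h, one_mul]
    · rwa [h] at h1
  have hzC : z ∈ C := by
    refine ⟨hzQ, ?_⟩
    show z ∈ Subgroup.centralizer (A : Set G)
    rw [Subgroup.mem_centralizer_iff]
    intro a ha
    have := hAz a ha
    calc a * z = (a * z * a⁻¹) * a := by group
      _ = z * a := by rw [this]
  refine ⟨claim1, claim2, ?_, ?_⟩
  · exact extraspecial_sub (hQ2.to_le hDQ) hzD hz1 (fun r hr => hzc r (hDQ hr))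
      (fun a ha b hb => hcomm a (hDQ ha) b (hDQ hb))
      (fun w hw h => central w (fun r hr => (claim2 r hr w hw).symm) h) hDna
  · by_cases hCna : ∃ a ∈ C, ∃ b ∈ C, a * b ≠ b * a
    · right
      exact extraspecial_sub (hQ2.to_le inf_le_left) hzC hz1 (fun r hr => hzc r hr.1)
        (fun a ha b hb => hcomm a ha.1 b hb.1)
        (fun w hw h => central w h (fun r hr => claim2 w hw r hr)) hCna
    · left
      push Not at hCna
      ext w
      rw [hcen]
      constructor
      · intro hw
        exact central w (fun r hr => hCna w hw r hr) (fun r hr => claim2 w hw r hr)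
      · rintro (rfl | rfl)
        · exact Subgroup.one_mem _
        · exact hzC

end Cfsg.Agent.Lib.Helper9_LargeEx5
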