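import Mathlib
import Cfsg.Prelude.Def_AxialAlgebras

set_option autoImplicit false

namespace Cfsg.Agent.Lib.Helper9_Maj2A

open Cfsg Cfsg.Axial

variable {V : Type*} [AddCommGroup V] [Module ℝ V]

theorem exists_notMem {X : Type*} (hX : 4 < Nat.card X) (s : Finset X) (hs : s.card ≤ 4) :
    ∃ w, w ∉ s := by
  by_contra hcon
  push Not at hcon
  have : Finite X := Nat.finite_of_card_ne_zero (by omega)
  let _ := Fintype.ofFinite X
  have h1 : s = Finset.univ := Finset.eq_univ_iff_forall.2 hcon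
  rw [Nat.card_eq_fintype_card, ← Finset.card_univ, ← h1] at hX
  omega

/-- fusion `1/4 ⋆ 1/4` kills `1/4`-eigenvectors -/
theorem fusion_zero {mul : V →ₗ[ℝ] V →ₗ[ℝ] V} {a α β : V}
    (ha : IsAxis mul (monsterLaw (1 / 4) (1 / 32)) majoranaSpectrum a)
    (hα : mul a α = (1 / 4 : ℝ) • α) (hβ : mul a β = (1 / 4 : ℝ) • β)
    (hγ : mul a (mul α β) = (1 / 4 : ℝ) • mul α β) : mul α β = 0 := by
  have h14 : (1 / 4 : ℝ) ∈ majoranaSpectrum := by
    unfold majoranaSpectrum; simp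
  have h1 := ha.2.2.2 (1 / 4) h14 (1 / 4) h14 α (Module.End.mem_eigenspace_iff.2 hα) β
    (Module.End.mem_eigenspace_iff.2 hβ)
  have hlaw : monsterLaw (1 / 4 : ℝ) (1 / 32) (1 / 4) (1 / 4) = {1, 0} := by
    unfold monsterLaw
    norm_num
  rw [hlaw] at h1
  have hle : eigenSum mul a ({1, 0} : Set ℝ) ≤
      LinearMap.ker ((mul a) ∘ₗ (mul a) - mul a) := by
    unfold eigenSum
    refine iSup₂_le (fun c hc v hv => ?_)
    have hv' : mul a v = c • v := Module.End.mem_eigenspace_iff.1 hv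
    rw [LinearMap.mem_ker, LinearMap.sub_apply, LinearMap.comp_apply, hv', map_smul, hv']
    rcases hc with rfl | hc
    · simp
    · rw [Set.mem_singleton_iff.1 hc]; simp
  have h2 := hle h1
  rw [LinearMap.mem_ker, LinearMap.sub_apply, LinearMap.comp_apply, hγ, map_smul, hγ] at h2
  have h3 : (-(3 / 16) : ℝ) • mul α β = 0 := by
    rw [← h2]; module
  rcases smul_eq_zero.1 h3 with h | h
  · norm_num at h
  · exact h

theorem main (mul : V →ₗ[ℝ] V →ₗ[ℝ] V) (B : LinearMap.BilinForm ℝ V)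
    (X : Subgroup (V ≃ₗ[ℝ] V)) (hX : ∀ x ∈ X, x * x = 1)
    (ax : (V ≃ₗ[ℝ] V) → V) (hax : ∀ x ∈ X, x ≠ 1 → IsMajoranaPair mul B x (ax x))
    (h1 : ∀ x ∈ X, x ≠ 1 → B (ax x) (ax x) = 1)
    (h2A : ∀ x ∈ X, ∀ y ∈ X, x ≠ 1 → y ≠ 1 → x ≠ y →
      mul (ax x) (ax y) = (1 / 8 : ℝ) • (ax x + ax y - ax (x * y))) : Nat.card ↥X ≤ 4 := by
  classical
  by_contra hcard
  push Not at hcard
  obtain ⟨x, hx⟩ := exists_notMem hcard {1} (by simp)
  obtain ⟨y, hy⟩ := exists_notMem hcard {1, x} (Finset.card_le_two.trans (by norm_num))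
  obtain ⟨w, hw⟩ := exists_notMem hcard {1, x, y, x * y} Finset.card_le_four
  simp only [Finset.mem_insert, Finset.mem_singleton, not_or] at hx hy hw
  obtain ⟨x, hxX⟩ := x
  obtain ⟨y, hyX⟩ := y
  obtain ⟨w, hwX⟩ := w
  have hx1 : x ≠ 1 := fun h => hx (Subtype.ext h)
  have hy1 : y ≠ 1 := fun h => hy.1 (Subtype.ext h)
  have hyx : y ≠ x := fun h => hy.2 (Subtype.ext h)
  have hw1 : w ≠ 1 := fun h => hw.1 (Subtype.ext h)
  have hwx : w ≠ x := fun h => hw.2.1 (Subtype.ext h)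
  have hwy : w ≠ y := fun h => hw.2.2.1 (Subtype.ext h)
  have hwxy : w ≠ x * y := fun h => hw.2.2.2 (Subtype.ext h)
  have eq_of : ∀ s t : V ≃ₗ[ℝ] V, t ∈ X → s * t = 1 → s = t := by
    intro s t ht h
    calc s = s * (t * t) := by rw [hX t ht, mul_one]
      _ = (s * t) * t := by rw [mul_assoc]
      _ = t := by rw [h, one_mul]
  have hc : ∀ a ∈ X, ∀ b ∈ X, a * b = b * a := by
    intro a ha b hb
    have ia : a⁻¹ = a := inv_eq_of_mul_eq_one_left (hX a ha)
    have ib : b⁻¹ = b := inv_eq_of_mul_eq_one_left (hX b hb)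
    have iab : (a * b)⁻¹ = a * b := inv_eq_of_mul_eq_one_left (hX (a * b) (X.mul_mem ha hb))
    calc a * b = (a * b)⁻¹ := iab.symm
      _ = b⁻¹ * a⁻¹ := mul_inv_rev _ _
      _ = b * a := by rw [ia, ib]
  have hxx := hX x hxX
  have hxy := hc x hxX y hyX
  have hxyX := X.mul_mem hxX hyX
  have hxwX := X.mul_mem hxX hwX
  have hywX := X.mul_mem hyX hwX
  have hxywX := X.mul_mem hxyX hwX
  have n3 : x * y ≠ 1 := fun h => hyx (eq_of x y hyX h).symm
  have n5 : x * w ≠ 1 := fun h => hwx (eq_of x w hwX h).symm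
  have n6 : y * w ≠ 1 := fun h => hwy (eq_of y w hwX h).symm
  have n7 : x * y * w ≠ 1 := fun h => hwxy (eq_of (x * y) w hwX h).symm
  have app : ∀ s t r : V ≃ₗ[ℝ] V, s ∈ X → t ∈ X → s ≠ 1 → t ≠ 1 → s * t = r → r ≠ 1 →
      mul (ax s) (ax t) = (1 / 8 : ℝ) • (ax s + ax t - ax r) := by
    intro s t r hs ht hs1 ht1 hr hr1
    have := h2A s hs t ht hs1 ht1 (fun h => hr1 (by rw [← hr, h]; exact hX t ht))
    rwa [hr] at this
  have r1 := app x y (x * y) hxX hyX hx1 hy1 rfl n3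
  have r2 := app x (x * y) y hxX hxyX hx1 n3 (by rw [← mul_assoc, hxx, one_mul]) hy1
  have r3 := app x w (x * w) hxX hwX hx1 hw1 rfl n5
  have r4 := app x (x * w) w hxX hxwX hx1 n5 (by rw [← mul_assoc, hxx, one_mul]) hw1
  have r5 := app y w (y * w) hyX hwX hy1 hw1 rfl n6
  have r6 := app y (x * w) (x * y * w) hyX hxwX hy1 n5 (by rw [← mul_assoc, ← hxy]) n7
  have r7 := app (x * y) w (x * y * w) hxyX hwX n3 hw1 rfl n7
  have r8 := app (x * y) (x * w) (y * w) hxyX hxwX n3 n5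
    (by rw [hxy, mul_assoc, ← mul_assoc x x w, hxx, one_mul]) n6
  have r9 := app x (y * w) (x * y * w) hxX hywX hx1 n6 (mul_assoc _ _ _).symm n7
  have r10 := app x (x * y * w) (y * w) hxX hxywX hx1 n7
    (by rw [mul_assoc x y w, ← mul_assoc, hxx, one_mul]) n6
  have r11 := app (y * w) (x * y * w) x hywX hxywX n6 n7
    (by rw [mul_assoc x y w, ← mul_assoc, hc (y * w) hywX x hxX, mul_assoc, hX _ hywX, mul_one]) hx1
  have hα : mul (ax x) (ax y - ax (x * y)) = (1 / 4 : ℝ) • (ax y - ax (x * y)) := by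
    rw [map_sub, r1, r2]; module
  have hβ : mul (ax x) (ax w - ax (x * w)) = (1 / 4 : ℝ) • (ax w - ax (x * w)) := by
    rw [map_sub, r3, r4]; module
  have hprod : mul (ax y - ax (x * y)) (ax w - ax (x * w)) =
      (-(1 / 4) : ℝ) • (ax (y * w) - ax (x * y * w)) := by
    simp only [map_sub, LinearMap.sub_apply]
    rw [r5, r6, r7, r8]; module
  have hγ : mul (ax x) (mul (ax y - ax (x * y)) (ax w - ax (x * w))) =
      (1 / 4 : ℝ) • mul (ax y - ax (x * y)) (ax w - ax (x * w)) := by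
    rw [hprod, map_smul, map_sub, r9, r10]; module
  have h0 := fusion_zero (hax x hxX hx1).2.2.1.1 hα hβ hγ
  rw [hprod] at h0
  have heq : ax (y * w) = ax (x * y * w) := by
    rcases smul_eq_zero.1 h0 with h | h
    · norm_num at h
    · exact sub_eq_zero.1 h
  have hidem : mul (ax (y * w)) (ax (y * w)) = ax (y * w) := (hax _ hywX n6).2.2.1.1.2.1
  rw [← heq, hidem] at r11
  have h6 : ax x = (-6 : ℝ) • ax (y * w) := by
    have : (8 : ℝ) • ax (y * w) = (8 : ℝ) • ((1 / 8 : ℝ) • (ax (y * w) + ax (y * w) - ax x)) := by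
      rw [← r11]
    have h' : ax x = (ax (y * w) + ax (y * w)) - (8 : ℝ) • ((1 / 8 : ℝ) • (ax (y * w) + ax (y * w) - ax x)) := by
      module
    rw [h', ← this]; module
  have hn := h1 x hxX hx1
  rw [h6] at hn
  simp only [map_smul, LinearMap.smul_apply, h1 _ hywX n6, smul_eq_mul] at hn
  norm_num at hn

end Cfsg.Agent.Lib.Helper9_Maj2A
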