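import Mathlib
import Cfsg.Prelude.Def_FusionSystem
import Cfsg.Agent.Lib.Helper9_Transport
import Cfsg.Agent.Lib.Helper9_Focal
import Cfsg.Agent.Lib.Helper9_Induct
import Cfsg.Agent.Lib.Helper9_KNorm2
import Cfsg.Agent.Lib.Helper9_Centric

set_option autoImplicit false

namespace Cfsg.Agent.Lib.Helper9_PrimeIdx

open Cfsg Cfsg.FusionSystem Cfsg.Agent.Lib.Helper9_FusionBasic Cfsg.Agent.Lib.Helper9_FusionSat
  Cfsg.Agent.Lib.Helper9_FusionNormal Cfsg.Agent.Lib.Helper9_AlperinCor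
  Cfsg.Agent.Lib.Helper9_Alperin Cfsg.Agent.Lib.Helper9_Transport Cfsg.Agent.Lib.Helper9_Focal
  Cfsg.Agent.Lib.Helper9_Induct Cfsg.Agent.Lib.Helper9_Centric
open Cfsg.Agent.Lib.Helper4_Syl hiding conj_mem_of_mem_normalizer

variable {Ω : Type*} [Group Ω] {S : Subgroup Ω}

/-- `α ∘ φ ∘ β⁻¹` is a map of `E` -/
def Tw (E : FusionSystem S) (α β : MulAut S) (P : Subgroup Ω) (φ : P →* Ω) : Prop :=
  ∃ ε ∈ E.Hom (imgAut β P), ∀ (x : S) (hx : (x : Ω) ∈ P) (y : S), φ ⟨x, hx⟩ = y →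
    ε ⟨β x, apply_mem_imgAut β x hx⟩ = α y

theorem tw_comp {E : FusionSystem S} {α₁ α₂ β : MulAut S} {P Q : Subgroup Ω} {φ : P →* Ω}
    {ψ : Q →* Ω} (hφS : ∀ x, φ x ∈ S) (h : ∀ x : P, φ x ∈ Q) (h1 : Tw E α₁ β P φ)
    (h2 : Tw E α₂ α₁ Q ψ) : Tw E α₂ β P (ψ.comp (φ.codRestrict Q h)) := by
  obtain ⟨ε₁, hε₁, H1⟩ := h1
  obtain ⟨ε₂, hε₂, H2⟩ := h2
  have hvals : ∀ z : imgAut β P, ε₁ z ∈ imgAut α₁ Q := by
    rintro ⟨_, x, hx, rfl⟩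
    have e1 := H1 x hx ⟨φ ⟨x, hx⟩, hφS _⟩ rfl
    have e2 : ε₁ ⟨(S.subtype.comp β.toMonoidHom) x, ⟨x, hx, rfl⟩⟩ =
        α₁ ⟨φ ⟨x, hx⟩, hφS _⟩ := e1
    rw [e2]
    exact apply_mem_imgAut α₁ _ (h _)
  refine ⟨ε₂.comp (ε₁.codRestrict _ hvals), E.comp_mem hε₁ hε₂ hvals, fun x hx y hy => ?_⟩
  have e1 := H1 x hx ⟨φ ⟨x, hx⟩, hφS _⟩ rfl
  have e2 := H2 ⟨φ ⟨x, hx⟩, hφS _⟩ (h _) y hy
  show ε₂ ⟨ε₁ ⟨β x, _⟩, _⟩ = α₂ y
  have e3 : (⟨ε₁ ⟨β x, apply_mem_imgAut β x hx⟩, hvals _⟩ : imgAut α₁ Q) =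
      ⟨α₁ ⟨φ ⟨x, hx⟩, hφS _⟩, apply_mem_imgAut α₁ _ (h _)⟩ := Subtype.ext e1
  rw [e3]
  exact e2

theorem tw_inv {E : FusionSystem S} {α β : MulAut S} {P : Subgroup Ω} {φ : P →* Ω}
    (hPS : P ≤ S) (hφS : ∀ x, φ x ∈ S) (ψ : φ.range →* Ω)
    (hψ : ∀ x : P, ψ ⟨φ x, ⟨x, rfl⟩⟩ = (x : Ω)) (h : Tw E α β P φ) : Tw E β α φ.range ψ := by
  obtain ⟨ε, hε, H⟩ := h
  have hr : ε.range = imgAut α φ.range := by
    ext y'
    constructor
    · rintro ⟨⟨_, x, hx, rfl⟩, rfl⟩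
      have e1 := H x hx ⟨φ ⟨x, hx⟩, hφS _⟩ rfl
      have e2 : ε ⟨(S.subtype.comp β.toMonoidHom) x, ⟨x, hx, rfl⟩⟩ =
          α ⟨φ ⟨x, hx⟩, hφS _⟩ := e1
      rw [e2]
      exact apply_mem_imgAut α _ ⟨_, rfl⟩
    · rintro ⟨y, ⟨x₀, hx₀⟩, rfl⟩
      have e1 := H ⟨x₀, hPS x₀.2⟩ x₀.2 y hx₀
      exact ⟨_, e1⟩
  obtain ⟨ε', hε', hinv, -, -⟩ := exists_inv E hε hr
  refine ⟨ε', hε', fun y hy x' hx' => ?_⟩
  obtain ⟨x₀, hx₀⟩ := hy
  have e0 : ψ ⟨y, ⟨x₀, hx₀⟩⟩ = (x₀ : Ω) := by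
    have := hψ x₀
    have e : (⟨φ x₀, ⟨x₀, rfl⟩⟩ : φ.range) = ⟨y, ⟨x₀, hx₀⟩⟩ := Subtype.ext hx₀
    rwa [e] at this
  have e1 : x' = ⟨x₀, hPS x₀.2⟩ := Subtype.ext (hx'.symm.trans e0)
  subst e1
  have e2 := H ⟨x₀, hPS x₀.2⟩ x₀.2 y hx₀
  have hmem : ε ⟨β ⟨x₀, hPS x₀.2⟩, apply_mem_imgAut β _ x₀.2⟩ ∈ imgAut α φ.range := by
    rw [e2]
    exact apply_mem_imgAut α _ ⟨x₀, hx₀⟩
  have e3 := hinv ⟨β ⟨x₀, hPS x₀.2⟩, apply_mem_imgAut β _ x₀.2⟩ hmem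
  have e4 : (⟨α y, apply_mem_imgAut α y ⟨x₀, hx₀⟩⟩ : imgAut α φ.range) =
      ⟨ε ⟨β ⟨x₀, hPS x₀.2⟩, apply_mem_imgAut β _ x₀.2⟩, hmem⟩ := Subtype.ext e2.symm
  rw [e4]
  exact e3

theorem tw_conj (E : FusionSystem S) (β : MulAut S) {P : Subgroup Ω} {g : Ω}
    (hg : g ∈ S) : Tw E β β P (conjHom P g) := by
  refine ⟨conjHom (imgAut β P) (β ⟨g, hg⟩ : S), E.conj_mem (imgAut_le β P) (β _).2,
    fun x hx y hy => ?_⟩
  have e1 : y = ⟨g, hg⟩ * x * ⟨g, hg⟩⁻¹ := Subtype.ext hy.symm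
  rw [e1, map_mul, map_mul, map_inv]
  rfl

theorem tw_autS (E : FusionSystem S) (α₀ β : MulAut S) :
    Tw E (β * α₀⁻¹) β S (S.subtype.comp α₀.toMonoidHom) := by
  refine ⟨(imgAut β S).subtype, id_mem E (imgAut_le β S), fun x hx y hy => ?_⟩
  have e1 : y = α₀ x := Subtype.ext hy.symm
  rw [e1, MulAut.mul_apply, MulAut.inv_apply_self]
  rfl

def good (E F : FusionSystem S) (P : Subgroup Ω) (φ : P →* Ω) : Prop :=
  (∀ β ∈ F.autGroup S, ∃ α ∈ F.autGroup S, Tw E α β P φ) ∧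
    (∀ α ∈ F.autGroup S, ∃ β ∈ F.autGroup S, Tw E α β P φ)

def twSystem (E F : FusionSystem S) : FusionSystem S :=
  subSystem F (good E F)
    (fun _ _ _ hg => ⟨fun β hβ => ⟨β, hβ, tw_conj E β hg⟩, fun α hα => ⟨α, hα, tw_conj E α hg⟩⟩)
    (fun P Q φ ψ hφ _ gφ gψ h => by
      have hφS : ∀ x, φ x ∈ S := fun x => (F.le_of_mem hφ).2 x
      constructor
      · intro β hβ
        obtain ⟨α₁, hα₁, t1⟩ := gφ.1 β hβ
        obtain ⟨α₂, hα₂, t2⟩ := gψ.1 α₁ hα₁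
        exact ⟨α₂, hα₂, tw_comp hφS h t1 t2⟩
      · intro α hα
        obtain ⟨β₂, hβ₂, t2⟩ := gψ.2 α hα
        obtain ⟨β₁, hβ₁, t1⟩ := gφ.2 β₂ hβ₂
        exact ⟨β₁, hβ₁, tw_comp hφS h t1 t2⟩)
    (fun P φ ψ hφ gφ _ hψ => by
      have hφS : ∀ x, φ x ∈ S := fun x => (F.le_of_mem hφ).2 x
      have hPS : P ≤ S := (F.le_of_mem hφ).1
      constructor
      · intro β hβ
        obtain ⟨α, hα, t⟩ := gφ.2 β hβ
        exact ⟨α, hα, tw_inv hPS hφS ψ hψ t⟩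
      · intro α hα
        obtain ⟨β, hβ, t⟩ := gφ.1 α hα
        exact ⟨β, hβ, tw_inv hPS hφS ψ hψ t⟩)

theorem mem_twSystem {E F : FusionSystem S} {P : Subgroup Ω} {φ : P →* Ω} :
    φ ∈ (twSystem E F).Hom P ↔ φ ∈ F.Hom P ∧ good E F P φ := Iff.rfl

/-- restriction of an automorphism of `S` -/
noncomputable def resAut (β : MulAut S) {P : Subgroup Ω} (hP : P ≤ S) : P ≃* imgAut β P :=
  Cfsg.Agent.Lib.Helper9_KNorm2.restrictIso (β : S ≃* S) hP (imgAut_le β P)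
    (Cfsg.Agent.Lib.Helper9_KNorm.mem_map_iff (A := P) (β : S ≃* S))

theorem resAut_apply (β : MulAut S) {P : Subgroup Ω} (hP : P ≤ S) (x : P) :
    ((resAut β hP x : imgAut β P) : Ω) = β ⟨x, hP x.2⟩ := rfl

theorem isHom_resAut (F : FusionSystem S) {β : MulAut S} (hβ : β ∈ F.autGroup S)
    {P : Subgroup Ω} (hP : P ≤ S) : IsHom F (resAut β hP).toMonoidHom :=
  Cfsg.Agent.Lib.Helper9_KNorm2.isHom_restrictIso F (β : S ≃* S) hP (imgAut_le β P) _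
    ((mem_autGroup_iff_isHom F le_rfl β).mp hβ)

theorem tw_of_congr (E : FusionSystem S) (β : MulAut S) {P : Subgroup Ω} (hP : P ≤ S)
    (b : MulAut P) (hb : MulAut.congr (resAut β hP) b ∈ E.autGroup (imgAut β P)) :
    Tw E β β P (P.subtype.comp b.toMonoidHom) := by
  rw [mem_autGroup_iff E (imgAut_le β P)] at hb
  refine ⟨_, hb, fun x hx y hy => ?_⟩
  have e1 : (⟨β x, apply_mem_imgAut β x hx⟩ : imgAut β P) = resAut β hP ⟨x, hx⟩ :=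
    Subtype.ext rfl
  rw [e1]
  show ((resAut β hP (b ((resAut β hP).symm (resAut β hP ⟨x, hx⟩))) : imgAut β P) : Ω) = β y
  rw [MulEquiv.symm_apply_apply, resAut_apply]
  have e2 : y = ⟨b ⟨x, hx⟩, hP (b _).2⟩ := Subtype.ext hy.symm
  rw [e2]

def OP (p : ℕ) (F : FusionSystem S) (P : Subgroup Ω) : Subgroup (MulAut P) :=
  Subgroup.closure {α | α ∈ F.autGroup P ∧ ∃ k : ℕ, orderOf α = p ^ k}

theorem map_closure_eq (p : ℕ) (F : FusionSystem S) (P : Subgroup Ω) :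
    (Subgroup.closure {α : ↥(F.autGroup P) | ∃ k : ℕ, orderOf α = p ^ k}).map
      (F.autGroup P).subtype = OP p F P := by
  rw [MonoidHom.map_closure]
  congr 1
  ext α
  constructor
  · rintro ⟨a, ⟨k, hk⟩, rfl⟩
    exact ⟨a.2, k, by rw [← hk]; exact Subgroup.orderOf_coe a⟩
  · rintro ⟨hα, k, hk⟩
    exact ⟨⟨α, hα⟩, ⟨k, by rw [← hk]; exact Subgroup.orderOf_mk α hα⟩, rfl⟩

theorem OP_le (p : ℕ) (F : FusionSystem S) (P : Subgroup Ω) : OP p F P ≤ F.autGroup P :=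
  (Subgroup.closure_le _).2 (fun _ h => h.1)

theorem OP_congr {p : ℕ} (F : FusionSystem S) {P Q : Subgroup Ω} (e : P ≃* Q)
    (he : IsHom F e.toMonoidHom) {b : MulAut P} (hb : b ∈ OP p F P) :
    MulAut.congr e b ∈ OP p F Q := by
  have hle : OP p F P ≤ (OP p F Q).comap (MulAut.congr e).toMonoidHom := by
    apply (Subgroup.closure_le _).2
    rintro α ⟨hα, k, hk⟩
    apply Subgroup.subset_closure
    refine ⟨(Cfsg.Agent.Lib.Helper9_KNorm.congr_mem_autGroup F e he α).mp hα, k, ?_⟩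
    rw [← hk]
    exact MulEquiv.orderOf_eq (MulAut.congr e) α
  exact hle hb

variable [Finite S] (p : ℕ) [Fact p.Prime]

theorem OP_le_tw (F E : FusionSystem S)
    (h : ∀ P : Subgroup Ω, F.IsCentric P → OP p F P ≤ E.autGroup P) {P : Subgroup Ω}
    (hP : F.IsCentric P) : OP p F P ≤ (twSystem E F).autGroup P := by
  intro b hb
  rw [mem_autGroup_iff _ hP.1, mem_twSystem]
  have key : ∀ β ∈ F.autGroup S, Tw E β β P (P.subtype.comp b.toMonoidHom) := by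
    intro β hβ
    apply tw_of_congr E β hP.1
    have he := isHom_resAut F hβ hP.1
    exact h _ (centric_of_isConj hP ((isConj_iff_exists_iso F).mpr ⟨_, he⟩)) (OP_congr F _ he hb)
  exact ⟨(mem_autGroup_iff F hP.1 b).mp (OP_le p F P hb),
    fun β hβ => ⟨β, hβ, key β hβ⟩, fun α hα => ⟨α, hα, key α hα⟩⟩

theorem le_twSystem (hS : IsPGroup p S) (F : FusionSystem S) (hF : F.IsSaturated p)
    (E : FusionSystem S)
    (h : ∀ P : Subgroup Ω, F.IsCentric P → OP p F P ≤ E.autGroup P) : F ≤ twSystem E F := by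
  apply alperin_induct p hS F hF
  intro P hfn ih
  have hP := hfn.1
  obtain ⟨⟨-, R, hR⟩, hrec⟩ := sat_fullyNormalized p hS F hF hfn
  have hext : ∀ α ∈ extGen F P, α ∈ (twSystem E F).autGroup P := by
    rintro α ⟨Q, hPQ, φ, hφ, hφα⟩
    have hQS : Q ≤ S := le_of_hom F hφ
    have : Finite Q := finite_of_le hQS
    have hφE := ih Q hQS (card_lt_of_lt hPQ) hφ
    exact mem_autGroup_of _ (restrict_mem _ hφE hPQ.le) _ (fun x => (hφα x).symm)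
  rcases eq_or_lt_of_le hP with rfl | hPS
  · intro α₀ hα₀
    rw [mem_autGroup_iff _ le_rfl, mem_twSystem]
    refine ⟨(mem_autGroup_iff F le_rfl α₀).mp hα₀, fun β hβ => ⟨β * α₀⁻¹,
      Subgroup.mul_mem _ hβ (Subgroup.inv_mem _ hα₀), tw_autS E α₀ β⟩, fun α hα => ⟨α * α₀,
      Subgroup.mul_mem _ hα hα₀, ?_⟩⟩
    have := tw_autS E α₀ (α * α₀)
    rwa [mul_inv_cancel_right] at this
  by_cases hcen : F.IsCentric P
  · have := finite_autGroup F hP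
    set B : Subgroup ↥(F.autGroup P) :=
      Subgroup.closure {α : ↥(F.autGroup P) | ∃ k : ℕ, orderOf α = p ^ k} with hB
    have hBn : B.Normal := closure_normal (by
      rintro x ⟨k, hk⟩ g
      exact ⟨k, by rw [orderOf_conj_eq, hk]⟩)
    have hRB : (R : Subgroup (F.autGroup P)) ≤ B := by
      intro r hr
      apply Subgroup.subset_closure
      obtain ⟨k, hk⟩ := IsPGroup.iff_orderOf.mp R.isPGroup' ⟨r, hr⟩
      exact ⟨k, by rw [← hk]; exact (Subgroup.orderOf_mk r hr).symm⟩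
    have hsyl : IsSylIn p (R : Subgroup (F.autGroup P)) B :=
      (IsSylIn.of_sylow_top R).mono hRB le_top
    intro α hα
    obtain ⟨n, hn', hν⟩ := frattini hsyl (⟨α, hα⟩ : F.autGroup P) (conj_smul_eq_of_normal _ _)
    have hνext : ((n⁻¹ * ⟨α, hα⟩ : F.autGroup P) : MulAut P) ∈ extGen F P := by
      apply mem_extGen_of_normalizes_autS hS F hPS hrec _ (n⁻¹ * ⟨α, hα⟩ : F.autGroup P).2
      intro r hr
      have hrA : r ∈ F.autGroup P := autInducedBy_le_autGroup F hP hr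
      have h1 : (⟨r, hrA⟩ : F.autGroup P) ∈ (R : Subgroup (F.autGroup P)) := by
        rw [hR]; exact hr
      have h2 := (Subgroup.mem_normalizer_iff.mp hν ⟨r, hrA⟩).mp h1
      rw [hR] at h2
      exact h2
    have hnE : (n : MulAut P) ∈ (twSystem E F).autGroup P := by
      apply OP_le_tw p F E h hcen
      rw [← map_closure_eq]
      exact ⟨n, hn', rfl⟩
    have h3 : α = (n : MulAut P) * ((n⁻¹ * ⟨α, hα⟩ : F.autGroup P) : MulAut P) := by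
      simp
    rw [h3]
    exact Subgroup.mul_mem _ hnE (hext _ hνext)
  · intro α hα
    exact hext α (autGroup_subset_extGen_of_not_centric F hrec hcen hα)

/-- the factorization -/
theorem exists_factor (hS : IsPGroup p S) (F : FusionSystem S) (hF : F.IsSaturated p)
    (E : FusionSystem S)
    (h : ∀ P : Subgroup Ω, F.IsCentric P → OP p F P ≤ E.autGroup P) {P : Subgroup Ω}
    {φ : P →* Ω} (hφ : φ ∈ F.Hom P) :
    ∃ α ∈ F.autGroup S, ∃ φ₀ ∈ E.Hom P, ∀ (x : P) (hx : φ₀ x ∈ S),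
      φ x = ((α ⟨φ₀ x, hx⟩ : S) : Ω) := by
  have hPS : P ≤ S := le_of_hom F hφ
  obtain ⟨α, hα, ε, hε, H⟩ := (le_twSystem p hS F hF E h P hφ).2.1 1 (Subgroup.one_mem _)
  have hle : P ≤ imgAut (1 : MulAut S) P := fun x hx => ⟨⟨x, hPS hx⟩, hx, rfl⟩
  refine ⟨α⁻¹, Subgroup.inv_mem _ hα, _, restrict_mem E hε hle, fun x hx => ?_⟩
  have e1 := H ⟨x, hPS x.2⟩ x.2 ⟨φ x, (F.le_of_mem hφ).2 x⟩ rfl
  have e2 : (⟨(ε.comp (Subgroup.inclusion hle)) x, hx⟩ : S) = α ⟨φ x, (F.le_of_mem hφ).2 x⟩ :=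
    Subtype.ext e1
  rw [e2, MulAut.inv_apply_self]

theorem pElement_mem (hS : IsPGroup p S) (F : FusionSystem S) (hF : F.IsSaturated p)
    (E : FusionSystem S)
    (h : ∀ P : Subgroup Ω, F.IsCentric P → OP p F P ≤ E.autGroup P) {P : Subgroup Ω}
    (hPS : P ≤ S) {b : MulAut P} (hb : b ∈ F.autGroup P) {k : ℕ} (hk : orderOf b = p ^ k) :
    b ∈ E.autGroup P := by
  obtain ⟨P', hconj, hfn⟩ := exists_fullyNormalized_conj F hPS
  obtain ⟨e, he⟩ := (isConj_iff_exists_iso F).mp hconj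
  have hP'S := hfn.1
  obtain ⟨⟨-, R, hR⟩, -⟩ := sat_fullyNormalized p hS F hF hfn
  have := finite_autGroup F hP'S
  have hb' : MulAut.congr e b ∈ F.autGroup P' :=
    (Cfsg.Agent.Lib.Helper9_KNorm.congr_mem_autGroup F e he b).mp hb
  have hpow : (⟨MulAut.congr e b, hb'⟩ : F.autGroup P') ^ (p ^ k) = 1 := by
    apply Subtype.ext
    show (MulAut.congr e b) ^ (p ^ k) = 1
    rw [← map_pow, ← hk, pow_orderOf_eq_one, map_one]
  obtain ⟨γ, hγ⟩ := Cfsg.Agent.Lib.Helper9_FusionGroup.sylow_exists_conj R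
    (isPGroup_zpowers_of_pow hpow)
  have h1 := hγ _ (Subgroup.mem_zpowers _)
  have h2 : γ * ⟨MulAut.congr e b, hb'⟩ * γ⁻¹ ∈ (R : Subgroup (F.autGroup P')) := h1
  rw [hR] at h2
  have h3 : (γ : MulAut P') * MulAut.congr e b * (γ : MulAut P')⁻¹ ∈ autInducedBy S P' := h2
  rw [mem_autInducedBy_iff] at h3
  obtain ⟨s, hs, Hs⟩ := h3
  have hγF : IsHom F (MulEquiv.toMonoidHom (γ : MulAut P')) :=
    (mem_autGroup_iff_isHom F hP'S _).mp γ.2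
  have he' : IsHom F (e.trans (γ : MulAut P')).toMonoidHom := he.trans hγF
  obtain ⟨α, hα, φ₀, hφ₀, Hφ⟩ := exists_factor p hS F hF E h he'
  have hφ₀S : ∀ x, φ₀ x ∈ S := fun x => (E.le_of_mem hφ₀).2 x
  obtain ⟨e₀, he₀, he₀x⟩ := exists_iso_of_range_eq E hφ₀ rfl
  rw [Cfsg.Agent.Lib.Helper9_KNorm.congr_mem_autGroup E e₀ he₀ b]
  apply autInducedBy_le_autGroup E he₀.le_right
  rw [mem_autInducedBy_iff]
  refine ⟨(α⁻¹ ⟨s, hs⟩ : S), (α⁻¹ ⟨s, hs⟩ : S).2, fun x => ?_⟩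
  obtain ⟨u, rfl⟩ := e₀.surjective x
  show ((e₀ (b (e₀.symm (e₀ u))) : φ₀.range) : Ω) = _
  rw [MulEquiv.symm_apply_apply, he₀x, he₀x]
  -- the relation in `S`
  have r1 := Hφ (b u) (hφ₀S _)
  have r2 := Hφ u (hφ₀S _)
  have r3 := Hs ((γ : MulAut P') (e u))
  have r4 : (((γ : MulAut P') * MulAut.congr e b * (γ : MulAut P')⁻¹) ((γ : MulAut P') (e u)) : P')
      = (γ : MulAut P') (e (b u)) := by
    simp [MulAut.mul_apply, MulAut.congr]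
  rw [r4] at r3
  have r1' : (((γ : MulAut P') (e (b u)) : P') : Ω) = ((α ⟨φ₀ (b u), hφ₀S _⟩ : S) : Ω) := r1
  have r2' : (((γ : MulAut P') (e u) : P') : Ω) = ((α ⟨φ₀ u, hφ₀S _⟩ : S) : Ω) := r2
  rw [r1', r2'] at r3
  have r5 : α ⟨φ₀ (b u), hφ₀S _⟩ = ⟨s, hs⟩ * α ⟨φ₀ u, hφ₀S _⟩ * ⟨s, hs⟩⁻¹ := Subtype.ext r3
  have r6 := congrArg (fun t => ((α⁻¹ t : S) : Ω)) r5
  simp only [map_mul, map_inv, MulAut.inv_apply_self, Subgroup.coe_mul, Subgroup.coe_inv] at r6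
  exact r6

/-- S5114 -/
theorem main (hS : IsPGroup p S) (F : FusionSystem S) (hF : F.IsSaturated p)
    (E : FusionSystem S) (hEF : E.IsSubsystemOf F)
    (h : ∀ P : Subgroup Ω, F.IsCentric P →
      (Subgroup.closure {α : ↥(F.autGroup P) | ∃ k : ℕ, orderOf α = p ^ k}).map
        (F.autGroup P).subtype ≤ E.autGroup P) :
    E.HasPrimeToPIndexIn F p ∧ (∀ (P : Subgroup Ω) (φ : P →* Ω), φ ∈ F.Hom P →
      ∃ α ∈ F.autGroup S, ∃ φ₀ ∈ E.Hom P, ∀ (x : P) (hx : φ₀ x ∈ S),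
        φ x = ((α ⟨φ₀ x, hx⟩ : S) : Ω)) ∧ ∀ P : Subgroup Ω, E.IsCentric P ↔ F.IsCentric P := by
  have h' : ∀ P : Subgroup Ω, F.IsCentric P → OP p F P ≤ E.autGroup P := by
    intro P hP
    rw [← map_closure_eq]
    exact h P hP
  refine ⟨⟨hEF, fun P hP => ?_⟩, fun P φ hφ => exists_factor p hS F hF E h' hφ, fun P => ?_⟩
  · rw [map_closure_eq]
    apply (Subgroup.closure_le _).2
    rintro b ⟨hb, k, hk⟩
    exact pElement_mem p hS F hF E h' hP hb hk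
  · constructor
    · intro hP
      refine ⟨hP.1, ?_⟩
      rintro X ⟨φ, hφ, rfl⟩
      obtain ⟨α, hα, φ₀, hφ₀, Hφ⟩ := exists_factor p hS F hF E h' hφ
      have hφ₀S : ∀ x, φ₀ x ∈ S := fun x => (E.le_of_mem hφ₀).2 x
      have h0 := hP.2 φ₀.range ⟨φ₀, hφ₀, rfl⟩
      intro c hc
      have h1 : ((α⁻¹ ⟨c, hc.1⟩ : S) : Ω) ∈ centralizerIn S φ₀.range := by
        refine ⟨(α⁻¹ _).2, ?_⟩
        have h2 : ((α⁻¹ ⟨c, hc.1⟩ : S) : Ω) ∈ Subgroup.centralizer (φ₀.range : Set Ω) := by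
          rw [Subgroup.mem_centralizer_iff]
          rintro _ ⟨x, rfl⟩
          have h3 := Subgroup.mem_centralizer_iff.mp hc.2 (φ x) ⟨x, rfl⟩
          rw [Hφ x (hφ₀S x)] at h3
          have h4 : α ⟨φ₀ x, hφ₀S x⟩ * ⟨c, hc.1⟩ = ⟨c, hc.1⟩ * α ⟨φ₀ x, hφ₀S x⟩ := Subtype.ext h3
          have h5 := congrArg (fun t => ((α⁻¹ t : S) : Ω)) h4
          simp only [map_mul, MulAut.inv_apply_self, Subgroup.coe_mul] at h5
          exact h5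
        exact h2
      obtain ⟨x, hx⟩ := h0 h1
      refine ⟨x, ?_⟩
      rw [Hφ x (hφ₀S x)]
      have h6 : (⟨φ₀ x, hφ₀S x⟩ : S) = α⁻¹ ⟨c, hc.1⟩ := Subtype.ext hx
      rw [h6, MulAut.apply_inv_self]
    · intro hP
      exact centric_of_le_system (fun Q => hEF Q) hP

end Cfsg.Agent.Lib.Helper9_PrimeIdx
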