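import Cfsg.Statements.S1336

set_option autoImplicit false
open Cfsg
open scoped Pointwise

namespace Cfsg.Agent.Lib.Helper9_SE1

variable {G : Type*} [Group G]

abbrev cj (g : G) (A : Subgroup G) : Subgroup G := A.map (MulAut.conj g).toMonoidHom

def Vx (p : ℕ) (A : Subgroup G) : Prop := IsElementaryAbelian p A ∧ p ^ 1 ≤ Nat.card ↥A

abbrev Ad (p : ℕ) (A B : Subgroup G) : Prop :=
  IsElementaryAbelian p A ∧ p ^ 1 ≤ Nat.card ↥A ∧ IsElementaryAbelian p B ∧
        p ^ 1 ≤ Nat.card ↥B ∧ ∀ a ∈ A, ∀ b ∈ B, a * b = b * a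

abbrev Rr (p : ℕ) (A B : Subgroup G) : Prop := Relation.ReflTransGen (Ad p) A B

lemma mem_cj {g x : G} {A : Subgroup G} : x ∈ cj g A ↔ g⁻¹ * x * g ∈ A := by
  constructor
  · rintro ⟨a, ha, rfl⟩
    have : g⁻¹ * (g * a * g⁻¹) * g = a := by group
    simpa [MulAut.conj_apply, this] using ha
  · intro h
    refine ⟨_, h, ?_⟩
    simp only [MulEquiv.coe_toMonoidHom, MulAut.conj_apply]
    group

lemma ea_iff {p : ℕ} {A : Subgroup G} : IsElementaryAbelian p A ↔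
    (∀ a ∈ A, ∀ b ∈ A, a * b = b * a) ∧ ∀ a ∈ A, a ^ p = 1 := by
  constructor
  · rintro ⟨h1, h2⟩
    exact ⟨fun a ha b hb => congrArg Subtype.val (h1.is_comm.comm ⟨a, ha⟩ ⟨b, hb⟩), h2⟩
  · rintro ⟨h1, h2⟩
    exact ⟨⟨⟨fun a b => Subtype.ext (h1 a.1 a.2 b.1 b.2)⟩⟩, h2⟩

lemma card_cj (g : G) (A : Subgroup G) : Nat.card ↥(cj g A) = Nat.card ↥A :=
  Nat.card_congr (A.equivMapOfInjective _ (MulAut.conj g).injective).symm.toEquiv

lemma ea_cj {p : ℕ} {A : Subgroup G} (g : G) (h : IsElementaryAbelian p A) :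
    IsElementaryAbelian p (cj g A) := by
  rw [ea_iff] at h ⊢
  constructor
  · intro a ha b hb
    rw [mem_cj] at ha hb
    have := h.1 _ ha _ hb
    calc a * b = g * ((g⁻¹ * a * g) * (g⁻¹ * b * g)) * g⁻¹ := by group
      _ = g * ((g⁻¹ * b * g) * (g⁻¹ * a * g)) * g⁻¹ := by rw [this]
      _ = _ := by group
  · intro a ha
    rw [mem_cj] at ha
    have := h.2 _ ha
    have e : a = g * (g⁻¹ * a * g) * g⁻¹ := by group
    rw [e, conj_pow, this]; group

lemma ad_cj {p : ℕ} {A B : Subgroup G} (g : G) (h : Ad p A B) : Ad p (cj g A) (cj g B) := by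
  obtain ⟨h1, h2, h3, h4, h5⟩ := h
  refine ⟨ea_cj g h1, by rw [card_cj]; exact h2, ea_cj g h3, by rw [card_cj]; exact h4, ?_⟩
  intro a ha b hb
  rw [mem_cj] at ha hb
  have := h5 _ ha _ hb
  calc a * b = g * ((g⁻¹ * a * g) * (g⁻¹ * b * g)) * g⁻¹ := by group
    _ = g * ((g⁻¹ * b * g) * (g⁻¹ * a * g)) * g⁻¹ := by rw [this]
    _ = _ := by group

lemma rr_cj {p : ℕ} {A B : Subgroup G} (g : G) (h : Rr p A B) : Rr p (cj g A) (cj g B) := by
  induction h with
  | refl => exact Relation.ReflTransGen.refl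
  | tail _ h ih => exact ih.tail (ad_cj g h)

lemma rr_symm {p : ℕ} {A B : Subgroup G} (h : Rr p A B) : Rr p B A := by
  induction h with
  | refl => exact Relation.ReflTransGen.refl
  | tail _ h ih =>
    obtain ⟨h1, h2, h3, h4, h5⟩ := h
    exact Relation.ReflTransGen.head ⟨h3, h4, h1, h2, fun x hx y hy => (h5 y hy x hx).symm⟩ ih

lemma cj_mul (a b : G) (A : Subgroup G) : cj (a * b) A = cj a (cj b A) := by
  ext x
  rw [mem_cj, mem_cj, mem_cj]
  have : (a * b)⁻¹ * x * (a * b) = b⁻¹ * (a⁻¹ * x * a) * b := by group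
  rw [this]

lemma cj_one (A : Subgroup G) : cj 1 A = A := by
  ext x
  rw [mem_cj]; simp

lemma cj_inv_cj (a : G) (A : Subgroup G) : cj a⁻¹ (cj a A) = A := by
  rw [← cj_mul]; simp [cj_one]

lemma cj_cj_inv (a : G) (A : Subgroup G) : cj a (cj a⁻¹ A) = A := by
  rw [← cj_mul]; simp [cj_one]

lemma vx_zpowers {p : ℕ} [Fact p.Prime] {x : G} (hx : orderOf x = p) :
    IsElementaryAbelian p (Subgroup.zpowers x) ∧ p ^ 1 ≤ Nat.card ↥(Subgroup.zpowers x) := by
  constructor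
  · rw [ea_iff]
    constructor
    · intro a ha b hb
      obtain ⟨i, rfl⟩ := Subgroup.mem_zpowers_iff.1 ha
      obtain ⟨j, rfl⟩ := Subgroup.mem_zpowers_iff.1 hb
      exact (Commute.zpow_zpow_self x i j)
    · intro a ha
      obtain ⟨i, rfl⟩ := Subgroup.mem_zpowers_iff.1 ha
      rw [← zpow_natCast, ← zpow_mul, mul_comm, zpow_mul, zpow_natCast, ← hx, pow_orderOf_eq_one]
      simp
  · rw [Nat.card_zpowers, hx, pow_one]

lemma vx_dvd [Finite G] {p : ℕ} [hp : Fact p.Prime] {B : Subgroup G} (h1 : IsElementaryAbelian p B)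
    (h2 : p ^ 1 ≤ Nat.card ↥B) : p ∣ Nat.card ↥B := by
  have : 1 < Nat.card ↥B := lt_of_lt_of_le hp.out.one_lt (by simpa using h2)
  rw [Finite.one_lt_card_iff_nontrivial] at this
  obtain ⟨b, hb⟩ := exists_ne (1 : ↥B)
  have hb1 : b ^ p = 1 := Subtype.ext (h1.2 b.1 b.2)
  have := orderOf_eq_prime hb1 hb
  rw [← this]
  exact orderOf_dvd_natCard b

lemma vx_pgroup {p : ℕ} {B : Subgroup G} (h1 : IsElementaryAbelian p B) : IsPGroup p ↥B :=
  fun b => ⟨1, by rw [pow_one]; exact Subtype.ext (h1.2 b.1 b.2)⟩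

lemma rr_of_pgroup [Finite G] {p : ℕ} [hp : Fact p.Prime] {A B P : Subgroup G} (hP : IsPGroup p ↥P)
    (hA : IsElementaryAbelian p A) (hA' : p ^ 1 ≤ Nat.card ↥A)
    (hB : IsElementaryAbelian p B) (hB' : p ^ 1 ≤ Nat.card ↥B) (hAP : A ≤ P) (hBP : B ≤ P) :
    Rr p A B := by
  have hcP : 1 < Nat.card ↥P := by
    have h1 : Nat.card ↥A ≤ Nat.card ↥P := Nat.le_of_dvd Nat.card_pos (Subgroup.card_dvd_of_le hAP)
    exact lt_of_lt_of_le hp.out.one_lt ((by simpa using hA' : p ≤ Nat.card ↥A).trans h1)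
  have hnt : Nontrivial ↥P := Finite.one_lt_card_iff_nontrivial.1 hcP
  have hcn : Nontrivial ↥(Subgroup.center ↥P) := hP.center_nontrivial
  have hcp : IsPGroup p ↥(Subgroup.center ↥P) := hP.to_subgroup _
  obtain ⟨n, hn, hcard⟩ := hcp.nontrivial_iff_card.1 hcn
  have hdvd : p ∣ Nat.card ↥(Subgroup.center ↥P) := by rw [hcard]; exact dvd_pow_self p hn.ne'
  obtain ⟨z, hz⟩ := exists_prime_orderOf_dvd_card' p hdvd
  have hz' : orderOf ((z : ↥P) : G) = p := by
    rw [Subgroup.orderOf_coe, Subgroup.orderOf_coe]; exact hz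
  obtain ⟨v1, v2⟩ := vx_zpowers hz'
  have hcomm : ∀ a ∈ P, ∀ b ∈ Subgroup.zpowers ((z : ↥P) : G), a * b = b * a := by
    intro a ha b hb
    obtain ⟨i, rfl⟩ := Subgroup.mem_zpowers_iff.1 hb
    have h0 : a * ((z : ↥P) : G) = ((z : ↥P) : G) * a :=
      congrArg Subtype.val (Subgroup.mem_center_iff.1 z.2 ⟨a, ha⟩)
    exact (Commute.zpow_right (show Commute a _ from h0) i)
  have s1 : Ad p A (Subgroup.zpowers ((z : ↥P) : G)) :=
    ⟨hA, hA', v1, v2, fun a ha b hb => hcomm a (hAP ha) b hb⟩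
  have s2 : Ad p (Subgroup.zpowers ((z : ↥P) : G)) B :=
    ⟨v1, v2, hB, hB', fun a ha b hb => (hcomm b (hBP hb) a ha).symm⟩
  exact (Relation.ReflTransGen.single s1).tail s2

def Hs (p : ℕ) (E : Subgroup G) : Subgroup G where
  carrier := {g | Rr p E (cj g E)}
  one_mem' := by
    show Rr p E (cj 1 E)
    rw [cj_one]
  mul_mem' := by
    intro a b ha hb
    show Rr p E (cj (a * b) E)
    rw [cj_mul]
    exact Relation.ReflTransGen.trans ha (rr_cj a hb)
  inv_mem' := by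
    intro a ha
    show Rr p E (cj a⁻¹ E)
    have := rr_symm (rr_cj a⁻¹ ha)
    rwa [cj_inv_cj] at this

theorem forward [Finite G] (p : ℕ) [Fact p.Prime] (H : Subgroup G) (hne : H ≠ ⊤)
    (hp : p ∣ Nat.card ↥H)
    (hs : ∀ g : G, g ∉ H → ¬ p ∣ Nat.card ↥(H ⊓ H.map (MulAut.conj g).toMonoidHom)) :
    ¬ IsKConnected p 1 G := by
  intro hconn
  obtain ⟨x, hx⟩ := exists_prime_orderOf_dvd_card' p hp
  have hx' : orderOf (x : G) = p := by rw [Subgroup.orderOf_coe]; exact hx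
  obtain ⟨v1, v2⟩ := vx_zpowers hx'
  have hEH : Subgroup.zpowers (x : G) ≤ H := by rw [Subgroup.zpowers_le]; exact x.2
  obtain ⟨g, hg⟩ : ∃ g, g ∉ H := by
    by_contra hcon
    push Not at hcon
    exact hne ((Subgroup.eq_top_iff' H).2 hcon)
  have key : ∀ B, Rr p (Subgroup.zpowers (x : G)) B → B ≤ H := by
    intro B hB
    induction hB with
    | refl => exact hEH
    | @tail B C _ hadj ih =>
      intro c hc
      by_contra hcH
      apply hs c hcH
      obtain ⟨h1, h2, h3, h4, h5⟩ := hadj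
      refine (vx_dvd h1 h2).trans (Subgroup.card_dvd_of_le ?_)
      intro b hb
      refine ⟨ih hb, ?_⟩
      show b ∈ cj c H
      rw [mem_cj]
      have : c⁻¹ * b * c = b := by rw [mul_assoc, h5 b hb c hc]; group
      rw [this]; exact ih hb
  have h1 := key _ (hconn _ (cj g (Subgroup.zpowers (x : G))) v1 v2 (ea_cj g v1)
    (by rw [card_cj]; exact v2))
  apply hs g hg
  have hd : p ∣ Nat.card ↥(cj g (Subgroup.zpowers (x : G))) :=
    vx_dvd (ea_cj g v1) (by rw [card_cj]; exact v2)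
  refine hd.trans (Subgroup.card_dvd_of_le ?_)
  exact le_inf h1 (Subgroup.map_mono hEH)

lemma sylow_conj_le [Finite G] {p : ℕ} [Fact p.Prime] {A B : Subgroup G} (hA : IsPGroup p ↥A)
    (hB : IsPGroup p ↥B) : ∃ (g : G) (P : Subgroup G), IsPGroup p ↥P ∧ A ≤ P ∧ cj g B ≤ P := by
  obtain ⟨P, hP⟩ := hA.exists_le_sylow
  obtain ⟨Q, hQ⟩ := hB.exists_le_sylow
  obtain ⟨g, hg⟩ := MulAction.exists_smul_eq G Q P
  refine ⟨g, P, P.2, hP, ?_⟩
  rintro _ ⟨b, hb, rfl⟩
  have h1 : MulAut.conj g • b ∈ MulAut.conj g • (Q : Subgroup G) :=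
    Subgroup.smul_mem_pointwise_smul _ _ _ (hQ hb)
  rw [← Sylow.coe_subgroup_smul, hg] at h1
  exact h1

lemma sylow_conj_le_in [Finite G] {p : ℕ} [Fact p.Prime] {A B H : Subgroup G} (hA : IsPGroup p ↥A)
    (hB : IsPGroup p ↥B) (hAH : A ≤ H) (hBH : B ≤ H) :
    ∃ g ∈ H, ∃ P : Subgroup G, IsPGroup p ↥P ∧ A ≤ P ∧ cj g B ≤ P := by
  have hA' : IsPGroup p ↥(A.subgroupOf H) :=
    hA.comap_of_injective H.subtype H.subtype_injective
  have hB' : IsPGroup p ↥(B.subgroupOf H) :=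
    hB.comap_of_injective H.subtype H.subtype_injective
  obtain ⟨g, P, hP, h1, h2⟩ := sylow_conj_le hA' hB'
  refine ⟨g.1, g.2, P.map H.subtype, hP.map _, ?_, ?_⟩
  · intro a ha
    exact ⟨⟨a, hAH ha⟩, h1 (Subgroup.mem_subgroupOf.2 ha), rfl⟩
  · intro y hy
    rw [mem_cj] at hy
    have hyH : y ∈ H := by
      have := H.mul_mem (H.mul_mem g.2 (hBH hy)) (H.inv_mem g.2)
      have e : (g : G) * ((g : G)⁻¹ * y * g) * (g : G)⁻¹ = y := by group
      rwa [e] at this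
    refine ⟨⟨y, hyH⟩, h2 ?_, rfl⟩
    rw [mem_cj, Subgroup.mem_subgroupOf]
    exact hy

theorem backward [Finite G] (p : ℕ) [Fact p.Prime] (hnc : ¬ IsKConnected p 1 G) :
    ∃ H : Subgroup G, H ≠ ⊤ ∧ p ∣ Nat.card ↥H ∧
      ∀ g : G, g ∉ H → ¬ p ∣ Nat.card ↥(H ⊓ H.map (MulAut.conj g).toMonoidHom) := by
  unfold IsKConnected at hnc
  push Not at hnc
  obtain ⟨E, E', hE, hcE, hE', hcE', hnR⟩ := hnc
  have hEH : E ≤ Hs p E := by
    intro e he
    show Rr p E (cj e E)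
    have : cj e E = E := by
      ext x
      rw [mem_cj]
      constructor
      · intro h
        have := E.mul_mem (E.mul_mem he h) (E.inv_mem he)
        have e' : e * (e⁻¹ * x * e) * e⁻¹ = x := by group
        rwa [e'] at this
      · intro h
        exact E.mul_mem (E.mul_mem (E.inv_mem he) h) he
    rw [this]
  have claimK : ∀ X : Subgroup G, IsElementaryAbelian p X → p ^ 1 ≤ Nat.card ↥X → X ≤ Hs p E →
      Rr p E X := by
    intro X hX hcX hXH
    obtain ⟨h, hh, P, hP, h1, h2⟩ := sylow_conj_le_in (vx_pgroup hE) (vx_pgroup hX) hEH hXH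
    have r1 : Rr p E (cj h X) :=
      rr_of_pgroup hP hE hcE (ea_cj h hX) (by rw [card_cj]; exact hcX) h1 h2
    have r2 := rr_cj h⁻¹ r1
    rw [cj_inv_cj] at r2
    exact Relation.ReflTransGen.trans ((Hs p E).inv_mem hh) r2
  refine ⟨Hs p E, ?_, (vx_dvd hE hcE).trans (Subgroup.card_dvd_of_le hEH), ?_⟩
  · intro htop
    apply hnR
    exact claimK E' hE' hcE' (by rw [htop]; exact le_top)
  · intro g hg hdvd
    apply hg
    obtain ⟨x, hx⟩ := exists_prime_orderOf_dvd_card' p hdvd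
    have hx' : orderOf (x : G) = p := by rw [Subgroup.orderOf_coe]; exact hx
    obtain ⟨v1, v2⟩ := vx_zpowers hx'
    have hX1 : Subgroup.zpowers (x : G) ≤ Hs p E := by
      rw [Subgroup.zpowers_le]; exact x.2.1
    have hX2 : Subgroup.zpowers (x : G) ≤ cj g (Hs p E) := by
      rw [Subgroup.zpowers_le]; exact x.2.2
    have hX3 : cj g⁻¹ (Subgroup.zpowers (x : G)) ≤ Hs p E := by
      have := Subgroup.map_mono (f := (MulAut.conj g⁻¹).toMonoidHom) hX2
      have e := cj_inv_cj g (Hs p E)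
      exact this.trans e.le
    have r1 := claimK _ v1 v2 hX1
    have r2 := rr_cj g (claimK _ (ea_cj g⁻¹ v1) (by rw [card_cj]; exact v2) hX3)
    rw [cj_cj_inv] at r2
    exact Relation.ReflTransGen.trans r1 (rr_symm r2)

end Cfsg.Agent.Lib.Helper9_SE1
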