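import Mathlib
import Cfsg.Prelude.Def_FusionSystem
import Cfsg.Agent.Lib.Helper9_Centric
import Cfsg.Agent.Lib.Helper9_FusionGroup

set_option autoImplicit false

namespace Cfsg.Agent.Lib.Helper9_Simple

open Cfsg Cfsg.FusionSystem Cfsg.Agent.Lib.Helper9_FusionBasic Cfsg.Agent.Lib.Helper9_FusionSat
open Cfsg.Agent.Lib.Helper9_FusionNormal Cfsg.Agent.Lib.Helper9_Alperin
open Cfsg.Agent.Lib.Helper9_AlperinCor Cfsg.Agent.Lib.Helper9_Induct
open Cfsg.Agent.Lib.Helper9_Centric Cfsg.Agent.Lib.Helper9_FusionGroup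

variable {Ω : Type*} [Group Ω] {S : Subgroup Ω}

/-- for an invariant subsystem over the same group, `Aut_E(R)` is normalized by `Aut_F(R)` -/
theorem invariant_aut_normal {E F : FusionSystem S} (hinv : E.IsInvariantIn F) {R : Subgroup Ω}
    (hR : R ≤ S) (α : MulAut R) (hα : α ∈ F.autGroup R) (β : MulAut R) (hβ : β ∈ E.autGroup R) :
    α * β * α⁻¹ ∈ E.autGroup R := by
  obtain ⟨-, -, hinv3, hfr⟩ := hinv
  obtain ⟨γ, hγ, φ₀, hφ₀, hαγ⟩ := hfr R hR _ ((mem_autGroup_iff F hR α).mp hα)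
  have hφ₀S : ∀ x : R, φ₀ x ∈ S := fun x => map_mem_of_hom E hφ₀ x
  obtain ⟨χ₀, hχ₀, hχ1, -, hχ3⟩ := exists_inv E hφ₀ rfl
  have hχ₀R : ∀ y : φ₀.range, χ₀ y ∈ R := by
    rintro ⟨_, x, rfl⟩
    have hx' : φ₀ x ∈ φ₀.range := ⟨x, rfl⟩
    rw [hχ1 x hx']
    exact x.2
  have hβ' := (mem_autGroup_iff E hR β).mp hβ
  have h1 := F.le_of_mem ((mem_autGroup_iff F hR α).mp hα)
  have hδ₁ : (R.subtype.comp β.toMonoidHom).comp (χ₀.codRestrict R hχ₀R) ∈ E.Hom φ₀.range :=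
    E.comp_mem hχ₀ hβ' hχ₀R
  have hδval : ∀ y : φ₀.range,
      ((R.subtype.comp β.toMonoidHom).comp (χ₀.codRestrict R hχ₀R)) y ∈ R :=
    fun y => (β _).2
  have hδ := E.comp_mem hδ₁ hφ₀ hδval
  have hR₀S : φ₀.range ≤ S := range_le_of_hom E hφ₀
  obtain ⟨χ, hχ, hχe⟩ := hinv3 φ₀.range hR₀S _ hδ γ hγ
  have hX : (φ₀.range.subgroupOf S).map (S.subtype.comp γ.toMonoidHom) = R := by
    ext y
    constructor
    · rintro ⟨s, ⟨x, hx⟩, rfl⟩
      have h2 := hαγ x (hφ₀S x)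
      have h3 : (⟨φ₀ x, hφ₀S x⟩ : S) = s := Subtype.ext hx
      rw [h3] at h2
      show ((γ s : S) : Ω) ∈ R
      rw [← h2]
      exact (α x).2
    · intro hy
      refine ⟨⟨φ₀ (α⁻¹ ⟨y, hy⟩), hφ₀S _⟩, ⟨α⁻¹ ⟨y, hy⟩, rfl⟩, ?_⟩
      have h2 := hαγ (α⁻¹ ⟨y, hy⟩) (hφ₀S _)
      show ((γ ⟨φ₀ (α⁻¹ ⟨y, hy⟩), hφ₀S _⟩ : S) : Ω) = y
      rw [← h2]
      simp
  generalize hX' : (φ₀.range.subgroupOf S).map (S.subtype.comp γ.toMonoidHom) = X at χ hχ hχe
  have hXR : X = R := hX'.symm.trans hX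
  subst hXR
  apply mem_autGroup_of E hχ
  intro y
  rw [MulAut.mul_apply, MulAut.mul_apply]
  -- apply `hχe` at the point `φ₀ (α⁻¹ y)`
  have hy₀ : φ₀ (α⁻¹ y) ∈ φ₀.range := ⟨_, rfl⟩
  have h2 := hαγ (α⁻¹ y) (hφ₀S _)
  have h2' : (y : Ω) = ((γ ⟨φ₀ (α⁻¹ y), hφ₀S _⟩ : S) : Ω) := by
    rw [← h2]; simp
  have h3 := hχe ⟨φ₀ (α⁻¹ y), hy₀⟩ (map_mem_of_hom E hδ _) (by rw [← h2']; exact y.2)
  have h4 : (⟨((γ ⟨((⟨φ₀ (α⁻¹ y), hy₀⟩ : φ₀.range) : Ω), hR₀S hy₀⟩ : S) : Ω),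
      (by rw [← h2']; exact y.2)⟩ : X) = y := Subtype.ext h2'.symm
  rw [h4] at h3
  rw [h3]
  have h5 : (χ₀.codRestrict X hχ₀R) ⟨φ₀ (α⁻¹ y), hy₀⟩ = α⁻¹ y := Subtype.ext (hχ1 _ hy₀)
  have h6 := hαγ (β (α⁻¹ y)) (hφ₀S _)
  have h7 : ((α (β (α⁻¹ y)) : X) : Ω) = ((γ ⟨φ₀ (β (α⁻¹ y)), hφ₀S _⟩ : S) : Ω) := h6
  rw [h7]
  congr 2
  apply Subtype.ext
  show φ₀ (β (α⁻¹ y)) = φ₀ ⟨((β ((χ₀.codRestrict X hχ₀R) ⟨φ₀ (α⁻¹ y), hy₀⟩) : X) : Ω), _⟩
  congr 1
  apply Subtype.ext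
  show ((β (α⁻¹ y) : X) : Ω) = ((β ((χ₀.codRestrict X hχ₀R) ⟨φ₀ (α⁻¹ y), hy₀⟩) : X) : Ω)
  rw [h5]

/-- a normal subgroup containing a Sylow `p`-subgroup contains all `p`-elements -/
theorem mem_of_normal_of_sylow_le {A : Type*} [Group A] [Finite A] {p : ℕ} [Fact p.Prime]
    (B : Subgroup A) [B.Normal] (R : Sylow p A) (hRB : (R : Subgroup A) ≤ B) (a : A) (k : ℕ)
    (ha : a ^ (p ^ k) = 1) : a ∈ B := by
  obtain ⟨g, hg⟩ := exists_conj_range_le_sylow (isPGroup_zpowers_of_pow ha)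
    (Subgroup.zpowers a).subtype R
  have h1 : g * a * g⁻¹ ∈ B := hRB (hg ⟨a, Subgroup.mem_zpowers a⟩)
  have h2 := (inferInstance : B.Normal).conj_mem _ h1 g⁻¹
  have h3 : g⁻¹ * (g * a * g⁻¹) * g⁻¹⁻¹ = a := by group
  rwa [h3] at h2

/-- an invariant subsystem over the same `S` contains the `p`-elements of `Aut_F(R)`,
`R` fully normalized -/
theorem invariant_aut_pElement [Finite S] (p : ℕ) [Fact p.Prime] (hS : IsPGroup p S)
    {E F : FusionSystem S} (hF : F.IsSaturated p) (hinv : E.IsInvariantIn F) {R : Subgroup Ω}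
    (hfn : F.IsFullyNormalized R) (α : MulAut R) (hα : α ∈ F.autGroup R) (k : ℕ)
    (hk : α ^ (p ^ k) = 1) : α ∈ E.autGroup R := by
  have hR := hfn.1
  obtain ⟨⟨-, T, hT⟩, -⟩ := sat_fullyNormalized p hS F hF hfn
  have := finite_autGroup F hR
  have hBn : ((E.autGroup R).subgroupOf (F.autGroup R)).Normal := by
    constructor
    intro β hβ α
    exact invariant_aut_normal hinv hR α α.2 β hβ
  have hTB : (T : Subgroup (F.autGroup R)) ≤ (E.autGroup R).subgroupOf (F.autGroup R) := by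
    rw [hT]
    exact Subgroup.subgroupOf_mono _ (autInducedBy_le_autGroup E hR)
  exact mem_of_normal_of_sylow_le _ T hTB ⟨α, hα⟩ k (Subtype.ext hk)

/-- an invariant subsystem `E` of `F` over the same `S` with `Aut_F(S) ≤ Aut_E(S)` is `F` -/
theorem eq_of_invariant_of_autS {E F : FusionSystem S} (hinv : E.IsInvariantIn F)
    (h : F.autGroup S ≤ E.autGroup S) (P : Subgroup Ω) : E.Hom P = F.Hom P := by
  obtain ⟨hsub, -, -, hfr⟩ := hinv
  apply Set.Subset.antisymm (hsub P)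
  intro φ hφ
  obtain ⟨α, hα, φ₀, hφ₀, h1⟩ := hfr P (le_of_hom F hφ) φ hφ
  have hval : ∀ x : P, φ₀ x ∈ S := fun x => map_mem_of_hom E hφ₀ x
  exact comp_mem' E hφ₀ ((mem_autGroup_iff E le_rfl α).mp (h hα)) hval φ (fun x => h1 x (hval x))

/-- S5160 -/
theorem group_simple_criterion {G : Type*} [Group G] [Finite G] (p : ℕ) [Fact p.Prime]
    (S : Sylow p G) (hS1 : (S : Subgroup G) ≠ ⊥)
    (ha : ∀ T : Subgroup G, (groupFusionSystem (S : Subgroup G)).StronglyClosed T →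
      T = ⊥ ∨ T = (S : Subgroup G))
    (hb : autInducedBy ⊤ (S : Subgroup G) = ⨆ (R : Subgroup G)
      (_ : (groupFusionSystem (S : Subgroup G)).IsFullyNormalized R ∧
        (groupFusionSystem (S : Subgroup G)).IsRadical p R ∧
        (groupFusionSystem (S : Subgroup G)).IsCentric R),
      autInducedBy (Subgroup.closure {g : G | g ∈ Subgroup.normalizer (R : Set G) ∧
        ∃ k : ℕ, orderOf g = p ^ k}) (S : Subgroup G)) :
    (groupFusionSystem (S : Subgroup G)).IsSimple p := by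
  have hF := group_saturated S
  have hSp : IsPGroup p (S : Subgroup G) := S.2
  refine ⟨hF, hS1, fun T E hE => ?_⟩
  obtain ⟨⟨hEsat, -, hinv⟩, -⟩ := hE
  rcases ha T hinv.2.1 with h | h
  · exact Or.inl h
  · right
    refine ⟨h, ?_⟩
    subst h
    apply eq_of_invariant_of_autS hinv
    rw [group_autGroup_eq _ le_rfl, hb]
    apply iSup_le
    intro R
    apply iSup_le
    rintro ⟨hfn, -, hc⟩
    have hR := hfn.1
    intro α hα
    rw [mem_autInducedBy_iff] at hα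
    obtain ⟨g, hg, hgα⟩ := hα
    -- elements of the closure normalize `R` and induce elements of `Aut_E(R)`
    have hcl : Subgroup.closure {g : G | g ∈ Subgroup.normalizer (R : Set G) ∧
        ∃ k : ℕ, orderOf g = p ^ k} ≤
        ((E.autGroup R).comap R.normalizerMonoidHom).map
          (Subgroup.normalizer (R : Set G)).subtype := by
      rw [Subgroup.closure_le]
      rintro x ⟨hxN, k, hk⟩
      refine ⟨⟨x, hxN⟩, ?_, rfl⟩
      show R.normalizerMonoidHom ⟨x, hxN⟩ ∈ E.autGroup R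
      apply invariant_aut_pElement p hSp hF hinv hfn _ _ k
      · rw [← map_pow]
        have : (⟨x, hxN⟩ : Subgroup.normalizer (R : Set G)) ^ (p ^ k) = 1 := by
          apply Subtype.ext
          show x ^ (p ^ k) = 1
          rw [← hk]
          exact pow_orderOf_eq_one x
        rw [this, map_one]
      · rw [group_autGroup_eq _ hR, mem_autInducedBy_iff]
        exact ⟨x, Subgroup.mem_top x, fun y => rfl⟩
    obtain ⟨n, hn, hng⟩ := hcl hg
    have hn' : R.normalizerMonoidHom n ∈ E.autGroup R := hn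
    have hαF : ((S : Subgroup G)).subtype.comp α.toMonoidHom ∈
        (groupFusionSystem (S : Subgroup G)).Hom (S : Subgroup G) :=
      ⟨le_rfl, fun x => (α x).2, g, hgα⟩
    rw [mem_autGroup_iff E le_rfl]
    apply mem_of_restrict_centric p hSp _ hF E hEsat hinv.1 _ hαF _ R rfl hR hc
    have h1 := (mem_autGroup_iff E hR _).mp hn'
    have h2 : (((S : Subgroup G)).subtype.comp α.toMonoidHom).comp (Subgroup.inclusion hR) =
        R.subtype.comp (R.normalizerMonoidHom n).toMonoidHom := by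
      ext x
      show ((α (Subgroup.inclusion hR x) : (S : Subgroup G)) : G) = (n : G) * x * (n : G)⁻¹
      rw [hgα]
      have : (n : G) = g := hng
      rw [this]
      rfl
    rw [h2]
    exact h1

end Cfsg.Agent.Lib.Helper9_Simple
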