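import Mathlib
import Cfsg.Prelude.Def_FusionSystem
import Cfsg.Prelude.Def_FusionComponents
import Cfsg.Agent.Lib.Helper9_Solvable

set_option autoImplicit false

namespace Cfsg.Agent.Lib.Helper9_Solvable2

open Cfsg Cfsg.FusionSystem Cfsg.Agent.Lib.Helper9_FusionBasic Cfsg.Agent.Lib.Helper9_FusionSat
  Cfsg.Agent.Lib.Helper9_FusionNormal Cfsg.Agent.Lib.Helper9_AlperinCor
  Cfsg.Agent.Lib.Helper9_Factor Cfsg.Agent.Lib.Helper9_Factor2 Cfsg.Agent.Lib.Helper9_Factor3
  Cfsg.Agent.Lib.Helper9_Factor4 Cfsg.Agent.Lib.Helper9_Image Cfsg.Agent.Lib.Helper9_Chain3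
  Cfsg.Agent.Lib.Helper9_Solvable

open scoped commutatorElement

variable {Ω : Type*} [Group Ω] {S : Subgroup Ω} {Ω' : Type*} [Group Ω'] {S' : Subgroup Ω'}

/-- one abelian step between strongly closed subgroups -/
def Step (F : FusionSystem S) (A B : Subgroup Ω) : Prop :=
  F.StronglyClosed B ∧ A ≤ B ∧ ⁅B, B⁆ ≤ A

theorem solvable_of_reach [Finite S] (p : ℕ) [Fact p.Prime] (hS : IsPGroup p S)
    (F : FusionSystem S) (hF : F.IsSaturated p) (h : Relation.ReflTransGen (Step F) ⊥ S) :
    F.IsSolvableSystem := by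
  intro R hR hne hn E hE
  have hmor := surjectiveMorphism_of_factor p hS F hF R hR _ E hE
  have hEsat := image_saturated p hS hF hmor
  have hEp := isPGroup_top_quotient hS (R.subgroupOf S)
  have key : ∀ B : Subgroup Ω, Relation.ReflTransGen (Step F) ⊥ B → B ≤ R ∨ E.core ≠ ⊥ := by
    intro B hB
    induction hB with
    | refl => left; exact bot_le
    | @tail A B _ hAB ih =>
      obtain ⟨hscB, hAleB, hab⟩ := hAB
      rcases ih with ih | ih
      · by_cases hle : B ≤ R
        · left; exact hle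
        · right
          have hU := stronglyClosed_sup p hS F hF hscB hR
          have hker : ((QuotientGroup.mk' (R.subgroupOf S)).ker).map S.subtype ≤ B ⊔ R := by
            rintro _ ⟨s, hs, rfl⟩
            exact Subgroup.mem_sup_right ((mk_ker_iff R s).1 hs)
          have hU' := image_stronglyClosed hmor hU hker
          have hrep : ∀ y ∈ imageAlong (QuotientGroup.mk' (R.subgroupOf S)) (B ⊔ R),
              ∃ t : S, (t : Ω) ∈ B ∧ (QuotientGroup.mk' (R.subgroupOf S)) t = y := by
            rintro _ ⟨u, hu, rfl⟩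
            obtain ⟨t, ht, r, hr, hutr⟩ := exists_mul_of_mem_sup
              (hscB.1.trans (stronglyClosed_le_normalizer hR)) hu
            refine ⟨⟨t, hscB.1 ht⟩, ht, ?_⟩
            have e : u = ⟨t, hscB.1 ht⟩ * ⟨r, hR.1 hr⟩ := Subtype.ext hutr
            rw [e, map_mul, (mk_ker_iff R ⟨r, hR.1 hr⟩).2 hr, mul_one]
          have hcomm : IsMulCommutative
              ↥(imageAlong (QuotientGroup.mk' (R.subgroupOf S)) (B ⊔ R)) := by
            refine ⟨⟨fun a b => Subtype.ext ?_⟩⟩
            obtain ⟨t, ht, hta⟩ := hrep a a.2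
            obtain ⟨t', ht', htb⟩ := hrep b b.2
            show (a : S ⧸ R.subgroupOf S) * b = b * a
            rw [← hta, ← htb, ← commutatorElement_eq_one_iff_mul_comm, ← map_commutatorElement,
              mk_ker_iff]
            exact ih (hab (Subgroup.commutator_mem_commutator ht ht'))
          have hnor := isNormal_of_abelian_stronglyClosed p hEp E hEsat hcomm hU'
          intro hbot
          apply hle
          intro t ht
          have h1 : (QuotientGroup.mk' (R.subgroupOf S)) ⟨t, hscB.1 ht⟩ ∈ E.core :=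
            (le_sSup (a := imageAlong (QuotientGroup.mk' (R.subgroupOf S)) (B ⊔ R)) hnor)
              ⟨⟨t, hscB.1 ht⟩, Subgroup.mem_sup_left ht, rfl⟩
          rw [hbot, Subgroup.mem_bot, mk_ker_iff] at h1
          exact h1
      · right; exact ih
  rcases key S h with h | h
  · exact absurd (le_antisymm hR.1 h) hne
  · exact h

/-- the part of `U` stable under a group of automorphisms of `T` -/
def star {T : Subgroup Ω} (A : Subgroup (MulAut T)) (U : Subgroup Ω) : Subgroup Ω where
  carrier := {y | ∃ hy : y ∈ T, ∀ α ∈ A, ((α ⟨y, hy⟩ : T) : Ω) ∈ U}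
  one_mem' := ⟨T.one_mem, fun α _ => by
    have : (⟨1, T.one_mem⟩ : T) = 1 := rfl
    rw [this, map_one]
    exact U.one_mem⟩
  mul_mem' := by
    rintro a b ⟨ha, ha'⟩ ⟨hb, hb'⟩
    refine ⟨T.mul_mem ha hb, fun α hα => ?_⟩
    have : (⟨a * b, T.mul_mem ha hb⟩ : T) = ⟨a, ha⟩ * ⟨b, hb⟩ := rfl
    rw [this, map_mul]
    exact U.mul_mem (ha' α hα) (hb' α hα)
  inv_mem' := by
    rintro a ⟨ha, ha'⟩
    refine ⟨T.inv_mem ha, fun α hα => ?_⟩
    have : (⟨a⁻¹, T.inv_mem ha⟩ : T) = ⟨a, ha⟩⁻¹ := rfl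
    rw [this, map_inv]
    exact U.inv_mem (ha' α hα)

theorem mem_star {T : Subgroup Ω} (A : Subgroup (MulAut T)) (U : Subgroup Ω) (y : Ω) :
    y ∈ star A U ↔ ∃ hy : y ∈ T, ∀ α ∈ A, ((α ⟨y, hy⟩ : T) : Ω) ∈ U := Iff.rfl

theorem star_le {T : Subgroup Ω} (A : Subgroup (MulAut T)) (U : Subgroup Ω) : star A U ≤ U := by
  rintro _ ⟨hy, h⟩
  exact h 1 A.one_mem

theorem star_le_base {T : Subgroup Ω} (A : Subgroup (MulAut T)) (U : Subgroup Ω) :
    star A U ≤ T := fun _ h => h.1

theorem star_mono {T : Subgroup Ω} (A : Subgroup (MulAut T)) {U V : Subgroup Ω} (h : U ≤ V) :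
    star A U ≤ star A V := fun _ hy => ⟨hy.1, fun α hα => h (hy.2 α hα)⟩

theorem star_self {T : Subgroup Ω} (A : Subgroup (MulAut T)) : star A T = T :=
  le_antisymm (star_le A T) (fun _ hy => ⟨hy, fun α _ => (α _).2⟩)

theorem star_bot {T : Subgroup Ω} (A : Subgroup (MulAut T)) : star A ⊥ = ⊥ :=
  le_bot_iff.1 (star_le A ⊥)

theorem star_stronglyClosed {T : Subgroup Ω} {E : FusionSystem T} {F : FusionSystem S}
    (hE : E.IsInvariantIn F) {U : Subgroup Ω} (hU : E.StronglyClosed U) :
    F.StronglyClosed (star (F.autGroup T) U) := by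
  obtain ⟨hEF, hT, hinv, hfrat⟩ := hE
  refine ⟨(star_le_base _ U).trans hT.1, fun R hR φ hφ x => ?_⟩
  have hRT : R ≤ T := hR.trans (star_le_base _ U)
  obtain ⟨α, hα, φ₀, hφ₀, hx⟩ := hfrat R hRT φ hφ
  have hφ₀T := map_mem_of_hom E hφ₀
  -- `φ₀ x` lies in the star
  have h0 : ∀ γ ∈ F.autGroup T, ((γ ⟨φ₀ x, hφ₀T x⟩ : T) : Ω) ∈ U := by
    intro γ hγ
    obtain ⟨χ, hχ, hχx⟩ := hinv R hRT φ₀ hφ₀ γ hγ
    have hle : (R.subgroupOf T).map (T.subtype.comp γ.toMonoidHom) ≤ U := by
      rintro _ ⟨y, hy, rfl⟩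
      obtain ⟨_, h1⟩ := hR hy
      exact h1 γ hγ
    have hmem : ((γ ⟨x, hRT x.2⟩ : T) : Ω) ∈ (R.subgroupOf T).map (T.subtype.comp γ.toMonoidHom) :=
      ⟨⟨x, hRT x.2⟩, x.2, rfl⟩
    rw [← hχx x (hφ₀T x) hmem]
    exact hU.2 _ hle χ hχ _
  rw [hx x (hφ₀T x)]
  refine ⟨(α _).2, fun β hβ => ?_⟩
  exact h0 (β * α) (Subgroup.mul_mem _ hβ hα)

theorem star_step {T : Subgroup Ω} {E : FusionSystem T} {F : FusionSystem S}
    (hE : E.IsInvariantIn F) {U V : Subgroup Ω} (hV : E.StronglyClosed V) (hUV : U ≤ V)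
    (hab : ⁅V, V⁆ ≤ U) : Step F (star (F.autGroup T) U) (star (F.autGroup T) V) := by
  refine ⟨star_stronglyClosed hE hV, star_mono _ hUV, ?_⟩
  rw [Subgroup.commutator_le]
  rintro a ⟨ha, ha'⟩ b ⟨hb, hb'⟩
  refine ⟨(commutator_self_le T) (Subgroup.commutator_mem_commutator ha hb), fun α hα => ?_⟩
  have : (⟨⁅a, b⁆, (commutator_self_le T) (Subgroup.commutator_mem_commutator ha hb)⟩ : T) =
      ⁅(⟨a, ha⟩ : T), ⟨b, hb⟩⁆ := rfl
  rw [this, map_commutatorElement]
  exact hab (Subgroup.commutator_mem_commutator (ha' α hα) (hb' α hα))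

theorem preimageAlong_mono (θ : S →* Ω') {A B : Subgroup Ω'} (h : A ≤ B) :
    preimageAlong θ A ≤ preimageAlong θ B := by
  intro x hx
  obtain ⟨hxS, h1⟩ := (mem_preimageAlong θ A x).1 hx
  exact (mem_preimageAlong θ B x).2 ⟨hxS, h h1⟩

theorem imageAlong_mono (θ : S →* Ω') {A B : Subgroup Ω} (h : A ≤ B) :
    imageAlong θ A ≤ imageAlong θ B := by
  rintro _ ⟨x, hx, rfl⟩
  exact ⟨x, h hx, rfl⟩

/-- S5159 -/
theorem solvable_iff_normal_factor [Finite S] (p : ℕ) [Fact p.Prime] (hS : IsPGroup p S)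
    (F : FusionSystem S) (hF : F.IsSaturated p) {T : Subgroup Ω} (E : FusionSystem T)
    (hE : E.IsNormalIn F p) (θ : S →* Ω') (D : FusionSystem S') (hD : F.IsFactorSystem T θ D) :
    F.IsSolvableSystem ↔ (E.IsSolvableSystem ∧ D.IsSolvableSystem) := by
  have hinv : E.IsInvariantIn F := hE.1.2.2
  have hEsat := hE.1.1
  have hT : F.StronglyClosed T := hinv.2.1
  have hTS := hT.1
  have : Finite T := finite_of_le hTS
  have hTp : IsPGroup p T := isPGroup_of_le hS hTS
  have hmor := surjectiveMorphism_of_factor p hS F hF T hT θ D hD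
  have hDsat := image_saturated p hS hF hmor
  have hrange : θ.range = S' := hD.2.2.1
  have hker := hD.2.1
  have hfin : Finite S' := by
    rw [← hrange]
    exact Finite.of_surjective θ.rangeRestrict θ.rangeRestrict_surjective
  have hS'p : IsPGroup p S' := by
    rw [← hrange]
    exact hS.of_surjective θ.rangeRestrict θ.rangeRestrict_surjective
  constructor
  · intro hsolv
    obtain ⟨n, C, h0, hlast, hmono, hsc, hab⟩ := hasAbelianChain_of_solvable p hS F hF hsolv
    constructor
    · apply solvable_of_hasAbelianChain p hTp E hEsat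
      refine ⟨n, fun i => T ⊓ C i, ?_, ?_, fun i j hij => inf_le_inf_left _ (hmono hij), ?_, ?_⟩
      · show T ⊓ C 0 = ⊥
        rw [h0, inf_bot_eq]
      · show T ⊓ C (Fin.last n) = T
        rw [hlast]
        exact inf_eq_left.2 hTS
      · intro i
        exact ⟨inf_le_left, fun R hR φ hφ x => ⟨map_mem_of_hom E hφ x,
          (hsc i).2 R (hR.trans inf_le_right) φ (hinv.1 R hφ) x⟩⟩
      · intro i
        exact le_inf ((Subgroup.commutator_mono inf_le_left inf_le_left).trans
          (commutator_self_le _))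
          ((Subgroup.commutator_mono inf_le_right inf_le_right).trans (hab i))
    · apply solvable_of_hasAbelianChain p hS'p D hDsat
      have hrep : ∀ (i : Fin (n + 1)), ∀ y ∈ imageAlong θ (C i ⊔ T),
          ∃ t : S, (t : Ω) ∈ C i ∧ θ t = y := by
        rintro i _ ⟨u, hu, rfl⟩
        obtain ⟨t, ht, r, hr, hutr⟩ := exists_mul_of_mem_sup
          ((hsc i).1.trans (stronglyClosed_le_normalizer hT)) hu
        refine ⟨⟨t, (hsc i).1 ht⟩, ht, ?_⟩
        have e : u = ⟨t, (hsc i).1 ht⟩ * ⟨r, hTS hr⟩ := Subtype.ext hutr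
        rw [e, map_mul, (hker ⟨r, hTS hr⟩).2 hr, mul_one]
      refine ⟨n, fun i => imageAlong θ (C i ⊔ T), ?_, ?_,
        fun i j hij => imageAlong_mono θ (sup_le_sup_right (hmono hij) _), ?_, ?_⟩
      · show imageAlong θ (C 0 ⊔ T) = ⊥
        rw [eq_bot_iff]
        intro y hy
        obtain ⟨t, ht, rfl⟩ := hrep 0 y hy
        rw [h0, Subgroup.mem_bot] at ht
        have : t = 1 := Subtype.ext ht
        rw [this, map_one]
        exact Subgroup.one_mem _
      · show imageAlong θ (C (Fin.last n) ⊔ T) = S'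
        rw [hlast, sup_eq_left.2 hTS, ← hrange]
        ext y
        constructor
        · rintro ⟨x, -, rfl⟩
          exact ⟨x, rfl⟩
        · rintro ⟨x, rfl⟩
          exact ⟨x, x.2, rfl⟩
      · intro i
        apply image_stronglyClosed hmor (stronglyClosed_sup p hS F hF (hsc i) hT)
        rintro _ ⟨s, hs, rfl⟩
        exact Subgroup.mem_sup_right ((hker s).1 hs)
      · intro i
        rw [Subgroup.commutator_le]
        intro a ha b hb
        obtain ⟨t, ht, rfl⟩ := hrep _ a ha
        obtain ⟨t', ht', rfl⟩ := hrep _ b hb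
        rw [← map_commutatorElement]
        exact ⟨_, Subgroup.mem_sup_left (hab i (Subgroup.commutator_mem_commutator ht ht')), rfl⟩
  · rintro ⟨hEs, hDs⟩
    obtain ⟨m, U, hU0, hUlast, hUmono, hUsc, hUab⟩ := hasAbelianChain_of_solvable p hTp E hEsat hEs
    obtain ⟨n, V, hV0, hVlast, hVmono, hVsc, hVab⟩ :=
      hasAbelianChain_of_solvable p hS'p D hDsat hDs
    apply solvable_of_reach p hS F hF
    have reach1 : ∀ i : Fin (m + 1),
        Relation.ReflTransGen (Step F) ⊥ (star (F.autGroup T) (U i)) := by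
      intro i
      induction i using Fin.induction with
      | zero => rw [hU0, star_bot]
      | succ i ih =>
        exact ih.tail (star_step hinv (hUsc i.succ) (hUmono (Fin.castSucc_le_succ i)) (hUab i))
    have reach2 : ∀ i : Fin (n + 1),
        Relation.ReflTransGen (Step F) T (preimageAlong θ (V i)) := by
      intro i
      induction i using Fin.induction with
      | zero =>
        have : preimageAlong θ (V 0) = T := by
          rw [hV0]
          ext x
          rw [mem_preimageAlong]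
          constructor
          · rintro ⟨hx, h1⟩
            exact (hker _).1 (Subgroup.mem_bot.1 h1)
          · intro hx
            exact ⟨hTS hx, Subgroup.mem_bot.2 ((hker ⟨x, hTS hx⟩).2 hx)⟩
        rw [this]
      | succ i ih =>
        refine ih.tail ⟨preimage_stronglyClosed hmor.1 (hVsc i.succ),
          preimageAlong_mono θ (hVmono (Fin.castSucc_le_succ i)), ?_⟩
        rw [Subgroup.commutator_le]
        intro a ha b hb
        obtain ⟨haS, ha'⟩ := (mem_preimageAlong θ _ a).1 ha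
        obtain ⟨hbS, hb'⟩ := (mem_preimageAlong θ _ b).1 hb
        refine (mem_preimageAlong θ _ _).2
          ⟨(commutator_self_le S) (Subgroup.commutator_mem_commutator haS hbS), ?_⟩
        have : (⟨⁅a, b⁆, (commutator_self_le S) (Subgroup.commutator_mem_commutator haS hbS)⟩ : S) =
            ⁅(⟨a, haS⟩ : S), ⟨b, hbS⟩⁆ := rfl
        rw [this, map_commutatorElement]
        exact hVab i (Subgroup.commutator_mem_commutator ha' hb')
    have h1 := reach1 (Fin.last m)
    rw [hUlast, star_self] at h1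
    have h2 := reach2 (Fin.last n)
    have h3 : preimageAlong θ (V (Fin.last n)) = S := by
      rw [hVlast]
      apply le_antisymm (preimageAlong_le θ _)
      intro x hx
      exact (mem_preimageAlong θ _ x).2 ⟨hx, hmor.1.1 _⟩
    rw [h3] at h2
    exact h1.trans h2

end Cfsg.Agent.Lib.Helper9_Solvable2
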