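import Mathlib
import Cfsg.Prelude.Def_FusionSystem
import Cfsg.Agent.Lib.Helper9_AlperinCor
import Cfsg.Agent.Lib.Helper9_GroupNormal

set_option autoImplicit false

namespace Cfsg.Agent.Lib.Helper9_Stancu

open Cfsg Cfsg.FusionSystem Cfsg.Agent.Lib.Helper9_FusionBasic Cfsg.Agent.Lib.Helper9_FusionSat
  Cfsg.Agent.Lib.Helper9_FusionNormal Cfsg.Agent.Lib.Helper9_AlperinCor
  Cfsg.Agent.Lib.Helper9_Alperin Cfsg.Agent.Lib.Helper9_GroupNormal

theorem exists_normalizing_pElement {A : Type*} [Group A] [Finite A] {p : ℕ} [Fact p.Prime]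
    (D : Subgroup A) (hD : IsPGroup p D) (hns : ¬ ∃ R : Sylow p A, (R : Subgroup A) = D) :
    ∃ a : A, a ∉ D ∧ a ∈ Subgroup.normalizer (D : Set A) ∧ ∃ k : ℕ, a ^ p ^ k = 1 := by
  obtain ⟨R, hR⟩ := hD.exists_le_sylow
  have hlt : D < (R : Subgroup A) := lt_of_le_of_ne hR (fun h => hns ⟨R, h.symm⟩)
  obtain ⟨x, hx, hxD, hxN⟩ := exists_normalizer_not_mem R.isPGroup' hlt
  obtain ⟨k, hk⟩ := R.isPGroup' ⟨x, hx⟩
  exact ⟨x, hxD, hxN, k, congrArg Subtype.val hk⟩

/-- replace an extension of a `p`-automorphism by an extension of `p`-power order -/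
theorem exists_pPower_extension {Ω : Type*} [Group Ω] {P N : Subgroup Ω} [Finite N] (hPN : P ≤ N)
    {p : ℕ} [hp : Fact p.Prime] (α : MulAut P) (β : MulAut N)
    (hcompat : ∀ x : P, β (Subgroup.inclusion hPN x) = Subgroup.inclusion hPN (α x))
    {k : ℕ} (hα : α ^ p ^ k = 1) :
    ∃ j : ℕ, (∃ a : ℕ, (β ^ j) ^ p ^ a = 1) ∧
      ∀ x : P, (β ^ j) (Subgroup.inclusion hPN x) = Subgroup.inclusion hPN (α x) := by
  have hpow : ∀ (n : ℕ) (x : P),
      (β ^ n) (Subgroup.inclusion hPN x) = Subgroup.inclusion hPN ((α ^ n) x) := by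
    intro n
    induction n with
    | zero => intro x; simp
    | succ n ih =>
      intro x
      rw [pow_succ, pow_succ, MulAut.mul_apply, MulAut.mul_apply, hcompat, ih]
  have : Finite (MulAut N) :=
    Finite.of_injective (fun a : MulAut N => (a : N → N))
      (fun a b h => by ext x; exact congrArg Subtype.val (congrFun h x))
  obtain ⟨a, m, hm, ham⟩ := Nat.exists_eq_pow_mul_and_not_dvd (orderOf_pos β).ne' p hp.out.ne_one
  have hc : Nat.Coprime m (orderOf α) := by
    apply Nat.Coprime.coprime_dvd_right (orderOf_dvd_of_pow_eq_one hα)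
    exact Nat.Coprime.pow_right k ((Nat.Prime.coprime_iff_not_dvd hp.out).2 hm).symm
  obtain ⟨j, hj⟩ := exists_pow_eq_self_of_coprime hc
  refine ⟨m * j, ⟨a, ?_⟩, fun x => ?_⟩
  · rw [← pow_mul]
    have : m * j * p ^ a = orderOf β * j := by rw [ham]; ring
    rw [this, pow_mul, pow_orderOf_eq_one, one_pow]
  · rw [hpow, pow_mul, hj]

variable {Ω : Type*} [Group Ω] {S : Subgroup Ω}

theorem isPGroup_zpowers_of_pow {A : Type*} [Group A] {p : ℕ} {g : A} {a : ℕ}
    (h : g ^ p ^ a = 1) : IsPGroup p (Subgroup.zpowers g) := by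
  rintro ⟨y, hy⟩
  obtain ⟨i, rfl⟩ := Subgroup.mem_zpowers_iff.1 hy
  refine ⟨a, Subtype.ext ?_⟩
  show (g ^ i) ^ p ^ a = 1
  rw [← zpow_natCast, ← zpow_mul, mul_comm, zpow_mul, zpow_natCast, h, one_zpow]

theorem stancu_step [Finite S] (p : ℕ) [Fact p.Prime] (hS : IsPGroup p S) (F : FusionSystem S)
    {P : Subgroup Ω} (hP : F.IsFullyNormalized P) (hrecP : F.IsReceptive P)
    (hN : ∀ N', F.IsConj (normalizerIn S P) N' → F.IsFullyNormalized N' →
      F.IsFullyAutomized p N') : F.IsFullyAutomized p P := by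
  have hPS := hP.1
  refine ⟨hPS, ?_⟩
  by_contra hcon
  have := finite_autGroup F hPS
  have hD : IsPGroup p ((autInducedBy S P).subgroupOf (F.autGroup P)) :=
    (isPGroup_autInducedBy hS P).comap_subtype
  obtain ⟨a, haD, haN, k, hak⟩ := exists_normalizing_pElement _ hD hcon
  obtain ⟨α, hα⟩ := a
  have hαk : α ^ p ^ k = 1 := congrArg Subtype.val hak
  have hαnot : α ∉ autInducedBy S P := haD
  have hnorm : ∀ g ∈ normalizerIn S P, ∃ h ∈ S, ∀ (x : P) (hx : g * (x : Ω) * g⁻¹ ∈ P),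
      ((α ⟨g * x * g⁻¹, hx⟩ : P) : Ω) = h * (α x : Ω) * h⁻¹ := by
    intro g hg
    have hc : conjAut S P ⟨g, hg⟩ ∈ autInducedBy S P := conjAut_mem_autInducedBy S P _
    have hcA : conjAut S P ⟨g, hg⟩ ∈ F.autGroup P := autInducedBy_le_autGroup F hPS hc
    have h1 : (⟨α, hα⟩ : F.autGroup P) * ⟨_, hcA⟩ * (⟨α, hα⟩ : F.autGroup P)⁻¹ ∈
        (autInducedBy S P).subgroupOf (F.autGroup P) :=
      (Subgroup.mem_normalizer_iff.1 haN ⟨_, hcA⟩).1 hc
    obtain ⟨h, hh, hhx⟩ := (mem_autInducedBy_iff _ _ _).1 h1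
    refine ⟨h, hh, fun x hx => ?_⟩
    have h2 := hhx (α x)
    have h3 : ((α * conjAut S P ⟨g, hg⟩ * α⁻¹) (α x) : P) = α ⟨g * x * g⁻¹, hx⟩ := by
      rw [MulAut.mul_apply, MulAut.mul_apply, MulAut.inv_apply_self]
      rfl
    rw [← h3]
    exact h2
  have hPN : P ≤ normalizerIn S P := le_normalizerIn hPS
  have hNS : normalizerIn S P ≤ S := inf_le_left
  have hfinP : Finite P := finite_of_le hPS
  have hfinN : Finite (normalizerIn S P) := finite_of_le hNS
  obtain ⟨φ, hφ, hφx⟩ := extend_aut F hrecP α hα _ hPN (fun g hg => ⟨hg, hnorm g hg⟩)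
  have hφN : ∀ n : normalizerIn S P, φ n ∈ normalizerIn S P := by
    intro n
    refine ⟨map_mem_of_hom F hφ n, mem_normalizer_of_finite (fun y hy => ?_)⟩
    obtain ⟨x, hx⟩ := α.surjective ⟨y, hy⟩
    have e0 : y = φ (Subgroup.inclusion hPN x) := by rw [hφx, hx]
    have hmem : (n : Ω) * x * (n : Ω)⁻¹ ∈ P := conj_mem_of_mem_normalizer n.2.2 x.2
    have e : n * Subgroup.inclusion hPN x * n⁻¹ = Subgroup.inclusion hPN ⟨_, hmem⟩ :=
      Subtype.ext rfl
    rw [e0, ← map_inv, ← map_mul, ← map_mul, e, hφx]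
    exact (α _).2
  have hr : φ.range = normalizerIn S P := by
    apply Subgroup.eq_of_le_of_card_ge
    · rintro _ ⟨z, rfl⟩
      exact hφN z
    · rw [Nat.card_congr (MonoidHom.ofInjective (F.injective_of_mem hφ)).toEquiv]
  obtain ⟨β, hβ, hβx⟩ := exists_autGroup_of_range_eq F hφ hr
  have hcompat : ∀ x : P, β (Subgroup.inclusion hPN x) = Subgroup.inclusion hPN (α x) :=
    fun x => Subtype.ext (by rw [hβx, hφx]; rfl)
  obtain ⟨j, ⟨a', hγp⟩, hγx⟩ := exists_pPower_extension hPN α β hcompat hαk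
  have hγ : β ^ j ∈ F.autGroup (normalizerIn S P) := Subgroup.pow_mem _ hβ j
  generalize β ^ j = γ at hγp hγx hγ
  obtain ⟨N', hconj, hfnN'⟩ := exists_fullyNormalized_conj F hNS
  obtain ⟨hN'S, R', hR'⟩ := hN N' hconj hfnN'
  obtain ⟨e, he⟩ := (isConj_iff_exists_iso F).1 hconj
  have hγ' : MulAut.congr e γ ∈ F.autGroup N' := by
    rw [mem_autGroup_iff_isHom F hN'S]
    exact he.symm.trans (((mem_autGroup_iff_isHom F hNS γ).1 hγ).trans he)
  have := finite_autGroup F hN'S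
  have hg'pow : (⟨MulAut.congr e γ, hγ'⟩ : F.autGroup N') ^ p ^ a' = 1 := by
    apply Subtype.ext
    show (MulAut.congr e γ) ^ p ^ a' = 1
    rw [← map_pow, hγp, map_one]
  obtain ⟨b, hb⟩ := exists_conj_range_le_sylow (isPGroup_zpowers_of_pow hg'pow)
    (Subgroup.zpowers (⟨MulAut.congr e γ, hγ'⟩ : F.autGroup N')).subtype R'
  have h1 : b * (⟨MulAut.congr e γ, hγ'⟩ : F.autGroup N') * b⁻¹ ∈ (R' : Subgroup _) :=
    hb ⟨_, Subgroup.mem_zpowers _⟩
  rw [hR'] at h1
  obtain ⟨s, hs, hsx⟩ := (mem_autInducedBy_iff _ _ _).1 h1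
  have hψ : IsHom F (e.trans (b : MulAut N')).toMonoidHom :=
    he.trans ((mem_autGroup_iff_isHom F hN'S _).1 b.2)
  have key0 : ∀ n : normalizerIn S P,
      (((e.trans (b : MulAut N')) (γ n) : N') : Ω) = s * ((e.trans (b : MulAut N')) n : Ω) * s⁻¹ := by
    intro n
    rw [← hsx ((e.trans (b : MulAut N')) n)]
    show _ = ((((b : MulAut N') * MulAut.congr e γ * (b : MulAut N')⁻¹)
      ((b : MulAut N') (e n)) : N') : Ω)
    rw [MulAut.mul_apply, MulAut.mul_apply, MulAut.inv_apply_self]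
    show _ = (((b : MulAut N') (e (γ (e.symm (e n)))) : N') : Ω)
    rw [MulEquiv.symm_apply_apply]
    rfl
  generalize e.trans (b : MulAut N') = ψ at hψ key0
  have hfinN' : Finite N' := finite_of_le hN'S
  -- the image of `P`
  have hres : IsHom F (ψ.toMonoidHom.comp (Subgroup.inclusion hPN)) :=
    (isHom_inclusion F hPN hNS).comp hψ
  have hconjP : F.IsConj P (N'.subtype.comp (ψ.toMonoidHom.comp (Subgroup.inclusion hPN))).range :=
    ⟨_, hres, rfl⟩
  have hmemP' : ∀ y : Ω, y ∈ (N'.subtype.comp (ψ.toMonoidHom.comp (Subgroup.inclusion hPN))).range ↔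
      ∃ x : P, ((ψ (Subgroup.inclusion hPN x) : N') : Ω) = y := fun y => Iff.rfl
  generalize (N'.subtype.comp (ψ.toMonoidHom.comp (Subgroup.inclusion hPN))).range = P' at hconjP hmemP'
  have hP'N' : P' ≤ N' := by
    intro y hy
    obtain ⟨x, rfl⟩ := (hmemP' y).1 hy
    exact (ψ _).2
  have hfinP' : Finite P' := finite_of_le (hP'N'.trans hN'S)
  have hsP' : s ∈ normalizerIn S P' := by
    refine ⟨hs, mem_normalizer_of_finite (fun y hy => ?_)⟩
    obtain ⟨x, rfl⟩ := (hmemP' y).1 hy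
    rw [← key0, hγx]
    exact (hmemP' _).2 ⟨α x, rfl⟩
  have hN'le : N' ≤ normalizerIn S P' := by
    intro n' hn'
    refine ⟨hN'S hn', mem_normalizer_of_finite (fun y hy => ?_)⟩
    obtain ⟨x, rfl⟩ := (hmemP' y).1 hy
    obtain ⟨n, hn⟩ := ψ.surjective ⟨n', hn'⟩
    have hmem : (n : Ω) * x * (n : Ω)⁻¹ ∈ P := conj_mem_of_mem_normalizer n.2.2 x.2
    have e1 : n * Subgroup.inclusion hPN x * n⁻¹ = Subgroup.inclusion hPN ⟨_, hmem⟩ :=
      Subtype.ext rfl
    have e2 : n' * ((ψ (Subgroup.inclusion hPN x) : N') : Ω) * n'⁻¹ =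
        ((ψ (n * Subgroup.inclusion hPN x * n⁻¹) : N') : Ω) := by
      rw [map_mul, map_mul, map_inv, hn]
      rfl
    rw [e2, e1]
    exact (hmemP' _).2 ⟨_, rfl⟩
  have hcard : Nat.card (normalizerIn S P') ≤ Nat.card N' := by
    rw [← Nat.card_congr ψ.toEquiv]
    exact hP.2 P' hconjP
  have : Finite (normalizerIn S P') := finite_of_le inf_le_left
  have hNeq : N' = normalizerIn S P' := Subgroup.eq_of_le_of_card_ge hN'le hcard
  have hsN' : s ∈ N' := hNeq.ge hsP'
  apply hαnot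
  rw [mem_autInducedBy_iff]
  refine ⟨(ψ.symm ⟨s, hsN'⟩ : normalizerIn S P), hNS (ψ.symm ⟨s, hsN'⟩).2, fun x => ?_⟩
  have h5 : γ (Subgroup.inclusion hPN x) =
      ψ.symm ⟨s, hsN'⟩ * Subgroup.inclusion hPN x * (ψ.symm ⟨s, hsN'⟩)⁻¹ := by
    apply ψ.injective
    apply Subtype.ext
    rw [key0, map_mul, map_mul, map_inv, MulEquiv.apply_symm_apply]
    rfl
  rw [hγx] at h5
  exact congrArg (fun t : normalizerIn S P => (t : Ω)) h5

/-- S5111 -/
theorem saturated_iff_stancu [Finite S] (p : ℕ) [Fact p.Prime] (hS : IsPGroup p S)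
    (F : FusionSystem S) : F.IsSaturated p ↔
      (F.IsFullyAutomized p S ∧ ∀ P : Subgroup Ω, F.IsFullyNormalized P → F.IsReceptive P) := by
  constructor
  · intro hF
    exact ⟨(sat_fullyNormalized p hS F hF (fullyNormalized_self F)).1,
      fun P hP => (sat_fullyNormalized p hS F hF hP).2⟩
  · rintro ⟨hSa, hrec⟩
    have key : ∀ (n : ℕ) (P : Subgroup Ω), F.IsFullyNormalized P →
        Nat.card S - Nat.card P ≤ n → F.IsFullyAutomized p P := by
      intro n
      induction n with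
      | zero =>
        intro P hP hn
        have : P = S := Subgroup.eq_of_le_of_card_ge hP.1 (by omega)
        rw [this]
        exact hSa
      | succ n ih =>
        intro P hP hn
        by_cases hPS : P = S
        · rw [hPS]
          exact hSa
        · have hlt : P < S := lt_of_le_of_ne hP.1 hPS
          apply stancu_step p hS F hP (hrec P hP)
          intro N' hconj hfn
          apply ih N' hfn
          have h1 := lt_normalizerIn hS hlt
          have : Finite (normalizerIn S P) := finite_of_le inf_le_left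
          have h2 := card_lt_of_lt h1
          rw [card_eq_of_isConj F hconj] at h2
          have h3 := Subgroup.card_le_of_le hfn.1
          omega
    intro P hP
    obtain ⟨Q, hPQ, hQ⟩ := exists_fullyNormalized_conj F hP
    exact ⟨Q, hPQ, key _ Q hQ le_rfl, hrec Q hQ⟩

end Cfsg.Agent.Lib.Helper9_Stancu
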