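import Mathlib
import Cfsg.Prelude.Def_FusionSystem
import Cfsg.Agent.Lib.Helper9_PrimeIdx
import Cfsg.Agent.Lib.Helper9_Full
import Cfsg.Agent.Lib.Helper9_CenterFactor
import Cfsg.Agent.Lib.Helper9_Chain3

set_option autoImplicit false

namespace Cfsg.Agent.Lib.Helper9_StrongInv

open Cfsg Cfsg.FusionSystem Cfsg.Agent.Lib.Helper9_FusionBasic Cfsg.Agent.Lib.Helper9_FusionSat
  Cfsg.Agent.Lib.Helper9_FusionNormal Cfsg.Agent.Lib.Helper9_AlperinCor
  Cfsg.Agent.Lib.Helper9_Alperin Cfsg.Agent.Lib.Helper9_Transport Cfsg.Agent.Lib.Helper9_Focal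
  Cfsg.Agent.Lib.Helper9_Induct Cfsg.Agent.Lib.Helper9_Centric Cfsg.Agent.Lib.Helper9_PrimeIdx
  Cfsg.Agent.Lib.Helper9_Full
open Cfsg.Agent.Lib.Helper4_Syl hiding conj_mem_of_mem_normalizer

variable {Ω : Type*} [Group Ω] {S : Subgroup Ω}

/-- induction principle relative to a strongly closed subgroup -/
theorem induct_rel [Finite S] (p : ℕ) [Fact p.Prime] (hS : IsPGroup p S)
    (F : FusionSystem S) (hF : F.IsSaturated p) {T : Subgroup Ω} (hT : F.StronglyClosed T)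
    (G : FusionSystem T)
    (H : ∀ P : Subgroup Ω, P ≤ T → F.IsFullyNormalized P →
      (∀ Q : Subgroup Ω, Q ≤ T → Nat.card P < Nat.card Q → F.Hom Q ⊆ G.Hom Q) →
      F.autGroup P ≤ G.autGroup P) : ∀ P : Subgroup Ω, P ≤ T → F.Hom P ⊆ G.Hom P := by
  have hTS := hT.1
  have hfinT : Finite T := finite_of_le hTS
  have hTp : IsPGroup p T := hS.to_le hTS
  have key : ∀ n : ℕ, ∀ P : Subgroup Ω, P ≤ T → Nat.card T - Nat.card P = n →
      F.Hom P ⊆ G.Hom P := by
    intro n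
    induction n using Nat.strong_induction_on with
    | _ n ih =>
      intro P hP hn φ hφ
      have ih' : ∀ Q : Subgroup Ω, Q ≤ T → Nat.card P < Nat.card Q → F.Hom Q ⊆ G.Hom Q := by
        intro Q hQ hlt
        have h1 : Nat.card Q ≤ Nat.card T := Subgroup.card_le_of_le hQ
        exact ih (Nat.card T - Nat.card Q) (by omega) Q hQ rfl
      have hφT : ∀ x : P, φ x ∈ T := hT.2 P hP φ hφ
      by_cases hPT : P = T
      · subst hPT
        have hr : φ.range = P := by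
          apply Subgroup.eq_of_le_of_card_ge (by rintro _ ⟨x, rfl⟩; exact hφT x)
          rw [Nat.card_congr (MonoidHom.ofInjective (F.injective_of_mem hφ)).toEquiv]
        obtain ⟨α, hα, h⟩ := exists_autGroup_of_range_eq F hφ hr
        have hfn : F.IsFullyNormalized P :=
          Cfsg.Agent.Lib.Helper9_CenterFactor.fullyNormalized_of_weaklyClosed
            (Cfsg.Agent.Lib.Helper9_Chain3.weaklyClosed_of_stronglyClosed hT)
        have h2 := (mem_autGroup_iff G le_rfl α).mp (H P le_rfl hfn ih' hα)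
        have h3 : P.subtype.comp α.toMonoidHom = φ := by
          ext x
          exact h x
        rwa [h3] at h2
      · have hlt : P < T := lt_of_le_of_ne hP hPT
        have hPS : P ≤ S := hP.trans hTS
        obtain ⟨Pst, hconj, hfn⟩ := exists_fullyNormalized_conj F hPS
        obtain ⟨haut, hrec⟩ := sat_fullyNormalized p hS F hF hfn
        obtain ⟨ψ, e, hψ, he, hψe⟩ := exists_hom_normalizer p hS F haut hrec hconj
        obtain ⟨f, hf, hfφ⟩ := exists_iso_of_range_eq F hφ rfl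
        have hconj' : F.IsConj φ.range Pst := isConj_trans F (isConj_symm F ⟨φ, hφ, rfl⟩) hconj
        obtain ⟨ψ', e', hψ', he', hψe'⟩ := exists_hom_normalizer p hS F haut hrec hconj'
        have hcard' : Nat.card φ.range = Nat.card P := (Nat.card_congr f.toEquiv).symm
        have hcardst : Nat.card Pst = Nat.card P := (Nat.card_congr e.toEquiv).symm
        have hP' : φ.range ≤ T := by rintro _ ⟨x, rfl⟩; exact hφT x
        have hPstT : Pst ≤ T := by
          intro y hy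
          have h1 := hT.2 P hP _ he (e.symm ⟨y, hy⟩)
          have h2 : (Pst.subtype.comp e.toMonoidHom) (e.symm ⟨y, hy⟩) = y := by
            show ((e (e.symm ⟨y, hy⟩) : Pst) : Ω) = y
            rw [MulEquiv.apply_symm_apply]
          rwa [h2] at h1
        have hlt' : φ.range < T := by
          refine lt_of_le_of_ne hP' ?_
          intro h
          have h1 := card_lt_of_lt hlt
          rw [← hcard', h] at h1
          exact lt_irrefl _ h1
        have hNle : ∀ X : Subgroup Ω, normalizerIn T X ≤ normalizerIn S X :=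
          fun X g hg => ⟨hTS hg.1, hg.2⟩
        have hle0 : ∀ X : Subgroup Ω, normalizerIn T X ≤ T := fun X => inf_le_left
        have : Finite (normalizerIn T P) := finite_of_le (hle0 P)
        have : Finite (normalizerIn T φ.range) := finite_of_le (hle0 _)
        have hψE := ih' (normalizerIn T P) (hle0 P) (card_lt_of_lt (lt_normalizerIn hTp hlt))
          (restrict_mem F hψ (hNle P))
        have hψE' := ih' (normalizerIn T φ.range) (hle0 _) (by
          rw [← hcard']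
          exact card_lt_of_lt (lt_normalizerIn hTp hlt')) (restrict_mem F hψ' (hNle _))
        have heE : IsHom G e.toMonoidHom :=
          restrict_mem' G hψE (le_normalizerIn hP) (Pst.subtype.comp e.toMonoidHom)
            (fun x => (hψe ⟨x, le_normalizerIn hPS x.2⟩ x.2).symm)
        have heE' : IsHom G e'.toMonoidHom :=
          restrict_mem' G hψE' (le_normalizerIn hP') (Pst.subtype.comp e'.toMonoidHom)
            (fun x => (hψe' ⟨x, le_normalizerIn (hP'.trans hTS) x.2⟩ x.2).symm)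
        have hAut : F.autGroup Pst ≤ G.autGroup Pst := by
          apply H Pst hPstT hfn
          rw [hcardst]
          exact ih'
        have hα : IsHom F ((e.symm.trans f).trans e').toMonoidHom := (he.symm.trans hf).trans he'
        have hαE : IsHom G ((e.symm.trans f).trans e').toMonoidHom :=
          (mem_autGroup_iff_isHom G hPstT _).mp (hAut ((mem_autGroup_iff_isHom F hfn.1 _).mpr hα))
        have hfE : IsHom G ((e.trans ((e.symm.trans f).trans e')).trans e'.symm).toMonoidHom :=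
          (heE.trans hαE).trans heE'.symm
        have h3 : φ.range.subtype.comp
            ((e.trans ((e.symm.trans f).trans e')).trans e'.symm).toMonoidHom = φ := by
          ext x
          simp [hfφ]
        have h4 : φ.range.subtype.comp
            ((e.trans ((e.symm.trans f).trans e')).trans e'.symm).toMonoidHom ∈ G.Hom P := hfE
        rwa [h3] at h4
  intro P hP
  exact key _ P hP rfl

theorem autGroup_fullSub (F : FusionSystem S) {T : Subgroup Ω} (hT : T ≤ S) {P : Subgroup Ω}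
    (hP : P ≤ T) : (fullSub F T hT).autGroup P = F.autGroup P := by
  ext α
  rw [mem_autGroup_iff _ hP, mem_autGroup_iff F (hP.trans hT), mem_fullSub_iff]
  exact ⟨fun h => h.1, fun h => ⟨h, hP, fun x => hP (α x).2⟩⟩

/-- the strong invariance condition -/
def SI {T : Subgroup Ω} (E : FusionSystem T) (F : FusionSystem S) : Prop :=
  ∀ (P Q : Subgroup Ω) (hPQ : P ≤ Q) (_ : Q ≤ T) (φ : P →* Ω) (_ : φ ∈ E.Hom P)
    (hφQ : ∀ x : P, φ x ∈ Q) (ψ : Q →* Ω) (_ : ψ ∈ F.Hom Q),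
    ∃ χ ∈ E.Hom ((P.subgroupOf Q).map ψ),
      ∀ (x : P) (hx : ψ (Subgroup.inclusion hPQ x) ∈ (P.subgroupOf Q).map ψ),
        χ ⟨ψ (Subgroup.inclusion hPQ x), hx⟩ = ψ ⟨φ x, hφQ x⟩

theorem invCond_of_SI {T : Subgroup Ω} {E : FusionSystem T} {F : FusionSystem S} (hTS : T ≤ S)
    (h : SI E F) : InvCond E (F.autGroup T) := by
  intro P hPT φ hφ α hα
  obtain ⟨χ, hχ, H⟩ := h P T hPT le_rfl φ hφ (fun x => (E.le_of_mem hφ).2 x) _
    ((mem_autGroup_iff F hTS α).mp hα)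
  exact ⟨χ, hχ, fun x _ hαx => H x hαx⟩

theorem tw_of_invCond {T : Subgroup Ω} {E : FusionSystem T} {A : Subgroup (MulAut T)}
    (h : InvCond E A) {P : Subgroup Ω} {φ : P →* Ω} (hφ : φ ∈ E.Hom P) {β : MulAut T}
    (hβ : β ∈ A) : Tw E β β P φ := by
  have hPT : P ≤ T := (E.le_of_mem hφ).1
  obtain ⟨χ, hχ, H⟩ := h P hPT φ hφ β hβ
  refine ⟨χ, hχ, fun x hx y hy => ?_⟩
  have e1 := H ⟨x, hx⟩ ((E.le_of_mem hφ).2 _) (apply_mem_imgAut β x hx)
  have e2 : y = ⟨φ ⟨x, hx⟩, (E.le_of_mem hφ).2 _⟩ := Subtype.ext hy.symm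
  rw [e2]
  exact e1

theorem aut_normal_of_SI {T : Subgroup Ω} {E : FusionSystem T} {F : FusionSystem S}
    (hTS : T ≤ S) (h : SI E F) {P : Subgroup Ω} (hP : P ≤ T) {κ α : MulAut P}
    (hκ : κ ∈ E.autGroup P) (hα : α ∈ F.autGroup P) : α * κ * α⁻¹ ∈ E.autGroup P := by
  obtain ⟨χ, hχ, H⟩ := h P P le_rfl hP _ ((mem_autGroup_iff E hP κ).mp hκ) (fun x => (κ x).2) _
    ((mem_autGroup_iff F (hP.trans hTS) α).mp hα)
  have hle : P ≤ (P.subgroupOf P).map (P.subtype.comp α.toMonoidHom) := by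
    intro y hy
    exact ⟨α⁻¹ ⟨y, hy⟩, (α⁻¹ ⟨y, hy⟩).2, by
      show ((α (α⁻¹ ⟨y, hy⟩) : P) : Ω) = y
      rw [MulAut.apply_inv_self]⟩
  apply mem_autGroup_of E (restrict_mem E hχ hle)
  intro x
  have e1 := H (α⁻¹ x) (by
    show ((α (α⁻¹ x) : P) : Ω) ∈ _
    rw [MulAut.apply_inv_self]
    exact hle x.2)
  have e2 : (Subgroup.inclusion hle x) = ⟨(P.subtype.comp α.toMonoidHom)
      (Subgroup.inclusion le_rfl (α⁻¹ x)), by
        show ((α (α⁻¹ x) : P) : Ω) ∈ _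
        rw [MulAut.apply_inv_self]
        exact hle x.2⟩ := by
    apply Subtype.ext
    show (x : Ω) = ((α (α⁻¹ x) : P) : Ω)
    rw [MulAut.apply_inv_self]
  show _ = χ (Subgroup.inclusion hle x)
  rw [e2, e1]
  rfl

theorem frattini_of_SI [Finite S] (p : ℕ) [Fact p.Prime] (hS : IsPGroup p S)
    (F : FusionSystem S) (hF : F.IsSaturated p) {T : Subgroup Ω} (E : FusionSystem T)
    (hE : E.IsSubsystemOf F) (hT : F.StronglyClosed T) (h : SI E F) :
    ∀ P : Subgroup Ω, P ≤ T → F.Hom P ⊆ (twSystem E (fullSub F T hT.1)).Hom P := by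
  have hTS := hT.1
  have hfinT : Finite T := finite_of_le hTS
  have hTp : IsPGroup p T := hS.to_le hTS
  have hA : (fullSub F T hTS).autGroup T = F.autGroup T := autGroup_fullSub F hTS le_rfl
  have hinv : InvCond E ((fullSub F T hTS).autGroup T) := hA ▸ invCond_of_SI hTS h
  have hEle : ∀ P : Subgroup Ω, E.Hom P ⊆ (twSystem E (fullSub F T hTS)).Hom P := by
    intro P φ hφ
    exact ⟨⟨hE P hφ, (E.le_of_mem hφ).1, (E.le_of_mem hφ).2⟩,
      fun β hβ => ⟨β, hβ, tw_of_invCond hinv hφ hβ⟩, fun α hα => ⟨α, hα, tw_of_invCond hinv hφ hα⟩⟩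
  apply induct_rel p hS F hF hT
  intro P hPT hfn ih
  have hP := hfn.1
  obtain ⟨⟨-, R, hR⟩, hrec⟩ := sat_fullyNormalized p hS F hF hfn
  rcases eq_or_lt_of_le hPT with rfl | hlt
  · intro α₀ hα₀
    rw [mem_autGroup_iff _ le_rfl, mem_twSystem]
    have hα₀' : α₀ ∈ (fullSub F P hTS).autGroup P := hA.symm ▸ hα₀
    refine ⟨(mem_autGroup_iff _ le_rfl α₀).mp hα₀', fun β hβ => ⟨β * α₀⁻¹,
      Subgroup.mul_mem _ hβ (Subgroup.inv_mem _ hα₀'), tw_autS E α₀ β⟩, fun α hα => ⟨α * α₀,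
      Subgroup.mul_mem _ hα hα₀', ?_⟩⟩
    have := tw_autS E α₀ (α * α₀)
    rwa [mul_inv_cancel_right] at this
  · have := finite_autGroup F hP
    have hKn : ((E.autGroup P).subgroupOf (F.autGroup P)).Normal := by
      constructor
      intro κ hκ α
      exact aut_normal_of_SI hTS h hPT hκ α.2
    have hsyl := IsSylIn.inf_normal (IsSylIn.of_sylow_top R)
      ((E.autGroup P).subgroupOf (F.autGroup P))
    intro α hα
    obtain ⟨n, hn', hν⟩ := frattini hsyl (⟨α, hα⟩ : F.autGroup P) (conj_smul_eq_of_normal _ _)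
    have hle0 : normalizerIn T P ≤ T := inf_le_left
    obtain ⟨φ, hφ, hφν⟩ := extend_aut F hrec ((n⁻¹ * ⟨α, hα⟩ : F.autGroup P) : MulAut P)
      (n⁻¹ * ⟨α, hα⟩ : F.autGroup P).2 (normalizerIn T P) (le_normalizerIn hPT) (by
      intro g hg
      have hgN : g ∈ normalizerIn S P := ⟨hTS hg.1, hg.2⟩
      refine ⟨hgN, ?_⟩
      have hcF : conjAut S P ⟨g, hgN⟩ ∈ F.autGroup P :=
        autInducedBy_le_autGroup F hP (conjAut_mem_autInducedBy S P _)
      have hcE : conjAut S P ⟨g, hgN⟩ ∈ E.autGroup P := by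
        apply autInducedBy_le_autGroup E hPT
        rw [mem_autInducedBy_iff]
        exact ⟨g, hg.1, fun x => rfl⟩
      have h1 : (⟨conjAut S P ⟨g, hgN⟩, hcF⟩ : F.autGroup P) ∈
          (R : Subgroup (F.autGroup P)) ⊓ (E.autGroup P).subgroupOf (F.autGroup P) := by
        refine ⟨?_, hcE⟩
        rw [hR]
        exact conjAut_mem_autInducedBy S P _
      have h2 := ((Subgroup.mem_normalizer_iff.mp hν _).mp h1).1
      rw [hR] at h2
      obtain ⟨m, hm⟩ := (mem_autInducedBy_iff_conjAut S P _).mp h2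
      refine ⟨m, m.2.1, fun x hx => ?_⟩
      set ν : MulAut P := ((n⁻¹ * ⟨α, hα⟩ : F.autGroup P) : MulAut P) with hνdef
      have hm' : conjAut S P m = ν * conjAut S P ⟨g, hgN⟩ * ν⁻¹ := hm
      have h3 : conjAut S P m * ν = ν * conjAut S P ⟨g, hgN⟩ := by
        rw [hm']; group
      have h4 := congrArg (fun t : MulAut P => ((t x : P) : Ω)) h3
      simp only [MulAut.mul_apply] at h4
      rw [conjAut_apply] at h4
      rw [h4]
      rfl)
    have : Finite (normalizerIn T P) := finite_of_le hle0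
    have hφG := ih (normalizerIn T P) hle0 (card_lt_of_lt (lt_normalizerIn hTp hlt)) hφ
    have hνG : ((n⁻¹ * ⟨α, hα⟩ : F.autGroup P) : MulAut P) ∈
        (twSystem E (fullSub F T hTS)).autGroup P :=
      mem_autGroup_of _ (restrict_mem _ hφG (le_normalizerIn hPT)) _ (fun x => (hφν x).symm)
    have hnG : (n : MulAut P) ∈ (twSystem E (fullSub F T hTS)).autGroup P := by
      rw [mem_autGroup_iff _ hPT]
      exact hEle P ((mem_autGroup_iff E hPT _).mp hn')
    have h3 : α = (n : MulAut P) * ((n⁻¹ * ⟨α, hα⟩ : F.autGroup P) : MulAut P) := by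
      simp
    rw [h3]
    exact Subgroup.mul_mem _ hnG hνG

theorem SI_of_invariant {T : Subgroup Ω} {E : FusionSystem T} {F : FusionSystem S}
    (h : E.IsInvariantIn F) : SI E F := by
  obtain ⟨-, -, hinv, hfr⟩ := h
  intro P Q hPQ hQT φ hφ hφQ ψ hψ
  obtain ⟨α, hα, ψ₀, hψ₀, Hψ⟩ := hfr Q hQT ψ hψ
  have hψ₀T : ∀ x, ψ₀ x ∈ T := fun x => (E.le_of_mem hψ₀).2 x
  have hρ := restrict_mem E hψ₀ hPQ
  obtain ⟨ρ', hρ', hρ'ρ, hρ'r, -⟩ := exists_inv E hρ rfl
  have hρ'P : ∀ y, ρ' y ∈ P := by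
    intro y
    have : ρ' y ∈ ρ'.range := ⟨y, rfl⟩
    rwa [hρ'r] at this
  have h1 := E.comp_mem hρ' hφ hρ'P
  have h2 := E.comp_mem h1 hψ₀ (fun y => hφQ _)
  have hrT : (ψ₀.comp (Subgroup.inclusion hPQ)).range ≤ T := by
    rintro _ ⟨x, rfl⟩
    exact hψ₀T _
  obtain ⟨χ₁, hχ₁, H₁⟩ := hinv _ hrT _ h2 α hα
  have hle : (P.subgroupOf Q).map ψ ≤ ((ψ₀.comp (Subgroup.inclusion hPQ)).range.subgroupOf T).map
      (T.subtype.comp α.toMonoidHom) := by
    rintro _ ⟨x, hx, rfl⟩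
    refine ⟨⟨ψ₀ x, hψ₀T x⟩, ⟨⟨x, hx⟩, rfl⟩, ?_⟩
    exact (Hψ x (hψ₀T x)).symm
  refine ⟨_, restrict_mem E hχ₁ hle, fun x hx => ?_⟩
  have e1 := H₁ ⟨(ψ₀.comp (Subgroup.inclusion hPQ)) x, ⟨x, rfl⟩⟩ ((E.le_of_mem h2).2 _)
    (by
      refine ⟨⟨ψ₀ (Subgroup.inclusion hPQ x), hψ₀T _⟩, ⟨x, rfl⟩, rfl⟩)
  have e2 : ρ' ⟨(ψ₀.comp (Subgroup.inclusion hPQ)) x, ⟨x, rfl⟩⟩ = x := hρ'ρ x ⟨x, rfl⟩
  have e3 : (ψ₀.comp ((φ.comp (ρ'.codRestrict P hρ'P)).codRestrict Q (fun y => hφQ _)))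
      ⟨(ψ₀.comp (Subgroup.inclusion hPQ)) x, ⟨x, rfl⟩⟩ = ψ₀ ⟨φ x, hφQ x⟩ := by
    show ψ₀ ⟨φ ⟨ρ' ⟨(ψ₀.comp (Subgroup.inclusion hPQ)) x, ⟨x, rfl⟩⟩, _⟩, _⟩ = _
    congr 2
    exact congrArg φ (Subtype.ext e2)
  have e4 : (⟨(ψ₀.comp ((φ.comp (ρ'.codRestrict P hρ'P)).codRestrict Q (fun y => hφQ _)))
      ⟨(ψ₀.comp (Subgroup.inclusion hPQ)) x, ⟨x, rfl⟩⟩, (E.le_of_mem h2).2 _⟩ : T) =
      ⟨ψ₀ ⟨φ x, hφQ x⟩, hψ₀T _⟩ := Subtype.ext e3
  rw [e4, ← Hψ] at e1
  rw [← e1]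
  show χ₁ _ = χ₁ _
  congr 1
  apply Subtype.ext
  exact Hψ _ (hψ₀T _)

/-- S5119 -/
theorem main [Finite S] (p : ℕ) [Fact p.Prime] (hS : IsPGroup p S)
    (F : FusionSystem S) (hF : F.IsSaturated p) {T : Subgroup Ω} (E : FusionSystem T)
    (hE : E.IsSubsystemOf F) (hT : F.StronglyClosed T) : E.IsInvariantIn F ↔ SI E F := by
  refine ⟨SI_of_invariant, fun h => ⟨hE, hT, invCond_of_SI hT.1 h, fun P hP φ hφ => ?_⟩⟩
  have hTS := hT.1
  have hA : (fullSub F T hTS).autGroup T = F.autGroup T := autGroup_fullSub F hTS le_rfl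
  obtain ⟨α, hα, ε, hε, H⟩ :=
    (frattini_of_SI p hS F hF E hE hT h P hP hφ).2.1 1 (Subgroup.one_mem _)
  have hφT : ∀ x : P, φ x ∈ T := hT.2 P hP φ hφ
  have hle : P ≤ imgAut (1 : MulAut T) P := fun x hx => ⟨⟨x, hP hx⟩, hx, rfl⟩
  refine ⟨α⁻¹, Subgroup.inv_mem _ (hA ▸ hα), _, restrict_mem E hε hle, fun x hx => ?_⟩
  have e1 := H ⟨x, hP x.2⟩ x.2 ⟨φ x, hφT x⟩ rfl
  have e2 : (⟨(ε.comp (Subgroup.inclusion hle)) x, hx⟩ : T) = α ⟨φ x, hφT x⟩ :=
    Subtype.ext e1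
  rw [e2, MulAut.inv_apply_self]

end Cfsg.Agent.Lib.Helper9_StrongInv
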