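import Mathlib

set_option autoImplicit false

namespace Cfsg.Agent.Lib.Helper9_TriForm

variable {H : Type*} [Group H] {U : Type*} [AddCommGroup U] [Module ℝ U] [FiniteDimensional ℝ U]

theorem nondeg (ρ : Representation ℝ H U)
    (hirr : ∀ W : Submodule ℝ U, (∀ g : H, W.map (ρ g) ≤ W) → W = ⊥ ∨ W = ⊤)
    (B : LinearMap.BilinForm ℝ U) (hB0 : B ≠ 0)
    (hBi : ∀ (g : H) (u v : U), B (ρ g u) (ρ g v) = B u v) : B.Nondegenerate := by
  rw [LinearMap.BilinForm.nondegenerate_iff_ker_eq_bot]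
  rcases hirr (LinearMap.ker B) (fun g => by
    rintro _ ⟨u, hu, rfl⟩
    rw [LinearMap.mem_ker]
    ext v
    have h1 : ρ g (ρ g⁻¹ v) = v := by
      rw [← Module.End.mul_apply, ← map_mul, mul_inv_cancel, map_one]; rfl
    have h2 := hBi g u (ρ g⁻¹ v)
    rw [h1] at h2
    rw [h2]
    have h3 : B u = 0 := hu
    rw [h3]; rfl) with h | h
  · exact h
  · exfalso
    apply hB0
    ext u v
    have : u ∈ LinearMap.ker B := by rw [h]; trivial
    have h3 : B u = 0 := this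
    rw [h3]; rfl

/-- from products to trilinear forms -/
noncomputable def toTri (B : LinearMap.BilinForm ℝ U) (m : U →ₗ[ℝ] U →ₗ[ℝ] U) :
    U →ₗ[ℝ] U →ₗ[ℝ] U →ₗ[ℝ] ℝ := m.compr₂ B

theorem toTri_apply (B : LinearMap.BilinForm ℝ U) (m : U →ₗ[ℝ] U →ₗ[ℝ] U) (u v w : U) :
    toTri B m u v w = B (m u v) w := rfl

/-- from trilinear forms to products -/
noncomputable def toMul (B : LinearMap.BilinForm ℝ U) (hB : B.Nondegenerate)
    (t : U →ₗ[ℝ] U →ₗ[ℝ] U →ₗ[ℝ] ℝ) : U →ₗ[ℝ] U →ₗ[ℝ] U :=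
  t.compr₂ ((B.toDual hB).symm : Module.Dual ℝ U →ₗ[ℝ] U)

theorem toMul_apply (B : LinearMap.BilinForm ℝ U) (hB : B.Nondegenerate)
    (t : U →ₗ[ℝ] U →ₗ[ℝ] U →ₗ[ℝ] ℝ) (u v w : U) : B (toMul B hB t u v) w = t u v w :=
  LinearMap.BilinForm.apply_toDual_symm_apply (hB := hB) (t u v) w

theorem eq_of_B {B : LinearMap.BilinForm ℝ U} (hB : B.Nondegenerate) {x y : U}
    (h : ∀ w, B x w = B y w) : x = y := by
  have h1 : B (x - y) = 0 := by
    ext w
    rw [map_sub, LinearMap.sub_apply, h w, sub_self]; rfl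
  have h2 := LinearMap.BilinForm.nondegenerate_iff_ker_eq_bot.1 hB
  have h3 : x - y ∈ LinearMap.ker B := h1
  rw [h2, Submodule.mem_bot] at h3
  exact sub_eq_zero.1 h3

theorem main (ρ : Representation ℝ H U)
    (hirr : ∀ W : Submodule ℝ U, (∀ g : H, W.map (ρ g) ≤ W) → W = ⊥ ∨ W = ⊤)
    (B : LinearMap.BilinForm ℝ U) (hB0 : B ≠ 0) (hBs : ∀ u v, B u v = B v u)
    (hBi : ∀ (g : H) (u v : U), B (ρ g u) (ρ g v) = B u v) :
    (∃ m : U →ₗ[ℝ] U →ₗ[ℝ] U, m ≠ 0 ∧ (∀ u v, m u v = m v u) ∧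
      (∀ (g : H) (u v : U), m (ρ g u) (ρ g v) = ρ g (m u v)) ∧
      ∀ m' : U →ₗ[ℝ] U →ₗ[ℝ] U, (∀ (g : H) (u v : U), m' (ρ g u) (ρ g v) = ρ g (m' u v)) →
        ∃ c : ℝ, m' = c • m) ↔
    (∃ t : U →ₗ[ℝ] U →ₗ[ℝ] U →ₗ[ℝ] ℝ, t ≠ 0 ∧ (∀ u v w, t u v w = t v u w ∧ t u v w = t u w v) ∧
      (∀ (g : H) (u v w : U), t (ρ g u) (ρ g v) (ρ g w) = t u v w) ∧
      ∀ t' : U →ₗ[ℝ] U →ₗ[ℝ] U →ₗ[ℝ] ℝ,
        (∀ (g : H) (u v w : U), t' (ρ g u) (ρ g v) (ρ g w) = t' u v w) → ∃ c : ℝ, t' = c • t) := by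
  have hB := nondeg ρ hirr B hB0 hBi
  have hsurj : ∀ (g : H) (w : U), ρ g (ρ g⁻¹ w) = w := fun g w => by
    rw [← Module.End.mul_apply, ← map_mul, mul_inv_cancel, map_one]; rfl
  -- equivariance transfers
  have equiv1 : ∀ m : U →ₗ[ℝ] U →ₗ[ℝ] U, (∀ (g : H) (u v : U), m (ρ g u) (ρ g v) = ρ g (m u v)) →
      ∀ (g : H) (u v w : U), toTri B m (ρ g u) (ρ g v) (ρ g w) = toTri B m u v w := by
    intro m hm g u v w
    rw [toTri_apply, toTri_apply, hm, hBi]
  have equiv2 : ∀ t : U →ₗ[ℝ] U →ₗ[ℝ] U →ₗ[ℝ] ℝ,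
      (∀ (g : H) (u v w : U), t (ρ g u) (ρ g v) (ρ g w) = t u v w) →
      ∀ (g : H) (u v : U), toMul B hB t (ρ g u) (ρ g v) = ρ g (toMul B hB t u v) := by
    intro t ht g u v
    apply eq_of_B hB
    intro w
    rw [toMul_apply]
    have h1 := ht g u v (ρ g⁻¹ w)
    rw [hsurj] at h1
    rw [h1, ← toMul_apply B hB t u v, ← hBi g, hsurj]
  constructor
  · rintro ⟨m, hm0, hmc, hme, hmu⟩
    have uniq : ∀ t' : U →ₗ[ℝ] U →ₗ[ℝ] U →ₗ[ℝ] ℝ,
        (∀ (g : H) (u v w : U), t' (ρ g u) (ρ g v) (ρ g w) = t' u v w) →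
        ∃ c : ℝ, t' = c • toTri B m := by
      intro t' ht'
      obtain ⟨c, hc⟩ := hmu _ (equiv2 t' ht')
      refine ⟨c, ?_⟩
      ext u v w
      rw [← toMul_apply B hB t' u v w, hc]
      simp [toTri_apply]
    have ht0 : toTri B m ≠ 0 := by
      intro h
      apply hm0
      ext u v
      apply eq_of_B hB
      intro w
      rw [← toTri_apply, h]
      simp
    -- the twisted form
    let t₂ : U →ₗ[ℝ] U →ₗ[ℝ] U →ₗ[ℝ] ℝ :=
      (LinearMap.lflip (R₀ := ℝ) : (U →ₗ[ℝ] U →ₗ[ℝ] ℝ) ≃ₗ[ℝ] (U →ₗ[ℝ] U →ₗ[ℝ] ℝ)).toLinearMap ∘ₗ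
        toTri B m
    have ht₂ : ∀ u v w, t₂ u v w = toTri B m u w v := fun _ _ _ => rfl
    obtain ⟨c, hc⟩ := uniq t₂ (fun g u v w => by rw [ht₂, ht₂, equiv1 m hme])
    have hc' : ∀ u v w, toTri B m u w v = c * toTri B m u v w := by
      intro u v w
      rw [← ht₂, hc]
      simp
    have s12 : ∀ u v w, toTri B m u v w = toTri B m v u w := by
      intro u v w
      rw [toTri_apply, toTri_apply, hmc]
    have hcc : c = 1 := by
      by_contra hne
      apply ht0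
      have h2 : ∀ u v w, toTri B m u v w = c * c * toTri B m u v w := by
        intro u v w
        have := hc' u w v
        rw [hc' u v w] at this
        linarith
      obtain ⟨u, v, w, huvw⟩ : ∃ u v w, toTri B m u v w ≠ 0 := by
        by_contra hcon
        push Not at hcon
        apply ht0
        ext u v w
        exact hcon u v w
      have h3 : c * c = 1 := by
        have := h2 u v w
        have h4 : (c * c - 1) * toTri B m u v w = 0 := by linarith
        rcases mul_eq_zero.1 h4 with h | h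
        · linarith
        · exact absurd h huvw
      have h5 : c = -1 := by
        have : (c - 1) * (c + 1) = 0 := by ring_nf; linarith
        rcases mul_eq_zero.1 this with h | h
        · exact absurd (by linarith) hne
        · linarith
      exfalso
      apply huvw
      -- t(u,v,w) = -t(u,w,v) = -t(w,u,v) = t(w,v,u) = t(v,w,u) = -t(v,u,w) = -t(u,v,w)
      have a1 := hc' u w v   -- t u v w = c * t u w v
      have a2 := s12 u w v   -- t u w v = t w u v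
      have a3 := hc' w v u   -- t w u v = c * t w v u
      have a4 := s12 w v u   -- t w v u = t v w u
      have a5 := hc' v u w   -- t v w u = c * t v u w
      have a6 := s12 v u w   -- t v u w = t u v w
      rw [h5] at a1 a3 a5
      linarith
    refine ⟨toTri B m, ht0, fun u v w => ⟨s12 u v w, ?_⟩, equiv1 m hme, uniq⟩
    have := hc' u w v
    rw [hcc, one_mul] at this
    exact this
  · rintro ⟨t, ht0, hts, hte, htu⟩
    refine ⟨toMul B hB t, ?_, ?_, equiv2 t hte, ?_⟩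
    · intro h
      apply ht0
      ext u v w
      rw [← toMul_apply B hB t u v w, h]
      simp
    · intro u v
      apply eq_of_B hB
      intro w
      rw [toMul_apply, toMul_apply]
      exact (hts u v w).1
    · intro m' hm'
      obtain ⟨c, hc⟩ := htu _ (equiv1 m' hm')
      refine ⟨c, ?_⟩
      ext u v
      apply eq_of_B hB
      intro w
      rw [← toTri_apply, hc]
      simp [toMul_apply]

end Cfsg.Agent.Lib.Helper9_TriForm
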