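import Mathlib
import Cfsg.Prelude.Def_FusionSystem
import Cfsg.Prelude.Def_CaseTheorems
import Cfsg.Agent.Lib.Helper9_GroupQuot
import Cfsg.Agent.Lib.Helper4_Core
import Cfsg.Agent.Lib.Helper3_PComp

set_option autoImplicit false

namespace Cfsg.Agent.Lib.Helper9_ZStarFus

open Cfsg Cfsg.FusionSystem Cfsg.Agent.Lib.Helper9_FusionBasic Cfsg.Agent.Lib.Helper9_FusionSat
open Cfsg.Agent.Lib.Helper9_FusionNormal Cfsg.Agent.Lib.Helper9_GroupQuot

universe u

/-- the statement of Glauberman's Z*-theorem (S0215) in the universe `u` -/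
def ZStar : Prop := ∀ (G : Type u) [Group G] [Finite G] (P : Sylow 2 G) (t : G), orderOf t = 2 →
  t ∈ P → (∀ g : G, g * t * g⁻¹ ∈ P → g * t * g⁻¹ = t) →
  ∃ N : Subgroup G, N.Normal ∧ Odd (Nat.card N) ∧ ∀ g : G, (t * g * t⁻¹ * g⁻¹) ∈ N

/-- every element of `Z` is isolated in `S` -/
def Isolated {G : Type*} [Group G] (S Z : Subgroup G) : Prop :=
  ∀ z ∈ Z, ∀ g : G, g * z * g⁻¹ ∈ S → g * z * g⁻¹ = z

theorem Isolated.map {G : Type*} [Group G] [Finite G] {p : ℕ} [Fact p.Prime] (S : Sylow p G)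
    {Z : Subgroup G} (hZS : Z ≤ S) (h : Isolated (S : Subgroup G) Z) (N : Subgroup G) [N.Normal] :
    Isolated ((S : Subgroup G).map (QuotientGroup.mk' N)) (Z.map (QuotientGroup.mk' N)) := by
  rintro _ ⟨z, hz, rfl⟩ γ hγ
  have hP : Subgroup.zpowers z ≤ (S : Subgroup G) := by
    rw [Subgroup.zpowers_le]; exact hZS hz
  obtain ⟨g, rfl, hg⟩ := exists_lift_conj S N hP γ (by
    rintro _ ⟨k, rfl⟩
    have e : γ * (QuotientGroup.mk ((fun x => z ^ x) k) : G ⧸ N) * γ⁻¹ =
        (γ * QuotientGroup.mk' N z * γ⁻¹) ^ k := by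
      rw [conj_zpow]
      rfl
    rw [e]
    exact Subgroup.zpow_mem _ hγ k)
  have h1 := h z hz g (hg z (Subgroup.mem_zpowers z))
  have h2 := congrArg (QuotientGroup.mk' N) h1
  simpa using h2

theorem pPrimeCore_quotient_central {G : Type u} [Group G] [Finite G] {p : ℕ} [Fact p.Prime]
    (N : Subgroup G) [N.Normal] (hN : IsPGroup p N) (hNc : N ≤ Subgroup.center G)
    (hG : pPrimeCore p G = ⊥) : pPrimeCore p (G ⧸ N) = ⊥ := by
  obtain ⟨M, hM⟩ : ∃ M : Subgroup G, M = (pPrimeCore p (G ⧸ N)).comap (QuotientGroup.mk' N) :=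
    ⟨_, rfl⟩
  have hMn : M.Normal := by
    rw [hM]; infer_instance
  have hNM : N ≤ M := by
    rw [hM]
    intro x hx
    rw [Subgroup.mem_comap]
    have : QuotientGroup.mk' N x = 1 := (QuotientGroup.eq_one_iff x).2 hx
    rw [this]
    exact Subgroup.one_mem _
  have hcardM : Nat.card M = Nat.card N * Nat.card (pPrimeCore p (G ⧸ N)) := by
    rw [hM, Cfsg.Agent.Lib.Helper3_PComp.card_comap_of_surjective _
      (QuotientGroup.mk'_surjective N), QuotientGroup.ker_mk']
  have hcop := Cfsg.Agent.Lib.Helper4_Core.pPrimeCore_coprime (G := G ⧸ N) p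
  obtain ⟨n, hn⟩ := IsPGroup.iff_card.1 hN
  have hcN : Nat.card (N.subgroupOf M) = Nat.card N :=
    Nat.card_congr (Subgroup.subgroupOfEquivOfLe hNM).toEquiv
  have hidx : (N.subgroupOf M).index = Nat.card (pPrimeCore p (G ⧸ N)) := by
    have h1 := Subgroup.card_mul_index (N.subgroupOf M)
    rw [hcN, hcardM] at h1
    exact Nat.eq_of_mul_eq_mul_left Nat.card_pos h1
  obtain ⟨H, hH⟩ := Subgroup.exists_right_complement'_of_coprime (N := N.subgroupOf M) (by
    rw [hcN, hidx, hn]
    exact Nat.Coprime.pow_left _ hcop.symm)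
  have hHn : H.Normal := by
    constructor
    intro y hy m
    obtain ⟨⟨a, b⟩, hab⟩ := hH.2 m
    have hab' : (a : M) * (b : M) = m := hab
    have hac : ∀ w : M, (a : M) * w = w * (a : M) := by
      intro w
      apply Subtype.ext
      have := Subgroup.mem_center_iff.1 (hNc (Subgroup.mem_subgroupOf.1 a.2)) (w : G)
      exact this.symm
    rw [← hab']
    have e : (a : M) * b * y * ((a : M) * b)⁻¹ = (b : M) * y * (b : M)⁻¹ := by
      rw [mul_inv_rev, mul_assoc (a : M), mul_assoc (a : M), hac, mul_assoc, mul_assoc,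
        mul_assoc, mul_assoc]
      simp
    rw [e]
    exact H.mul_mem (H.mul_mem b.2 hy) (H.inv_mem b.2)
  have hcH : Nat.card H = Nat.card (pPrimeCore p (G ⧸ N)) := by
    have h1 := hH.card_mul_card
    rw [hcN, hcardM] at h1
    exact Nat.eq_of_mul_eq_mul_left Nat.card_pos h1
  have hsub : (H.map M.subtype).IsSubnormal :=
    Subgroup.IsSubnormal.trans' hHn.isSubnormal hMn.isSubnormal
  have hle := Cfsg.Agent.Lib.Helper3_PComp.subnormal_le_pPrimeCore (p := p) hsub (by
    rw [Subgroup.card_map_of_injective M.subtype_injective, hcH]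
    exact hcop)
  rw [hG, le_bot_iff, Subgroup.map_eq_bot_iff_of_injective _ M.subtype_injective] at hle
  rw [hle, Subgroup.card_bot] at hcH
  exact Subgroup.card_eq_one.1 hcH.symm


theorem isolated_comm_mem (hZ : ZStar.{u}) : ∀ (n : ℕ) (G : Type u) [Group G] [Finite G],
    Nat.card G = n → ∀ (S : Sylow 2 G) (Z : Subgroup G), Z ≤ S → Isolated (S : Subgroup G) Z →
    ∀ z ∈ Z, ∀ g : G, z * g * z⁻¹ * g⁻¹ ∈ oddCore G := by
  intro n
  induction n using Nat.strong_induction_on with
  | _ n ih =>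
    intro G _ _ hn S Z hZS hiso z hz g
    by_cases hZb : Z = ⊥
    · rw [hZb, Subgroup.mem_bot] at hz
      rw [hz]
      simp
    have step : ∀ (N : Subgroup G) [N.Normal], N ≠ ⊥ →
        QuotientGroup.mk' N (z * g * z⁻¹ * g⁻¹) ∈ oddCore (G ⧸ N) := by
      intro N _ hN
      have hcard : Nat.card (G ⧸ N) < n := by
        rw [← hn, ← Subgroup.index_eq_card, ← Subgroup.card_mul_index N]
        have h1 : 1 < Nat.card N := by
          rw [Subgroup.one_lt_card_iff_ne_bot]; exact hN
        have h2 : 0 < N.index := Nat.pos_of_ne_zero Subgroup.index_ne_zero_of_finite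
        nlinarith
      have := ih _ hcard (G ⧸ N) rfl (S.mapSurjective (QuotientGroup.mk'_surjective N))
        (Z.map (QuotientGroup.mk' N)) (by
          rw [Sylow.coe_mapSurjective]; exact Subgroup.map_mono hZS) (by
          rw [Sylow.coe_mapSurjective]; exact hiso.map S hZS N) (QuotientGroup.mk' N z)
        (Subgroup.mem_map_of_mem _ hz) (QuotientGroup.mk' N g)
      simpa using this
    by_cases hK : oddCore G = ⊥
    · obtain ⟨t, htZ, ht⟩ := Cfsg.Agent.Lib.Helper4_Syl.exists_orderOf_eq_of_ne_bot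
        (S.isPGroup'.to_le hZS) hZb
      obtain ⟨N, hNn, hNodd, hN⟩ := hZ G S t ht (hZS htZ) (hiso t htZ)
      have hNb : N = ⊥ := by
        rw [← le_bot_iff, ← hK]
        exact Cfsg.Agent.Lib.Helper4_Core.le_pPrimeCore hNn (Nat.coprime_two_right.2 hNodd)
      have htc : t ∈ Subgroup.center G := by
        rw [Subgroup.mem_center_iff]
        intro w
        have h1 := hN w
        rw [hNb, Subgroup.mem_bot] at h1
        have h2 : t * w = w * t := by
          have := congrArg (fun y => y * w * t) h1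
          simpa [mul_assoc] using this
        exact h2.symm
      have hTc : Subgroup.zpowers t ≤ Subgroup.center G := by
        rw [Subgroup.zpowers_le]; exact htc
      have hTn : (Subgroup.zpowers t).Normal := by
        constructor
        intro y hy w
        have := Subgroup.mem_center_iff.1 (hTc hy) w
        rw [this, mul_inv_cancel_right]
        exact hy
      have hTS : Subgroup.zpowers t ≤ (S : Subgroup G) := by
        rw [Subgroup.zpowers_le]; exact hZS htZ
      have hTb : Subgroup.zpowers t ≠ ⊥ := by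
        rw [Ne, Subgroup.zpowers_eq_bot]
        rintro rfl
        simp at ht
      have h1 := step (Subgroup.zpowers t) hTb
      have h0 : oddCore (G ⧸ Subgroup.zpowers t) = ⊥ :=
        pPrimeCore_quotient_central _ (S.isPGroup'.to_le hTS) hTc hK
      rw [h0, Subgroup.mem_bot] at h1
      have h2 : z * g * z⁻¹ * g⁻¹ ∈ Subgroup.zpowers t := (QuotientGroup.eq_one_iff _).1 h1
      have h3 : g * z⁻¹ * g⁻¹ ∈ (S : Subgroup G) := by
        have e : g * z⁻¹ * g⁻¹ = z⁻¹ * (z * g * z⁻¹ * g⁻¹) := by group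
        rw [e]
        exact Subgroup.mul_mem _ (Subgroup.inv_mem _ (hZS hz)) (hTS h2)
      have h4 := hiso z⁻¹ (Z.inv_mem hz) g h3
      have e : z * g * z⁻¹ * g⁻¹ = z * (g * z⁻¹ * g⁻¹) := by group
      rw [e, h4, mul_inv_cancel]
      exact Subgroup.one_mem _
    · have h1 := step (oddCore G) hK
      have h0 : oddCore (G ⧸ oddCore G) = ⊥ :=
        Cfsg.Agent.Lib.Helper3_PComp.pPrimeCore_quotient_eq_bot 2 G
      rw [h0, Subgroup.mem_bot] at h1
      exact (QuotientGroup.eq_one_iff _).1 h1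

theorem eq_of_mk_eq {G : Type*} [Group G] [Finite G] (S : Sylow 2 G) {a b : G}
    (ha : a ∈ S) (hb : b ∈ S)
    (h : (QuotientGroup.mk a : G ⧸ oddCore G) = QuotientGroup.mk b) : a = b := by
  have h1 : a⁻¹ * b ∈ oddCore G := QuotientGroup.eq.1 h
  have h2 : a⁻¹ * b ∈ (S : Subgroup G) := S.mul_mem (S.inv_mem ha) hb
  obtain ⟨n, hn⟩ := IsPGroup.iff_card.1 S.isPGroup'
  have hd : Disjoint (S : Subgroup G) (oddCore G) := by
    apply Subgroup.disjoint_of_coprime_natCard
    rw [hn]
    exact Nat.Coprime.pow_left _ (Cfsg.Agent.Lib.Helper4_Core.pPrimeCore_coprime (G := G) 2).symm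
  have h3 := Subgroup.disjoint_def.1 hd h2 h1
  exact (inv_mul_eq_one.1 h3)

/-- S5094, given S0215 -/
theorem center_eq (hZ : ZStar.{u}) {G : Type u} [Group G] [Finite G] (S : Sylow 2 G) :
    (groupFusionSystem (S : Subgroup G)).center = (S : Subgroup G) ⊓
      (Subgroup.center (G ⧸ oddCore G)).comap (QuotientGroup.mk' (oddCore G)) := by
  apply le_antisymm
  · have hc := isCentral_center (groupFusionSystem (S : Subgroup G))
    have hiso : Isolated (S : Subgroup G) (groupFusionSystem (S : Subgroup G)).center := by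
      intro z hz g hg
      have hzS : Subgroup.zpowers z ≤ (S : Subgroup G) := by
        rw [Subgroup.zpowers_le]; exact hc.1 hz
      have hφ : conjHom (Subgroup.zpowers z) g ∈
          (groupFusionSystem (S : Subgroup G)).Hom (Subgroup.zpowers z) := by
        refine ⟨hzS, ?_, g, fun x => rfl⟩
        rintro ⟨_, k, rfl⟩
        show g * z ^ k * g⁻¹ ∈ (S : Subgroup G)
        rw [← conj_zpow]
        exact Subgroup.zpow_mem _ hg k
      obtain ⟨ψ, -, h1, h2⟩ := hc.2 _ _ hφ
      have e1 := h1 ⟨z, Subgroup.mem_zpowers z⟩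
      have e2 := h2 ⟨z, hz⟩
      have e3 : Subgroup.inclusion (le_sup_left : Subgroup.zpowers z ≤ Subgroup.zpowers z ⊔
          (groupFusionSystem (S : Subgroup G)).center) ⟨z, Subgroup.mem_zpowers z⟩ =
          Subgroup.inclusion le_sup_right ⟨z, hz⟩ := rfl
      rw [e3, e2] at e1
      exact e1.symm
    intro z hz
    refine ⟨hc.1 hz, ?_⟩
    show QuotientGroup.mk' (oddCore G) z ∈ Subgroup.center (G ⧸ oddCore G)
    rw [Subgroup.mem_center_iff]
    intro γ
    obtain ⟨g, rfl⟩ := QuotientGroup.mk_surjective γ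
    have h1 := isolated_comm_mem hZ _ G rfl S _ hc.1 hiso z hz g
    have h2 : (QuotientGroup.mk (z * g * z⁻¹ * g⁻¹) : G ⧸ oddCore G) = 1 :=
      (QuotientGroup.eq_one_iff _).2 h1
    show (QuotientGroup.mk g : G ⧸ oddCore G) * QuotientGroup.mk z =
      QuotientGroup.mk z * QuotientGroup.mk g
    rw [← QuotientGroup.mk_mul, ← QuotientGroup.mk_mul]
    have e : z * g = (z * g * z⁻¹ * g⁻¹) * (g * z) := by group
    rw [e, QuotientGroup.mk_mul (oddCore G) (z * g * z⁻¹ * g⁻¹), h2, one_mul]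
  · apply le_sSup
    obtain ⟨Z, hZd⟩ : ∃ Z : Subgroup G, Z = (S : Subgroup G) ⊓
      (Subgroup.center (G ⧸ oddCore G)).comap (QuotientGroup.mk' (oddCore G)) := ⟨_, rfl⟩
    rw [← hZd]
    have hZS : Z ≤ (S : Subgroup G) := hZd ▸ inf_le_left
    have hZc : ∀ z ∈ Z, ∀ γ : G ⧸ oddCore G, γ * QuotientGroup.mk z * γ⁻¹ = QuotientGroup.mk z := by
      intro z hz γ
      rw [hZd] at hz
      have := Subgroup.mem_center_iff.1 hz.2 γ
      rw [mul_inv_eq_iff_eq_mul]
      exact this
    refine ⟨hZS, ?_⟩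
    rintro P φ ⟨hP, hφS, g, hg⟩
    have hPZ : P ⊔ Z ≤ (S : Subgroup G) := sup_le hP hZS
    obtain ⟨g', hg', hg'S⟩ := exists_lift_conj S (oddCore G) hPZ (QuotientGroup.mk g) (by
      have hle : P ⊔ Z ≤ (((S : Subgroup G).map (QuotientGroup.mk' (oddCore G))).comap
          (MulAut.conj (QuotientGroup.mk g : G ⧸ oddCore G)).toMonoidHom).comap
          (QuotientGroup.mk' (oddCore G)) := by
        apply sup_le
        · intro x hx
          show (QuotientGroup.mk g : G ⧸ oddCore G) * QuotientGroup.mk x * (QuotientGroup.mk g)⁻¹ ∈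
            (S : Subgroup G).map (QuotientGroup.mk' (oddCore G))
          refine ⟨g * x * g⁻¹, ?_, rfl⟩
          have := hφS ⟨x, hx⟩
          rwa [hg] at this
        · intro x hx
          show (QuotientGroup.mk g : G ⧸ oddCore G) * QuotientGroup.mk x * (QuotientGroup.mk g)⁻¹ ∈
            (S : Subgroup G).map (QuotientGroup.mk' (oddCore G))
          rw [hZc x hx]
          exact ⟨x, hZS hx, rfl⟩
      exact fun x hx => hle hx)
    refine ⟨conjHom (P ⊔ Z) g', ⟨hPZ, fun x => hg'S x x.2, g', fun x => rfl⟩, ?_, ?_⟩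
    · intro x
      show g' * (x : G) * g'⁻¹ = φ x
      apply eq_of_mk_eq S (hg'S x (Subgroup.mem_sup_left x.2)) (hφS x)
      rw [hg, QuotientGroup.mk_mul, QuotientGroup.mk_mul, QuotientGroup.mk_inv, hg']
      rfl
    · intro x
      show g' * (x : G) * g'⁻¹ = x
      apply eq_of_mk_eq S (hg'S x (Subgroup.mem_sup_right x.2)) (hZS x.2)
      rw [QuotientGroup.mk_mul, QuotientGroup.mk_mul, QuotientGroup.mk_inv, hZc x x.2]

end Cfsg.Agent.Lib.Helper9_ZStarFus
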