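import Mathlib
import Cfsg.Prelude.Def_Characters

set_option autoImplicit false

namespace Cfsg.Agent.Lib.JordanArc

open scoped Matrix.Norms.L2Operator ComplexConjugate

variable {G : Type*} [Group G] {n : ℕ} (U : G →* Matrix (Fin n) (Fin n) ℂ)

/-- the centre of the small disc -/
noncomputable def c0 : ℂ := ((Real.sqrt 3 / 2 : ℝ) : ℂ)

/-- elements close to the identity -/
def Small (g : G) : Prop := ‖U g - c0 • (1 : Matrix (Fin n) (Fin n) ℂ)‖ < 1 / 2 ∧ ‖1 - U g‖ < 1

variable {U}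

theorem norm_conj (hU : ∀ g, U g ∈ unitary (Matrix (Fin n) (Fin n) ℂ)) (x : G)
    (X : Matrix (Fin n) (Fin n) ℂ) : ‖U x * X * U x⁻¹‖ = ‖X‖ := by
  rw [CStarRing.norm_mul_mem_unitary _ (hU _), CStarRing.norm_mem_unitary_mul _ (hU _)]

theorem U_mul_inv (x : G) : U x * U x⁻¹ = 1 := by
  rw [← map_mul, mul_inv_cancel, map_one]

theorem small_conj (hU : ∀ g, U g ∈ unitary (Matrix (Fin n) (Fin n) ℂ)) {g : G}
    (hg : Small U g) (x : G) : Small U (x * g * x⁻¹) := by
  constructor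
  · have : U (x * g * x⁻¹) - c0 • (1 : Matrix (Fin n) (Fin n) ℂ) =
        U x * (U g - c0 • 1) * U x⁻¹ := by
      rw [map_mul, map_mul, mul_sub, sub_mul, mul_smul_comm, mul_one, smul_mul_assoc, U_mul_inv]
    rw [this, norm_conj hU]
    exact hg.1
  · have : 1 - U (x * g * x⁻¹) = U x * (1 - U g) * U x⁻¹ := by
      rw [map_mul, map_mul, mul_sub, sub_mul, mul_one, U_mul_inv]
    rw [this, norm_conj hU]
    exact hg.2

/-- contraction of commutators -/
theorem contraction (hU : ∀ g, U g ∈ unitary (Matrix (Fin n) (Fin n) ℂ)) (a c : G) :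
    ‖1 - U (a * c * a⁻¹ * c⁻¹)‖ ≤
      2 * ‖U a - c0 • (1 : Matrix (Fin n) (Fin n) ℂ)‖ * ‖1 - U c‖ := by
  have e1 : 1 - U (a * c * a⁻¹ * c⁻¹) = (U c * U a - U a * U c) * U (a⁻¹ * c⁻¹) := by
    have h1 : U c * U a * U (a⁻¹ * c⁻¹) = 1 := by
      rw [← map_mul, ← map_mul]
      have : c * a * (a⁻¹ * c⁻¹) = 1 := by group
      rw [this, map_one]
    have h2 : U a * U c * U (a⁻¹ * c⁻¹) = U (a * c * a⁻¹ * c⁻¹) := by
      rw [← map_mul, ← map_mul]
      congr 1
      group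
    rw [sub_mul, h1, h2]
  have e2 : U c * U a - U a * U c =
      (U a - c0 • (1 : Matrix (Fin n) (Fin n) ℂ)) * (1 - U c) -
        (1 - U c) * (U a - c0 • (1 : Matrix (Fin n) (Fin n) ℂ)) := by
    simp only [mul_sub, sub_mul, mul_one, one_mul, smul_mul_assoc, mul_smul_comm, smul_sub]
    abel
  rw [e1, CStarRing.norm_mul_mem_unitary _ (hU _), e2]
  calc _ ≤ ‖(U a - c0 • (1 : Matrix (Fin n) (Fin n) ℂ)) * (1 - U c)‖ +
        ‖(1 - U c) * (U a - c0 • (1 : Matrix (Fin n) (Fin n) ℂ))‖ := norm_sub_le _ _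
    _ ≤ ‖U a - c0 • (1 : Matrix (Fin n) (Fin n) ℂ)‖ * ‖1 - U c‖ +
        ‖1 - U c‖ * ‖U a - c0 • (1 : Matrix (Fin n) (Fin n) ℂ)‖ :=
        add_le_add (norm_mul_le _ _) (norm_mul_le _ _)
    _ = _ := by ring

/-- Frobenius' lemma, in norm form -/
theorem frobenius [Finite G] (hU : ∀ g, U g ∈ unitary (Matrix (Fin n) (Fin n) ℂ))
    (hinj : Function.Injective U) (a c : G)
    (hcomm : a * (a * c * a⁻¹ * c⁻¹) = (a * c * a⁻¹ * c⁻¹) * a) (hc : ‖1 - U c‖ < 1) :
    a * c = c * a := by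
  set C := a * c * a⁻¹ * c⁻¹ with hC
  have hpow : ∀ k : ℕ, a ^ k * c * (a ^ k)⁻¹ = C ^ k * c := by
    intro k
    induction k with
    | zero => simp
    | succ k ih =>
      have hck : a * C ^ k = C ^ k * a := (Commute.pow_right (show Commute a C from hcomm) k)
      calc a ^ (k + 1) * c * (a ^ (k + 1))⁻¹ = a * (a ^ k * c * (a ^ k)⁻¹) * a⁻¹ := by
            rw [pow_succ']; group
        _ = a * (C ^ k * c) * a⁻¹ := by rw [ih]
        _ = (a * C ^ k) * c * a⁻¹ := by group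
        _ = C ^ k * (a * c * a⁻¹ * c⁻¹) * c := by rw [hck]; group
        _ = C ^ (k + 1) * c := by rw [← hC, pow_succ]
  have hnorm : ∀ k : ℕ, ‖1 - U C ^ k * U c‖ = ‖1 - U c‖ := by
    intro k
    have : 1 - U C ^ k * U c = U (a ^ k) * (1 - U c) * U (a ^ k)⁻¹ := by
      rw [← map_pow, ← map_mul, ← hpow k, map_mul, map_mul, mul_sub, sub_mul, mul_one, U_mul_inv]
    rw [this, norm_conj hU]
  set m := Nat.card G with hm
  have hm0 : 0 < m := Nat.card_pos
  have hCm : U C ^ m = 1 := by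
    rw [← map_pow, hm, pow_card_eq_one', map_one]
  set Y := U c⁻¹ * (1 - U C) with hY
  have hsum : (∑ k ∈ Finset.range m, (1 - U C ^ k * U c)) * Y = (m : ℂ) • Y := by
    rw [Finset.sum_sub_distrib, sub_mul, ← Finset.sum_mul]
    have h1 : (∑ k ∈ Finset.range m, U C ^ k) * U c * Y = 0 := by
      rw [hY, mul_assoc, ← mul_assoc (U c), U_mul_inv, one_mul, geom_sum_mul_neg, hCm, sub_self]
    rw [h1, sub_zero]
    simp only [Finset.sum_const, Finset.card_range, smul_mul_assoc, one_mul]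
    rw [← Nat.cast_smul_eq_nsmul ℂ]
  have hle : (m : ℝ) * ‖Y‖ ≤ (m : ℝ) * (‖1 - U c‖ * ‖Y‖) := by
    have h2 : ‖(m : ℂ) • Y‖ = (m : ℝ) * ‖Y‖ := by
      rw [norm_smul]
      simp
    rw [← h2, ← hsum]
    calc _ ≤ ‖∑ k ∈ Finset.range m, (1 - U C ^ k * U c)‖ * ‖Y‖ := norm_mul_le _ _
      _ ≤ (∑ k ∈ Finset.range m, ‖1 - U C ^ k * U c‖) * ‖Y‖ :=
          mul_le_mul_of_nonneg_right (norm_sum_le _ _) (norm_nonneg _)
      _ = _ := by
          simp only [hnorm, Finset.sum_const, Finset.card_range, nsmul_eq_mul]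
          ring
  have hY0 : ‖Y‖ = 0 := by
    have hmr : (0 : ℝ) < m := by exact_mod_cast hm0
    have h3 := le_of_mul_le_mul_left hle hmr
    have h4 := norm_nonneg Y
    nlinarith
  have hC1 : U C = 1 := by
    rw [hY, CStarRing.norm_mem_unitary_mul _ (hU _), norm_eq_zero, sub_eq_zero] at hY0
    exact hY0.symm
  have hC1' : C = 1 := hinj (by rw [hC1, map_one])
  calc a * c = C * (c * a) := by rw [hC]; group
    _ = c * a := by rw [hC1', one_mul]

/-- small elements commute -/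
theorem small_commute [Finite G] (hU : ∀ g, U g ∈ unitary (Matrix (Fin n) (Fin n) ℂ))
    (hinj : Function.Injective U) {a b : G} (ha : Small U a) (hb : Small U b) :
    a * b = b * a := by
  classical
  haveI : Fintype G := Fintype.ofFinite G
  by_contra hab
  set X : Finset G := Finset.univ.filter (fun c => ‖1 - U c‖ ≤ ‖1 - U b‖ ∧ a * c ≠ c * a) with hX
  have hbX : b ∈ X := by
    rw [hX, Finset.mem_filter]
    exact ⟨Finset.mem_univ _, le_rfl, hab⟩
  obtain ⟨c, hcX, hmin⟩ := Finset.exists_min_image X (fun c => ‖1 - U c‖) ⟨b, hbX⟩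
  obtain ⟨-, hc1, hc2⟩ := Finset.mem_filter.mp hcX
  have hcpos : 0 < ‖1 - U c‖ := by
    rw [norm_pos_iff, sub_ne_zero]
    intro h
    have : c = 1 := hinj (by rw [← h, map_one])
    apply hc2
    rw [this, mul_one, one_mul]
  have hlt : ‖1 - U (a * c * a⁻¹ * c⁻¹)‖ < ‖1 - U c‖ := by
    calc _ ≤ 2 * ‖U a - c0 • (1 : Matrix (Fin n) (Fin n) ℂ)‖ * ‖1 - U c‖ := contraction hU a c
      _ < 1 * ‖1 - U c‖ := by
          apply mul_lt_mul_of_pos_right _ hcpos
          have := ha.1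
          linarith
      _ = _ := one_mul _
  have hmem : a * c * a⁻¹ * c⁻¹ ∈ X := by
    rw [hX, Finset.mem_filter]
    refine ⟨Finset.mem_univ _, hlt.le.trans hc1, ?_⟩
    intro h
    exact hc2 (frobenius hU hinj a c h (lt_of_le_of_lt hc1 hb.2))
  exact absurd (hmin _ hmem) (not_le.mpr hlt)

/-- the abelian normal subgroup -/
def AA (U : G →* Matrix (Fin n) (Fin n) ℂ) : Subgroup G := Subgroup.normalClosure {g | Small U g}

theorem AA_normal : (AA U).Normal := Subgroup.normalClosure_normal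

theorem small_mem_AA {g : G} (hg : Small U g) : g ∈ AA U := Subgroup.subset_normalClosure hg

theorem AA_comm [Finite G] (hU : ∀ g, U g ∈ unitary (Matrix (Fin n) (Fin n) ℂ))
    (hinj : Function.Injective U) : ∀ x ∈ AA U, ∀ y ∈ AA U, x * y = y * x := by
  have hset : ∀ x ∈ Group.conjugatesOfSet {g | Small U g}, Small U x := by
    intro x hx
    obtain ⟨g, hg, hgx⟩ := Group.mem_conjugatesOfSet_iff.mp hx
    obtain ⟨t, rfl⟩ := isConj_iff.mp hgx
    exact small_conj hU hg t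
  have hcomm : ∀ x ∈ Group.conjugatesOfSet {g | Small U g},
      ∀ y ∈ Group.conjugatesOfSet {g | Small U g}, x * y = y * x :=
    fun x hx y hy => small_commute hU hinj (hset x hx) (hset y hy)
  intro x hx y hy
  letI := Subgroup.closureCommGroupOfComm hcomm
  have := mul_comm (⟨x, hx⟩ : Subgroup.closure (Group.conjugatesOfSet {g | Small U g})) ⟨y, hy⟩
  exact congrArg Subtype.val this

section spectral

variable {α : Type*} [AddCommGroup α] [Fintype α] [DecidableEq α]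
  {E : Type*} [NormedAddCommGroup E] [InnerProductSpace ℂ E]
  (T : α → (E →L[ℂ] E))

/-- the spectral projections -/
noncomputable def ee (ψ : AddChar α ℂ) : E →L[ℂ] E :=
  ((Fintype.card α : ℂ)⁻¹) • ∑ a, conj (ψ a) • T a

theorem sum_ee (T0 : T 0 = 1) : ∑ ψ : AddChar α ℂ, ee T ψ = 1 := by
  unfold ee
  rw [← Finset.smul_sum, Finset.sum_comm]
  simp only [← Finset.sum_smul]
  have : ∀ a : α, ∑ ψ : AddChar α ℂ, conj (ψ a) = if a = 0 then (Fintype.card α : ℂ) else 0 := by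
    intro a
    rw [← map_sum, AddChar.sum_apply_eq_ite]
    split_ifs <;> simp
  simp only [this, ite_smul, zero_smul, Finset.sum_ite_eq', Finset.mem_univ, if_true, T0]
  rw [smul_smul, inv_mul_cancel₀ (by exact_mod_cast Fintype.card_ne_zero), one_smul]

theorem psi_mul_conj (ψ : AddChar α ℂ) (x : α) : ψ x * conj (ψ x) = 1 := by
  rw [Complex.mul_conj, Complex.normSq_eq_norm_sq, AddChar.norm_apply]
  simp

theorem T_mul_ee (Tadd : ∀ a b, T (a + b) = T a * T b) (x : α) (ψ : AddChar α ℂ) :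
    T x * ee T ψ = ψ x • ee T ψ := by
  unfold ee
  rw [mul_smul_comm, smul_comm (ψ x)]
  congr 1
  rw [Finset.mul_sum, Finset.smul_sum,
    ← Equiv.sum_comp (Equiv.addLeft x) (fun b => ψ x • conj (ψ b) • T b)]
  refine Finset.sum_congr rfl fun a _ => ?_
  simp only [Equiv.coe_addLeft]
  rw [mul_smul_comm, ← Tadd, smul_smul, AddChar.map_add_eq_mul, map_mul, ← mul_assoc,
    psi_mul_conj, one_mul]

theorem ee_orth (Tadd : ∀ a b, T (a + b) = T a * T b)
    (Tinner : ∀ a x y, inner ℂ (T a x) (T a y) = inner ℂ x y) {ψ φ : AddChar α ℂ} (h : ψ ≠ φ)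
    (x y : E) : inner ℂ (ee T ψ x) (ee T φ y) = 0 := by
  obtain ⟨a, ha⟩ := DFunLike.ne_iff.mp h
  have h1 : T a (ee T ψ x) = ψ a • ee T ψ x := by
    have := congrArg (fun L : E →L[ℂ] E => L x) (T_mul_ee T Tadd a ψ)
    simpa using this
  have h2 : T a (ee T φ y) = φ a • ee T φ y := by
    have := congrArg (fun L : E →L[ℂ] E => L y) (T_mul_ee T Tadd a φ)
    simpa using this
  have h3 := Tinner a (ee T ψ x) (ee T φ y)
  rw [h1, h2, inner_smul_left, inner_smul_right] at h3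
  by_contra hne
  apply ha
  have h4 : conj (ψ a) * φ a = 1 := by
    have : (conj (ψ a) * φ a) * inner ℂ (ee T ψ x) (ee T φ y) =
        1 * inner ℂ (ee T ψ x) (ee T φ y) := by
      rw [one_mul, mul_assoc]
      exact h3
    exact mul_right_cancel₀ hne this
  calc ψ a = ψ a * (conj (ψ a) * φ a) := by rw [h4, mul_one]
    _ = (ψ a * conj (ψ a)) * φ a := by ring
    _ = φ a := by rw [psi_mul_conj, one_mul]

theorem norm_sq_sum_orth {ι : Type*} (s : Finset ι) (y : ι → E)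
    (h : ∀ i ∈ s, ∀ j ∈ s, i ≠ j → inner ℂ (y i) (y j) = 0) :
    ‖∑ i ∈ s, y i‖ ^ 2 = ∑ i ∈ s, ‖y i‖ ^ 2 := by
  classical
  have h1 : inner ℂ (∑ i ∈ s, y i) (∑ i ∈ s, y i) = ∑ i ∈ s, inner ℂ (y i) (y i) := by
    rw [sum_inner]
    refine Finset.sum_congr rfl fun i hi => ?_
    rw [inner_sum, Finset.sum_eq_single i]
    · intro j hj hji
      exact h i hi j hj (Ne.symm hji)
    · intro hi'; exact absurd hi hi'
  have h2 := congrArg Complex.re h1
  rw [Complex.re_sum] at h2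
  have h3 : ∀ z : E, (inner ℂ z z).re = ‖z‖ ^ 2 := fun z => inner_self_eq_norm_sq (𝕜 := ℂ) z
  simpa only [h3] using h2

theorem norm_comb_le (T0 : T 0 = 1) (Tadd : ∀ a b, T (a + b) = T a * T b)
    (Tinner : ∀ a x y, inner ℂ (T a x) (T a y) = inner ℂ x y) (z : AddChar α ℂ → ℂ) {r : ℝ}
    (hr : 0 ≤ r) (hz : ∀ ψ, ee T ψ ≠ 0 → ‖z ψ‖ ≤ r) :
    ‖∑ ψ : AddChar α ℂ, z ψ • ee T ψ‖ ≤ r := by
  apply ContinuousLinearMap.opNorm_le_bound _ hr
  intro x
  have e1 : (∑ ψ : AddChar α ℂ, z ψ • ee T ψ) x = ∑ ψ : AddChar α ℂ, z ψ • ee T ψ x := by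
    simp [ContinuousLinearMap.sum_apply]
  have e2 : x = ∑ ψ : AddChar α ℂ, ee T ψ x := by
    have := congrArg (fun L : E →L[ℂ] E => L x) (sum_ee T T0)
    simp only [ContinuousLinearMap.sum_apply, ContinuousLinearMap.one_apply] at this
    exact this.symm
  have h1 : ‖∑ ψ : AddChar α ℂ, z ψ • ee T ψ x‖ ^ 2 = ∑ ψ : AddChar α ℂ, ‖z ψ • ee T ψ x‖ ^ 2 := by
    apply norm_sq_sum_orth
    intro i _ j _ hij
    rw [inner_smul_left, inner_smul_right, ee_orth T Tadd Tinner hij, mul_zero, mul_zero]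
  have h2 : ‖x‖ ^ 2 = ∑ ψ : AddChar α ℂ, ‖ee T ψ x‖ ^ 2 := by
    conv_lhs => rw [e2]
    apply norm_sq_sum_orth
    intro i _ j _ hij
    exact ee_orth T Tadd Tinner hij x x
  have h3 : ‖∑ ψ : AddChar α ℂ, z ψ • ee T ψ x‖ ^ 2 ≤ (r * ‖x‖) ^ 2 := by
    rw [h1, mul_pow, h2, Finset.mul_sum]
    refine Finset.sum_le_sum fun ψ _ => ?_
    rw [norm_smul, mul_pow]
    by_cases hψ : ee T ψ = 0
    · simp [hψ]
    · exact mul_le_mul_of_nonneg_right (pow_le_pow_left₀ (norm_nonneg _) (hz ψ hψ) 2)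
        (sq_nonneg _)
  rw [e1]
  exact (abs_le_of_sq_le_sq' h3 (mul_nonneg hr (norm_nonneg _))).2

theorem card_support_le [FiniteDimensional ℂ E] (Tadd : ∀ a b, T (a + b) = T a * T b)
    (Tinner : ∀ a x y, inner ℂ (T a x) (T a y) = inner ℂ x y) :
    Nat.card {ψ : AddChar α ℂ // ee T ψ ≠ 0} ≤ Module.finrank ℂ E := by
  classical
  have hex : ∀ ψ : {ψ : AddChar α ℂ // ee T ψ ≠ 0}, ∃ x : E, ee T ψ.1 x ≠ 0 := by
    intro ψ
    by_contra hcon
    push Not at hcon
    exact ψ.2 (ContinuousLinearMap.ext fun x => by simpa using hcon x)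
  choose x hx using hex
  have hli : LinearIndependent ℂ (fun ψ : {ψ : AddChar α ℂ // ee T ψ ≠ 0} => ee T ψ.1 (x ψ)) := by
    apply linearIndependent_of_ne_zero_of_inner_eq_zero hx
    intro i j hij
    exact ee_orth T Tadd Tinner (fun h => hij (Subtype.ext h)) _ _
  rw [Nat.card_eq_fintype_card]
  exact hli.fintype_card_le_finrank

end spectral

section arcs

/-- the index of the arc (of length `π / 6`) containing the argument of `z` -/
noncomputable def arcIdx (z : ℂ) : Fin 12 :=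
  ⟨⌈(Complex.arg z + Real.pi) * 6 / Real.pi⌉₊ - 1, by
    have hpi := Real.pi_pos
    have h1 : (Complex.arg z + Real.pi) * 6 / Real.pi ≤ 12 := by
      rw [div_le_iff₀ hpi]
      have := Complex.arg_le_pi z
      nlinarith
    have h2 : ⌈(Complex.arg z + Real.pi) * 6 / Real.pi⌉₊ ≤ 12 := by
      apply Nat.ceil_le.mpr
      exact_mod_cast h1
    have h3 : 0 < ⌈(Complex.arg z + Real.pi) * 6 / Real.pi⌉₊ := by
      apply Nat.ceil_pos.mpr
      have := Complex.neg_pi_lt_arg z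
      apply div_pos _ hpi
      nlinarith
    omega⟩

theorem arc_close {z1 z2 : ℂ} (h1 : ‖z1‖ = 1) (h2 : ‖z2‖ = 1) (h : arcIdx z1 = arcIdx z2) :
    Real.sqrt 3 / 2 < (conj z1 * z2).re := by
  have hpi := Real.pi_pos
  set t1 := (Complex.arg z1 + Real.pi) * 6 / Real.pi with ht1
  set t2 := (Complex.arg z2 + Real.pi) * 6 / Real.pi with ht2
  have p1 : 0 < t1 := by
    have := Complex.neg_pi_lt_arg z1
    apply div_pos _ hpi
    nlinarith
  have p2 : 0 < t2 := by
    have := Complex.neg_pi_lt_arg z2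
    apply div_pos _ hpi
    nlinarith
  have hk : ⌈t1⌉₊ = ⌈t2⌉₊ := by
    have h3 : ⌈t1⌉₊ - 1 = ⌈t2⌉₊ - 1 := congrArg Fin.val h
    have q1 : 0 < ⌈t1⌉₊ := Nat.ceil_pos.mpr p1
    have q2 : 0 < ⌈t2⌉₊ := Nat.ceil_pos.mpr p2
    omega
  have a1 := Nat.ceil_lt_add_one p1.le
  have a2 := Nat.ceil_lt_add_one p2.le
  have b1 := Nat.le_ceil t1
  have b2 := Nat.le_ceil t2
  rw [hk] at a1 b1
  have habs : |t1 - t2| < 1 := by
    rw [abs_lt]
    constructor <;> linarith
  have hdiff : t1 - t2 = (Complex.arg z1 - Complex.arg z2) * 6 / Real.pi := by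
    rw [ht1, ht2]; ring
  have harg : |Complex.arg z1 - Complex.arg z2| < Real.pi / 6 := by
    rw [hdiff, abs_div, abs_mul, abs_of_pos hpi, div_lt_one hpi] at habs
    have : |(6 : ℝ)| = 6 := abs_of_pos (by norm_num)
    rw [this] at habs
    linarith
  have hz1 : z1 ≠ 0 := by
    intro h0; rw [h0, norm_zero] at h1; exact zero_ne_one h1
  have hz2 : z2 ≠ 0 := by
    intro h0; rw [h0, norm_zero] at h2; exact zero_ne_one h2
  have c1 := Complex.cos_arg hz1
  have c2 := Complex.cos_arg hz2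
  have s1 := Complex.sin_arg z1
  have s2 := Complex.sin_arg z2
  rw [h1, div_one] at c1 s1
  rw [h2, div_one] at c2 s2
  have hre : (conj z1 * z2).re = Real.cos (Complex.arg z1 - Complex.arg z2) := by
    rw [Real.cos_sub, c1, c2, s1, s2]
    simp [Complex.mul_re]
  rw [hre, ← Real.cos_abs, ← Real.cos_pi_div_six]
  apply Real.cos_lt_cos_of_nonneg_of_le_pi (abs_nonneg _) _ harg
  linarith

theorem disc_of_re {w : ℂ} (h1 : ‖w‖ = 1) (h : Real.sqrt 3 / 2 < w.re) :
    ‖w - c0‖ < 1 / 2 ∧ ‖1 - w‖ < 1 := by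
  have hs : Real.sqrt 3 ^ 2 = 3 := Real.sq_sqrt (by norm_num)
  have hs0 : 0 < Real.sqrt 3 := Real.sqrt_pos.mpr (by norm_num)
  have hs1 : 1 < Real.sqrt 3 := by
    nlinarith
  have hn : w.re ^ 2 + w.im ^ 2 = 1 := by
    have := Complex.sq_norm w
    rw [h1, Complex.normSq_apply] at this
    nlinarith
  constructor
  · apply lt_of_pow_lt_pow_left₀ 2 (by norm_num)
    rw [Complex.sq_norm, Complex.normSq_apply]
    simp only [c0, Complex.sub_re, Complex.sub_im, Complex.ofReal_re, Complex.ofReal_im]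
    nlinarith
  · apply lt_of_pow_lt_pow_left₀ 2 (by norm_num)
    rw [Complex.sq_norm, Complex.normSq_apply]
    simp only [Complex.sub_re, Complex.sub_im, Complex.one_re, Complex.one_im]
    nlinarith

theorem exists_bound {ι : Type*} [Finite ι] (f : ι → ℝ) (P : ι → Prop) {s : ℝ} (hs : 0 < s)
    (h : ∀ i, P i → f i < s) : ∃ r, 0 ≤ r ∧ r < s ∧ ∀ i, P i → f i ≤ r := by
  classical
  haveI : Fintype ι := Fintype.ofFinite ι
  by_cases hne : (Finset.univ.filter P).Nonempty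
  · obtain ⟨i0, hi0, hmax⟩ := Finset.exists_max_image (Finset.univ.filter P) f hne
    refine ⟨max 0 (f i0), le_max_left _ _, max_lt hs (h i0 (Finset.mem_filter.mp hi0).2), ?_⟩
    intro i hi
    exact (hmax i (Finset.mem_filter.mpr ⟨Finset.mem_univ _, hi⟩)).trans (le_max_right _ _)
  · refine ⟨0, le_rfl, hs, ?_⟩
    intro i hi
    exact absurd ⟨i, Finset.mem_filter.mpr ⟨Finset.mem_univ _, hi⟩⟩ hne

end arcs

section assemble

theorem inner_unitary {A : Matrix (Fin n) (Fin n) ℂ} (hA : A ∈ unitary (Matrix (Fin n) (Fin n) ℂ))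
    (x y : EuclideanSpace ℂ (Fin n)) :
    inner ℂ (Matrix.toEuclideanCLM (n := Fin n) (𝕜 := ℂ) A x)
      (Matrix.toEuclideanCLM (n := Fin n) (𝕜 := ℂ) A y) = inner ℂ x y := by
  set L := Matrix.toEuclideanCLM (n := Fin n) (𝕜 := ℂ) A with hL
  have h1 : star L * L = 1 := by
    rw [hL, ← map_star, ← map_mul, Unitary.star_mul_self_of_mem hA, map_one]
  rw [← ContinuousLinearMap.adjoint_inner_right, ← ContinuousLinearMap.star_eq_adjoint]
  have h2 : (star L) (L y) = y := by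
    have := congrArg (fun K : EuclideanSpace ℂ (Fin n) →L[ℂ] EuclideanSpace ℂ (Fin n) => K y) h1
    simpa using this
  rw [h2]

universe v

theorem exists_chars {H : Type v} [CommGroup H] [Finite H] (W : H →* Matrix (Fin n) (Fin n) ℂ)
    (hW : ∀ g, W g ∈ unitary (Matrix (Fin n) (Fin n) ℂ)) :
    ∃ (Λ : Type v) (_ : Fintype Λ) (lam : Λ → H → ℂ), Fintype.card Λ ≤ n ∧
      (∀ i h, ‖lam i h‖ = 1) ∧
      (∀ i h1 h2, lam i (h1⁻¹ * h2) = conj (lam i h1) * lam i h2) ∧
      ∀ h, (∀ i, Real.sqrt 3 / 2 < (lam i h).re) → Small W h := by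
  classical
  haveI : Fintype H := Fintype.ofFinite H
  haveI : Fintype (Additive H) := Fintype.ofFinite _
  set T : Additive H → (EuclideanSpace ℂ (Fin n) →L[ℂ] EuclideanSpace ℂ (Fin n)) :=
    fun a => Matrix.toEuclideanCLM (n := Fin n) (𝕜 := ℂ) (W a.toMul) with hT
  have T0 : T 0 = 1 := by
    simp [hT]
  have Tadd : ∀ a b, T (a + b) = T a * T b := by
    intro a b
    simp [hT]
  have Tinner : ∀ a x y, inner ℂ (T a x) (T a y) = inner ℂ x y := fun a x y =>
    inner_unitary (hW _) x y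
  have hdecomp : ∀ (h : H) (c : ℂ), Matrix.toEuclideanCLM (n := Fin n) (𝕜 := ℂ)
      (W h - c • (1 : Matrix (Fin n) (Fin n) ℂ)) =
      ∑ ψ : AddChar (Additive H) ℂ, (ψ (Additive.ofMul h) - c) • ee T ψ := by
    intro h c
    have h1 : T (Additive.ofMul h) = ∑ ψ : AddChar (Additive H) ℂ,
        ψ (Additive.ofMul h) • ee T ψ := by
      calc T (Additive.ofMul h) = T (Additive.ofMul h) * 1 := (mul_one _).symm
        _ = _ := by
          rw [← sum_ee T T0, Finset.mul_sum]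
          exact Finset.sum_congr rfl fun ψ _ => T_mul_ee T Tadd _ ψ
    simp only [sub_smul, Finset.sum_sub_distrib, ← Finset.smul_sum, sum_ee T T0]
    rw [← h1, map_sub, map_smul, map_one]
    rfl
  refine ⟨{ψ : AddChar (Additive H) ℂ // ee T ψ ≠ 0}, inferInstance,
    fun ψ h => ψ.1 (Additive.ofMul h), ?_, ?_, ?_, ?_⟩
  · have := card_support_le T Tadd Tinner
    rw [Nat.card_eq_fintype_card, finrank_euclideanSpace_fin] at this
    exact this
  · intro ψ h
    exact AddChar.norm_apply _ _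
  · intro ψ h1 h2
    beta_reduce
    rw [ofMul_mul, AddChar.map_add_eq_mul, ofMul_inv, AddChar.map_neg_eq_conj]
  · intro h hh
    have hd : ∀ ψ : AddChar (Additive H) ℂ, ee T ψ ≠ 0 →
        ‖ψ (Additive.ofMul h) - c0‖ < 1 / 2 ∧ ‖1 - ψ (Additive.ofMul h)‖ < 1 := fun ψ hψ =>
      disc_of_re (AddChar.norm_apply _ _) (hh ⟨ψ, hψ⟩)
    constructor
    · obtain ⟨r, hr0, hr1, hr2⟩ := exists_bound
        (fun ψ : AddChar (Additive H) ℂ => ‖ψ (Additive.ofMul h) - c0‖) (fun ψ => ee T ψ ≠ 0)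
        (by norm_num : (0 : ℝ) < 1 / 2) (fun ψ hψ => (hd ψ hψ).1)
      rw [← Matrix.l2_opNorm_toEuclideanCLM, hdecomp]
      exact lt_of_le_of_lt (norm_comb_le T T0 Tadd Tinner _ hr0 hr2) hr1
    · obtain ⟨r, hr0, hr1, hr2⟩ := exists_bound
        (fun ψ : AddChar (Additive H) ℂ => ‖ψ (Additive.ofMul h) - 1‖) (fun ψ => ee T ψ ≠ 0)
        (by norm_num : (0 : ℝ) < 1) (fun ψ hψ => by rw [norm_sub_rev]; exact (hd ψ hψ).2)
      have e : ‖1 - W h‖ = ‖W h - (1 : ℂ) • (1 : Matrix (Fin n) (Fin n) ℂ)‖ := by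
        rw [one_smul, norm_sub_rev]
      rw [e, ← Matrix.l2_opNorm_toEuclideanCLM, hdecomp]
      exact lt_of_le_of_lt (norm_comb_le T T0 Tadd Tinner _ hr0 hr2) hr1

theorem index_le [Finite G] (hU : ∀ g, U g ∈ unitary (Matrix (Fin n) (Fin n) ℂ))
    (H : Subgroup G) (hH : ∀ x ∈ H, ∀ y ∈ H, x * y = y * x) :
    ((AA U).subgroupOf H).index ≤ 12 ^ n := by
  classical
  letI : CommGroup H := { H.toGroup with
    mul_comm := fun x y => Subtype.ext (hH x x.2 y y.2) }
  obtain ⟨Λ, _, lam, hcard, hnorm, hmul, hsmall⟩ := exists_chars (U.comp H.subtype)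
    (fun g => hU _)
  have hinj : Function.Injective (fun q : H ⧸ (AA U).subgroupOf H =>
      (fun i : Λ => arcIdx (lam i q.out))) := by
    intro q1 q2 hq
    have h1 : ∀ i, arcIdx (lam i q1.out) = arcIdx (lam i q2.out) := fun i => congrFun hq i
    have h2 : Small (U.comp H.subtype) (q1.out⁻¹ * q2.out) := by
      apply hsmall
      intro i
      rw [hmul]
      exact arc_close (hnorm _ _) (hnorm _ _) (h1 i)
    have h3 : q1.out⁻¹ * q2.out ∈ (AA U).subgroupOf H := by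
      rw [Subgroup.mem_subgroupOf]
      exact small_mem_AA h2
    have h4 := QuotientGroup.eq.mpr h3
    rwa [QuotientGroup.out_eq', QuotientGroup.out_eq'] at h4
  have h5 := Nat.card_le_card_of_injective _ hinj
  rw [Subgroup.index]
  calc _ ≤ Nat.card (Λ → Fin 12) := h5
    _ = 12 ^ Fintype.card Λ := by
        rw [Nat.card_eq_fintype_card, Fintype.card_fun, Fintype.card_fin]
    _ ≤ 12 ^ n := Nat.pow_le_pow_right (by norm_num) hcard

end assemble

section unitarize

open scoped MatrixOrder ComplexOrder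

theorem exists_unitary [Finite G] (A : G →* Matrix (Fin n) (Fin n) ℂ) :
    ∃ V : G →* Matrix (Fin n) (Fin n) ℂ,
      (∀ g, V g ∈ unitary (Matrix (Fin n) (Fin n) ℂ)) ∧ ∀ g, V g = 1 → A g = 1 := by
  classical
  haveI : Fintype G := Fintype.ofFinite G
  set S : Matrix (Fin n) (Fin n) ℂ := ∑ g, (A g).conjTranspose * A g with hS
  have hinv : ∀ x : G, (A x).conjTranspose * S * A x = S := by
    intro x
    rw [hS, Finset.mul_sum, Finset.sum_mul, ← Equiv.sum_comp (Equiv.mulRight x)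
      (fun g => (A g).conjTranspose * A g)]
    refine Finset.sum_congr rfl fun g _ => ?_
    simp only [Equiv.coe_mulRight, map_mul, Matrix.conjTranspose_mul]
    simp only [mul_assoc]
  have hpd : S.PosDef := by
    rw [hS, ← Finset.add_sum_erase Finset.univ _ (Finset.mem_univ (1 : G))]
    apply Matrix.PosDef.add_posSemidef
    · rw [map_one, Matrix.conjTranspose_one, mul_one]
      exact Matrix.PosDef.one
    · exact Matrix.posSemidef_sum _ fun g _ => Matrix.posSemidef_conjTranspose_mul_self _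
  obtain ⟨B, hB⟩ := CStarAlgebra.nonneg_iff_eq_star_mul_self.mp hpd.posSemidef.nonneg
  have hdetS : S.det ≠ 0 := hpd.det_pos.ne'
  have hdetB : IsUnit B.det := by
    rw [isUnit_iff_ne_zero]
    intro h0
    apply hdetS
    rw [hB, Matrix.det_mul, h0, mul_zero]
  have hBB : B * B⁻¹ = 1 := Matrix.mul_nonsing_inv B hdetB
  have hBB' : B⁻¹ * B = 1 := Matrix.nonsing_inv_mul B hdetB
  refine ⟨{ toFun := fun g => B * A g * B⁻¹
            map_one' := by rw [map_one, mul_one, hBB]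
            map_mul' := fun g h => by
              rw [map_mul]
              calc B * (A g * A h) * B⁻¹ = B * A g * 1 * A h * B⁻¹ := by
                    simp only [mul_one, mul_assoc]
                _ = B * A g * B⁻¹ * (B * A h * B⁻¹) := by
                    rw [← hBB']; simp only [mul_assoc] }, ?_, ?_⟩
  · intro g
    change B * A g * B⁻¹ ∈ Matrix.unitaryGroup (Fin n) ℂ
    rw [Matrix.mem_unitaryGroup_iff']
    have h1 : star (B * A g * B⁻¹) * (B * A g * B⁻¹) =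
        star B⁻¹ * (star (A g) * (star B * B) * A g) * B⁻¹ := by
      simp only [star_mul, mul_assoc]
    rw [h1, ← hB]
    have h2 : star (A g) * S * A g = S := hinv g
    rw [h2, hB]
    calc star B⁻¹ * (star B * B) * B⁻¹ = star (B * B⁻¹) * (B * B⁻¹) := by
          simp only [star_mul, mul_assoc]
      _ = 1 := by rw [hBB, star_one, one_mul]
  · intro g hg
    change B * A g * B⁻¹ = 1 at hg
    calc A g = B⁻¹ * (B * A g * B⁻¹) * B := by
          rw [← mul_assoc, ← mul_assoc, hBB', one_mul, mul_assoc, hBB', mul_one]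
      _ = 1 := by rw [hg, mul_one, hBB']

end unitarize

/-- the matrix form of the theorem -/
theorem matrix_main [Finite G] (A : G →* Matrix (Fin n) (Fin n) ℂ) (hA : ∀ g, A g = 1 → g = 1) :
    ∃ N : Subgroup G, N.Normal ∧ (∀ x ∈ N, ∀ y ∈ N, x * y = y * x) ∧
      ∀ H : Subgroup G, (∀ x ∈ H, ∀ y ∈ H, x * y = y * x) → (N.subgroupOf H).index ≤ 12 ^ n := by
  obtain ⟨V, hV, hVA⟩ := exists_unitary A
  have hinj : Function.Injective V := by
    rw [injective_iff_map_eq_one]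
    intro g hg
    exact hA g (hVA g hg)
  exact ⟨AA V, AA_normal, AA_comm hV hinj, fun H hH => index_le hV H hH⟩

end Cfsg.Agent.Lib.JordanArc
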