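import Mathlib
import Cfsg.Prelude.Def_Blocks
import Cfsg.Agent.Lib.Helper2_BlockOrtho2
import Cfsg.Agent.Lib.Helper2_BlockThird
import Cfsg.Agent.Lib.helper8_RegularPart
import Cfsg.Agent.Lib.helper8_BrauerInd

set_option autoImplicit false

namespace Cfsg.Agent.Lib.KulshammerIdem

open Cfsg Cfsg.Agent.Lib.Helper2_BlockLocal Cfsg.Agent.Lib.Helper2_BlockOm
  Cfsg.Agent.Lib.Helper2_BlockOsima Cfsg.Agent.Lib.Helper2_BlockBasic
  Cfsg.Agent.Lib.Helper2_BlockOrtho Cfsg.Agent.Lib.Helper2_BlockOrtho2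
  Cfsg.Agent.Lib.Helper2_BlockThird Cfsg.Agent.Lib.Helper2_BlockQuot
  Cfsg.Agent.Lib.CharBasic Cfsg.Agent.Lib.CharOrtho
  Cfsg.Agent.Lib.CharComplete Cfsg.Agent.Lib.CharIntegral Cfsg.Agent.Lib.CharMore
  Cfsg.Agent.Lib.CharInd Cfsg.Agent.Lib.CharGen Cfsg.Agent.Lib.helper8_Brauer
  Cfsg.Agent.Lib.helper8_BrauerInd Cfsg.Agent.Lib.helper8_RegularPart
  Cfsg.Agent.Lib.helper8_Defect
open scoped ComplexConjugate Classical

universe u

variable {G : Type u} [Group G]

/-- indicator of the `p`-elements -/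
noncomputable def pInd (p : ℕ) : G → ℂ := fun x => if ∃ k : ℕ, orderOf x = p ^ k then 1 else 0

/-- indicator of the `p`-regular elements -/
noncomputable def rInd (p : ℕ) : G → ℂ := fun x => if ¬ p ∣ orderOf x then 1 else 0

theorem orderOf_conj' (g h : G) : orderOf (h * g * h⁻¹) = orderOf g := by
  have := (MulAut.conj h).orderOf_eq g
  simpa using this

theorem pInd_class (p : ℕ) : IsClassFunction G (pInd p) := by
  intro g h
  unfold pInd
  rw [orderOf_conj']

theorem rInd_class (p : ℕ) : IsClassFunction G (rInd p) := by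
  intro g h
  unfold rInd
  rw [orderOf_conj']

theorem mem_normal_sylow_iff {E : Type u} [Group E] [Finite E] {p : ℕ} [Fact p.Prime]
    (S : Sylow p E) (hS : (S : Subgroup E).Normal) (e : E) :
    e ∈ (S : Subgroup E) ↔ ∃ k : ℕ, orderOf e = p ^ k := by
  have hp : p.Prime := Fact.out
  constructor
  · intro he
    obtain ⟨k, hk⟩ := S.2 ⟨e, he⟩
    have hk' : e ^ (p ^ k) = 1 := by
      have := congrArg Subtype.val hk
      simpa using this
    obtain ⟨j, -, hj⟩ := (Nat.dvd_prime_pow hp).mp (orderOf_dvd_of_pow_eq_one hk')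
    exact ⟨j, hj⟩
  · rintro ⟨k, hk⟩
    have h1 : IsPGroup p (Subgroup.zpowers e) := by
      apply IsPGroup.of_card (n := k)
      rw [Nat.card_zpowers, hk]
    obtain ⟨S', hS'⟩ := h1.exists_le_sylow
    haveI := Sylow.unique_of_normal S hS
    have : S' = S := Subsingleton.elim _ _
    rw [← this]
    exact hS' (Subgroup.mem_zpowers e)

variable [Fintype G]

/-- The `p'`-part of the group order times the indicator of the `p`-elements is a generalized
character. -/
theorem isGen_pInd {p : ℕ} (hp : p.Prime) :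
    IsGeneralizedCharacter G
      (fun x => ((Nat.card G / p ^ (Nat.card G).factorization p : ℕ) : ℂ) * pInd p x) := by
  have : Fact p.Prime := ⟨hp⟩
  apply characterization
  · intro g h
    beta_reduce
    rw [pInd_class p g h]
  · intro E q hq hE
    have := Fintype.ofFinite E
    haveI := isNilpotent_of_isElementary hq hE
    obtain ⟨S⟩ : Nonempty (Sylow p E) := inferInstance
    have hSn : (S : Subgroup E).Normal :=
      Sylow.normal_of_normalizerCondition Group.normalizerCondition_of_isNilpotent S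
    have hdvd : (S : Subgroup E).index ∣ Nat.card G / p ^ (Nat.card G).factorization p := by
      have h1 : (S : Subgroup E).index ∣ Nat.card G :=
        (Subgroup.index_dvd_card _).trans (Subgroup.card_subgroup_dvd_card E)
      have h2 : Nat.Coprime (S : Subgroup E).index (p ^ (Nat.card G).factorization p) :=
        Nat.Coprime.pow_right _
          (Nat.Coprime.symm ((Nat.Prime.coprime_iff_not_dvd hp).mpr S.not_dvd_index))
      have h3 := Nat.ordProj_mul_ordCompl_eq_self (Nat.card G) p
      rw [← h3] at h1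
      exact h2.dvd_of_dvd_mul_left h1
    obtain ⟨i, hi⟩ := hdvd
    have hres : IsGeneralizedCharacter E (1 : E → ℂ) :=
      isGen_of_isCharacter (isCharacter_of_isIrr isIrr_one)
    have h1 : IsGeneralizedCharacter E (((i : ℕ) : ℂ) •
        indFun (S : Subgroup E) (fun n : (S : Subgroup E) => (1 : E → ℂ) n)) :=
      isGen_nsmul (isGen_indFun _ (isGen_restrict _ hres)) _
    convert h1 using 1
    ext e
    rw [Pi.smul_apply, smul_eq_mul, indFun_restrict_normal (S : Subgroup E)
      (isClassFunction_of_isGen hres)]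
    have hoe : orderOf (e : G) = orderOf e := Subgroup.orderOf_coe e
    unfold pInd
    rw [hoe, hi]
    split_ifs with he he' he'
    · push_cast
      simp only [Pi.one_apply]
      ring
    · exact absurd ((mem_normal_sylow_iff S hSn e).mpr he) he'
    · exact absurd ((mem_normal_sylow_iff S hSn e).mp he') he
    · simp

variable {M : Ideal AlgInt} {p : ℕ}

/-- the multiplicities of the indicator of the `p`-elements are local integers -/
theorem s_ring (hM : IsPModular p M) (χ : IrrCharacter G) :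
    MemLocalRing M ((Nat.card G : ℂ)⁻¹ * ∑ x, pInd p x * (χ : G → ℂ) x) := by
  have hp := hM.1
  have hPr := isPrime_of_modular hM
  obtain ⟨z, hz, -⟩ := exists_int_mult (isGen_pInd (G := G) hp)
  have h1 := congrArg conj (hz χ)
  rw [map_intCast] at h1
  set m := Nat.card G / p ^ (Nat.card G).factorization p with hm
  have hmp : ¬ p ∣ m := Nat.not_dvd_ordCompl hp Nat.card_pos.ne'
  have hm0 : (m : ℂ) ≠ 0 := by
    have : m ≠ 0 := fun h => hmp (h ▸ dvd_zero p)
    exact_mod_cast this
  have h2 : (m : ℂ) * ((Nat.card G : ℂ)⁻¹ * ∑ x, pInd p x * (χ : G → ℂ) x) = (z χ : ℂ) := by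
    rw [← h1]
    unfold classInner
    simp only [map_mul, map_inv₀, Complex.conj_natCast, map_sum, Complex.conj_conj]
    have : ∀ x : G, conj (pInd p x) = pInd p x := by
      intro x
      unfold pInd
      split_ifs <;> simp
    simp only [this, Finset.mul_sum]
    refine Finset.sum_congr rfl fun x _ => ?_
    ring
  have h3 : (Nat.card G : ℂ)⁻¹ * ∑ x, pInd p x * (χ : G → ℂ) x = (m : ℂ)⁻¹ * (z χ : ℂ) := by
    rw [← h2]
    field_simp
  rw [h3]
  exact ring_mul hPr (ring_inv_natCast hM hmp) (ring_intCast hPr _)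

theorem rInd_ring (hM : M.IsPrime) (g : G) : MemLocalRing M (rInd p g) := by
  unfold rInd
  split_ifs
  · exact ring_zero hM
  · exact ring_one hM

theorem W_zero (hM : IsPModular p M) {χ : IrrCharacter G} (hχ : χ ∉ principalBlock M G) :
    Om (rInd p) (χ : G → ℂ) = 0 := by
  have hPr := isPrime_of_modular hM
  have h1 := classInner_regular_eq_zero hM (principalBlock_isPBlock M G)
    (oneIrr_mem_principal hPr G) hχ
  have h2 : ∑ g, rInd p g * (χ : G → ℂ) g = 0 := by
    have h3 := congrArg conj h1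
    unfold classInner at h3
    simp only [map_mul, map_inv₀, Complex.conj_natCast, map_sum, Complex.conj_conj,
      map_zero] at h3
    have hG : ((Nat.card G : ℂ))⁻¹ ≠ 0 := by
      apply inv_ne_zero
      exact_mod_cast Nat.card_pos.ne'
    have h4 := (mul_eq_zero.mp h3).resolve_left hG
    rw [← h4]
    refine Finset.sum_congr rfl fun g _ => ?_
    congr 1
    unfold rInd
    by_cases hg : p ∣ orderOf g
    · rw [Cfsg.Agent.Lib.helper8_BlockRank.pRegularPart_singular _ hg, if_neg (not_not.mpr hg)]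
      simp
    · rw [Cfsg.Agent.Lib.helper8_BlockRank.pRegularPart_regular _ hg, if_pos hg]
      simp [oneIrr]
  unfold Om
  rw [h2, zero_div]

theorem W_congr (hM : IsPModular p M) {χ : IrrCharacter G} (hχ : χ ∈ principalBlock M G) :
    MemLocalIdeal M (Om (rInd p) (χ : G → ℂ) - ∑ y : G, rInd p y) := by
  have hPr := isPrime_of_modular hM
  have h := Om_congr hPr (rInd_class p) (fun g => rInd_ring (G := G) (p := p) hPr g) (irr_classFunction χ)
    (irr_classFunction (oneIrr G)) (sameBlock_symm hχ)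
  rwa [Om_oneIrr] at h

theorem conv_expand (g : G) : conv (pInd p) (rInd p) g = ∑ χ : IrrCharacter G,
    ((Nat.card G : ℂ)⁻¹ * ∑ x, pInd p x * (χ : G → ℂ) x) * Om (rInd p) (χ : G → ℂ) *
      conj ((χ : G → ℂ) g) := by
  rw [Om_inversion (conv_classFunction (pInd_class p) (rInd_class p)) g, Finset.mul_sum]
  refine Finset.sum_congr rfl fun χ _ => ?_
  rw [Om_conv (rInd_class p) χ.2]
  have h0 := irr_degree_ne_zero χ.2
  have : Om (pInd p) (χ : G → ℂ) = (∑ x, pInd p x * (χ : G → ℂ) x) / (χ : G → ℂ) 1 := rfl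
  rw [this]
  field_simp

theorem blockCoeff_expand (hM : IsPModular p M) {B : Set (IrrCharacter G)} (hB : IsPBlock M B)
    {g : G} (hg : ¬ p ∣ orderOf g) :
    blockCoeff B g = ∑ χ : IrrCharacter G,
      ((Nat.card G : ℂ)⁻¹ * ∑ x, pInd p x * (χ : G → ℂ) x) * (if χ ∈ B then 1 else 0) *
        conj ((χ : G → ℂ) g) := by
  have hp := hM.1
  have key : ∀ x : G, pInd p x * ∑ χ : IrrCharacter G,
      (if χ ∈ B then (χ : G → ℂ) x else 0) * conj ((χ : G → ℂ) g) =
      if x = 1 then ∑ χ : IrrCharacter G,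
        (if χ ∈ B then (χ : G → ℂ) 1 else 0) * conj ((χ : G → ℂ) g) else 0 := by
    intro x
    by_cases hx1 : x = 1
    · subst hx1
      rw [if_pos rfl]
      unfold pInd
      rw [if_pos ⟨0, by simp⟩, one_mul]
    · rw [if_neg hx1]
      unfold pInd
      split_ifs with hx
      · rw [one_mul]
        apply block_orthogonality hM (x := x) (y := 1) ?_ ?_ ?_ hB
        · refine ⟨1, mul_one x, Commute.one_right x, hx, ?_⟩
          rw [orderOf_one]
          exact hp.one_lt.ne' ∘ Nat.dvd_one.mp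
        · exact ⟨g, one_mul g, Commute.one_left g, ⟨0, by simp⟩, hg⟩
        · intro h
          exact hx1 (isConj_one_left.mp h)
      · rw [zero_mul]
  have e1 : ∑ χ : IrrCharacter G, ((Nat.card G : ℂ)⁻¹ * ∑ x, pInd p x * (χ : G → ℂ) x) *
      (if χ ∈ B then 1 else 0) * conj ((χ : G → ℂ) g) =
      (Nat.card G : ℂ)⁻¹ * ∑ x, pInd p x * ∑ χ : IrrCharacter G,
        (if χ ∈ B then (χ : G → ℂ) x else 0) * conj ((χ : G → ℂ) g) := by
    simp only [Finset.mul_sum, Finset.sum_mul]
    rw [Finset.sum_comm]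
    refine Finset.sum_congr rfl fun x _ => Finset.sum_congr rfl fun χ _ => ?_
    split_ifs <;> ring
  rw [e1]
  simp only [key]
  rw [Finset.sum_ite_eq' Finset.univ (1 : G), if_pos (Finset.mem_univ _), blockCoeff_eq]
  congr 1
  refine Finset.sum_congr rfl fun χ _ => ?_
  unfold ind
  simp only [Finset.mem_filter, Finset.mem_univ, true_and]
  split_ifs <;> ring

theorem card_pairs (g : G) : (Nat.card {xy : G × G // (∃ k : ℕ, orderOf xy.1 = p ^ k) ∧
    ¬ p ∣ orderOf xy.2 ∧ xy.1 * xy.2 = g} : ℂ) = conv (pInd p) (rInd p) g := by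
  have e : {xy : G × G // (∃ k : ℕ, orderOf xy.1 = p ^ k) ∧
      ¬ p ∣ orderOf xy.2 ∧ xy.1 * xy.2 = g} ≃
      {x : G // (∃ k : ℕ, orderOf x = p ^ k) ∧ ¬ p ∣ orderOf (x⁻¹ * g)} :=
    { toFun := fun xy => ⟨xy.1.1, xy.2.1, by
        rw [inv_mul_eq_iff_eq_mul.mpr xy.2.2.2.symm]
        exact xy.2.2.1⟩
      invFun := fun x => ⟨(x.1, x.1⁻¹ * g), x.2.1, x.2.2, by simp⟩
      left_inv := by
        rintro ⟨⟨x, y⟩, h1, h2, h3⟩
        simp only [Subtype.mk.injEq, Prod.mk.injEq, true_and]
        simp only at h3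
        rw [← h3]
        simp
      right_inv := by
        rintro ⟨x, h⟩
        rfl }
  rw [Nat.card_congr e, Nat.card_eq_fintype_card, Fintype.card_subtype]
  unfold conv pInd rInd
  rw [Finset.card_filter]
  push_cast
  refine Finset.sum_congr rfl fun x _ => ?_
  split_ifs <;> simp_all

theorem card_regular : (Nat.card {y : G // ¬ p ∣ orderOf y} : ℂ) = ∑ y : G, rInd p y := by
  rw [Nat.card_eq_fintype_card, Fintype.card_subtype]
  unfold rInd
  rw [Finset.card_filter]
  push_cast
  rfl

theorem conv_one (hp : p.Prime) : conv (pInd p) (rInd p) (1 : G) = 1 := by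
  unfold conv
  rw [Finset.sum_eq_single (1 : G)]
  · unfold pInd rInd
    rw [if_pos ⟨0, by simp⟩, if_pos]
    · simp
    · simp only [inv_one, mul_one, orderOf_one]
      exact hp.one_lt.ne' ∘ Nat.dvd_one.mp
  · intro x _ hx1
    unfold pInd rInd
    rw [mul_one, orderOf_inv]
    split_ifs with h1 h2
    · simp
    · exfalso
      obtain ⟨k, hk⟩ := h1
      rcases Nat.eq_zero_or_pos k with rfl | hk0
      · rw [pow_zero, orderOf_eq_one_iff] at hk
        exact hx1 hk
      · exact h2 (hk ▸ dvd_pow_self p hk0.ne')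
    · simp
    · simp
  · intro h; exact absurd (Finset.mem_univ _) h

theorem main (hM : IsPModular p M) (g : G) (hg : ¬ p ∣ orderOf g) :
    MemLocalIdeal M (blockCoeff (principalBlock M G) g -
      (Nat.card {xy : G × G // (∃ k : ℕ, orderOf xy.1 = p ^ k) ∧ ¬ p ∣ orderOf xy.2 ∧
        xy.1 * xy.2 = g} : ℂ) / (Nat.card {y : G // ¬ p ∣ orderOf y} : ℂ)) := by
  have hp := hM.1
  have hPr := isPrime_of_modular hM
  set R := Nat.card {y : G // ¬ p ∣ orderOf y} with hR
  have hRsum : (R : ℂ) = ∑ y : G, rInd p y := card_regular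
  have hterm : ∀ χ : IrrCharacter G, MemLocalIdeal M (Om (rInd p) (χ : G → ℂ) -
      (R : ℂ) * (if χ ∈ principalBlock M G then 1 else 0)) := by
    intro χ
    split_ifs with h
    · rw [mul_one, hRsum]
      exact W_congr hM h
    · rw [W_zero hM h, mul_zero, sub_zero]
      exact ideal_zero hPr
  have hconjR : ∀ (χ : IrrCharacter G) (x : G), MemLocalRing M (conj ((χ : G → ℂ) x)) := by
    intro χ x
    rw [← inv_of_isCharacter (isCharacter_of_isIrr χ.2)]
    exact ring_of_isIntegral hPr (isIntegral_of_isCharacter (isCharacter_of_isIrr χ.2) _)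
  -- `R` is a unit
  have hRp : ¬ p ∣ R := by
    intro hdvd
    have hRi : MemLocalIdeal M (R : ℂ) := (ideal_natCast_iff hM R).mpr hdvd
    apply not_ideal_one hPr
    rw [← conv_one (G := G) hp, conv_expand]
    refine ideal_sum hPr _ _ fun χ _ => ?_
    refine ideal_mul_right hPr (ideal_mul_left hPr (s_ring hM χ) ?_) (hconjR χ 1)
    have h1 := hterm χ
    have h2 : MemLocalIdeal M ((R : ℂ) * (if χ ∈ principalBlock M G then 1 else 0)) := by
      split_ifs
      · rwa [mul_one]
      · rw [mul_zero]; exact ideal_zero hPr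
    have := ideal_add hPr h1 h2
    rwa [sub_add_cancel] at this
  have hR0 : (R : ℂ) ≠ 0 := by
    have : R ≠ 0 := fun h => hRp (h ▸ dvd_zero p)
    exact_mod_cast this
  have hdiff : MemLocalIdeal M (conv (pInd p) (rInd p) g -
      (R : ℂ) * blockCoeff (principalBlock M G) g) := by
    rw [conv_expand, blockCoeff_expand hM (principalBlock_isPBlock M G) hg, Finset.mul_sum,
      ← Finset.sum_sub_distrib]
    refine ideal_sum hPr _ _ fun χ _ => ?_
    have : ((Nat.card G : ℂ)⁻¹ * ∑ x, pInd p x * (χ : G → ℂ) x) * Om (rInd p) (χ : G → ℂ) *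
        conj ((χ : G → ℂ) g) - (R : ℂ) * (((Nat.card G : ℂ)⁻¹ * ∑ x, pInd p x * (χ : G → ℂ) x) *
          (if χ ∈ principalBlock M G then 1 else 0) * conj ((χ : G → ℂ) g)) =
        ((Nat.card G : ℂ)⁻¹ * ∑ x, pInd p x * (χ : G → ℂ) x) * (Om (rInd p) (χ : G → ℂ) -
          (R : ℂ) * (if χ ∈ principalBlock M G then 1 else 0)) * conj ((χ : G → ℂ) g) := by ring
    rw [this]
    exact ideal_mul_right hPr (ideal_mul_left hPr (s_ring hM χ) (hterm χ)) (hconjR χ g)
  rw [card_pairs]
  have e : blockCoeff (principalBlock M G) g - conv (pInd p) (rInd p) g / (R : ℂ) =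
      (R : ℂ)⁻¹ * -(conv (pInd p) (rInd p) g - (R : ℂ) * blockCoeff (principalBlock M G) g) := by
    field_simp
    ring
  rw [e]
  exact ideal_mul_left hPr (ring_inv_natCast hM hRp) (ideal_neg hdiff)

end Cfsg.Agent.Lib.KulshammerIdem
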