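import Mathlib
import Cfsg.Prelude.Def_Blocks

set_option autoImplicit false

namespace Cfsg.Agent.Lib.RootsLift

open Cfsg

theorem inj_part (p : ℕ) (M : Ideal Cfsg.AlgInt) (hM : Cfsg.IsPModular p M)
    (ε₁ ε₂ : Cfsg.AlgInt) (h1 : ∃ m : ℕ, ¬ p ∣ m ∧ (ε₁ : ℂ) ^ m = 1)
    (h2 : ∃ m : ℕ, ¬ p ∣ m ∧ (ε₂ : ℂ) ^ m = 1) (h : ε₁ - ε₂ ∈ M) : ε₁ = ε₂ := by
  obtain ⟨m1, hm1, e1⟩ := h1
  obtain ⟨m2, hm2, e2⟩ := h2
  have hp := hM.1
  haveI := hM.2.1
  set m := m1 * m2 with hm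
  have hpm : ¬ p ∣ m := fun hd => (hp.dvd_mul.mp hd).elim hm1 hm2
  have hm0 : 0 < m := Nat.pos_of_ne_zero (fun h0 => hpm (h0 ▸ dvd_zero p))
  have E1 : ε₁ ^ m = 1 := by
    apply Subtype.ext
    push_cast
    rw [hm, pow_mul, e1, one_pow]
  have E2 : ε₂ ^ m = 1 := by
    apply Subtype.ext
    push_cast
    rw [hm, mul_comm, pow_mul, e2, one_pow]
  by_contra hne
  set ε := ε₁ * ε₂ ^ (m - 1) with hε
  have hε2 : ε₂ * ε₂ ^ (m - 1) = 1 := by rw [← pow_succ', Nat.sub_add_cancel hm0, E2]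
  have hεm : ε ^ m = 1 := by
    rw [hε, mul_pow, E1, ← pow_mul, mul_comm (m - 1) m, pow_mul, E2, one_pow, one_mul]
  have hε1 : ε ≠ 1 := by
    intro h1
    apply hne
    calc ε₁ = ε₁ * (ε₂ * ε₂ ^ (m - 1)) := by rw [hε2, mul_one]
      _ = ε * ε₂ := by rw [hε]; ring
      _ = ε₂ := by rw [h1, one_mul]
  have hgeom : ∑ i ∈ Finset.range m, ε ^ i = 0 := by
    have := geom_sum_mul ε m
    rw [hεm, sub_self] at this
    exact (mul_eq_zero.mp this).resolve_right (sub_ne_zero.mpr hε1)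
  have hπ : Ideal.Quotient.mk M ε = 1 := by
    have : ε - 1 ∈ M := by
      have : ε - 1 = (ε₁ - ε₂) * ε₂ ^ (m - 1) := by rw [sub_mul, hε2]
      rw [this]; exact M.mul_mem_right _ h
    rw [← map_one (Ideal.Quotient.mk M)]; exact Ideal.Quotient.eq.mpr this
  have hmM : (m : Cfsg.AlgInt) ∈ M := by
    have := congrArg (Ideal.Quotient.mk M) hgeom
    rw [map_sum] at this
    simp only [map_pow, hπ, one_pow, Finset.sum_const, Finset.card_range, nsmul_eq_mul, mul_one,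
      map_zero] at this
    rw [← map_natCast (Ideal.Quotient.mk M)] at this
    exact Ideal.Quotient.eq_zero_iff_mem.mp this
  have hcop : Nat.Coprime m p := ((Nat.Prime.coprime_iff_not_dvd hp).mpr hpm).symm
  have : (1 : Cfsg.AlgInt) ∈ M := by
    have hb := Nat.gcd_eq_gcd_ab m p
    rw [hcop.gcd_eq_one] at hb
    have : (1 : Cfsg.AlgInt) = (m : Cfsg.AlgInt) * ((Nat.gcdA m p : ℤ) : Cfsg.AlgInt) +
        (p : Cfsg.AlgInt) * ((Nat.gcdB m p : ℤ) : Cfsg.AlgInt) := by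
      have := congrArg (fun z : ℤ => (z : Cfsg.AlgInt)) hb
      push_cast at this
      exact this
    rw [this]
    exact M.add_mem (M.mul_mem_right _ hmM) (M.mul_mem_right _ hM.2.2)
  exact hM.2.1.ne_top ((Ideal.eq_top_iff_one M).mpr this)

theorem surj_part (p : ℕ) (M : Ideal Cfsg.AlgInt) (hM : Cfsg.IsPModular p M)
    (a : Cfsg.AlgInt) (ha : a ∉ M) :
    ∃ ε : Cfsg.AlgInt, (∃ m : ℕ, ¬ p ∣ m ∧ (ε : ℂ) ^ m = 1) ∧ a - ε ∈ M := by
  have hp := hM.1
  haveI : Fact p.Prime := ⟨hp⟩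
  haveI := hM.2.1
  letI : Field (Cfsg.AlgInt ⧸ M) := Ideal.Quotient.field M
  set π := Ideal.Quotient.mk M with hπ
  have hpK : ((p : ℕ) : Cfsg.AlgInt ⧸ M) = 0 := by
    rw [← map_natCast π]; exact Ideal.Quotient.eq_zero_iff_mem.mpr hM.2.2
  haveI : CharP (Cfsg.AlgInt ⧸ M) p := (CharP.charP_iff_prime_eq_zero hp).mpr hpK
  have ha0 : π a ≠ 0 := fun h0 => ha (Ideal.Quotient.eq_zero_iff_mem.mp h0)
  letI : Algebra (ZMod p) (Cfsg.AlgInt ⧸ M) := ZMod.algebra _ p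
  have hint : IsIntegral (ZMod p) (π a) := by
    have h1 : IsIntegral ℤ a := integralClosure.isIntegral a
    have h2 : IsIntegral ℤ (π a) := h1.map (Ideal.Quotient.mkₐ ℤ M)
    exact h2.tower_top
  obtain ⟨r0, hr0, har0⟩ : ∃ r : ℕ, 0 < r ∧ (π a) ^ r = 1 := by
    haveI : FiniteDimensional (ZMod p) (IntermediateField.adjoin (ZMod p) {π a}) :=
      IntermediateField.adjoin.finiteDimensional hint
    haveI : Finite (IntermediateField.adjoin (ZMod p) {π a}) :=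
      Module.finite_of_finite (ZMod p)
    obtain ⟨i, j, hij, he⟩ := Finite.exists_ne_map_eq_of_infinite
      (fun k : ℕ => (IntermediateField.AdjoinSimple.gen (ZMod p) (π a)) ^ k)
    have he' : (π a) ^ i = (π a) ^ j := by
      have := congrArg (fun x : IntermediateField.adjoin (ZMod p) {π a} =>
        (x : Cfsg.AlgInt ⧸ M)) he
      simpa using this
    have key : ∀ i j : ℕ, i < j → (π a) ^ i = (π a) ^ j → ∃ r : ℕ, 0 < r ∧ (π a) ^ r = 1 := by
      intro i j hlt he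
      refine ⟨j - i, Nat.sub_pos_of_lt hlt, ?_⟩
      have h3 : (π a) ^ i * (π a) ^ (j - i) = (π a) ^ i * 1 := by
        rw [← pow_add, Nat.add_sub_cancel' hlt.le, mul_one, he]
      exact mul_left_cancel₀ (pow_ne_zero _ ha0) h3
    rcases lt_or_gt_of_ne hij with hlt | hlt
    · exact key i j hlt he'
    · exact key j i hlt he'.symm
  obtain ⟨r, hr, hpr, har⟩ : ∃ r : ℕ, 0 < r ∧ ¬ p ∣ r ∧ (π a) ^ r = 1 := by
    obtain ⟨e, r', hpr', hre⟩ := Nat.exists_eq_pow_mul_and_not_dvd hr0.ne' p hp.ne_one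
    refine ⟨r', Nat.pos_of_ne_zero (fun h0 => hpr' (h0 ▸ dvd_zero p)), hpr', ?_⟩
    have h1 : ((π a) ^ r' - 1) ^ p ^ e = 0 := by
      rw [sub_pow_char_pow, one_pow, ← pow_mul, mul_comm, ← hre, har0, sub_self]
    exact sub_eq_zero.mp (pow_eq_zero_iff (pow_ne_zero _ hp.ne_zero) |>.mp h1)
  set z : ℂ := Complex.exp (2 * Real.pi * Complex.I / r) with hz'
  have hz : IsPrimitiveRoot z r := Complex.isPrimitiveRoot_exp r hr.ne'
  have hzint : IsIntegral ℤ z :=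
    IsIntegral.of_pow hr (by rw [hz.pow_eq_one]; exact isIntegral_one)
  let ζ : Cfsg.AlgInt := ⟨z, hzint⟩
  have hζr : ζ ^ r = 1 := Subtype.ext (by push_cast; exact hz.pow_eq_one)
  have hζK : IsPrimitiveRoot (π ζ) r := by
    refine ⟨?_, ?_⟩
    · rw [← map_pow, hζr, map_one]
    · intro l hl
      rw [← map_pow, ← map_one π] at hl
      have hmem : ζ ^ l - 1 ∈ M := Ideal.Quotient.eq.mp hl
      have h3 := inj_part p M hM (ζ ^ l) 1
        ⟨r, hpr, by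
          have : (ζ ^ l) ^ r = 1 := by rw [← pow_mul, mul_comm, pow_mul, hζr, one_pow]
          simpa using congrArg Subtype.val this⟩
        ⟨1, fun hd => hp.one_lt.ne' (Nat.dvd_one.mp hd), by simp⟩ hmem
      have h2 : z ^ l = 1 := by simpa using congrArg Subtype.val h3
      exact hz.dvd_of_pow_eq_one l h2
  haveI : NeZero r := ⟨hr.ne'⟩
  obtain ⟨i, -, hia⟩ := hζK.eq_pow_of_pow_eq_one har
  refine ⟨ζ ^ i, ⟨r, hpr, ?_⟩, ?_⟩
  · have : (ζ ^ i) ^ r = 1 := by rw [← pow_mul, mul_comm, pow_mul, hζr, one_pow]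
    simpa using congrArg Subtype.val this
  · apply Ideal.Quotient.eq.mp
    rw [map_pow, hia]

end Cfsg.Agent.Lib.RootsLift
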