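import Mathlib
import Cfsg.Prelude.Def_Transfer

/-!
# Automorphisms of extraspecial `2`-groups that are trivial modulo the centre
-/

set_option autoImplicit false

namespace Cfsg.Agent.Lib.helper6_Extra
open Cfsg Subgroup

theorem inner_of_central {E : Type*} [Group E] [Finite E]
    (hcomm : ∀ a b : E, a * b * a⁻¹ * b⁻¹ ∈ center E) (hZ : Nat.card (center E) = 2)
    (hZc : center E ≤ commutator E)
    (φ : E ≃* E) (hφ : ∀ x : E, φ x * x⁻¹ ∈ Subgroup.center E) :
    ∃ g : E, ∀ x : E, φ x = g * x * g⁻¹ := by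
  classical
  have hcen : ∀ z ∈ center E, ∀ x : E, z * x = x * z := fun z hz x => (mem_center_iff.1 hz x).symm
  -- two nontrivial central elements agree
  have huniq : ∀ a ∈ center E, ∀ b ∈ center E, a ≠ 1 → b ≠ 1 → a = b := by
    intro a ha b hb ha1 hb1
    obtain ⟨y, -, hy⟩ := (Nat.card_eq_two_iff' (1 : center E)).1 hZ
    have h1 := hy ⟨a, ha⟩ (fun h => ha1 (congrArg Subtype.val h))
    have h2 := hy ⟨b, hb⟩ (fun h => hb1 (congrArg Subtype.val h))
    exact congrArg Subtype.val (h1.trans h2.symm)
  -- commutator homomorphisms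
  let cm : E → (E →* center E) := fun a =>
    { toFun := fun x => ⟨x * a * x⁻¹ * a⁻¹, hcomm x a⟩
      map_one' := by ext; simp
      map_mul' := by
        intro x y
        ext
        show x * y * a * (x * y)⁻¹ * a⁻¹ = (x * a * x⁻¹ * a⁻¹) * (y * a * y⁻¹ * a⁻¹)
        have h1 := hcen _ (hcomm y a) (a * x⁻¹ * a⁻¹)
        calc x * y * a * (x * y)⁻¹ * a⁻¹ = x * ((y * a * y⁻¹ * a⁻¹) * (a * x⁻¹ * a⁻¹)) := by group
          _ = x * ((a * x⁻¹ * a⁻¹) * (y * a * y⁻¹ * a⁻¹)) := by rw [h1]
          _ = _ := by group }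
  have hcmker : ∀ a x, x ∈ (cm a).ker ↔ x * a = a * x := by
    intro a x
    rw [MonoidHom.mem_ker]
    constructor
    · intro h
      have h1 : x * a * x⁻¹ * a⁻¹ = 1 := congrArg Subtype.val h
      have := congrArg (fun t => t * a * x) h1
      simpa using this
    · intro h
      ext
      show x * a * x⁻¹ * a⁻¹ = 1
      rw [h]; group
  have hidx : ∀ f : E →* center E, f.ker.index ≤ 2 := by
    intro f
    rw [index_ker, ← hZ]
    exact card_le_card_group _
  let lam : E →* center E :=
    { toFun := fun x => ⟨φ x * x⁻¹, hφ x⟩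
      map_one' := by ext; simp
      map_mul' := by
        intro x y
        ext
        show φ (x * y) * (x * y)⁻¹ = (φ x * x⁻¹) * (φ y * y⁻¹)
        have h1 := hcen _ (hφ y) x⁻¹
        calc φ (x * y) * (x * y)⁻¹ = φ x * ((φ y * y⁻¹) * x⁻¹) := by rw [map_mul]; group
          _ = φ x * (x⁻¹ * (φ y * y⁻¹)) := by rw [h1]
          _ = _ := by group }
  have hlam : ∀ x, x ∈ lam.ker ↔ φ x = x := by
    intro x
    rw [MonoidHom.mem_ker]
    constructor
    · intro h
      have h1 : φ x * x⁻¹ = 1 := congrArg Subtype.val h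
      exact mul_inv_eq_one.1 h1
    · intro h
      ext
      show φ x * x⁻¹ = 1
      rw [h, mul_inv_cancel]
  set M := lam.ker with hM
  have hZM : center E ≤ M := by
    refine hZc.trans ?_
    rw [_root_.commutator_def, Subgroup.commutator_le]
    intro a _ b _
    rw [hM, MonoidHom.mem_ker, map_commutatorElement]
    rw [commutatorElement_def]
    have h1 : lam a * lam b = lam b * lam a := by
      ext
      exact hcen _ (lam a).2 _
    rw [h1]
    group
  by_cases hM1 : M = ⊤
  · refine ⟨1, fun x => ?_⟩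
    have : x ∈ M := by rw [hM1]; trivial
    rw [(hlam x).1 this]; simp
  have hMi : M.index = 2 := by
    have h1 : M.index ≤ 2 := hidx lam
    have h2 : M.index ≠ 1 := fun h => hM1 (index_eq_one.1 h)
    have h3 : M.index ≠ 0 := index_ne_zero_of_finite
    omega
  -- the counting inequality
  let S : Set (Subgroup E) := {A | center E ≤ A ∧ A ≤ M ∧
    (centralizer (A : Set E)).index * 2 ≤ Nat.card A}
  have hS : S.Nonempty := by
    refine ⟨center E, le_rfl, hZM, ?_⟩
    have : centralizer ((center E : Subgroup E) : Set E) = ⊤ :=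
      centralizer_eq_top_iff_subset.2 (fun x hx => hx)
    rw [this, index_top, hZ]
  obtain ⟨A, hAS, hAmax⟩ := WellFounded.has_min (wellFounded_gt (α := Subgroup E)) S hS
  obtain ⟨hZA, hAM, hA⟩ := hAS
  have hAeq : A = M := by
    by_contra hne
    have hlt : A < M := lt_of_le_of_ne hAM hne
    obtain ⟨a, haM, haA⟩ := SetLike.exists_of_lt hlt
    set A' := A ⊔ zpowers a with hA'
    have hAA' : A < A' := by
      refine lt_of_le_of_ne le_sup_left ?_
      intro h0
      apply haA
      rw [h0]
      exact (le_sup_right : zpowers a ≤ A') (mem_zpowers a)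
    apply hAmax A' ⟨hZA.trans hAA'.le, sup_le hAM (by rwa [zpowers_le]), ?_⟩ hAA'
    have h1 : Nat.card A * 2 ≤ Nat.card A' := by
      obtain ⟨k, hk⟩ := card_dvd_of_le hAA'.le
      have hk1 : k ≠ 1 := by
        rintro rfl
        rw [mul_one] at hk
        exact hAA'.ne (eq_of_le_of_card_ge hAA'.le hk.le)
      have hk0 : k ≠ 0 := by
        rintro rfl
        rw [mul_zero] at hk
        exact Nat.card_pos.ne' hk
      rw [hk]
      exact Nat.mul_le_mul_left _ (by omega)
    have h2 : centralizer (A : Set E) ⊓ (cm a).ker ≤ centralizer (A' : Set E) := by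
      rw [le_centralizer_iff]
      apply sup_le
      · rw [← le_centralizer_iff]; exact inf_le_left
      · rw [zpowers_le, mem_centralizer_iff]
        intro x hx
        exact (hcmker a x).1 hx.2
    have h3 : (centralizer (A' : Set E)).index ≤ (centralizer (A : Set E)).index * 2 := by
      calc (centralizer (A' : Set E)).index ≤ (centralizer (A : Set E) ⊓ (cm a).ker).index :=
            Nat.le_of_dvd (Nat.pos_of_ne_zero index_ne_zero_of_finite) (index_dvd_of_le h2)
        _ ≤ (centralizer (A : Set E)).index * (cm a).ker.index := index_inf_le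
        _ ≤ _ := Nat.mul_le_mul_left _ (hidx _)
    omega
  rw [hAeq] at hA
  have hgex : ∃ g ∈ centralizer (M : Set E), g ∉ center E := by
    by_contra hcon
    push Not at hcon
    have h1 : Nat.card (centralizer (M : Set E)) ≤ 2 := by
      rw [← hZ]
      exact Nat.le_of_dvd Nat.card_pos (card_dvd_of_le hcon)
    have h2 := (centralizer (M : Set E)).card_mul_index
    have h3 := M.card_mul_index
    rw [hMi] at h3
    have h4 : 0 < (centralizer (M : Set E)).index := Nat.pos_of_ne_zero index_ne_zero_of_finite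
    nlinarith
  obtain ⟨g, hgM, hgZ⟩ := hgex
  refine ⟨g, fun x => ?_⟩
  rw [mem_centralizer_iff] at hgM
  by_cases hx : x ∈ M
  · rw [(hlam x).1 hx, ← hgM x hx]; group
  · have h1 : φ x * x⁻¹ ≠ 1 := fun h => hx ((hlam x).2 (mul_inv_eq_one.1 h))
    have h2 : g * x * g⁻¹ * x⁻¹ ≠ 1 := by
      intro h
      apply hgZ
      have hgx : g * x = x * g := by
        have := congrArg (fun t => t * x * g) h
        simpa using this
      rw [mem_center_iff]
      intro y
      by_cases hy : y ∈ M
      · exact hgM y hy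
      · have hxy : x⁻¹ * y ∈ M := by
          rw [mul_mem_iff_of_index_two hMi, inv_mem_iff]
          exact ⟨fun h => absurd h hx, fun h => absurd h hy⟩
        have h5 := hgM _ hxy
        calc y * g = x * ((x⁻¹ * y) * g) := by group
          _ = x * (g * (x⁻¹ * y)) := by rw [h5]
          _ = (x * g) * x⁻¹ * y := by group
          _ = g * y := by rw [← hgx]; group
    have h3 := huniq _ (hφ x) _ (hcomm g x) h1 h2
    have := congrArg (fun t => t * x) h3
    simpa using this

theorem inner_of_extraspecial {E : Type*} [Group E] [Finite E] (hE : Cfsg.IsExtraspecial 2 E)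
    (φ : E ≃* E) (hφ : ∀ x : E, φ x * x⁻¹ ∈ Subgroup.center E) :
    ∃ g : E, ∀ x : E, φ x = g * x * g⁻¹ := by
  obtain ⟨⟨-, -, hc⟩, hZ⟩ := hE
  refine inner_of_central (fun a b => ?_) hZ hc.ge φ hφ
  rw [← hc, _root_.commutator_def, ← commutatorElement_def]
  exact Subgroup.commutator_mem_commutator (mem_top _) (mem_top _)

/-- an involutory automorphism whose fixed points have index two is trivial modulo the centre. -/
theorem central_of_index_two {Q : Type*} [Group Q] (φ : Q ≃* Q) (hφ2 : ∀ y, φ (φ y) = y)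
    (D : Subgroup Q) (hD : ∀ y, y ∈ D ↔ φ y = y) (hi : D.index = 2) (y : Q) :
    φ y * y⁻¹ ∈ center Q := by
  have hDn : D.Normal := normal_of_index_eq_two hi
  obtain ⟨x, hx⟩ : ∃ x, x ∉ D := by
    by_contra hcon
    push Not at hcon
    have : D = ⊤ := eq_top_iff.2 (fun x _ => hcon x)
    rw [this, index_top] at hi
    omega
  set c := x⁻¹ * φ x with hc
  have hφx : φ x = x * c := by rw [hc]; group
  have hφxD : φ x ∉ D := by
    intro h
    apply hx
    rw [hD] at h ⊢
    rw [hφ2] at h
    exact h.symm
  have hcD : c ∈ D := by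
    rw [hc, mul_mem_iff_of_index_two hi, inv_mem_iff]
    exact ⟨fun h => absurd h hx, fun h => absurd h hφxD⟩
  have hφc : φ c = c := (hD c).1 hcD
  have hcd : ∀ d ∈ D, c * d = d * c := by
    intro d hd
    have h1 : φ (x * d * x⁻¹) = x * d * x⁻¹ := (hD _).1 (hDn.conj_mem d hd x)
    rw [map_mul, map_mul, map_inv, (hD d).1 hd, hφx] at h1
    have := congrArg (fun t => x⁻¹ * t * x * c) h1
    rw [show x⁻¹ * (x * c * d * (x * c)⁻¹) * x * c = c * d by group,
      show x⁻¹ * (x * d * x⁻¹) * x * c = d * c by group] at this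
    exact this
  have hcc : c * c = 1 := by
    have h1 := hφ2 x
    rw [hφx, map_mul, hφx, hφc] at h1
    have := congrArg (fun t => x⁻¹ * t) h1
    rw [show x⁻¹ * (x * c * c) = c * c by group, inv_mul_cancel] at this
    exact this
  have hcx : c * x = x * c := by
    have h1 : φ (x ^ 2) = x ^ 2 := (hD _).1 (sq_mem_of_index_two hi x)
    rw [pow_two, map_mul, hφx] at h1
    have := congrArg (fun t => x⁻¹ * t * c) h1
    rw [show x⁻¹ * (x * c * (x * c)) * c = c * x * (c * c) by group, hcc, mul_one,
      show x⁻¹ * (x * x) * c = x * c by group] at this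
    exact this
  have hcZ : c ∈ center Q := by
    rw [mem_center_iff]
    intro w
    by_cases hw : w ∈ D
    · exact (hcd w hw).symm
    · have hxw : x⁻¹ * w ∈ D := by
        rw [mul_mem_iff_of_index_two hi, inv_mem_iff]
        exact ⟨fun h => absurd h hx, fun h => absurd h hw⟩
      have h5 := hcd _ hxw
      calc w * c = x * ((x⁻¹ * w) * c) := by group
        _ = x * (c * (x⁻¹ * w)) := by rw [h5]
        _ = (x * c) * x⁻¹ * w := by group
        _ = c * w := by rw [← hcx]; group
  by_cases hy : y ∈ D
  · rw [(hD y).1 hy, mul_inv_cancel]; exact one_mem _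
  · have hxy : x⁻¹ * y ∈ D := by
      rw [mul_mem_iff_of_index_two hi, inv_mem_iff]
      exact ⟨fun h => absurd h hx, fun h => absurd h hy⟩
    have h1 : φ y = x * c * (x⁻¹ * y) := by
      have : y = x * (x⁻¹ * y) := by group
      conv_lhs => rw [this]
      rw [map_mul, (hD _).1 hxy, hφx]
    have h2 : φ y * y⁻¹ = c := by
      rw [h1, ← hcx]; group
    rw [h2]
    exact hcZ

end Cfsg.Agent.Lib.helper6_Extra
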