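import Mathlib
import Cfsg.Agent.S0029
import Cfsg.Agent.S0012
import Cfsg.Agent.Lib.Helper1_FrobPNil

set_option autoImplicit false

namespace Cfsg.Agent.Lib.helper6_FrobTwo

open Cfsg

/-- an automorphism of odd prime order `r` of a group of order dividing `8` -/
theorem aut_small {V : Type*} [Group V] [Finite V] (h8 : Nat.card V ∣ 8) (ψ : MulAut V) (r : ℕ)
    (hr : r.Prime) (hr2 : r ≠ 2) (hψr : ψ ^ r = 1) (hψ1 : ψ ≠ 1) :
    (r = 3 ∧ 4 ∣ Nat.card V) ∨ (r = 7 ∧ Nat.card V = 8) := by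
  classical
  have := Fintype.ofFinite V
  have := Fact.mk hr
  let F : Subgroup V :=
    { carrier := {v | ψ v = v}
      one_mem' := map_one ψ
      mul_mem' := by
        intro a b ha hb
        show ψ (a * b) = a * b
        rw [map_mul, ha, hb]
      inv_mem' := by
        intro a ha
        show ψ a⁻¹ = a⁻¹
        rw [map_inv, ha] }
  have hFtop : F ≠ ⊤ := by
    intro h
    apply hψ1
    ext v
    have : v ∈ F := h ▸ Subgroup.mem_top v
    exact this
  obtain ⟨σ, hσ⟩ : ∃ σ : Equiv.Perm V, σ = MulAut.toPerm V ψ := ⟨_, rfl⟩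
  have hσr : σ ^ r ^ 1 = 1 := by
    rw [pow_one, hσ, ← map_pow, hψr, map_one]
  have h1 := Equiv.Perm.card_compl_support_modEq hσr
  have h2 : Nat.card F = σ.supportᶜ.card := by
    apply Nat.subtype_card
    intro x
    rw [Finset.mem_compl, Equiv.Perm.mem_support, not_not, hσ]
    rfl
  rw [← h2, ← Nat.card_eq_fintype_card] at h1
  have h3 : Nat.card F ∣ Nat.card V := Subgroup.card_subgroup_dvd_card F
  have h4 : Nat.card F ≠ Nat.card V := by
    intro h
    exact hFtop (Subgroup.eq_top_of_card_eq F h)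
  have h5 : Nat.card F ≤ Nat.card V := Nat.le_of_dvd Nat.card_pos h3
  have h6 := (Nat.modEq_iff_dvd' h5).1 h1
  have h7 : Nat.card V ≤ 8 := Nat.le_of_dvd (by norm_num) h8
  have h8' : 0 < Nat.card F := Nat.card_pos
  generalize Nat.card V = cV at *
  generalize Nat.card F = cF at *
  have h9 : r ≤ cV - cF := Nat.le_of_dvd (by omega) h6
  have h10 := hr.two_le
  interval_cases cV <;> interval_cases cF <;> first | omega | (interval_cases r <;> first | omega | (exfalso; revert hr; norm_num))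

/-- the automorphism induced on the Frattini quotient -/
noncomputable def quotAut {Q : Type*} [Group Q] (φ : MulAut Q) : MulAut (Q ⧸ frattini Q) :=
  QuotientGroup.congr (frattini Q) (frattini Q) φ
    (Subgroup.characteristic_iff_map_eq.1 inferInstance φ)

theorem quotAut_mk {Q : Type*} [Group Q] (φ : MulAut Q) (x : Q) :
    quotAut φ (x : Q ⧸ frattini Q) = ((φ x : Q) : Q ⧸ frattini Q) := rfl

theorem quotAut_pow_mk {Q : Type*} [Group Q] (φ : MulAut Q) (k : ℕ) (x : Q) :
    (quotAut φ ^ k) (x : Q ⧸ frattini Q) = (((φ ^ k) x : Q) : Q ⧸ frattini Q) := by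
  induction k generalizing x with
  | zero => simp
  | succ k ih =>
    rw [pow_succ, pow_succ, MulAut.mul_apply, MulAut.mul_apply, quotAut_mk, ih]

theorem frat_triv_or {Q : Type*} [Group Q] [Finite Q] (φ : MulAut Q) (m : ℕ) (hm : Odd m)
    (hφ : φ ^ m = 1) (h8 : (frattini Q).index ∣ 8) :
    (∀ x, φ x * x⁻¹ ∈ frattini Q) ∨ (3 ∣ m ∧ 4 ∣ (frattini Q).index) ∨
      (7 ∣ m ∧ (frattini Q).index = 8) := by
  obtain ⟨ψ, hψ⟩ : ∃ ψ, ψ = quotAut φ := ⟨_, rfl⟩
  have hψm : ψ ^ m = 1 := by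
    ext v
    obtain ⟨x, rfl⟩ := QuotientGroup.mk_surjective v
    rw [hψ, quotAut_pow_mk, hφ]
    rfl
  have hk : orderOf ψ ∣ m := orderOf_dvd_of_pow_eq_one hψm
  by_cases h1 : orderOf ψ = 1
  · left
    intro x
    rw [orderOf_eq_one_iff] at h1
    have h2 : ((φ x : Q) : Q ⧸ frattini Q) = x := by
      rw [← quotAut_mk, ← hψ, h1]
      rfl
    have h3 := (QuotientGroup.eq.1 h2.symm)
    have h4 : φ x * x⁻¹ = x * (x⁻¹ * φ x) * x⁻¹ := by group
    rw [h4]
    exact (inferInstance : (frattini Q).Normal).conj_mem _ h3 x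
  · right
    have hr := Nat.minFac_prime h1
    have hrk := Nat.minFac_dvd (orderOf ψ)
    obtain ⟨r, hrdef⟩ : ∃ r, r = (orderOf ψ).minFac := ⟨_, rfl⟩
    rw [← hrdef] at hr hrk
    have hrm : r ∣ m := hrk.trans hk
    have hr2 : r ≠ 2 := by
      rintro rfl
      exact (Nat.not_even_iff_odd.2 hm) (even_iff_two_dvd.2 hrm)
    have hpos : 0 < orderOf ψ := orderOf_pos ψ
    have ho : orderOf (ψ ^ (orderOf ψ / r)) = r := by
      rw [orderOf_pow_of_dvd (by
        intro h
        have := Nat.div_eq_zero_iff.1 h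
        rcases this with h | h
        · exact hr.pos.ne' h
        · exact absurd (Nat.le_of_dvd hpos hrk) (by omega)) (Nat.div_dvd_of_dvd hrk)]
      exact Nat.div_div_self hrk hpos.ne'
    have h5 : (ψ ^ (orderOf ψ / r)) ^ r = 1 := by
      rw [← pow_mul, Nat.div_mul_cancel hrk, pow_orderOf_eq_one]
    have h6 : ψ ^ (orderOf ψ / r) ≠ 1 := by
      intro h
      rw [h, orderOf_one] at ho
      exact hr.one_lt.ne ho
    rcases aut_small h8 _ r hr hr2 h5 h6 with ⟨h7, h8'⟩ | ⟨h7, h8'⟩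
    · left
      exact ⟨h7 ▸ hrm, h8'⟩
    · right
      exact ⟨h7 ▸ hrm, h8'⟩

/-- version inside a group -/
theorem centralizes_or {G : Type*} [Group G] [Finite G] (Q : Subgroup G) (hQ : IsPGroup 2 Q)
    (g : G) (hg : g ∈ Subgroup.normalizer (Q : Set G)) (hodd : Odd (orderOf g))
    (h8 : (frattini Q).index ∣ 8) :
    g ∈ Subgroup.centralizer (Q : Set G) ∨ (3 ∣ orderOf g ∧ 4 ∣ (frattini Q).index) ∨
      (7 ∣ orderOf g ∧ (frattini Q).index = 8) := by
  obtain ⟨φ, hφ⟩ : ∃ φ : MulAut Q, φ = Q.normalizerMonoidHom ⟨g, hg⟩ := ⟨_, rfl⟩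
  have hφm : φ ^ orderOf g = 1 := by
    rw [hφ, ← map_pow]
    have : (⟨g, hg⟩ : Subgroup.normalizer (Q : Set G)) ^ orderOf g = 1 := by
      apply Subtype.ext
      simp [pow_orderOf_eq_one]
    rw [this, map_one]
  rcases frat_triv_or φ _ hodd hφm h8 with h | h
  · left
    have hpow : ∀ (j : ℕ) (x : Q), (φ ^ j) x * x⁻¹ ∈ frattini Q := by
      intro j
      induction j with
      | zero => intro x; simp
      | succ j ih =>
        intro x
        rw [pow_succ, MulAut.mul_apply]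
        have h1 := ih (φ x)
        have h2 := h x
        have : (φ ^ j) (φ x) * x⁻¹ = ((φ ^ j) (φ x) * (φ x)⁻¹) * (φ x * x⁻¹) := by group
        rw [this]
        exact Subgroup.mul_mem _ h1 h2
    have hle : Subgroup.zpowers g ≤ Subgroup.centralizer (Q : Set G) := by
      apply Cfsg.Agent.S0029.result (Subgroup.zpowers g) Q
      · rw [Subgroup.zpowers_le]
        exact hg
      · rw [Nat.card_zpowers]
        obtain ⟨e, he⟩ := (IsPGroup.iff_card.1 (hQ.to_subgroup (frattini Q)))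
        rw [he]
        apply Nat.Coprime.pow_right
        exact (Nat.coprime_two_right).2 hodd
      · intro a ha k hk
        rw [← mem_powers_iff_mem_zpowers] at ha
        obtain ⟨j, rfl⟩ := ha
        refine ⟨(φ ^ j) ⟨k, hk⟩ * (⟨k, hk⟩ : Q)⁻¹, hpow j ⟨k, hk⟩, ?_⟩
        rw [hφ, ← map_pow]
        rfl
    exact hle (Subgroup.mem_zpowers g)
  · right
    exact h

end Cfsg.Agent.Lib.helper6_FrobTwo
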