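import Mathlib
import Cfsg.Agent.Lib.helper6_FrobTwo

set_option autoImplicit false

namespace Cfsg.Agent.Lib.helper6_FrobP

open Cfsg Cfsg.Agent.Lib.helper6_FrobTwo
open scoped commutatorElement

/-- an automorphism of prime order `q ≠ p` of a group of order `p ^ d` -/
theorem aut_prime {V : Type*} [Group V] [Finite V] (p : ℕ) [hp : Fact p.Prime] (d : ℕ)
    (hV : Nat.card V = p ^ d) (ψ : MulAut V) (q : ℕ)
    (hq : q.Prime) (hqp : q ≠ p) (hψq : ψ ^ q = 1) (hψ1 : ψ ≠ 1) :
    ∃ i, 1 ≤ i ∧ i ≤ d ∧ q ∣ p ^ i - 1 := by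
  classical
  have := Fintype.ofFinite V
  have := Fact.mk hq
  let F : Subgroup V :=
    { carrier := {v | ψ v = v}
      one_mem' := map_one ψ
      mul_mem' := by
        intro a b ha hb
        show ψ (a * b) = a * b
        rw [map_mul, ha, hb]
      inv_mem' := by
        intro a ha
        show ψ a⁻¹ = a⁻¹
        rw [map_inv, ha] }
  have hFtop : F ≠ ⊤ := by
    intro h
    apply hψ1
    ext v
    have : v ∈ F := h ▸ Subgroup.mem_top v
    exact this
  obtain ⟨σ, hσ⟩ : ∃ σ : Equiv.Perm V, σ = MulAut.toPerm V ψ := ⟨_, rfl⟩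
  have hσr : σ ^ q ^ 1 = 1 := by
    rw [pow_one, hσ, ← map_pow, hψq, map_one]
  have h1 := Equiv.Perm.card_compl_support_modEq hσr
  have h2 : Nat.card F = σ.supportᶜ.card := by
    apply Nat.subtype_card
    intro x
    rw [Finset.mem_compl, Equiv.Perm.mem_support, not_not, hσ]
    rfl
  rw [← h2, ← Nat.card_eq_fintype_card] at h1
  have h3 : Nat.card F ∣ Nat.card V := Subgroup.card_subgroup_dvd_card F
  have h4 : Nat.card F ≠ Nat.card V := by
    intro h
    exact hFtop (Subgroup.eq_top_of_card_eq F h)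
  rw [hV] at h1 h3 h4
  obtain ⟨s, hs, hsF⟩ := (Nat.dvd_prime_pow hp.out).1 h3
  rw [hsF] at h1 h4
  have hsd : s < d := by
    rcases Nat.lt_or_ge s d with h | h
    · exact h
    · exfalso
      apply h4
      rw [le_antisymm hs h]
  have h5 := (Nat.modEq_iff_dvd' (Nat.pow_le_pow_right hp.out.pos hs)).1 h1
  refine ⟨d - s, by omega, by omega, ?_⟩
  have h6 : p ^ d - p ^ s = p ^ s * (p ^ (d - s) - 1) := by
    rw [Nat.mul_sub, mul_one, ← pow_add, Nat.add_sub_cancel' hs]
  rw [h6] at h5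
  have hcop : Nat.Coprime q (p ^ s) :=
    Nat.Coprime.pow_right s ((Nat.coprime_primes hq hp.out).2 hqp)
  exact hcop.dvd_of_dvd_mul_left h5

theorem frat_triv_or_prime {Q : Type*} [Group Q] [Finite Q] (p : ℕ) [hp : Fact p.Prime]
    (φ : MulAut Q) (m : ℕ) (hm : m.Coprime p)
    (hφ : φ ^ m = 1) (d : ℕ) (hd : (frattini Q).index = p ^ d) :
    (∀ x, φ x * x⁻¹ ∈ frattini Q) ∨
      ∃ q i, q.Prime ∧ q ∣ m ∧ 1 ≤ i ∧ i ≤ d ∧ q ∣ p ^ i - 1 := by
  obtain ⟨ψ, hψ⟩ : ∃ ψ, ψ = quotAut φ := ⟨_, rfl⟩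
  have hψm : ψ ^ m = 1 := by
    ext v
    obtain ⟨x, rfl⟩ := QuotientGroup.mk_surjective v
    rw [hψ, quotAut_pow_mk, hφ]
    rfl
  have hk : orderOf ψ ∣ m := orderOf_dvd_of_pow_eq_one hψm
  by_cases h1 : orderOf ψ = 1
  · left
    intro x
    rw [orderOf_eq_one_iff] at h1
    have h2 : ((φ x : Q) : Q ⧸ frattini Q) = x := by
      rw [← quotAut_mk, ← hψ, h1]
      rfl
    have h3 := (QuotientGroup.eq.1 h2.symm)
    have h4 : φ x * x⁻¹ = x * (x⁻¹ * φ x) * x⁻¹ := by group
    rw [h4]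
    exact (inferInstance : (frattini Q).Normal).conj_mem _ h3 x
  · right
    have hr := Nat.minFac_prime h1
    have hrk := Nat.minFac_dvd (orderOf ψ)
    obtain ⟨r, hrdef⟩ : ∃ r, r = (orderOf ψ).minFac := ⟨_, rfl⟩
    rw [← hrdef] at hr hrk
    have hrm : r ∣ m := hrk.trans hk
    have hr2 : r ≠ p := by
      rintro rfl
      have := Nat.Coprime.eq_one_of_dvd hm.symm hrm
      exact hr.one_lt.ne' this
    have hpos : 0 < orderOf ψ := orderOf_pos ψ
    have ho : orderOf (ψ ^ (orderOf ψ / r)) = r := by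
      rw [orderOf_pow_of_dvd (by
        intro h
        have := Nat.div_eq_zero_iff.1 h
        rcases this with h | h
        · exact hr.pos.ne' h
        · exact absurd (Nat.le_of_dvd hpos hrk) (by omega)) (Nat.div_dvd_of_dvd hrk)]
      exact Nat.div_div_self hrk hpos.ne'
    have h5 : (ψ ^ (orderOf ψ / r)) ^ r = 1 := by
      rw [← pow_mul, Nat.div_mul_cancel hrk, pow_orderOf_eq_one]
    have h6 : ψ ^ (orderOf ψ / r) ≠ 1 := by
      intro h
      rw [h, orderOf_one] at ho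
      exact hr.one_lt.ne ho
    obtain ⟨i, hi1, hi2, hi3⟩ := aut_prime p d hd _ r hr hr2 h5 h6
    exact ⟨r, i, hr, hrm, hi1, hi2, hi3⟩

/-- version inside a group -/
theorem centralizes_or_prime {G : Type*} [Group G] [Finite G] (p : ℕ) [hp : Fact p.Prime]
    (Q : Subgroup G) (hQ : IsPGroup p Q)
    (g : G) (hg : g ∈ Subgroup.normalizer (Q : Set G)) (hcop : (orderOf g).Coprime p)
    (d : ℕ) (hd : (frattini Q).index = p ^ d) :
    g ∈ Subgroup.centralizer (Q : Set G) ∨
      ∃ q i, q.Prime ∧ q ∣ orderOf g ∧ 1 ≤ i ∧ i ≤ d ∧ q ∣ p ^ i - 1 := by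
  obtain ⟨φ, hφ⟩ : ∃ φ : MulAut Q, φ = Q.normalizerMonoidHom ⟨g, hg⟩ := ⟨_, rfl⟩
  have hφm : φ ^ orderOf g = 1 := by
    rw [hφ, ← map_pow]
    have : (⟨g, hg⟩ : Subgroup.normalizer (Q : Set G)) ^ orderOf g = 1 := by
      apply Subtype.ext
      simp [pow_orderOf_eq_one]
    rw [this, map_one]
  rcases frat_triv_or_prime p φ _ hcop hφm d hd with h | h
  · left
    have hpow : ∀ (j : ℕ) (x : Q), (φ ^ j) x * x⁻¹ ∈ frattini Q := by
      intro j
      induction j with
      | zero => intro x; simp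
      | succ j ih =>
        intro x
        rw [pow_succ, MulAut.mul_apply]
        have h1 := ih (φ x)
        have h2 := h x
        have : (φ ^ j) (φ x) * x⁻¹ = ((φ ^ j) (φ x) * (φ x)⁻¹) * (φ x * x⁻¹) := by group
        rw [this]
        exact Subgroup.mul_mem _ h1 h2
    have hle : Subgroup.zpowers g ≤ Subgroup.centralizer (Q : Set G) := by
      apply Cfsg.Agent.S0029.result (Subgroup.zpowers g) Q
      · rw [Subgroup.zpowers_le]
        exact hg
      · rw [Nat.card_zpowers]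
        obtain ⟨e, he⟩ := (IsPGroup.iff_card.1 (hQ.to_subgroup (frattini Q)))
        rw [he]
        exact Nat.Coprime.pow_right _ hcop
      · intro a ha k hk
        rw [← mem_powers_iff_mem_zpowers] at ha
        obtain ⟨j, rfl⟩ := ha
        refine ⟨(φ ^ j) ⟨k, hk⟩ * (⟨k, hk⟩ : Q)⁻¹, hpow j ⟨k, hk⟩, ?_⟩
        rw [hφ, ← map_pow]
        rfl
    exact hle (Subgroup.mem_zpowers g)
  · right
    exact h

theorem normalizer_le_centralizer_of_coprime {H : Type*} [Group H] [Finite H] (p : ℕ)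
    [hp : Fact p.Prime] (P : Sylow p H)
    (hab : ∀ x ∈ (P : Subgroup H), ∀ y ∈ (P : Subgroup H), x * y = y * x)
    (hodd : ∀ g ∈ Subgroup.normalizer ((P : Subgroup H) : Set H), (orderOf g).Coprime p →
      g ∈ Subgroup.centralizer ((P : Subgroup H) : Set H)) :
    Subgroup.normalizer ((P : Subgroup H) : Set H) ≤
      Subgroup.centralizer ((P : Subgroup H) : Set H) := by
  intro g hg
  obtain ⟨s, k, hk, hsk⟩ := Nat.exists_eq_pow_mul_and_not_dvd (orderOf_pos g).ne' p hp.out.ne_one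
  have hkp : k.Coprime p := ((Nat.Prime.coprime_iff_not_dvd hp.out).2 hk).symm
  have hu : g ^ k ∈ Subgroup.centralizer ((P : Subgroup H) : Set H) := by
    have h1 : IsPGroup p (Subgroup.zpowers (g ^ k)) := by
      have h2 : (g ^ k) ^ (p ^ s) = 1 := by
        rw [← pow_mul, mul_comm, ← hsk, pow_orderOf_eq_one]
      obtain ⟨j, _, hj⟩ := (Nat.dvd_prime_pow hp.out).1 (orderOf_dvd_of_pow_eq_one h2)
      exact IsPGroup.of_card (n := j) (by rw [Nat.card_zpowers, hj])
    have h3 := h1.inf_normalizer_sylow P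
    have h4 : g ^ k ∈ Subgroup.zpowers (g ^ k) ⊓ (P : Subgroup H) := by
      rw [← h3]
      exact ⟨Subgroup.mem_zpowers _, Subgroup.pow_mem _ hg k⟩
    rw [Subgroup.mem_centralizer_iff]
    intro x hx
    exact hab x hx _ h4.2
  have hv : g ^ (p ^ s) ∈ Subgroup.centralizer ((P : Subgroup H) : Set H) := by
    have h2 : (g ^ (p ^ s)) ^ k = 1 := by
      rw [← pow_mul, ← hsk, pow_orderOf_eq_one]
    have h3 : (orderOf (g ^ (p ^ s))).Coprime p :=
      Nat.Coprime.coprime_dvd_left (orderOf_dvd_of_pow_eq_one h2) hkp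
    exact hodd _ (Subgroup.pow_mem _ hg _) h3
  have hcop : Nat.Coprime (p ^ s) k := Nat.Coprime.pow_left s hkp.symm
  have hb := Nat.gcd_eq_gcd_ab (p ^ s) k
  rw [hcop] at hb
  have : g = (g ^ (p ^ s)) ^ (Nat.gcdA (p ^ s) k) * (g ^ k) ^ (Nat.gcdB (p ^ s) k) := by
    rw [← zpow_natCast, ← zpow_natCast, ← zpow_mul, ← zpow_mul, ← zpow_add, ← hb]
    simp
  rw [this]
  exact Subgroup.mul_mem _ (Subgroup.zpow_mem _ hv _) (Subgroup.zpow_mem _ hu _)

/-- the Frattini quotient of a `p`-group has order `p ^ d` with `d ≤ rank` -/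
theorem frattini_index_rank {P : Type*} [Group P] [Finite P] (p : ℕ) [hp : Fact p.Prime]
    (hP : IsPGroup p P) : ∃ d, d ≤ Group.rank P ∧ (frattini P).index = p ^ d := by
  have h12 := Cfsg.Agent.S0012.result p hP
  let _ : CommGroup (P ⧸ frattini P) :=
    { (inferInstance : Group (P ⧸ frattini P)) with
      mul_comm := by
        intro a b
        obtain ⟨x, rfl⟩ := QuotientGroup.mk_surjective a
        obtain ⟨y, rfl⟩ := QuotientGroup.mk_surjective b
        rw [← QuotientGroup.mk_mul, ← QuotientGroup.mk_mul, QuotientGroup.eq]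
        apply h12.1
        have : (x * y)⁻¹ * (y * x) = ⁅y⁻¹, x⁻¹⁆ := by
          rw [commutatorElement_def]
          group
        rw [this]
        exact Subgroup.commutator_mem_commutator (Subgroup.mem_top _) (Subgroup.mem_top _) }
  have h1 : Nat.card (P ⧸ frattini P) ∣ p ^ Group.rank (P ⧸ frattini P) := by
    apply card_dvd_exponent_pow_rank'
    intro g
    obtain ⟨x, rfl⟩ := QuotientGroup.mk_surjective g
    rw [← QuotientGroup.mk_pow]
    exact (QuotientGroup.eq_one_iff _).2 (h12.2 x)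
  obtain ⟨d, hd, hd2⟩ := (Nat.dvd_prime_pow hp.out).1 h1
  refine ⟨d, hd.trans ?_, hd2⟩
  exact Group.rank_le_of_surjective (QuotientGroup.mk' (frattini P))
    (QuotientGroup.mk'_surjective _)

end Cfsg.Agent.Lib.helper6_FrobP
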