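import Mathlib
import Cfsg.Agent.Lib.Helper7_ZS12
import Cfsg.Agent.Lib.Helper7_Max
import Cfsg.Agent.S0944

/-!
# The principal 2-block of a group with Klein four Sylow 2-subgroups
-/

set_option autoImplicit false

namespace Cfsg.Agent.Lib.helper6_Klein

theorem comb {ι : Type*} [DecidableEq ι] (B : Finset ι) (c d : ι → ℤ) (i0 : ι) (hi0 : i0 ∈ B)
    (hc0 : c i0 = 1) (hd0 : d i0 = 1) (hd : ∀ i, 0 < d i) (hne : ∀ i ∈ B, c i ≠ 0)
    (hsum : ∑ i ∈ B, c i ^ 2 = 4) (hcd : ∑ i ∈ B, c i * d i = 0) :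
    ∃ i2 i3 i4 : ι, ∃ ε : ℤ, (ε = 1 ∨ ε = -1) ∧ i2 ≠ i0 ∧ i3 ≠ i0 ∧ i4 ≠ i0 ∧ i2 ≠ i3 ∧ i2 ≠ i4 ∧
      i3 ≠ i4 ∧ B = {i0, i2, i3, i4} ∧ c i2 = 1 ∧ c i3 = ε ∧ c i4 = -1 := by
  have hsq : ∀ i ∈ B, c i ^ 2 = 1 := by
    intro i hi
    by_contra hcon
    have h0 := hne i hi
    have h4 : 4 ≤ c i ^ 2 := by
      rcases lt_trichotomy (c i) 0 with h | h | h
      · have : c i ≤ -1 := by omega
        rcases eq_or_lt_of_le this with h' | h'
        · exfalso; apply hcon; rw [h']; norm_num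
        · nlinarith
      · exact absurd h h0
      · have : 1 ≤ c i := by omega
        rcases eq_or_lt_of_le this with h' | h'
        · exfalso; apply hcon; rw [← h']; norm_num
        · nlinarith
    have hii : i ≠ i0 := by
      intro h; rw [h, hc0] at h4; norm_num at h4
    have hsub : ({i0, i} : Finset ι) ⊆ B := by
      intro j hj
      simp only [Finset.mem_insert, Finset.mem_singleton] at hj
      rcases hj with rfl | rfl
      · exact hi0
      · exact hi
    have := Finset.sum_le_sum_of_subset_of_nonneg (f := fun j => c j ^ 2) hsub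
      (fun j _ _ => sq_nonneg _)
    rw [Finset.sum_pair hii.symm, hsum, hc0] at this
    linarith
  have hcard : B.card = 4 := by
    rw [Finset.sum_congr rfl hsq] at hsum
    simp at hsum
    exact_mod_cast hsum
  have hcard3 : (B.erase i0).card = 3 := by rw [Finset.card_erase_of_mem hi0, hcard]
  obtain ⟨a, b, e, hab, hae, hbe, hB3⟩ := Finset.card_eq_three.1 hcard3
  have hB : B = {i0, a, b, e} := by rw [← hB3, Finset.insert_erase hi0]
  have ha : a ∈ B.erase i0 := by rw [hB3]; simp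
  have hb : b ∈ B.erase i0 := by rw [hB3]; simp
  have he : e ∈ B.erase i0 := by rw [hB3]; simp
  rw [Finset.mem_erase] at ha hb he
  have hpm : ∀ i ∈ B, c i = 1 ∨ c i = -1 := by
    intro i hi
    have := hsq i hi
    have h2 : (c i - 1) * (c i + 1) = 0 := by ring_nf; linarith
    rcases mul_eq_zero.1 h2 with h | h
    · left; linarith
    · right; linarith
  have hs : c i0 * d i0 + (c a * d a + (c b * d b + c e * d e)) = 0 := by
    rw [hB] at hcd
    rw [Finset.sum_insert, Finset.sum_insert, Finset.sum_pair hbe] at hcd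
    · exact hcd
    · simp [hab, hae]
    · simp [ha.1.symm, hb.1.symm, he.1.symm]
  rw [hc0, hd0] at hs
  have da := hd a
  have db := hd b
  have de := hd e
  rcases hpm a ha.2 with ca | ca <;> rcases hpm b hb.2 with cb | cb <;>
    rcases hpm e he.2 with ce | ce <;> rw [ca, cb, ce] at hs
  · exfalso; linarith
  · exact ⟨a, b, e, 1, Or.inl rfl, ha.1, hb.1, he.1, hab, hae, hbe, hB, ca, cb, ce⟩
  · refine ⟨a, e, b, 1, Or.inl rfl, ha.1, he.1, hb.1, hae, hab, hbe.symm, ?_, ca, ce, cb⟩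
    rw [hB]; ext j; simp only [Finset.mem_insert, Finset.mem_singleton]; tauto
  · exact ⟨a, b, e, -1, Or.inr rfl, ha.1, hb.1, he.1, hab, hae, hbe, hB, ca, cb, ce⟩
  · refine ⟨b, e, a, 1, Or.inl rfl, hb.1, he.1, ha.1, hbe, hab.symm, hae.symm, ?_, cb, ce, ca⟩
    rw [hB]; ext j; simp only [Finset.mem_insert, Finset.mem_singleton]; tauto
  · refine ⟨b, a, e, -1, Or.inr rfl, hb.1, ha.1, he.1, hab.symm, hbe, hae, ?_, cb, ca, ce⟩
    rw [hB]; ext j; simp only [Finset.mem_insert, Finset.mem_singleton]; tauto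
  · refine ⟨e, a, b, -1, Or.inr rfl, he.1, ha.1, hb.1, hae.symm, hbe.symm, hab, ?_, ce, ca, cb⟩
    rw [hB]; ext j; simp only [Finset.mem_insert, Finset.mem_singleton]; tauto
  · exfalso; linarith


open Cfsg Subgroup Cfsg.Agent.Lib.Helper3_Core Cfsg.Agent.Lib.Helper3_PComp

universe u

theorem index_core_of_burnside {X : Type u} [Group X] [Finite X]
    (P : Sylow 2 X) (hP : normalizer (P : Set X) ≤ centralizer (P : Set X)) :
    (pPrimeCore 2 X).index = Nat.card P := by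
  have hc := MonoidHom.ker_transferSylow_isComplement' P hP
  have hK := MonoidHom.not_dvd_card_ker_transferSylow P hP
  set K := (MonoidHom.transferSylow P hP).ker with hKdef
  have hcard := hc.card_mul_card
  have hle : K ≤ pPrimeCore 2 X :=
    Cfsg.Agent.Lib.Helper4_Core.le_pPrimeCore (MonoidHom.normal_ker _)
      ((Nat.Prime.coprime_iff_not_dvd Nat.prime_two).mpr hK).symm
  have hcop := pPrimeCore_coprime 2 X
  obtain ⟨k, hk⟩ := P.2.exists_card_eq
  have h1 : Nat.card (pPrimeCore 2 X) ∣ Nat.card K := by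
    have h3 : Nat.card (pPrimeCore 2 X) ∣ Nat.card K * Nat.card P := by
      rw [hcard]; exact Subgroup.card_subgroup_dvd_card _
    refine Nat.Coprime.dvd_of_dvd_mul_right ?_ h3
    rw [hk]
    exact Nat.Coprime.pow_right _ hcop
  have h3 : Nat.card (pPrimeCore 2 X) = Nat.card K :=
    Nat.dvd_antisymm h1 (Subgroup.card_dvd_of_le hle)
  have h4 := (pPrimeCore 2 X).card_mul_index
  rw [h3, ← hcard] at h4
  exact Nat.eq_of_mul_eq_mul_left Nat.card_pos h4

theorem mulAut_pow_fix {A : Type*} [Group A] (f : MulAut A) {x : A} (h : f x = x) (j : ℕ) :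
    (f ^ j) x = x := by
  induction j with
  | zero => simp
  | succ j ih => rw [pow_succ, MulAut.mul_apply, h, ih]

variable {G : Type u} [Group G] [Finite G]

theorem klein_norm_fix (P : Sylow 2 G) (hP : IsKleinFour (P : Subgroup G)) {z : G}
    (hzP : z ∈ (P : Subgroup G)) (hz1 : z ≠ 1) {n : G} (hnz : n * z * n⁻¹ = z)
    (hn : n ∈ normalizer ((P : Subgroup G) : Set G)) {a : G} (ha : a ∈ (P : Subgroup G)) :
    n * a * n⁻¹ = a := by
  have hab : ∀ s ∈ (P : Subgroup G), ∀ s' ∈ (P : Subgroup G), s * s' = s' * s := by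
    intro s hs s' hs'
    have := mul_comm_of_exponent_two hP.exponent_two (⟨s, hs⟩ : (P : Subgroup G)) ⟨s', hs'⟩
    exact congrArg Subtype.val this
  by_cases ha1 : a = 1
  · rw [ha1]; group
  by_cases haz : a = z
  · rw [haz]; exact hnz
  by_contra hne
  have hb : n * a * n⁻¹ ∈ (P : Subgroup G) := (Subgroup.mem_normalizer_iff.1 hn a).1 ha
  have hb1 : n * a * n⁻¹ ≠ 1 := by
    intro h
    apply ha1
    have : a = n⁻¹ * (n * a * n⁻¹) * n := by group
    rw [this, h]; group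
  have hbz : n * a * n⁻¹ ≠ z := by
    intro h
    apply haz
    have h1 : n * a * n⁻¹ = n * z * n⁻¹ := h.trans hnz.symm
    simpa using h1
  have hbe : n * a * n⁻¹ = z * a := by
    have := IsKleinFour.eq_mul_of_ne_all (G := (P : Subgroup G)) (x := ⟨z, hzP⟩) (y := ⟨a, ha⟩)
      (z := ⟨n * a * n⁻¹, hb⟩) (fun h => hz1 (congrArg Subtype.val h))
      (fun h => ha1 (congrArg Subtype.val h)) (fun h => haz (congrArg Subtype.val h).symm)
      (fun h => hb1 (congrArg Subtype.val h)) (fun h => hbz (congrArg Subtype.val h))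
      (fun h => hne (congrArg Subtype.val h))
    exact congrArg Subtype.val this
  have hzz : z * z = 1 := by
    have h1 : (⟨z, hzP⟩ : (P : Subgroup G)) ^ 2 = 1 := by
      have h0 := Monoid.pow_exponent_eq_one (⟨z, hzP⟩ : (P : Subgroup G))
      rwa [hP.exponent_two] at h0
    have := congrArg Subtype.val h1
    simpa [pow_two] using this
  obtain ⟨k, r, hr, ho⟩ := Nat.exists_eq_two_pow_mul_odd (orderOf_pos n).ne'
  obtain ⟨j, rfl⟩ := hr
  set f := MulAut.conj n with hf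
  have f1 : f a = z * a := by rw [hf, MulAut.conj_apply]; exact hbe
  have f2 : f z = z := by rw [hf, MulAut.conj_apply]; exact hnz
  have f3 : (f ^ 2) (z * a) = z * a := by
    rw [pow_two, MulAut.mul_apply, map_mul, f1, f2, map_mul, map_mul, f1, f2, ← mul_assoc z z a,
      hzz, one_mul]
  have f4 : (f ^ (2 * j + 1)) a = z * a := by
    rw [pow_succ, MulAut.mul_apply, f1, pow_mul]
    exact mulAut_pow_fix _ f3 j
  set w := n ^ (2 * j + 1) with hw
  have f5 : w * a * w⁻¹ = z * a := by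
    rw [← f4, hf, ← map_pow, MulAut.conj_apply]
  have hwo : orderOf w = 2 ^ k := by
    rw [hw, orderOf_pow' n (by omega), ho, Nat.gcd_eq_right (Dvd.intro_left _ rfl)]
    exact Nat.mul_div_cancel _ (by omega)
  have hwp : IsPGroup 2 (zpowers w) := IsPGroup.of_card (n := k) (by rw [Nat.card_zpowers, hwo])
  have hwN : w ∈ normalizer ((P : Subgroup G) : Set G) := pow_mem hn _
  have hwP : w ∈ (P : Subgroup G) := by
    have h1 : w ∈ zpowers w ⊓ normalizer ((P : Subgroup G) : Set G) := ⟨mem_zpowers w, hwN⟩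
    have h2 := hwp.inf_normalizer_sylow P
    have h3 : w ∈ zpowers w ⊓ (P : Subgroup G) := h2 ▸ h1
    exact h3.2
  have f6 : w * a * w⁻¹ = a := by
    rw [hab w hwP a ha, mul_inv_cancel_right]
  rw [f6] at f5
  apply hz1
  have : z * a = 1 * a := by rw [one_mul]; exact f5.symm
  exact mul_right_cancel this

theorem klein_centralizer_core (P : Sylow 2 G) (hP : IsKleinFour (P : Subgroup G)) {z : G}
    (hzP : z ∈ (P : Subgroup G)) (hz1 : z ≠ 1) :
    (pPrimeCore 2 (centralizer ({z} : Set G))).index = 2 ^ 2 ∧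
      (Nat.card (centralizer ({z} : Set G))).factorization 2 = 2 := by
  have hab : ∀ s ∈ (P : Subgroup G), ∀ s' ∈ (P : Subgroup G), s * s' = s' * s := by
    intro s hs s' hs'
    have := mul_comm_of_exponent_two hP.exponent_two (⟨s, hs⟩ : (P : Subgroup G)) ⟨s', hs'⟩
    exact congrArg Subtype.val this
  set C := centralizer ({z} : Set G) with hC
  have hle : (P : Subgroup G) ≤ C := fun s hs =>
    Subgroup.mem_centralizer_singleton_iff.2 (hab s hs z hzP)
  set P' : Sylow 2 C := P.subtype hle with hP'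
  have hmem : ∀ c : C, c ∈ (P' : Subgroup C) ↔ (c : G) ∈ (P : Subgroup G) := fun c => Iff.rfl
  have hcard : Nat.card P' = 4 := by
    have : Nat.card ((P : Subgroup G).subgroupOf C) = Nat.card (P : Subgroup G) :=
      Nat.card_congr (Subgroup.subgroupOfEquivOfLe hle).toEquiv
    exact this.trans hP.card_four
  have hN : normalizer ((P' : Subgroup C) : Set C) ≤ centralizer ((P' : Subgroup C) : Set C) := by
    intro n hn
    rw [Subgroup.mem_centralizer_iff]
    intro a ha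
    have hnG : (n : G) ∈ normalizer ((P : Subgroup G) : Set G) := by
      apply Cfsg.Agent.Lib.Helper7_Max.mem_normalizer_of_conj_mem
      intro d hd
      have h1 : (⟨d, hle hd⟩ : C) ∈ (P' : Subgroup C) := hd
      have h2 := (Subgroup.mem_normalizer_iff.1 hn _).1 h1
      exact h2
    have hnz : (n : G) * z * (n : G)⁻¹ = z :=
      mul_inv_eq_iff_eq_mul.2 (Subgroup.mem_centralizer_singleton_iff.1 n.2)
    have h3 := klein_norm_fix P hP hzP hz1 hnz hnG (a := (a : G)) ha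
    apply Subtype.ext
    exact (mul_inv_eq_iff_eq_mul.1 h3).symm
  refine ⟨?_, ?_⟩
  · rw [index_core_of_burnside P' hN, hcard]; norm_num
  · have h3 := Sylow.card_eq_multiplicity P'
    rw [hcard] at h3
    exact (Nat.pow_right_injective (le_refl 2) (by simpa using h3)).symm


open Cfsg.Agent.Lib.Helper2_BlockLocal Cfsg.Agent.Lib.helper8_BlockSum
  Cfsg.Agent.Lib.Helper2_BlockOm Cfsg.Agent.Lib.Helper2_BlockThird Cfsg.Agent.Lib.CharBasic
  Cfsg.Agent.Lib.Helper2_PrincipalSection Cfsg.Agent.Lib.Helper2_BlockOrtho2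
  Cfsg.Agent.Lib.helper8_Defect Cfsg.Agent.Lib.Helper2_BlockQuot
  Cfsg.Agent.Lib.Helper2_BlockOrtho Cfsg.Agent.Lib.Helper2_Basic
  Cfsg.Agent.Lib.helper8_DefectZero Cfsg.Agent.Lib.Helper7_ZS12
open scoped ComplexConjugate Classical

theorem klein_block (M : Ideal AlgInt) (hM : IsPModular 2 M) (P : Sylow 2 G)
    (hP : IsKleinFour (P : Subgroup G))
    (hone : ∀ s t : G, orderOf s = 2 → orderOf t = 2 → IsConj s t) :
    ∃ ζ₂ ζ₃ ζ₄ : IrrCharacter G, ∃ ε : ℤ, (ε = 1 ∨ ε = -1) ∧ ζ₂ ≠ oneIrr G ∧ ζ₃ ≠ oneIrr G ∧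
      ζ₄ ≠ oneIrr G ∧ ζ₂ ≠ ζ₃ ∧ ζ₂ ≠ ζ₄ ∧ ζ₃ ≠ ζ₄ ∧
      (∀ χ : IrrCharacter G, χ ∈ principalBlock M G ↔
        (χ = oneIrr G ∨ χ = ζ₂ ∨ χ = ζ₃ ∨ χ = ζ₄)) ∧
      (∀ z : G, orderOf z = 2 → (ζ₂ : G → ℂ) z = 1 ∧ (ζ₃ : G → ℂ) z = (ε : ℂ) ∧
        (ζ₄ : G → ℂ) z = -1) ∧
      (4 : ℤ) ∣ (charDegree (ζ₂ : G → ℂ) : ℤ) - 1 ∧ (4 : ℤ) ∣ (charDegree (ζ₃ : G → ℂ) : ℤ) - ε ∧
      (4 : ℤ) ∣ (charDegree (ζ₄ : G → ℂ) : ℤ) + 1 ∧
      ∀ y : G, Odd (orderOf y) →
        1 + (ζ₂ : G → ℂ) y + (ε : ℂ) * (ζ₃ : G → ℂ) y - (ζ₄ : G → ℂ) y = 0 := by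
  have := Fintype.ofFinite G
  have hPr := isPrime_of_modular hM
  haveI : Nontrivial (P : Subgroup G) := by
    apply (Finite.one_lt_card_iff_nontrivial).1
    rw [hP.card_four]; norm_num
  obtain ⟨z', hz'⟩ := exists_ne (1 : (P : Subgroup G))
  have hord : ∀ y : (P : Subgroup G), y ≠ 1 → orderOf (y : G) = 2 := by
    intro y hy
    rw [Subgroup.orderOf_coe]
    apply orderOf_eq_prime
    · have h0 := Monoid.pow_exponent_eq_one y
      rwa [hP.exponent_two] at h0
    · exact hy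
  set z : G := (z' : G) with hz
  have hzP : z ∈ (P : Subgroup G) := z'.2
  have hz1 : z ≠ 1 := fun h => hz' (Subtype.ext h)
  have oz : orderOf z = 2 := hord z' hz'
  have hch : ∀ χ : IrrCharacter G, IsCharacter G χ := fun χ => isCharacter_of_isIrr χ.2
  have hinv : ∀ (χ : IrrCharacter G) (w : G), orderOf w = 2 → (χ : G → ℂ) w = (χ : G → ℂ) z := by
    intro χ w hw
    obtain ⟨k, hk⟩ := isConj_iff.mp (hone z w oz hw)
    rw [← hk]
    exact isClassFunction_of_isCharacter (hch χ) _ _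
  have hint : ∀ χ : IrrCharacter G, ∃ c : ℤ, (χ : G → ℂ) z = c := fun χ => by
    obtain ⟨n, hn, -⟩ := Cfsg.Agent.S0944.result χ z oz
    exact ⟨n, hn⟩
  choose c hc using hint
  have hdeg : ∀ χ : IrrCharacter G, 0 < charDegree (χ : G → ℂ) ∧
      (χ : G → ℂ) 1 = (charDegree (χ : G → ℂ) : ℂ) := fun χ =>
    ⟨(irr_charDegree χ.2).1, (irr_charDegree χ.2).2.1⟩
  have hsumP : ∀ χ : IrrCharacter G, ∑ y : (P : Subgroup G), (χ : G → ℂ) y =
      (χ : G → ℂ) 1 + 3 * (χ : G → ℂ) z := by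
    intro χ
    have h1 : ∑ y : (P : Subgroup G), ((χ : G → ℂ) y - (χ : G → ℂ) z) =
        (χ : G → ℂ) 1 - (χ : G → ℂ) z := by
      rw [Finset.sum_eq_single (1 : (P : Subgroup G))]
      · rfl
      · intro y _ hy
        rw [hinv χ y (hord y hy), sub_self]
      · intro h; exact absurd (Finset.mem_univ _) h
    rw [Finset.sum_sub_distrib, Finset.sum_const, Finset.card_univ, ← Nat.card_eq_fintype_card,
      hP.card_four] at h1
    simp only [nsmul_eq_mul] at h1
    push_cast at h1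
    linear_combination h1
  have h4 : ∀ χ : IrrCharacter G, ∃ m : ℕ, (charDegree (χ : G → ℂ) : ℤ) + 3 * c χ = 4 * m := by
    intro χ
    obtain ⟨m, hm⟩ := sum_subgroup_nat (hch χ) (P : Subgroup G)
    rw [hsumP χ, hP.card_four, (hdeg χ).2, hc χ] at hm
    exact ⟨m, by exact_mod_cast hm⟩
  obtain ⟨hidx, hfac⟩ := klein_centralizer_core P hP hzP hz1
  have hnorm : ∑ᶠ ζ ∈ principalBlock M G, ‖(ζ : G → ℂ) z‖ ^ 2 = 4 := by
    have h1 := principal_section_sum hM (z := z) ⟨1, by rw [oz]; norm_num⟩ 1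
      (by rw [orderOf_one]; norm_num)
    have h2 := principal_sum_pcomplement hM hidx (y := 1) (by rw [orderOf_one]; norm_num)
    rw [h2, hfac] at h1
    simp only [Subgroup.coe_one, mul_one] at h1
    rw [h1]; norm_num
  set Bf : Finset (IrrCharacter G) := Finset.univ.filter (fun χ => χ ∈ principalBlock M G) with hBf
  have hsum : ∑ χ ∈ Bf, c χ ^ 2 = 4 := by
    rw [Cfsg.Agent.Lib.Helper7_ZS12.finsum_block] at hnorm
    have h1 : ∀ χ ∈ Bf, ‖(χ : G → ℂ) z‖ ^ 2 = ((c χ ^ 2 : ℤ) : ℝ) := by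
      intro χ _
      rw [hc χ, Complex.norm_intCast, sq_abs]
      push_cast; ring
    rw [Finset.sum_congr rfl h1] at hnorm
    exact_mod_cast hnorm
  have h0mem : oneIrr G ∈ Bf := by
    rw [hBf, Finset.mem_filter]
    exact ⟨Finset.mem_univ _, oneIrr_mem_principal hPr G⟩
  have hone' : ∀ x : G, (oneIrr G : G → ℂ) x = 1 := fun x => rfl
  have hc0 : c (oneIrr G) = 1 := by
    have := hc (oneIrr G)
    rw [hone'] at this
    exact_mod_cast this.symm
  have hd0 : (charDegree (oneIrr G : G → ℂ) : ℤ) = 1 := by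
    have := (hdeg (oneIrr G)).2
    rw [hone'] at this
    exact_mod_cast this.symm
  have hfacG : (Nat.card G).factorization 2 = 2 := by
    have h3 := Sylow.card_eq_multiplicity P
    rw [hP.card_four] at h3
    exact (Nat.pow_right_injective (le_refl 2) (by simpa using h3)).symm
  have hne : ∀ χ ∈ Bf, c χ ≠ 0 := by
    intro χ hχ h0
    obtain ⟨m, hm⟩ := h4 χ
    rw [h0] at hm
    have hm' : charDegree (χ : G → ℂ) = 4 * m := by
      have : (charDegree (χ : G → ℂ) : ℤ) = ((4 * m : ℕ) : ℤ) := by push_cast; linarith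
      exact_mod_cast this
    have hdvd : charDegree (χ : G → ℂ) ∣ Nat.card G := (irr_charDegree χ.2).2.2
    have hdz : ¬ 2 ∣ Nat.card G / charDegree (χ : G → ℂ) := by
      intro h2
      obtain ⟨q, hq⟩ := h2
      have h5 : Nat.card G = charDegree (χ : G → ℂ) * (2 * q) := by
        rw [← hq]; exact (Nat.mul_div_cancel' hdvd).symm
      have h6 : 2 ^ 3 ∣ Nat.card G := ⟨m * q, by rw [h5, hm']; ring⟩
      have h7 := (Nat.prime_two.pow_dvd_iff_le_factorization Nat.card_pos.ne').1 h6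
      omega
    have hb := blockOf_eq_singleton hM χ hdz
    have hχ' : SameBlock M (oneIrr G : G → ℂ) (χ : G → ℂ) := (Finset.mem_filter.1 hχ).2
    have h8 : oneIrr G ∈ blockOf M (χ : G → ℂ) := sameBlock_symm hχ'
    rw [hb, Set.mem_singleton_iff] at h8
    rw [← h8, hc0] at h0
    norm_num at h0
  have hwbo : ∀ y : G, ¬ 2 ∣ orderOf y → ∑ χ ∈ Bf, (χ : G → ℂ) y * (c χ : ℂ) = 0 := by
    intro y hy
    have := weak_block_orthogonality hM (principalBlock_isPBlock M G) hy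
      (y := z) (by rw [oz])
    rw [← this]
    exact Finset.sum_congr rfl fun χ _ => by rw [hc χ]
  have hcd : ∑ χ ∈ Bf, c χ * (charDegree (χ : G → ℂ) : ℤ) = 0 := by
    have h1 := hwbo 1 (by rw [orderOf_one]; norm_num)
    have h2 : ∑ χ ∈ Bf, (χ : G → ℂ) 1 * (c χ : ℂ) =
        ((∑ χ ∈ Bf, c χ * (charDegree (χ : G → ℂ) : ℤ) : ℤ) : ℂ) := by
      push_cast
      exact Finset.sum_congr rfl fun χ _ => by rw [(hdeg χ).2]; ring
    rw [h2] at h1
    exact_mod_cast h1
  obtain ⟨ζ₂, ζ₃, ζ₄, ε, hε, n2, n3, n4, n23, n24, n34, hB, c2, c3, c4⟩ :=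
    comb Bf c (fun χ => (charDegree (χ : G → ℂ) : ℤ)) (oneIrr G) h0mem hc0 hd0
      (fun χ => by exact_mod_cast (hdeg χ).1) hne hsum hcd
  refine ⟨ζ₂, ζ₃, ζ₄, ε, hε, n2, n3, n4, n23, n24, n34, ?_, ?_, ?_, ?_, ?_, ?_⟩
  · intro χ
    have : χ ∈ principalBlock M G ↔ χ ∈ Bf := by rw [hBf]; simp
    rw [this, hB]
    simp only [Finset.mem_insert, Finset.mem_singleton]
  · intro w hw
    refine ⟨?_, ?_, ?_⟩
    · rw [hinv ζ₂ w hw, hc, c2]; norm_num
    · rw [hinv ζ₃ w hw, hc, c3]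
    · rw [hinv ζ₄ w hw, hc, c4]; norm_num
  · obtain ⟨m, hm⟩ := h4 ζ₂
    rw [c2] at hm
    exact ⟨m - 1, by linarith⟩
  · obtain ⟨m, hm⟩ := h4 ζ₃
    rw [c3] at hm
    exact ⟨m - ε, by linarith⟩
  · obtain ⟨m, hm⟩ := h4 ζ₄
    rw [c4] at hm
    exact ⟨m + 1, by linarith⟩
  · intro y hy
    have h1 := hwbo y (Nat.two_dvd_ne_zero.2 (Nat.odd_iff.1 hy))
    rw [hB, Finset.sum_insert, Finset.sum_insert, Finset.sum_pair n34, hc0, c2, c3, c4,
      hone'] at h1
    · push_cast at h1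
      linear_combination h1
    · simp [n23, n24]
    · simp [n2.symm, n3.symm, n4.symm]

end Cfsg.Agent.Lib.helper6_Klein
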