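import Mathlib
import Cfsg.Agent.Lib.helper6_Klein
import Cfsg.Agent.Lib.helper6_Sylow

/-!
# Groups with homocyclic Sylow 2-subgroups of rank two: local analysis
-/

set_option autoImplicit false

namespace Cfsg.Agent.Lib.helper6_Homo

open Subgroup Cfsg

section basic

variable {G : Type*} [Group G]

theorem comm_of_odd {n x : G} {k : ℕ} (hk : Odd k)
    (h1 : Commute n (n * x * n⁻¹ * x⁻¹)) (h2 : (n * x * n⁻¹ * x⁻¹) ^ 2 = 1)
    (h3 : Commute (n ^ k) x) : n * x * n⁻¹ = x := by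
  generalize hy : n * x * n⁻¹ * x⁻¹ = y at h1 h2
  have hyx : n * x * n⁻¹ = y * x := by rw [← hy]; group
  have key : ∀ i : ℕ, n ^ i * x * (n ^ i)⁻¹ = y ^ i * x := by
    intro i
    induction i with
    | zero => simp
    | succ i ih =>
      have e1 : n ^ (i + 1) * x * (n ^ (i + 1))⁻¹ = n * (n ^ i * x * (n ^ i)⁻¹) * n⁻¹ := by
        rw [pow_succ']; group
      rw [e1, ih]
      have e2 : n * (y ^ i * x) * n⁻¹ = (n * y ^ i) * x * n⁻¹ := by group
      have e4 : y ^ i * n * x * n⁻¹ = y ^ i * (n * x * n⁻¹) := by group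
      rw [e2, (h1.pow_right i).eq, e4, hyx, pow_succ, mul_assoc]
  have hk1 := key k
  have e3 : n ^ k * x * (n ^ k)⁻¹ = x := by rw [h3.eq]; group
  rw [e3] at hk1
  have hyk : y ^ k = 1 := by
    have := hk1.symm
    exact mul_eq_right.mp this
  obtain ⟨j, rfl⟩ := hk
  rw [pow_succ, pow_mul, h2, one_pow, one_mul] at hyk
  rw [hyx, hyk, one_mul]

/-- An abelian subgroup with exactly three involutions. -/
structure Rk2 (P : Subgroup G) (z₁ z₂ : G) : Prop where
  comm : ∀ a ∈ P, ∀ b ∈ P, a * b = b * a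
  m1 : z₁ ∈ P
  m2 : z₂ ∈ P
  o1 : orderOf z₁ = 2
  o2 : orderOf z₂ = 2
  ne : z₁ ≠ z₂
  all : ∀ x ∈ P, orderOf x = 2 → x = z₁ ∨ x = z₂ ∨ x = z₁ * z₂

theorem sq_of_order {z : G} (h : orderOf z = 2) : z * z = 1 := by
  rw [← pow_two, ← h]; exact pow_orderOf_eq_one z

theorem Rk2.third {P : Subgroup G} {z₁ z₂ : G} (h : Rk2 P z₁ z₂) {z z' w : G}
    (hz : z ∈ P) (hz' : z' ∈ P) (hw : w ∈ P) (oz : orderOf z = 2) (oz' : orderOf z' = 2)
    (ow : orderOf w = 2) (hne : z ≠ z') : w = z ∨ w = z' ∨ w = z * z' := by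
  have h11 := sq_of_order h.o1
  have h22 := sq_of_order h.o2
  have h21 : z₂ * z₁ = z₁ * z₂ := h.comm _ h.m2 _ h.m1
  have e1 : z₁ * (z₁ * z₂) = z₂ := by rw [← mul_assoc, h11, one_mul]
  have e2 : z₂ * (z₁ * z₂) = z₁ := by rw [← mul_assoc, h21, mul_assoc, h22, mul_one]
  have e3 : z₁ * z₂ * z₁ = z₂ := by rw [mul_assoc, h21, e1]
  have e4 : z₁ * z₂ * z₂ = z₁ := by rw [mul_assoc, h22, mul_one]
  rcases h.all z hz oz with rfl | rfl | rfl <;> rcases h.all z' hz' oz' with rfl | rfl | rfl <;>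
    rcases h.all w hw ow with rfl | rfl | rfl <;>
    first
    | exact absurd rfl hne
    | simp [e1, e2, e3, e4, h21]

end basic

section sylow

variable {G : Type*} [Group G] [Finite G]

theorem exists_odd_pow (P : Sylow 2 G) (hab : ∀ a ∈ (P : Subgroup G), ∀ b ∈ (P : Subgroup G),
    a * b = b * a) {n : G} (hn : n ∈ normalizer ((P : Subgroup G) : Set G)) :
    ∃ k : ℕ, Odd k ∧ ∀ x ∈ (P : Subgroup G), Commute (n ^ k) x := by
  obtain ⟨a, k, hk, hak⟩ := Nat.exists_eq_two_pow_mul_odd (orderOf_pos n).ne'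
  refine ⟨k, hk, ?_⟩
  have h1 : (n ^ k) ^ (2 ^ a) = 1 := by
    rw [← pow_mul, mul_comm, ← hak]; exact pow_orderOf_eq_one n
  have hp : IsPGroup 2 (zpowers (n ^ k)) := by
    obtain ⟨b, -, hb⟩ := (Nat.dvd_prime_pow Nat.prime_two).1 (orderOf_dvd_of_pow_eq_one h1)
    exact IsPGroup.of_card (n := b) (by rw [Nat.card_zpowers, hb])
  have h2 := hp.inf_normalizer_sylow P
  have h3 : n ^ k ∈ zpowers (n ^ k) ⊓ normalizer ((P : Subgroup G) : Set G) :=
    ⟨mem_zpowers _, pow_mem hn k⟩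
  have h4 : n ^ k ∈ zpowers (n ^ k) ⊓ (P : Subgroup G) := h2 ▸ h3
  intro x hx
  exact hab _ h4.2 _ hx

theorem conj_mem (P : Subgroup G) {n : G} (hn : n ∈ normalizer (P : Set G)) {x : G} (hx : x ∈ P) :
    n * x * n⁻¹ ∈ P := (Subgroup.mem_normalizer_iff.1 hn x).1 hx

theorem orderOf_conj'' (n x : G) : orderOf (n * x * n⁻¹) = orderOf x := by
  have := (MulAut.conj n).orderOf_eq x
  simpa using this

/-- An element of the normalizer fixing a nontrivial element of `P` centralizes `P`. -/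
theorem norm_fix (P : Sylow 2 G) {z₁ z₂ : G} (h : Rk2 (P : Subgroup G) z₁ z₂) {z : G}
    (hzP : z ∈ (P : Subgroup G)) (hz1 : z ≠ 1) {n : G} (hnz : n * z * n⁻¹ = z)
    (hn : n ∈ normalizer ((P : Subgroup G) : Set G)) {a : G} (ha : a ∈ (P : Subgroup G)) :
    n * a * n⁻¹ = a := by
  obtain ⟨k, hk, hkc⟩ := exists_odd_pow P h.comm hn
  -- an involution fixed by `n`
  obtain ⟨w, hwP, ow, hnw⟩ : ∃ w ∈ (P : Subgroup G), orderOf w = 2 ∧ n * w * n⁻¹ = w := by
    obtain ⟨b, hb⟩ := (IsPGroup.iff_orderOf.1 P.2) ⟨z, hzP⟩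
    rw [Subgroup.orderOf_mk] at hb
    have hb0 : b ≠ 0 := by
      rintro rfl
      rw [pow_zero, orderOf_eq_one_iff] at hb
      exact hz1 hb
    obtain ⟨c, rfl⟩ := Nat.exists_eq_succ_of_ne_zero hb0
    refine ⟨z ^ (2 ^ c), pow_mem hzP _, ?_, ?_⟩
    · rw [orderOf_pow' _ (by positivity), hb, Nat.gcd_eq_right (pow_dvd_pow 2 (Nat.le_succ c)),
        Nat.succ_eq_add_one, pow_succ, Nat.mul_div_cancel_left _ (by positivity)]
    · rw [← conj_pow, hnz]
  -- all involutions are fixed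
  have hinv : ∀ w' ∈ (P : Subgroup G), orderOf w' = 2 → n * w' * n⁻¹ = w' := by
    intro w' hw' ow'
    by_cases hww : w = w'
    · rw [← hww]; exact hnw
    have hc := conj_mem _ hn hw'
    have oc : orderOf (n * w' * n⁻¹) = 2 := by rw [orderOf_conj'', ow']
    have hw'2 := sq_of_order ow'
    have hw'i : w'⁻¹ = w' := inv_eq_of_mul_eq_one_left hw'2
    rcases h.third hwP hw' hc ow ow' oc hww with h1 | h1 | h1
    · exfalso
      apply hww
      have : n * w' * n⁻¹ = n * w * n⁻¹ := by rw [h1, hnw]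
      simpa using this.symm
    · exact h1
    · apply comm_of_odd hk _ _ (hkc w' hw')
      · rw [h1, hw'i, mul_assoc, hw'2, mul_one]
        exact mul_inv_eq_iff_eq_mul.1 hnw
      · rw [h1, hw'i, mul_assoc, hw'2, mul_one, pow_two]
        exact sq_of_order ow
  -- induction on the order
  have key : ∀ j : ℕ, ∀ x ∈ (P : Subgroup G), x ^ (2 ^ j) = 1 → n * x * n⁻¹ = x := by
    intro j
    induction j with
    | zero =>
      intro x _ hx
      rw [pow_zero, pow_one] at hx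
      rw [hx]; group
    | succ j ih =>
      intro x hx hxj
      have h2 : n * (x ^ 2) * n⁻¹ = x ^ 2 := by
        apply ih _ (pow_mem hx 2)
        rw [← pow_mul, ← pow_succ']; exact hxj
      have hc := conj_mem _ hn hx
      have hyP : n * x * n⁻¹ * x⁻¹ ∈ (P : Subgroup G) := mul_mem hc (inv_mem hx)
      have hy2 : (n * x * n⁻¹ * x⁻¹) ^ 2 = 1 := by
        rw [pow_two]
        have e1 : n * x * n⁻¹ * x⁻¹ * (n * x * n⁻¹ * x⁻¹) =
            (n * x * n⁻¹) * (x⁻¹ * (n * x * n⁻¹)) * x⁻¹ := by group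
        rw [e1, h.comm _ (inv_mem hx) _ hc]
        have e2 : n * x * n⁻¹ * (n * x * n⁻¹ * x⁻¹) * x⁻¹ = (n * x ^ 2 * n⁻¹) * (x ^ 2)⁻¹ := by
          rw [pow_two]; group
        rw [e2, h2, mul_inv_cancel]
      apply comm_of_odd hk _ hy2 (hkc x hx)
      by_cases hy1 : n * x * n⁻¹ * x⁻¹ = 1
      · rw [hy1]; exact Commute.one_right n
      · exact mul_inv_eq_iff_eq_mul.1 (hinv _ hyP (orderOf_eq_prime hy2 hy1))
  obtain ⟨b, hb⟩ := (IsPGroup.iff_orderOf.1 P.2) ⟨a, ha⟩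
  rw [Subgroup.orderOf_mk] at hb
  exact key b a ha (by rw [← hb]; exact pow_orderOf_eq_one a)

end sylow

section concrete

theorem zmod_two_mul {m : ℕ} (hm : 1 ≤ m) (a : ZMod (2 ^ m)) (h : a + a = 0) :
    a = 0 ∨ a = ((2 ^ (m - 1) : ℕ) : ZMod (2 ^ m)) := by
  haveI : NeZero (2 ^ m) := ⟨by positivity⟩
  obtain ⟨c, rfl⟩ : ∃ c, m = c + 1 := ⟨m - 1, by omega⟩
  have h1 : ((a.val + a.val : ℕ) : ZMod (2 ^ (c + 1))) = 0 := by
    push_cast; rw [ZMod.natCast_zmod_val]; exact h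
  rw [ZMod.natCast_eq_zero_iff] at h1
  have h2 : 2 ^ c ∣ a.val := by
    have : 2 ^ c * 2 ∣ a.val * 2 := by rw [← pow_succ, mul_two]; exact h1
    exact Nat.dvd_of_mul_dvd_mul_right (by norm_num) this
  obtain ⟨d, hd⟩ := h2
  have h3 : a.val < 2 ^ (c + 1) := ZMod.val_lt a
  have h4 : d < 2 := by
    have h5 : 2 ^ c * d < 2 ^ c * 2 := by rw [← hd, ← pow_succ]; exact h3
    exact lt_of_mul_lt_mul_left h5 (Nat.zero_le _)
  interval_cases d
  · left; rw [← ZMod.natCast_zmod_val a, hd]; simp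
  · right; rw [← ZMod.natCast_zmod_val a, hd]; simp

variable {G : Type*} [Group G]

theorem rk2_of_equiv (P : Subgroup G) (m : ℕ) (hm : 1 ≤ m)
    (e : P ≃* Multiplicative (ZMod (2 ^ m) × ZMod (2 ^ m))) :
    ∃ z₁ z₂ : G, Rk2 P z₁ z₂ := by
  set h : ZMod (2 ^ m) := ((2 ^ (m - 1) : ℕ) : ZMod (2 ^ m)) with hh
  have hh0 : h ≠ 0 := by
    rw [hh, Ne, ZMod.natCast_eq_zero_iff]
    intro hd
    have h1 := Nat.le_of_dvd (by positivity) hd
    have h2 : 2 ^ (m - 1) < 2 ^ m := Nat.pow_lt_pow_right (by norm_num) (by omega)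
    omega
  have hh2 : h + h = 0 := by
    rw [hh, ← Nat.cast_add, ← two_mul, ← pow_succ', Nat.sub_add_cancel hm]
    exact ZMod.natCast_self _
  have hab : ∀ a b : P, a * b = b * a := by
    intro a b; apply e.injective; rw [map_mul, map_mul, mul_comm]
  have hord : ∀ w : ZMod (2 ^ m) × ZMod (2 ^ m), w ≠ 0 → w + w = 0 →
      orderOf ((e.symm (Multiplicative.ofAdd w) : P) : G) = 2 := by
    intro w hw0 hw2
    rw [Subgroup.orderOf_coe, MulEquiv.orderOf_eq]
    apply orderOf_eq_prime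
    · rw [pow_two, ← ofAdd_add, hw2]; rfl
    · intro h; exact hw0 (Multiplicative.ofAdd.injective h)
  refine ⟨(e.symm (Multiplicative.ofAdd (h, 0)) : P), (e.symm (Multiplicative.ofAdd (0, h)) : P), ?_⟩
  constructor
  · intro a ha b hb
    exact congrArg Subtype.val (hab ⟨a, ha⟩ ⟨b, hb⟩)
  · exact Subtype.property _
  · exact Subtype.property _
  · apply hord
    · intro h'; exact hh0 (congrArg Prod.fst h')
    · simp [hh2]
  · apply hord
    · intro h'; exact hh0 (congrArg Prod.snd h')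
    · simp [hh2]
  · intro h'
    have h1 := Multiplicative.ofAdd.injective (e.symm.injective (Subtype.ext h'))
    exact hh0 (congrArg Prod.fst h1)
  · intro x hx ox
    set w := Multiplicative.toAdd (e ⟨x, hx⟩) with hw
    have hxw : (⟨x, hx⟩ : P) = e.symm (Multiplicative.ofAdd w) := by simp [hw]
    have hxw' : x = ((e.symm (Multiplicative.ofAdd w) : P) : G) := congrArg Subtype.val hxw
    have hw2 : w + w = 0 := by
      have h1 : (⟨x, hx⟩ : P) * ⟨x, hx⟩ = 1 := Subtype.ext (sq_of_order ox)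
      have h2 := congrArg e h1
      rw [map_mul, map_one] at h2
      exact congrArg Multiplicative.toAdd h2
    have hw0 : w ≠ 0 := by
      intro h0
      rw [h0] at hxw'
      have : x = 1 := by rw [hxw']; simp
      rw [this, orderOf_one] at ox
      norm_num at ox
    have h1 := zmod_two_mul hm w.1 (congrArg Prod.fst hw2)
    have h2 := zmod_two_mul hm w.2 (congrArg Prod.snd hw2)
    rw [← hh] at h1 h2
    obtain ⟨a, b⟩ := w
    simp only at h1 h2
    rcases h1 with rfl | rfl <;> rcases h2 with rfl | rfl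
    · exact absurd rfl hw0
    · right; left; exact hxw'
    · left; exact hxw'
    · right; right
      rw [hxw', ← Subgroup.coe_mul, ← map_mul, ← ofAdd_add]
      simp

theorem card_of_equiv (P : Subgroup G) (m : ℕ)
    (e : P ≃* Multiplicative (ZMod (2 ^ m) × ZMod (2 ^ m))) : Nat.card P = 2 ^ (2 * m) := by
  rw [Nat.card_congr e.toEquiv]
  have : Nat.card (Multiplicative (ZMod (2 ^ m) × ZMod (2 ^ m))) =
      Nat.card (ZMod (2 ^ m) × ZMod (2 ^ m)) := rfl
  rw [this, Nat.card_prod, Nat.card_zmod, two_mul, pow_add]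

theorem exists_sq_ne (P : Subgroup G) (m : ℕ) (hm : 2 ≤ m)
    (e : P ≃* Multiplicative (ZMod (2 ^ m) × ZMod (2 ^ m))) : ∃ z ∈ P, z ^ 2 ≠ 1 := by
  refine ⟨(e.symm (Multiplicative.ofAdd (1, 0)) : P), Subtype.property _, ?_⟩
  intro h
  have h1 : (e.symm (Multiplicative.ofAdd ((1 : ZMod (2 ^ m)), (0 : ZMod (2 ^ m)))) : P) ^ 2 = 1 :=
    Subtype.ext h
  rw [← map_pow, ← ofAdd_nsmul] at h1
  have h2 := Multiplicative.ofAdd.injective (e.symm.injective (h1.trans (map_one e.symm).symm))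
  have h3 : ((2 : ℕ) : ZMod (2 ^ m)) = 0 := by
    have := congrArg Prod.fst h2
    simpa using this
  rw [ZMod.natCast_eq_zero_iff] at h3
  have h4 := Nat.le_of_dvd (by norm_num) h3
  have h5 : 2 ^ 2 ≤ 2 ^ m := Nat.pow_le_pow_right (by norm_num) hm
  omega

end concrete

section cycle

variable {G : Type*} [Group G] [Finite G]

theorem three_cycle (P : Sylow 2 G) {z₁ z₂ : G} (h : Rk2 (P : Subgroup G) z₁ z₂) {σ : G}
    (hσ : σ ∈ normalizer ((P : Subgroup G) : Set G))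
    (hfix : ∀ x ∈ (P : Subgroup G), σ * x * σ⁻¹ = x → x = 1) :
    (∀ w ∈ (P : Subgroup G), orderOf w = 2 → w = z₁ ∨ w = σ * z₁ * σ⁻¹ ∨
      w = σ * (σ * z₁ * σ⁻¹) * σ⁻¹) ∧ σ * (σ * (σ * z₁ * σ⁻¹) * σ⁻¹) * σ⁻¹ = z₁ := by
  set w1 := σ * z₁ * σ⁻¹ with hw1
  set w2 := σ * w1 * σ⁻¹ with hw2
  have m1 : w1 ∈ (P : Subgroup G) := conj_mem _ hσ h.m1
  have m2 : w2 ∈ (P : Subgroup G) := conj_mem _ hσ m1
  have o1 : orderOf w1 = 2 := by rw [hw1, orderOf_conj'', h.o1]
  have o2 : orderOf w2 = 2 := by rw [hw2, orderOf_conj'', o1]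
  have hne : ∀ w : G, orderOf w = 2 → w ≠ 1 := by
    rintro w hw rfl
    rw [orderOf_one] at hw; norm_num at hw
  have n01 : z₁ ≠ w1 := fun hh => hne _ h.o1 (hfix _ h.m1 hh.symm)
  have n12 : w1 ≠ w2 := fun hh => hne _ o1 (hfix _ m1 hh.symm)
  have n02 : w2 ≠ z₁ := by
    intro hh
    have h1 : σ * (z₁ * w1) * σ⁻¹ = z₁ * w1 := by
      have : σ * (z₁ * w1) * σ⁻¹ = (σ * z₁ * σ⁻¹) * (σ * w1 * σ⁻¹) := by group
      rw [this, ← hw1, ← hw2, hh]
      exact h.comm _ m1 _ h.m1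
    have h2 := hfix _ (mul_mem h.m1 m1) h1
    apply n01
    have h3 := sq_of_order o1
    calc z₁ = z₁ * (w1 * w1) := by rw [h3, mul_one]
      _ = w1 := by rw [← mul_assoc, h2, one_mul]
  have h3 : w2 = z₁ * w1 := by
    rcases h.third h.m1 m1 m2 h.o1 o1 o2 n01 with h' | h' | h'
    · exact absurd h' n02
    · exact absurd h'.symm n12
    · exact h'
  refine ⟨?_, ?_⟩
  · intro w hw ow
    rcases h.third h.m1 m1 hw h.o1 o1 ow n01 with h' | h' | h'
    · left; exact h'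
    · right; left; exact h'
    · right; right; rw [h3]; exact h'
  · have : σ * w2 * σ⁻¹ = (σ * z₁ * σ⁻¹) * (σ * w1 * σ⁻¹) := by rw [h3]; group
    rw [this, ← hw1, ← hw2, h3, h.comm _ h.m1 _ m1, ← mul_assoc, sq_of_order o1, one_mul]

end cycle

section index

variable {G : Type*} [Group G] [Finite G]

theorem mem_centralizer_of_fix (P : Subgroup G) {n : G} (h : ∀ a ∈ P, n * a * n⁻¹ = a) :
    n ∈ centralizer (P : Set G) := by
  rw [Subgroup.mem_centralizer_iff]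
  intro a ha
  exact (mul_inv_eq_iff_eq_mul.1 (h a ha)).symm

theorem fix_of_mem_centralizer (P : Subgroup G) {n : G} (h : n ∈ centralizer (P : Set G))
    {a : G} (ha : a ∈ P) : n * a * n⁻¹ = a :=
  mul_inv_eq_iff_eq_mul.2 ((Subgroup.mem_centralizer_iff.1 h) a ha).symm

theorem relIndex_cases (P : Sylow 2 G) {z₁ z₂ : G} (h : Rk2 (P : Subgroup G) z₁ z₂) :
    (centralizer ((P : Subgroup G) : Set G)).relIndex (normalizer ((P : Subgroup G) : Set G)) = 1 ∨
    (centralizer ((P : Subgroup G) : Set G)).relIndex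
      (normalizer ((P : Subgroup G) : Set G)) = 3 := by
  classical
  set N := normalizer ((P : Subgroup G) : Set G) with hN
  set C := centralizer ((P : Subgroup G) : Set G) with hC
  have hPC : (P : Subgroup G) ≤ C := fun a ha =>
    Subgroup.mem_centralizer_iff.2 (fun b hb => h.comm b hb a ha)
  have hPN : (P : Subgroup G) ≤ N := Subgroup.le_normalizer
  have hodd : ¬ 2 ∣ C.relIndex N := by
    intro h2
    have h3 : C.relIndex N ∣ (P : Subgroup G).relIndex N := Subgroup.relIndex_dvd_of_le_left N hPC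
    have h4 : (P : Subgroup G).relIndex N ∣ (P : Subgroup G).index :=
      ⟨N.index, (Subgroup.relIndex_mul_index hPN).symm⟩
    exact P.not_dvd_index (h2.trans (h3.trans h4))
  let S : Finset G := {z₁, z₂, z₁ * z₂}
  have hS : ∀ n : N, (n : G) * z₁ * (n : G)⁻¹ ∈ S := by
    intro n
    have h1 := conj_mem _ n.2 h.m1
    have h2 : orderOf ((n : G) * z₁ * (n : G)⁻¹) = 2 := by rw [orderOf_conj'', h.o1]
    rcases h.all _ h1 h2 with h3 | h3 | h3 <;> simp [S, h3]
  let f : N ⧸ C.subgroupOf N → S := fun q => Quotient.liftOn' q (fun n => ⟨_, hS n⟩) (by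
    intro a b hab
    rw [QuotientGroup.leftRel_apply] at hab
    have h1 : ((a : G)⁻¹ * b) * z₁ * ((a : G)⁻¹ * b)⁻¹ = z₁ :=
      fix_of_mem_centralizer _ hab h.m1
    apply Subtype.ext
    show (a : G) * z₁ * (a : G)⁻¹ = (b : G) * z₁ * (b : G)⁻¹
    calc (a : G) * z₁ * (a : G)⁻¹ = (a : G) * (((a : G)⁻¹ * b) * z₁ * ((a : G)⁻¹ * b)⁻¹) * (a : G)⁻¹ := by
          rw [h1]
      _ = (b : G) * z₁ * (b : G)⁻¹ := by group)
  have hf : Function.Injective f := by
    intro q1 q2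
    induction q1 using Quotient.inductionOn' with | _ a => ?_
    induction q2 using Quotient.inductionOn' with | _ b => ?_
    intro hq
    have h1 : (a : G) * z₁ * (a : G)⁻¹ = (b : G) * z₁ * (b : G)⁻¹ := congrArg Subtype.val hq
    apply Quotient.sound'
    rw [QuotientGroup.leftRel_apply]
    have h2 : ((a : G)⁻¹ * b) * z₁ * ((a : G)⁻¹ * b)⁻¹ = z₁ := by
      calc ((a : G)⁻¹ * b) * z₁ * ((a : G)⁻¹ * b)⁻¹ = (a : G)⁻¹ * ((b : G) * z₁ * (b : G)⁻¹) * a := by
            group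
        _ = z₁ := by rw [← h1]; group
    have hz1 : z₁ ≠ 1 := by
      intro h0
      have := h.o1
      rw [h0, orderOf_one] at this; norm_num at this
    have hmem : (a : G)⁻¹ * b ∈ N := mul_mem (inv_mem a.2) b.2
    exact mem_centralizer_of_fix _ (fun x hx => norm_fix P h h.m1 hz1 h2 hmem hx)
  have hle : C.relIndex N ≤ 3 := by
    have h1 : C.relIndex N = Nat.card (N ⧸ C.subgroupOf N) := rfl
    rw [h1]
    refine (Nat.card_le_card_of_injective f hf).trans ?_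
    rw [Nat.card_eq_fintype_card, Fintype.card_coe]
    exact Finset.card_le_three
  have h0 : C.relIndex N ≠ 0 := (C.subgroupOf N).index_ne_zero_of_finite
  omega

theorem inf_eq (P : Sylow 2 G) {z₁ z₂ : G} (h : Rk2 (P : Subgroup G) z₁ z₂) {z : G}
    (hz : z ∈ (P : Subgroup G)) (hz1 : z ≠ 1) :
    centralizer ({z} : Set G) ⊓ normalizer ((P : Subgroup G) : Set G) =
      centralizer ((P : Subgroup G) : Set G) := by
  apply le_antisymm
  · rintro n ⟨h1, h2⟩
    have h3 : n * z * n⁻¹ = z :=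
      mul_inv_eq_iff_eq_mul.2 (Subgroup.mem_centralizer_singleton_iff.1 h1)
    exact mem_centralizer_of_fix _ (fun x hx => norm_fix P h hz hz1 h3 h2 hx)
  · intro n hn
    refine ⟨?_, Subgroup.centralizer_le_normalizer _ hn⟩
    exact Subgroup.mem_centralizer_singleton_iff.2 ((Subgroup.mem_centralizer_iff.1 hn) z hz).symm

end index

section fusion

variable {G : Type*} [Group G] [Finite G]

theorem pgroup_conj (P : Sylow 2 G) {H : Subgroup G} (hH : IsPGroup 2 H) :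
    ∃ k : G, ∀ x ∈ H, k * x * k⁻¹ ∈ (P : Subgroup G) := by
  obtain ⟨Q, hQ⟩ := hH.exists_le_sylow
  obtain ⟨k, hk⟩ := Cfsg.Agent.Lib.helper6_Sylow.sylow_conj P Q
  exact ⟨k, fun x hx => hk x (hQ hx)⟩

theorem isPGroup_zpowers_of {x : G} {k : ℕ} (hx : orderOf x = 2 ^ k) : IsPGroup 2 (zpowers x) :=
  IsPGroup.of_card (n := k) (by rw [Nat.card_zpowers, hx])

theorem exists_fpf (P : Sylow 2 G) {z₁ z₂ : G} (h : Rk2 (P : Subgroup G) z₁ z₂)
    (hNC : ¬ normalizer ((P : Subgroup G) : Set G) ≤ centralizer ((P : Subgroup G) : Set G)) :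
    ∃ σ ∈ normalizer ((P : Subgroup G) : Set G),
      ∀ x ∈ (P : Subgroup G), σ * x * σ⁻¹ = x → x = 1 := by
  obtain ⟨σ, hσ, hσC⟩ := SetLike.not_le_iff_exists.1 hNC
  refine ⟨σ, hσ, ?_⟩
  intro x hx hfix
  by_contra hx1
  exact hσC (mem_centralizer_of_fix _ (fun a ha => norm_fix P h hx hx1 hfix hσ ha))

theorem complement_or_conj (P : Sylow 2 G) {z₁ z₂ : G} (h : Rk2 (P : Subgroup G) z₁ z₂) :
    (∃ N : Subgroup G, N.Normal ∧ Subgroup.IsComplement' N (P : Subgroup G)) ∨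
      ∀ s t : G, orderOf s = 2 → orderOf t = 2 → IsConj s t := by
  by_cases hNC : normalizer ((P : Subgroup G) : Set G) ≤ centralizer ((P : Subgroup G) : Set G)
  · left
    exact ⟨_, MonoidHom.normal_ker _, MonoidHom.ker_transferSylow_isComplement' P hNC⟩
  · right
    obtain ⟨σ, hσ, hfix⟩ := exists_fpf P h hNC
    obtain ⟨hall, -⟩ := three_cycle P h hσ hfix
    have key : ∀ s : G, orderOf s = 2 → IsConj z₁ s := by
      intro s hs
      obtain ⟨k, hk⟩ := pgroup_conj P (isPGroup_zpowers_of (x := s) (k := 1) (by rw [hs, pow_one]))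
      have h1 := hk s (mem_zpowers s)
      have h2 : orderOf (k * s * k⁻¹) = 2 := by rw [orderOf_conj'', hs]
      have h3 : IsConj s (k * s * k⁻¹) := isConj_iff.2 ⟨k, rfl⟩
      refine IsConj.trans ?_ h3.symm
      rcases hall _ h1 h2 with h4 | h4 | h4
      · rw [h4]
      · rw [h4]; exact isConj_iff.2 ⟨σ, rfl⟩
      · rw [h4]; exact isConj_iff.2 ⟨σ * σ, by group⟩
    intro s t hs ht
    exact (key s hs).symm.trans (key t ht)

/-- Fusion in `P` is controlled by `σ`. -/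
theorem fusion (P : Sylow 2 G) {z₁ z₂ : G} (h : Rk2 (P : Subgroup G) z₁ z₂) {σ : G}
    (hσ : σ ∈ normalizer ((P : Subgroup G) : Set G))
    (hfix : ∀ x ∈ (P : Subgroup G), σ * x * σ⁻¹ = x → x = 1) {x y : G}
    (hx : x ∈ (P : Subgroup G)) (hy : y ∈ (P : Subgroup G)) (hxy : IsConj x y) :
    y = x ∨ y = σ * x * σ⁻¹ ∨ y = σ * (σ * x * σ⁻¹) * σ⁻¹ := by
  obtain ⟨hall, -⟩ := three_cycle P h hσ hfix
  have hPC : (P : Subgroup G) ≤ centralizer ((P : Subgroup G) : Set G) := fun a ha =>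
    Subgroup.mem_centralizer_iff.2 (fun b hb => h.comm b hb a ha)
  obtain ⟨g, hg⟩ := isConj_iff.1 hxy
  have hg' : g⁻¹⁻¹ * x * g⁻¹ = y := by rw [inv_inv]; exact hg
  obtain ⟨n, hn, hn2⟩ := P.conj_eq_normalizer_conj_of_mem_centralizer x g⁻¹ (hPC hx)
    (by rw [hg']; exact hPC hy)
  rw [hg'] at hn2
  have hni : n⁻¹ ∈ normalizer ((P : Subgroup G) : Set G) := inv_mem hn
  have hz1 : z₁ ≠ 1 := by
    intro h0
    have := h.o1
    rw [h0, orderOf_one] at this; norm_num at this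
  have h1 := conj_mem _ hni h.m1
  have h2 : orderOf (n⁻¹ * z₁ * n⁻¹⁻¹) = 2 := by rw [orderOf_conj'', h.o1]
  have fin : ∀ τ ∈ normalizer ((P : Subgroup G) : Set G), n⁻¹ * z₁ * n⁻¹⁻¹ = τ * z₁ * τ⁻¹ →
      y = τ * x * τ⁻¹ := by
    intro τ hτ he
    have h3 : (τ⁻¹ * n⁻¹) * z₁ * (τ⁻¹ * n⁻¹)⁻¹ = z₁ := by
      calc (τ⁻¹ * n⁻¹) * z₁ * (τ⁻¹ * n⁻¹)⁻¹ = τ⁻¹ * (n⁻¹ * z₁ * n⁻¹⁻¹) * τ := by group
        _ = z₁ := by rw [he]; group
    have h4 := norm_fix P h h.m1 hz1 h3 (mul_mem (inv_mem hτ) hni) hx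
    rw [hn2]
    calc n⁻¹ * x * n = τ * ((τ⁻¹ * n⁻¹) * x * (τ⁻¹ * n⁻¹)⁻¹) * τ⁻¹ := by group
      _ = τ * x * τ⁻¹ := by rw [h4]
  rcases hall _ h1 h2 with h4 | h4 | h4
  · left
    have := fin 1 (one_mem _) (by rw [h4]; group)
    rw [this]; group
  · right; left
    exact fin σ hσ h4
  · right; right
    have := fin (σ * σ) (mul_mem hσ hσ) (by rw [h4]; group)
    rw [this]; group

theorem cube (P : Sylow 2 G) {z₁ z₂ : G} (h : Rk2 (P : Subgroup G) z₁ z₂) {σ : G}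
    (hσ : σ ∈ normalizer ((P : Subgroup G) : Set G))
    (hfix : ∀ x ∈ (P : Subgroup G), σ * x * σ⁻¹ = x → x = 1) {x : G}
    (hx : x ∈ (P : Subgroup G)) : σ * (σ * (σ * x * σ⁻¹) * σ⁻¹) * σ⁻¹ = x := by
  obtain ⟨-, h3⟩ := three_cycle P h hσ hfix
  have hz1 : z₁ ≠ 1 := by
    intro h0
    have := h.o1
    rw [h0, orderOf_one] at this; norm_num at this
  have h4 : (σ * σ * σ) * z₁ * (σ * σ * σ)⁻¹ = z₁ := by
    refine Eq.trans ?_ h3; group
  have := norm_fix P h h.m1 hz1 h4 (mul_mem (mul_mem hσ hσ) hσ) hx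
  refine Eq.trans ?_ this; group

/-- A product of two involutions has a `2`-part of order at most two. -/
theorem no_invert (P : Sylow 2 G) (hab : ∀ a ∈ (P : Subgroup G), ∀ b ∈ (P : Subgroup G),
    a * b = b * a) {u x : G} (hu : orderOf u = 2) {k : ℕ} (hx : orderOf x = 2 ^ k)
    (hinv : u * x * u⁻¹ = x⁻¹) : x ^ 2 = 1 := by
  have h1 := isPGroup_zpowers_of (x := u) (k := 1) (by rw [hu, pow_one])
  have h2 := isPGroup_zpowers_of hx
  have h3 : zpowers u ≤ normalizer (zpowers x : Set G) := by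
    rw [zpowers_le]
    apply Cfsg.Agent.Lib.Helper7_Max.mem_normalizer_of_conj_mem
    intro d hd
    obtain ⟨j, rfl⟩ := mem_zpowers_iff.1 hd
    rw [← conj_zpow, hinv]
    exact zpow_mem (inv_mem (mem_zpowers x)) j
  obtain ⟨g, hg⟩ := pgroup_conj P (h1.to_sup_of_normal_right' h2 h3)
  have hu' := hg u (mem_sup_left (mem_zpowers u))
  have hx' := hg x (mem_sup_right (mem_zpowers x))
  have h4 := hab _ hu' _ hx'
  have h5 : u * x = x * u := by
    have e1 : g * u * g⁻¹ * (g * x * g⁻¹) = g * (u * x) * g⁻¹ := by group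
    have e2 : g * x * g⁻¹ * (g * u * g⁻¹) = g * (x * u) * g⁻¹ := by group
    rw [e1, e2] at h4
    simpa using h4
  have h6 : x = x⁻¹ := by
    rw [← hinv, h5]; group
  rw [pow_two]
  nth_rewrite 1 [h6]
  exact inv_mul_cancel x

end fusion

end Cfsg.Agent.Lib.helper6_Homo
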