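import Mathlib

/-!
# A coherence lemma for integer vectors of norm four
-/

set_option autoImplicit false

namespace Cfsg.Agent.Lib.helper6_Lattice

variable {ι : Type*} [DecidableEq ι]

theorem norm_two (B : Finset ι) (d : ι → ℤ) (h : ∑ i ∈ B, d i * d i = 2) :
    ∃ a ∈ B, ∃ b ∈ B, a ≠ b ∧ d a * d a = 1 ∧ d b * d b = 1 ∧
      ∀ i ∈ B, i ≠ a → i ≠ b → d i = 0 := by
  have hnn : ∀ i : ι, 0 ≤ d i * d i := fun i => mul_self_nonneg _
  have hex : ∃ a ∈ B, d a ≠ 0 := by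
    by_contra hcon
    push Not at hcon
    rw [Finset.sum_eq_zero (fun i hi => by rw [hcon i hi, mul_zero])] at h
    norm_num at h
  obtain ⟨a, haB, ha⟩ := hex
  have hs1 := Finset.add_sum_erase B (fun i => d i * d i) haB
  rw [h] at hs1
  have hr1 : 0 ≤ ∑ i ∈ B.erase a, d i * d i := Finset.sum_nonneg fun i _ => hnn i
  have ha1 : d a * d a = 1 := by
    have h3 : d a * d a ≤ 2 := by linarith
    have h4 : 0 < d a * d a := mul_self_pos.mpr ha
    have h5 : -1 ≤ d a := by nlinarith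
    have h6 : d a ≤ 1 := by nlinarith
    interval_cases hzz : d a
    · rfl
    · exact absurd rfl ha
    · rfl
  have hs2 : ∑ i ∈ B.erase a, d i * d i = 1 := by linarith
  have hex2 : ∃ b ∈ B.erase a, d b ≠ 0 := by
    by_contra hcon
    push Not at hcon
    rw [Finset.sum_eq_zero (fun i hi => by rw [hcon i hi, mul_zero])] at hs2
    exact zero_ne_one hs2
  obtain ⟨b, hbm, hb⟩ := hex2
  have hs3 := Finset.add_sum_erase (B.erase a) (fun i => d i * d i) hbm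
  rw [hs2] at hs3
  have hr2 : 0 ≤ ∑ i ∈ (B.erase a).erase b, d i * d i := Finset.sum_nonneg fun i _ => hnn i
  have hb1 : d b * d b = 1 := by
    have h4 : 0 < d b * d b := mul_self_pos.mpr hb
    linarith
  have hs4 : ∑ i ∈ (B.erase a).erase b, d i * d i = 0 := by linarith
  refine ⟨a, haB, b, (Finset.mem_erase.mp hbm).2, (Finset.mem_erase.mp hbm).1.symm, ha1, hb1, ?_⟩
  intro i hi h1 h2
  have := (Finset.sum_eq_zero_iff_of_nonneg (fun i _ => hnn i)).mp hs4 i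
    (Finset.mem_erase.mpr ⟨h2, Finset.mem_erase.mpr ⟨h1, hi⟩⟩)
  exact mul_self_eq_zero.mp this

theorem sum_two (B : Finset ι) (F : ι → ℤ) {a b : ι} (ha : a ∈ B) (hb : b ∈ B) (hab : a ≠ b)
    (h0 : ∀ i ∈ B, i ≠ a → i ≠ b → F i = 0) : ∑ i ∈ B, F i = F a + F b := by
  rw [← Finset.add_sum_erase B F ha,
    ← Finset.add_sum_erase (B.erase a) F (Finset.mem_erase.mpr ⟨hab.symm, hb⟩)]
  rw [Finset.sum_eq_zero, add_zero]
  intro i hi
  have h2 := Finset.mem_erase.mp hi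
  have h3 := Finset.mem_erase.mp h2.2
  exact h0 i h3.2 h3.1 h2.1

theorem entry_bound (B : Finset ι) (u : ι → ℤ) {o : ι} (ho : o ∈ B) (huo : u o = 1)
    (hu : ∑ i ∈ B, u i * u i = 4) {i : ι} (hi : i ∈ B) : -1 ≤ u i ∧ u i ≤ 1 := by
  by_cases hio : i = o
  · rw [hio, huo]; norm_num
  have hs1 := Finset.add_sum_erase B (fun i => u i * u i) ho
  have hs2 := Finset.add_sum_erase (B.erase o) (fun i => u i * u i)
    (Finset.mem_erase.mpr ⟨hio, hi⟩)
  have hr : 0 ≤ ∑ i ∈ (B.erase o).erase i, u i * u i :=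
    Finset.sum_nonneg fun i _ => mul_self_nonneg _
  rw [hu, huo] at hs1
  have h3 : u i * u i ≤ 3 := by linarith
  constructor <;> nlinarith

/-- `v` is obtained from `u` by moving the entry at `D` to `E`. -/
def Adj (B : Finset ι) (u v : ι → ℤ) (D E : ι) : Prop :=
  D ∈ B ∧ E ∈ B ∧ D ≠ E ∧ u D ≠ 0 ∧ v D = 0 ∧ u E = 0 ∧ v E = u D ∧
    ∀ i ∈ B, i ≠ D → i ≠ E → v i = u i

theorem pair_lemma (B : Finset ι) (f u v : ι → ℤ) (o : ι) (ho : o ∈ B)
    (hf : ∀ i ∈ B, 0 < f i) (hu : ∑ i ∈ B, u i * u i = 4) (hv : ∑ i ∈ B, v i * v i = 4)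
    (huv : ∑ i ∈ B, u i * v i = 3) (hfu : ∑ i ∈ B, f i * u i = 0) (hfv : ∑ i ∈ B, f i * v i = 0)
    (huo : u o = 1) (hvo : v o = 1) : ∃ D E, Adj B u v D E := by
  have hd : ∑ i ∈ B, (u i - v i) * (u i - v i) = 2 := by
    have : ∀ i, (u i - v i) * (u i - v i) = u i * u i + v i * v i - 2 * (u i * v i) := by
      intro i; ring
    simp only [this, Finset.sum_add_distrib, Finset.sum_sub_distrib, ← Finset.mul_sum]
    rw [hu, hv, huv]; norm_num
  obtain ⟨a, ha, b, hb, hab, da, db, h0⟩ := norm_two B (fun i => u i - v i) hd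
  have hfd : f a * (u a - v a) + f b * (u b - v b) = 0 := by
    have h1 := sum_two B (fun i => f i * (u i - v i)) ha hb hab
      (fun i hi h1 h2 => by rw [h0 i hi h1 h2, mul_zero])
    rw [← h1]
    simp only [mul_sub, Finset.sum_sub_distrib]
    rw [hfu, hfv]; norm_num
  have hnorm : (u a * u a - v a * v a) + (u b * u b - v b * v b) = 0 := by
    have h1 := sum_two B (fun i => u i * u i - v i * v i) ha hb hab
      (fun i hi h1 h2 => by
        have := h0 i hi h1 h2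
        have h3 : u i = v i := by linarith
        rw [h3]; ring)
    rw [← h1, Finset.sum_sub_distrib, hu, hv]; norm_num
  have hfa := hf a ha
  have hfb := hf b hb
  have bua := entry_bound B u ho huo hu ha
  have bub := entry_bound B u ho huo hu hb
  have bva := entry_bound B v ho hvo hv ha
  have bvb := entry_bound B v ho hvo hv hb
  have heq : ∀ i ∈ B, i ≠ a → i ≠ b → v i = u i := by
    intro i hi h1 h2
    have := h0 i hi h1 h2
    linarith
  have da' : u a - v a = 1 ∨ u a - v a = -1 := by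
    have : (u a - v a - 1) * (u a - v a + 1) = 0 := by ring_nf; ring_nf at da; linarith
    rcases mul_eq_zero.mp this with h | h
    · left; linarith
    · right; linarith
  have db' : u b - v b = 1 ∨ u b - v b = -1 := by
    have : (u b - v b - 1) * (u b - v b + 1) = 0 := by ring_nf; ring_nf at db; linarith
    rcases mul_eq_zero.mp this with h | h
    · left; linarith
    · right; linarith
  rcases da' with da' | da' <;> rcases db' with db' | db'
  · exfalso; rw [da', db'] at hfd; linarith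
  · -- u a = v a + 1, u b = v b - 1
    have h1 : u a = v a + 1 := by linarith
    have h2 : u b = v b - 1 := by linarith
    rw [h1, h2] at hnorm
    have h3 : v b = v a + 1 := by nlinarith
    have h4 : v a = 0 ∨ v a = -1 := by
      have := bva.1; have := bvb.2; omega
    rcases h4 with h4 | h4
    · refine ⟨a, b, ha, hb, hab, ?_, h4, ?_, ?_, heq⟩
      · rw [h1, h4]; norm_num
      · rw [h2, h3, h4]; norm_num
      · rw [h3, h1]
    · refine ⟨b, a, hb, ha, hab.symm, ?_, ?_, ?_, ?_, fun i hi h5 h6 => heq i hi h6 h5⟩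
      · rw [h2, h3, h4]; norm_num
      · rw [h3, h4]; norm_num
      · rw [h1, h4]; norm_num
      · rw [h2, h3]; ring
  · have h1 : u a = v a - 1 := by linarith
    have h2 : u b = v b + 1 := by linarith
    rw [h1, h2] at hnorm
    have h3 : v a = v b + 1 := by nlinarith
    have h4 : v b = 0 ∨ v b = -1 := by
      have := bvb.1; have := bva.2; omega
    rcases h4 with h4 | h4
    · refine ⟨b, a, hb, ha, hab.symm, ?_, h4, ?_, ?_, fun i hi h5 h6 => heq i hi h6 h5⟩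
      · rw [h2, h4]; norm_num
      · rw [h1, h3, h4]; norm_num
      · rw [h3, h2]
    · refine ⟨a, b, ha, hb, hab, ?_, ?_, ?_, ?_, heq⟩
      · rw [h1, h3, h4]; norm_num
      · rw [h3, h4]; norm_num
      · rw [h2, h4]; norm_num
      · rw [h1, h3]; ring
  · exfalso; rw [da', db'] at hfd; linarith

theorem triple_lemma (B : Finset ι) {u v w : ι → ℤ} {D E D' E' D'' E'' : ι}
    (h1 : Adj B u v D E) (h2 : Adj B u w D' E') (h3 : Adj B v w D'' E'') :
    (D = D' ∧ E ≠ E') ∨ (D ≠ D' ∧ E = E') := by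
  obtain ⟨hD, hE, hDE, uD, vD, uE, vE, hv⟩ := h1
  obtain ⟨hD', hE', hDE', uD', wD', uE', wE', hw⟩ := h2
  obtain ⟨hD'', hE'', hDE'', vD'', wD'', vE'', wE'', hvw⟩ := h3
  by_cases hDD : D = D'
  · left
    refine ⟨hDD, ?_⟩
    intro hEE
    subst hDD hEE
    apply vD''
    by_cases c1 : D'' = D
    · rw [c1]; exact vD
    by_cases c2 : D'' = E
    · exfalso
      rw [c2] at wD''
      rw [wE'] at wD''
      exact uD wD''
    rw [hv D'' hD'' c1 c2, ← hw D'' hD'' c1 c2, wD'']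
  · right
    refine ⟨hDD, ?_⟩
    by_contra hEE
    have nDE' : D ≠ E' := fun h => uD (h ▸ uE')
    have nD'E : D' ≠ E := fun h => uD' (h ▸ uE)
    have wD : w D = u D := hw D hD hDD nDE'
    have vD'1 : v D' = u D' := hv D' hD' (Ne.symm hDD) nD'E
    have wEz : w E = 0 := by rw [hw E hE (Ne.symm nD'E) hEE, uE]
    -- D = E''
    have e1 : D = E'' := by
      by_contra hc
      have c1 : D ≠ D'' := fun h => vD'' (h ▸ vD)
      have := hvw D hD c1 hc
      rw [wD, vD] at this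
      exact uD this
    have e2 : D' = D'' := by
      by_contra hc
      have c1 : D' ≠ E'' := fun h => hDD (e1.trans h.symm)
      have := hvw D' hD' hc c1
      rw [wD', vD'1] at this
      exact uD' this.symm
    have := hvw E hE (fun h => nD'E (e2.trans h.symm)) (fun h => hDE (e1.trans h.symm))
    rw [wEz, vE] at this
    exact uD this.symm

theorem five_le (B : Finset ι) (u : ι → ℤ) {a b c d e : ι} (ha : a ∈ B) (hb : b ∈ B) (hc : c ∈ B)
    (hd : d ∈ B) (he : e ∈ B) (hab : a ≠ b) (hac : a ≠ c) (had : a ≠ d) (hae : a ≠ e)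
    (hbc : b ≠ c) (hbd : b ≠ d) (hbe : b ≠ e) (hcd : c ≠ d) (hce : c ≠ e) (hde : d ≠ e)
    (ua : u a ≠ 0) (ub : u b ≠ 0) (uc : u c ≠ 0) (ud : u d ≠ 0) (ue : u e ≠ 0) :
    5 ≤ ∑ i ∈ B, u i * u i := by
  have hsub : ({a, b, c, d, e} : Finset ι) ⊆ B := by
    intro i hi
    simp only [Finset.mem_insert, Finset.mem_singleton] at hi
    rcases hi with rfl | rfl | rfl | rfl | rfl <;> assumption
  have h1 := Finset.sum_le_sum_of_subset_of_nonneg (f := fun i => u i * u i) hsub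
    (fun i _ _ => mul_self_nonneg _)
  refine le_trans ?_ h1
  have pos : ∀ x : ℤ, x ≠ 0 → 1 ≤ x * x := fun x hx => by
    have := mul_self_pos.mpr hx
    omega
  rw [Finset.sum_insert (by simp [hab, hac, had, hae]), Finset.sum_insert (by simp [hbc, hbd, hbe]),
    Finset.sum_insert (by simp [hcd, hce]), Finset.sum_insert (by simp [hde]),
    Finset.sum_singleton]
  have := pos _ ua; have := pos _ ub; have := pos _ uc; have := pos _ ud; have := pos _ ue
  linarith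

def Good (B : Finset ι) (f : ι → ℤ) (o : ι) (u : ι → ℤ) : Prop :=
  ∑ i ∈ B, u i * u i = 4 ∧ ∑ i ∈ B, f i * u i = 0 ∧ u o = 1

theorem pair' (B : Finset ι) (f : ι → ℤ) (o : ι) (ho : o ∈ B) (hf : ∀ i ∈ B, 0 < f i)
    {u v : ι → ℤ} (hu : Good B f o u) (hv : Good B f o v) (huv : ∑ i ∈ B, u i * v i = 3) :
    ∃ D E, Adj B u v D E :=
  pair_lemma B f u v o ho hf hu.1 hv.1 huv hu.2.1 hv.2.1 hu.2.2 hv.2.2

theorem five_lemma (B : Finset ι) (f : ι → ℤ) (o : ι) (ho : o ∈ B) (hf : ∀ i ∈ B, 0 < f i)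
    {u0 u1 u2 u3 u4 : ι → ℤ} (g0 : Good B f o u0) (g1 : Good B f o u1) (g2 : Good B f o u2)
    (g3 : Good B f o u3) (g4 : Good B f o u4)
    (h03 : ∑ i ∈ B, u0 i * u3 i = 3) (h04 : ∑ i ∈ B, u0 i * u4 i = 3)
    (h12 : ∑ i ∈ B, u1 i * u2 i = 3) (h13 : ∑ i ∈ B, u1 i * u3 i = 3)
    (h14 : ∑ i ∈ B, u1 i * u4 i = 3) (h23 : ∑ i ∈ B, u2 i * u3 i = 3)
    (h24 : ∑ i ∈ B, u2 i * u4 i = 3) (h34 : ∑ i ∈ B, u3 i * u4 i = 3)
    {D E D' E' : ι} (a1 : Adj B u0 u1 D E) (a2 : Adj B u0 u2 D' E') : D = D' := by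
  obtain ⟨D3, E3, a3⟩ := pair' B f o ho hf g0 g3 h03
  obtain ⟨D4, E4, a4⟩ := pair' B f o ho hf g0 g4 h04
  obtain ⟨_, _, b12⟩ := pair' B f o ho hf g1 g2 h12
  obtain ⟨_, _, b13⟩ := pair' B f o ho hf g1 g3 h13
  obtain ⟨_, _, b14⟩ := pair' B f o ho hf g1 g4 h14
  obtain ⟨_, _, b23⟩ := pair' B f o ho hf g2 g3 h23
  obtain ⟨_, _, b24⟩ := pair' B f o ho hf g2 g4 h24
  obtain ⟨_, _, b34⟩ := pair' B f o ho hf g3 g4 h34
  have t12 := triple_lemma B a1 a2 b12
  have t13 := triple_lemma B a1 a3 b13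
  have t14 := triple_lemma B a1 a4 b14
  have t23 := triple_lemma B a2 a3 b23
  have t24 := triple_lemma B a2 a4 b24
  have t34 := triple_lemma B a3 a4 b34
  by_contra hne
  have hE : E = E' := by
    rcases t12 with ⟨h, _⟩ | ⟨_, h⟩
    · exact absurd h hne
    · exact h
  have k3 : D ≠ D3 ∧ D' ≠ D3 ∧ E = E3 := by
    rcases t13 with ⟨a, b⟩ | ⟨a, b⟩ <;> rcases t23 with ⟨c, d⟩ | ⟨c, d⟩
    · exact absurd (a.trans c.symm) hne
    · exact absurd (hE.trans d) b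
    · exact absurd (hE.symm.trans b) d
    · exact ⟨a, c, b⟩
  have k4 : D ≠ D4 ∧ D' ≠ D4 ∧ E = E4 := by
    rcases t14 with ⟨a, b⟩ | ⟨a, b⟩ <;> rcases t24 with ⟨c, d⟩ | ⟨c, d⟩
    · exact absurd (a.trans c.symm) hne
    · exact absurd (hE.trans d) b
    · exact absurd (hE.symm.trans b) d
    · exact ⟨a, c, b⟩
  have k34 : D3 ≠ D4 := by
    rcases t34 with ⟨_, b⟩ | ⟨a, _⟩
    · exact absurd (k3.2.2.symm.trans k4.2.2) b
    · exact a
  have no : ∀ {v : ι → ℤ} {X Y : ι}, Good B f o v → Adj B u0 v X Y → o ≠ X := by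
    intro v X Y gv av h
    have h1 := av.2.2.2.2.1
    rw [← h, gv.2.2] at h1
    exact one_ne_zero h1
  have h5 := five_le B u0 ho a1.1 a2.1 a3.1 a4.1 (no g1 a1) (no g2 a2) (no g3 a3) (no g4 a4)
    hne k3.1 k4.1 k3.2.1 k4.2.1 k34 (by rw [g0.2.2]; norm_num) a1.2.2.2.1 a2.2.2.2.1 a3.2.2.2.1
    a4.2.2.2.1
  rw [g0.1] at h5
  norm_num at h5

theorem structure_lemma {Λ : Type*} (B : Finset ι) (f : ι → ℤ) (o : ι) (ho : o ∈ B)
    (hf : ∀ i ∈ B, 0 < f i) (S : Λ → Prop) (R : Λ → Λ → Prop) (u : Λ → ι → ℤ)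
    (hg : ∀ μ, S μ → Good B f o (u μ))
    (h3 : ∀ μ ν, S μ → S ν → ¬ R μ ν → ∑ i ∈ B, u μ i * u ν i = 3)
    (hmany : ∀ a b c d : Λ, ∃ κ, S κ ∧ ¬ R κ a ∧ ¬ R κ b ∧ ¬ R κ c ∧ ¬ R κ d)
    (l : Λ) (hl : S l) :
    ∃ X ∈ B, X ≠ o ∧ u l X ≠ 0 ∧ ∀ μ, S μ → ¬ R μ l → u μ X = 0 ∧
      ∀ i ∈ B, i ≠ X → u l i ≠ 0 → u μ i = u l i := by
  have h3' : ∀ μ ν, S μ → S ν → ¬ R ν μ → ∑ i ∈ B, u μ i * u ν i = 3 := by
    intro μ ν hμ hν hR
    rw [← h3 ν μ hν hμ hR]
    exact Finset.sum_congr rfl fun i _ => mul_comm _ _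
  have hA : ∀ μ, S μ → ¬ R μ l → ∃ D E, Adj B (u l) (u μ) D E := fun μ hμ hR =>
    pair' B f o ho hf (hg l hl) (hg μ hμ) (h3' l μ hl hμ hR)
  have star : ∀ μ ν, S μ → S ν → ¬ R μ l → ¬ R ν l → ¬ R ν μ → ∀ D E D' E',
      Adj B (u l) (u μ) D E → Adj B (u l) (u ν) D' E' → D = D' := by
    intro μ ν hμ hν hμl hνl hνμ D E D' E' a1 a2
    obtain ⟨κ, hκ, k1, k2, k3, -⟩ := hmany l μ ν l
    obtain ⟨κ', hκ', k1', k2', k3', k4'⟩ := hmany l μ ν κ
    exact five_lemma B f o ho hf (hg l hl) (hg μ hμ) (hg ν hν) (hg κ hκ) (hg κ' hκ')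
      (h3' _ _ hl hκ k1) (h3' _ _ hl hκ' k1') (h3' _ _ hμ hν hνμ) (h3' _ _ hμ hκ k2)
      (h3' _ _ hμ hκ' k2') (h3' _ _ hν hκ k3) (h3' _ _ hν hκ' k3') (h3' _ _ hκ hκ' k4') a1 a2
  obtain ⟨μ0, hμ0, r0, -, -, -⟩ := hmany l l l l
  obtain ⟨X, E0, hX⟩ := hA μ0 hμ0 r0
  refine ⟨X, hX.1, ?_, hX.2.2.2.1, ?_⟩
  · intro h
    have h1 := hX.2.2.2.2.1
    rw [h, (hg μ0 hμ0).2.2] at h1
    exact one_ne_zero h1
  · intro μ hμ hR
    obtain ⟨D, E, hDE⟩ := hA μ hμ hR
    obtain ⟨κ, hκ, k1, k2, k3, -⟩ := hmany l μ μ0 l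
    obtain ⟨D2, E2, h2⟩ := hA κ hκ k1
    have e1 := star μ κ hμ hκ hR k1 k2 _ _ _ _ hDE h2
    have e2 := star μ0 κ hμ0 hκ r0 k1 k3 _ _ _ _ hX h2
    have e3 : D = X := e1.trans e2.symm
    subst e3
    refine ⟨hDE.2.2.2.2.1, ?_⟩
    intro i hi h1 h2
    exact hDE.2.2.2.2.2.2.2 i hi h1 (fun h => h2 (h ▸ hDE.2.2.2.2.2.1))

theorem arith_aux {a b q j₁ j₂ : ℤ} (hq : 16 ≤ q) (ha : a = 1 + q * j₁) (hb : b = 1 + q * j₂)
    (h1 : 0 ≤ j₁) (h2 : j₂ < 0)
    (h : a * (b - 1) ^ 2 + b * (a - 1) ^ 2 + (a - b) ^ 2 = 0) : False := by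
  have hb' : b ≤ -15 := by nlinarith
  have ha' : 1 ≤ a := by nlinarith
  obtain ⟨β, hβ⟩ : ∃ β, β = -b := ⟨_, rfl⟩
  obtain ⟨s, hs⟩ : ∃ s, s = a + b := ⟨_, rfl⟩
  have hβ15 : 15 ≤ β := by linarith
  have key : (s - 8) * (a * β) = s ^ 2 + s := by
    rw [hs, hβ]; linear_combination (-1) * h
  have hab : 0 < a * β := mul_pos (by linarith) (by linarith)
  have hsJ : s = 2 + q * (j₁ + j₂) := by rw [hs, ha, hb]; ring
  rcases lt_trichotomy (j₁ + j₂) 0 with hJ | hJ | hJ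
  · have hs' : s ≤ -14 := by nlinarith
    have h3 : (s - 8) * (a * β) < 0 := mul_neg_of_neg_of_pos (by linarith) hab
    have h4 : 0 < s ^ 2 + s := by nlinarith
    linarith
  · rw [hJ, mul_zero, add_zero] at hsJ
    rw [hsJ] at key
    linarith
  · have hs' : 18 ≤ s := by nlinarith
    have haβ : a = s + β := by rw [hs, hβ]; ring
    have h5 : (s + 15) * 15 ≤ a * β := by rw [haβ]; nlinarith
    have h6 : (s - 8) * ((s + 15) * 15) ≤ (s - 8) * (a * β) :=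
      mul_le_mul_of_nonneg_left h5 (by linarith)
    nlinarith

/-- The final arithmetic. -/
theorem arith {a b q j₁ j₂ : ℤ} (hq : 16 ≤ q) (ha : a = 1 + q * j₁) (hb : b = 1 + q * j₂)
    (h : a * (b - 1) ^ 2 + b * (a - 1) ^ 2 + (a - b) ^ 2 = 0) : a = 1 ∧ b = 1 := by
  rcases le_or_gt 0 j₁ with h1 | h1 <;> rcases le_or_gt 0 j₂ with h2 | h2
  · have ha' : 1 ≤ a := by nlinarith
    have hb' : 1 ≤ b := by nlinarith
    have t1 : 0 ≤ a * (b - 1) ^ 2 := mul_nonneg (by linarith) (sq_nonneg _)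
    have t2 : 0 ≤ b * (a - 1) ^ 2 := mul_nonneg (by linarith) (sq_nonneg _)
    have t3 : 0 ≤ (a - b) ^ 2 := sq_nonneg _
    have e1 : a * (b - 1) ^ 2 = 0 := by linarith
    have e2 : b * (a - 1) ^ 2 = 0 := by linarith
    constructor
    · rcases mul_eq_zero.1 e2 with h' | h'
      · linarith
      · have := pow_eq_zero_iff (two_ne_zero) |>.1 h'
        linarith
    · rcases mul_eq_zero.1 e1 with h' | h'
      · linarith
      · have := pow_eq_zero_iff (two_ne_zero) |>.1 h'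
        linarith
  · exact (arith_aux hq ha hb h1 h2 h).elim
  · exact (arith_aux hq hb ha h2 h1 (by linear_combination h)).elim
  · exfalso
    have hb' : b ≤ -15 := by nlinarith
    have ha' : a ≤ -15 := by nlinarith
    nlinarith [sq_nonneg (a - 1 + (b - 1)), sq_nonneg (a - 1), sq_nonneg (b - 1)]

theorem support_four (B : Finset ι) (u : ι → ℤ) {o X : ι} (ho : o ∈ B) (hX : X ∈ B) (hXo : X ≠ o)
    (huo : u o = 1) (huX : u X ≠ 0) (hu : ∑ i ∈ B, u i * u i = 4) :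
    ∃ Y1 Y2, Y1 ∈ B ∧ Y2 ∈ B ∧ Y1 ≠ Y2 ∧ Y1 ≠ o ∧ Y2 ≠ o ∧ Y1 ≠ X ∧ Y2 ≠ X ∧ u Y1 ≠ 0 ∧ u Y2 ≠ 0 ∧
      ∀ i ∈ B, i ≠ o → i ≠ X → i ≠ Y1 → i ≠ Y2 → u i = 0 := by
  have hs1 := Finset.add_sum_erase B (fun i => u i * u i) ho
  have hs2 := Finset.add_sum_erase (B.erase o) (fun i => u i * u i)
    (Finset.mem_erase.mpr ⟨hXo, hX⟩)
  have hb := entry_bound B u ho huo hu hX
  have hX1 : u X * u X = 1 := by
    have h1 : u X = 1 ∨ u X = -1 := by omega
    rcases h1 with h1 | h1 <;> rw [h1] <;> norm_num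
  rw [hu, huo] at hs1
  rw [hX1] at hs2
  have h2 : ∑ i ∈ (B.erase o).erase X, u i * u i = 2 := by linarith
  obtain ⟨a, ha, b, hb', hab, ua, ub, h0⟩ := norm_two _ u h2
  have ha1 := Finset.mem_erase.mp ha
  have ha2 := Finset.mem_erase.mp ha1.2
  have hb1 := Finset.mem_erase.mp hb'
  have hb2 := Finset.mem_erase.mp hb1.2
  refine ⟨a, b, ha2.2, hb2.2, hab, ha2.1, hb2.1, ha1.1, hb1.1, ?_, ?_, ?_⟩
  · intro h; rw [h] at ua; norm_num at ua
  · intro h; rw [h] at ub; norm_num at ub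
  · intro i hi h1 h2 h3 h4
    exact h0 i (Finset.mem_erase.mpr ⟨h2, Finset.mem_erase.mpr ⟨h1, hi⟩⟩) h3 h4

theorem sum_four {β : Type*} [AddCommMonoid β] (B : Finset ι) (F : ι → β) {a b c d : ι}
    (ha : a ∈ B) (hb : b ∈ B) (hc : c ∈ B) (hd : d ∈ B) (hab : a ≠ b) (hac : a ≠ c) (had : a ≠ d)
    (hbc : b ≠ c) (hbd : b ≠ d) (hcd : c ≠ d)
    (h0 : ∀ i ∈ B, i ≠ a → i ≠ b → i ≠ c → i ≠ d → F i = 0) :
    ∑ i ∈ B, F i = F a + (F b + (F c + F d)) := by
  have hsub : ({a, b, c, d} : Finset ι) ⊆ B := by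
    intro i hi
    simp only [Finset.mem_insert, Finset.mem_singleton] at hi
    rcases hi with rfl | rfl | rfl | rfl <;> assumption
  rw [← Finset.sum_subset hsub]
  · rw [Finset.sum_insert (by simp [hab, hac, had]), Finset.sum_insert (by simp [hbc, hbd]),
      Finset.sum_insert (by simp [hcd]), Finset.sum_singleton]
  · intro i hi hni
    simp only [Finset.mem_insert, Finset.mem_singleton, not_or] at hni
    exact h0 i hi hni.1 hni.2.1 hni.2.2.1 hni.2.2.2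

theorem arith2 {d f1 f2 s δ1 δ2 : ℤ} (hs : s = 1 ∨ s = -1) (h1 : δ1 = 1 ∨ δ1 = -1)
    (h2 : δ2 = 1 ∨ δ2 = -1) (E1 : 1 + s * d + δ1 * f1 + δ2 * f2 = 0)
    (E2 : d * f1 * f2 + 9 * s * f1 * f2 + δ1 * d * f2 + δ2 * d * f1 = 0) :
    (δ1 * f1) * ((δ2 * f2) - 1) ^ 2 + (δ2 * f2) * ((δ1 * f1) - 1) ^ 2 +
      (δ1 * f1 - δ2 * f2) ^ 2 = 0 := by
  rcases hs with rfl | rfl <;> rcases h1 with rfl | rfl <;> rcases h2 with rfl | rfl
  · have hd : d = -(1 + f1 + f2) := by linarith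
    subst hd; linear_combination (-1) * E2
  · have hd : d = -(1 + f1 - f2) := by linarith
    subst hd; linear_combination E2
  · have hd : d = -(1 - f1 + f2) := by linarith
    subst hd; linear_combination E2
  · have hd : d = -(1 - f1 - f2) := by linarith
    subst hd; linear_combination (-1) * E2
  · have hd : d = (1 + f1 + f2) := by linarith
    subst hd; linear_combination E2
  · have hd : d = (1 + f1 - f2) := by linarith
    subst hd; linear_combination (-1) * E2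
  · have hd : d = (1 - f1 + f2) := by linarith
    subst hd; linear_combination (-1) * E2
  · have hd : d = (1 - f1 - f2) := by linarith
    subst hd; linear_combination E2

end Cfsg.Agent.Lib.helper6_Lattice
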