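import Mathlib
import Cfsg.Prelude.Def_Characters
import Cfsg.Agent.Lib.CharGen
import Cfsg.Agent.Lib.CharLinear
import Cfsg.Agent.Lib.helper6_QuatSyl
import Cfsg.Agent.Lib.helper6_QuatInv
import Cfsg.Agent.Lib.CharIto
import Cfsg.Agent.Lib.CharQuot

/-!
# Exceptional characters for groups with generalized quaternion Sylow 2-subgroups
-/

set_option autoImplicit false

namespace Cfsg.Agent.Lib.helper6_QuatChar

open Cfsg Representation Module Cfsg.Agent.Lib.CharBasic Cfsg.Agent.Lib.CharOrtho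
  Cfsg.Agent.Lib.CharComplete Cfsg.Agent.Lib.CharIntegral Cfsg.Agent.Lib.CharMore
  Cfsg.Agent.Lib.CharInd Cfsg.Agent.Lib.CharGen Cfsg.Agent.Lib.CharLinear
open scoped ComplexConjugate

universe u v

variable {G : Type u} [Group G] [Fintype G]

theorem sum_ite_mem (C : Subgroup G) (a : ℂ) :
    ∑ g : G, (open Classical in if g ∈ C then a else 0) = (Nat.card C : ℂ) * a := by
  classical
  haveI : Fintype C := Fintype.ofFinite C
  rw [Finset.sum_ite, Finset.sum_const_zero, add_zero, Finset.sum_const, nsmul_eq_mul]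
  have h2 : (Finset.univ.filter fun x : G => x ∈ C).card = Nat.card C := by
    rw [Nat.card_eq_fintype_card, Fintype.card_subtype]
  rw [h2]

theorem indFun_value (C : Subgroup G) (y : G) (hy : y ∉ C)
    (θ : C → ℂ) (hθ : IsClassFunction C θ) (c : C)
    (hyc : y⁻¹ * c * y ∈ C)
    (hTI : ∀ g : G, g⁻¹ * c * g ∈ C → g ∈ C ∨ y⁻¹ * g ∈ C) :
    indFun C θ c = θ c + θ ⟨y⁻¹ * c * y, hyc⟩ := by
  classical
  have hN : (Nat.card C : ℂ) ≠ 0 := by exact_mod_cast Nat.card_pos.ne'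
  unfold indFun
  have h1 : ∀ g : G, extendByZero C θ (g⁻¹ * c * g) =
      (if g ∈ C then θ c else 0) + (if y⁻¹ * g ∈ C then θ ⟨y⁻¹ * c * y, hyc⟩ else 0) := by
    intro g
    by_cases hg : g ∈ C
    · have hg' : y⁻¹ * g ∉ C := by
        intro h
        apply hy
        have := C.mul_mem hg (C.inv_mem h)
        simpa using this
      rw [if_pos hg, if_neg hg', add_zero]
      have hmem : g⁻¹ * c * g ∈ C := C.mul_mem (C.mul_mem (C.inv_mem hg) c.2) hg
      rw [extendByZero_mem C θ hmem]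
      have := hθ c (⟨g, hg⟩ : C)⁻¹
      rw [← this]
      congr 1
      apply Subtype.ext
      simp
    · rw [if_neg hg, zero_add]
      by_cases hg' : y⁻¹ * g ∈ C
      · rw [if_pos hg']
        have heq : g⁻¹ * c * g = (y⁻¹ * g)⁻¹ * (y⁻¹ * c * y) * (y⁻¹ * g) := by group
        have hmem : g⁻¹ * c * g ∈ C := by
          rw [heq]
          exact C.mul_mem (C.mul_mem (C.inv_mem hg') hyc) hg'
        rw [extendByZero_mem C θ hmem]
        have := hθ ⟨y⁻¹ * c * y, hyc⟩ (⟨y⁻¹ * g, hg'⟩ : C)⁻¹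
        rw [← this]
        congr 1
        apply Subtype.ext
        simp only [Subgroup.coe_mul, Subgroup.coe_inv, inv_inv]
        exact heq
      · rw [if_neg hg']
        apply extendByZero_not_mem
        intro h
        rcases hTI g h with h | h
        · exact hg h
        · exact hg' h
  simp only [h1]
  rw [Finset.sum_add_distrib]
  have h3 : ∑ g : G, (if y⁻¹ * g ∈ C then θ ⟨y⁻¹ * c * y, hyc⟩ else 0) =
      ∑ g : G, (if g ∈ C then θ ⟨y⁻¹ * c * y, hyc⟩ else 0) :=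
    Equiv.sum_comp (Equiv.mulLeft y⁻¹) (fun g => if g ∈ C then θ ⟨y⁻¹ * c * y, hyc⟩ else 0)
  rw [h3]
  have e1 := sum_ite_mem C (θ c)
  have e2 := sum_ite_mem C (θ ⟨y⁻¹ * c * y, hyc⟩)
  rw [show (∑ g : G, if g ∈ C then θ c else 0) = (Nat.card C : ℂ) * θ c by convert e1,
    show (∑ g : G, if g ∈ C then θ ⟨y⁻¹ * c * y, hyc⟩ else 0) =
      (Nat.card C : ℂ) * θ ⟨y⁻¹ * c * y, hyc⟩ by convert e2]
  field_simp


/-- The abstract exceptional-character computation. -/
theorem theta_props (C : Subgroup G) (y : G) (hy : y ∉ C)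
    (hyC : ∀ d ∈ C, y⁻¹ * d * y ∈ C)
    (lam : C →* ℂˣ)
    (hTI : ∀ c : C, lam c ≠ 1 → ∀ g : G, g⁻¹ * c * g ∈ C → g ∈ C ∨ y⁻¹ * g ∈ C)
    (hinv : ∀ c : C, lam ⟨y⁻¹ * c * y, hyC c c.2⟩ = (lam c)⁻¹)
    (h2 : ∃ c, lam c ^ 2 ≠ 1) :
    ∃ Θ : G → ℂ, IsGeneralizedCharacter G Θ ∧ classInner Θ Θ = 3 ∧ classInner Θ 1 = 1 ∧
      Θ 1 = 0 ∧ ∀ g : G, (∀ x : G, ∀ h : x⁻¹ * g * x ∈ C, lam ⟨_, h⟩ = 1) → Θ g = 0 := by
  classical
  haveI : Fintype C := Fintype.ofFinite C
  set U : C → ℂ := fun c => ((lam c : ℂˣ) : ℂ) with hU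
  set V : C → ℂ := fun c => ((lam⁻¹ c : ℂˣ) : ℂ) with hV
  have hUi : IsIrrCharacter C U := isIrr_hom lam
  have hVi : IsIrrCharacter C V := isIrr_hom lam⁻¹
  have h1i : IsIrrCharacter C (1 : C → ℂ) := isIrr_one
  obtain ⟨c0, hc0⟩ := h2
  have hU1 : U ≠ 1 := by
    intro h
    apply hc0
    have := congrFun h c0
    simp only [hU, Pi.one_apply, Units.val_eq_one] at this
    rw [this, one_pow]
  have hV1 : V ≠ 1 := by
    intro h
    apply hc0
    have := congrFun h c0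
    simp only [hV, Pi.one_apply, Units.val_eq_one, MonoidHom.inv_apply, inv_eq_one] at this
    rw [this, one_pow]
  have hUV : U ≠ V := by
    intro h
    apply hc0
    have := congrFun h c0
    simp only [hU, hV, MonoidHom.inv_apply] at this
    have h' : lam c0 = (lam c0)⁻¹ := Units.ext this
    rw [pow_two]
    nth_rewrite 1 [h']
    simp
  set θ : C → ℂ := 1 - U with hθ
  have hθcl : IsClassFunction C θ :=
    isClassFunction_of_isGen (isGen_sub (isGen_of_isCharacter isCharacter_one)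
      (isGen_of_isCharacter (isCharacter_hom lam)))
  refine ⟨indFun C θ, ?_, ?_, ?_, ?_, ?_⟩
  · exact isGen_indFun C (isGen_sub (isGen_of_isCharacter isCharacter_one)
      (isGen_of_isCharacter (isCharacter_hom lam)))
  · rw [frobenius_reciprocity C θ _ (indFun_isClassFunction C θ)]
    have key : classInner θ (fun h : C => indFun C θ h) = classInner θ ((1 - U) + (1 - V)) := by
      unfold classInner
      congr 1
      refine Finset.sum_congr rfl fun c _ => ?_
      by_cases hc : lam c = 1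
      · have : θ c = 0 := by simp [hθ, hU, hc]
        rw [this, zero_mul, zero_mul]
      · simp only []
        rw [indFun_value C y hy θ hθcl c (hyC c c.2) (hTI c hc)]
        congr 2
        simp only [hθ, hU, hV, Pi.add_apply, Pi.sub_apply, Pi.one_apply, hinv c,
          MonoidHom.inv_apply]
    rw [key, hθ]
    simp only [classInner_sub_left, classInner_add_right, classInner_sub_right]
    rw [classInner_irr_self h1i, classInner_irr_self hUi, classInner_irr_ne h1i hUi hU1.symm,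
      classInner_irr_ne h1i hVi hV1.symm, classInner_irr_ne hUi h1i hU1,
      classInner_irr_ne hUi hVi hUV]
    norm_num
  · rw [frobenius_reciprocity C θ _ (isClassFunction_of_isCharacter isCharacter_one)]
    have : (fun h : C => (1 : G → ℂ) h) = (1 : C → ℂ) := rfl
    rw [this, hθ, classInner_sub_left, classInner_irr_self h1i, classInner_irr_ne hUi h1i hU1]
    norm_num
  · rw [indFun_one]
    simp [hθ, hU]
  · intro g hg
    unfold indFun
    rw [Finset.sum_eq_zero, mul_zero]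
    intro x _
    by_cases hx : x⁻¹ * g * x ∈ C
    · rw [extendByZero_mem C θ hx]
      simp [hθ, hU, hg x hx]
    · exact extendByZero_not_mem C θ hx


/-- A generalized character of norm `2` is `± α ± β` for two distinct irreducible characters. -/
theorem eq_pm_of_norm_two {θ : G → ℂ} (h : IsGeneralizedCharacter G θ)
    (hn : classInner θ θ = 2) :
    ∃ α β : IrrCharacter G, α ≠ β ∧ ∃ a b : ℤ, (a = 1 ∨ a = -1) ∧ (b = 1 ∨ b = -1) ∧
      θ = (a : ℂ) • (α : G → ℂ) + (b : ℂ) • (β : G → ℂ) := by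
  classical
  obtain ⟨z, hz, hexp⟩ := exists_int_mult h
  rw [norm_eq_sum_sq h z hz] at hn
  have hs : ∑ ψ : IrrCharacter G, z ψ * z ψ = 2 := by exact_mod_cast hn
  have hnn : ∀ ψ : IrrCharacter G, 0 ≤ z ψ * z ψ := fun ψ => mul_self_nonneg _
  have hex : ∃ α : IrrCharacter G, z α ≠ 0 := by
    by_contra hcon
    push Not at hcon
    simp [hcon] at hs
  obtain ⟨α, hα⟩ := hex
  have hs1 := Finset.add_sum_erase Finset.univ (fun ψ => z ψ * z ψ) (Finset.mem_univ α)
  rw [hs] at hs1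
  have hr1 : 0 ≤ ∑ ψ ∈ Finset.univ.erase α, z ψ * z ψ := Finset.sum_nonneg fun ψ _ => hnn ψ
  have hα1 : z α * z α = 1 := by
    have h3 : z α * z α ≤ 2 := by linarith
    have h4 : 0 < z α * z α := mul_self_pos.mpr hα
    have h5 : -1 ≤ z α := by nlinarith
    have h6 : z α ≤ 1 := by nlinarith
    interval_cases hzz : z α
    · rfl
    · exact absurd rfl hα
    · rfl
  have hs2 : ∑ ψ ∈ Finset.univ.erase α, z ψ * z ψ = 1 := by linarith
  have hex2 : ∃ β ∈ Finset.univ.erase α, z β ≠ 0 := by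
    by_contra hcon
    push Not at hcon
    rw [Finset.sum_eq_zero (fun ψ hψ => by rw [hcon ψ hψ, mul_zero])] at hs2
    exact zero_ne_one hs2
  obtain ⟨β, hβm, hβ⟩ := hex2
  have hs3 := Finset.add_sum_erase (Finset.univ.erase α) (fun ψ => z ψ * z ψ) hβm
  rw [hs2] at hs3
  have hr2 : 0 ≤ ∑ ψ ∈ (Finset.univ.erase α).erase β, z ψ * z ψ :=
    Finset.sum_nonneg fun ψ _ => hnn ψ
  have hβ1 : z β * z β = 1 := by
    have h4 : 0 < z β * z β := mul_self_pos.mpr hβ
    linarith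
  have hs4 : ∑ ψ ∈ (Finset.univ.erase α).erase β, z ψ * z ψ = 0 := by linarith
  have hzero : ∀ ψ : IrrCharacter G, ψ ≠ α → ψ ≠ β → z ψ = 0 := by
    intro ψ h1 h2
    have := (Finset.sum_eq_zero_iff_of_nonneg (fun ψ _ => hnn ψ)).mp hs4 ψ
      (Finset.mem_erase.mpr ⟨h2, Finset.mem_erase.mpr ⟨h1, Finset.mem_univ _⟩⟩)
    exact mul_self_eq_zero.mp this
  have hne : β ≠ α := (Finset.mem_erase.mp hβm).1
  have hθ : θ = (z α : ℂ) • (α : G → ℂ) + (z β : ℂ) • (β : G → ℂ) := by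
    conv_lhs => rw [hexp]
    rw [← Finset.add_sum_erase Finset.univ _ (Finset.mem_univ α),
      ← Finset.add_sum_erase (Finset.univ.erase α) _ hβm]
    rw [Finset.sum_eq_zero, add_zero]
    intro ψ hψ
    have h2 := Finset.mem_erase.mp hψ
    have h3 := Finset.mem_erase.mp h2.2
    rw [hzero ψ h3.1 h2.1]
    simp
  have hzα : z α = 1 ∨ z α = -1 := by
    have : (z α - 1) * (z α + 1) = 0 := by ring_nf; linarith
    rcases mul_eq_zero.mp this with h | h
    · left; linarith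
    · right; linarith
  have hzβ : z β = 1 ∨ z β = -1 := by
    have : (z β - 1) * (z β + 1) = 0 := by ring_nf; linarith
    rcases mul_eq_zero.mp this with h | h
    · left; linarith
    · right; linarith
  exact ⟨α, β, hne.symm, z α, z β, hzα, hzβ, hθ⟩

/-- Norm `3`, multiplicity one of the trivial character and degree `0`. -/
theorem exceptional_pair {Θ : G → ℂ} (h : IsGeneralizedCharacter G Θ)
    (hn : classInner Θ Θ = 3) (h1 : classInner Θ 1 = 1) (h0 : Θ 1 = 0) :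
    ∃ χ₁ χ₂ : G → ℂ, IsIrrCharacter G χ₁ ∧ IsIrrCharacter G χ₂ ∧ χ₁ ≠ 1 ∧ χ₂ ≠ 1 ∧
      χ₁ 1 = χ₂ 1 + 1 ∧ Θ = 1 + χ₂ - χ₁ := by
  classical
  have h1i : IsIrrCharacter G (1 : G → ℂ) := isIrr_one
  have hg : IsGeneralizedCharacter G (Θ - 1) := isGen_sub h (isGen_of_isCharacter isCharacter_one)
  have h1' : classInner (1 : G → ℂ) Θ = 1 := by
    have := classInner_conj_symm Θ (1 : G → ℂ)
    rw [h1] at this
    simpa using this.symm
  have hn2 : classInner (Θ - 1) (Θ - 1) = 2 := by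
    simp only [classInner_sub_left, classInner_sub_right]
    rw [hn, h1, h1', classInner_irr_self h1i]
    norm_num
  have ho : classInner (Θ - 1) 1 = 0 := by
    rw [classInner_sub_left, h1, classInner_irr_self h1i]; norm_num
  obtain ⟨α, β, hne, a, b, ha, hb, hθ⟩ := eq_pm_of_norm_two hg hn2
  have hαβ : (α : G → ℂ) ≠ β := fun h => hne (Subtype.ext h)
  -- neither is trivial
  have hα1 : (α : G → ℂ) ≠ 1 := by
    intro hα
    have hβ1 : (β : G → ℂ) ≠ 1 := fun h => hαβ (hα.trans h.symm)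
    rw [hθ, classInner_add_left, classInner_smul_left, classInner_smul_left, hα,
      classInner_irr_self h1i, classInner_irr_ne β.2 h1i hβ1] at ho
    rcases ha with rfl | rfl <;> norm_num at ho
  have hβ1 : (β : G → ℂ) ≠ 1 := by
    intro hβ
    rw [hθ, classInner_add_left, classInner_smul_left, classInner_smul_left, hβ,
      classInner_irr_self h1i, classInner_irr_ne α.2 h1i hα1] at ho
    rcases hb with rfl | rfl <;> norm_num at ho
  obtain ⟨dα, hdα0, hdα, _⟩ := irr_degree α.2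
  obtain ⟨dβ, hdβ0, hdβ, _⟩ := irr_degree β.2
  have hdeg : a * dα + b * dβ = -1 := by
    have := congrFun hθ 1
    simp only [Pi.add_apply, Pi.sub_apply, Pi.smul_apply, smul_eq_mul, hdα, hdβ, h0,
      Pi.one_apply] at this
    have h3 : ((a * dα + b * dβ : ℤ) : ℂ) = ((-1 : ℤ) : ℂ) := by
      push_cast
      rw [← this]; norm_num
    exact_mod_cast h3
  have hdα' : (0 : ℤ) < dα := by exact_mod_cast hdα0
  have hdβ' : (0 : ℤ) < dβ := by exact_mod_cast hdβ0
  have hΘ : Θ = 1 + ((a : ℂ) • (α : G → ℂ) + (b : ℂ) • (β : G → ℂ)) := by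
    rw [← hθ]; ring
  rcases ha with rfl | rfl <;> rcases hb with rfl | rfl
  · exfalso; linarith
  · refine ⟨β, α, β.2, α.2, hβ1, hα1, ?_, ?_⟩
    · rw [hdα, hdβ]
      have : (dβ : ℤ) = dα + 1 := by linarith
      exact_mod_cast this
    · rw [hΘ]; simp [sub_eq_add_neg, add_assoc]
  · refine ⟨α, β, α.2, β.2, hα1, hβ1, ?_, ?_⟩
    · rw [hdα, hdβ]
      have : (dα : ℤ) = dβ + 1 := by linarith
      exact_mod_cast this
    · rw [hΘ]; simp only [Int.cast_neg, Int.cast_one, neg_smul, one_smul]; ring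
  · exfalso; linarith


theorem lam_equivariant {C : Type*} [Group C] [Finite C] (A : Subgroup C) (hA : ¬ 2 ∣ A.index)
    (lam : C →* ℂˣ) (h4 : ∀ c, lam c ^ 4 = 1) (σ : C →* C) (hσ : ∀ a ∈ A, σ a = a⁻¹) (c : C) :
    lam (σ c) = (lam c)⁻¹ := by
  set f : C →* ℂˣ := (lam.comp σ) * lam with hf
  have hfa : ∀ d, f d = lam (σ d) * lam d := fun d => rfl
  have hAk : A ≤ f.ker := by
    intro a ha
    rw [MonoidHom.mem_ker, hfa, hσ a ha, map_inv, inv_mul_cancel]
  have hdvd : f.ker.index ∣ A.index := Subgroup.index_dvd_of_le hAk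
  have h1 : f c ^ f.ker.index = 1 := by
    rw [← map_pow]
    exact MonoidHom.mem_ker.1 (Subgroup.pow_index_mem _ c)
  have h2 : f c ^ 4 = 1 := by
    rw [hfa, mul_pow, h4, h4, one_mul]
  have hodd : ¬ 2 ∣ f.ker.index := fun h => hA (h.trans hdvd)
  have hcop : Nat.gcd f.ker.index 4 = 1 := by
    have : Nat.Coprime f.ker.index (2 ^ 2) :=
      Nat.Coprime.pow_right 2 ((Nat.coprime_comm.1 ((Nat.Prime.coprime_iff_not_dvd Nat.prime_two).2 hodd)))
    exact this
  have h3 := pow_gcd_eq_one.2 ⟨h1, h2⟩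
  rw [hcop, pow_one, hfa] at h3
  exact eq_inv_of_mul_eq_one_left h3

open Cfsg.Agent.Lib.helper6_QuatSyl Subgroup in
theorem exists_pair {S : Sylow 2 G} {n : ℕ} {x y : G}
    (h : QData (S : Subgroup G) (2 ^ (n + 2)) x y) :
    ∃ χ₁ χ₂ : G → ℂ, IsIrrCharacter G χ₁ ∧ IsIrrCharacter G χ₂ ∧ χ₁ ≠ 1 ∧ χ₂ ≠ 1 ∧
      χ₁ 1 = χ₂ 1 + 1 ∧ ∀ g : G, ¬ 2 ^ (n + 2) ∣ orderOf g → χ₁ g - χ₂ g = 1 := by
  have hm : 3 ≤ 2 ^ (n + 2) := by
    have : 2 ^ 2 ≤ 2 ^ (n + 2) := Nat.pow_le_pow_right (by norm_num) (by omega)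
    omega
  have hm2 : ∃ k, 2 ^ (n + 2) = 2 ^ k := ⟨_, rfl⟩
  set C := centralizer ((zpowers (x ^ 2) : Subgroup G) : Set G) with hC
  obtain ⟨P, hPA, hPc, hPcard⟩ := exists_PC h hm
  have hPcard' : Nat.card P = 2 ^ ((n + 1) + 2) := by rw [hPcard]; ring
  obtain ⟨lam, h4, hl2, hl1⟩ := exists_lambda P hPc (n + 1) hPcard'
  have hyN : y⁻¹ ∈ normalizer ((zpowers (x ^ 2) : Subgroup G) : Set G) :=
    S_le_N h (inv_mem h.hy)
  have hyC : ∀ d ∈ C, y⁻¹ * d * y ∈ C := by
    intro d hd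
    have := conj_mem_centralizer hyN hd
    simpa using this
  have hy : y ∉ C := y_not_mem_C h hm
  have hord : ∀ c : C, lam c ≠ 1 → 2 ^ (n + 2) ∣ orderOf (c : G) := by
    intro c hc
    by_contra hcon
    apply hc
    apply hl1
    rw [← Subgroup.orderOf_coe] at *
    exact hcon
  have hTI : ∀ c : C, lam c ≠ 1 → ∀ g : G, g⁻¹ * c * g ∈ C → g ∈ C ∨ y⁻¹ * g ∈ C := by
    intro c hc g hg
    have h1 : g⁻¹ ∈ normalizer ((zpowers (x ^ 2) : Subgroup G) : Set G) :=
      mem_normalizer_of_conj h hm hm2 c.2 (hord c hc) (by simpa using hg)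
    have h2 : g ∈ normalizer ((zpowers (x ^ 2) : Subgroup G) : Set G) := by
      simpa using inv_mem h1
    exact normalizer_cases h hm2 h2
  let σ : C →* C := MonoidHom.mk' (fun c => ⟨y⁻¹ * c * y, hyC c c.2⟩) (by
    intro a b
    apply Subtype.ext
    simp only [Subgroup.coe_mul]
    group)
  have hinv : ∀ c : C, lam ⟨y⁻¹ * c * y, hyC c c.2⟩ = (lam c)⁻¹ := by
    intro c
    refine lam_equivariant ((zpowers x).subgroupOf C) (not_dvd_relIndex h hm) lam h4 σ ?_ c
    intro a ha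
    apply Subtype.ext
    have ha' : (a : G) ∈ zpowers x := ha
    have h1 := conj_inv_of_mem h 0 (inv_mem ha')
    simp only [pow_zero, mul_one, inv_inv] at h1
    show y⁻¹ * (a : G) * y = ((a⁻¹ : C) : G)
    rw [Subgroup.coe_inv]
    nth_rewrite 1 [← h1]
    group
  obtain ⟨Θ, hΘg, hΘn, hΘ1, hΘ0, hΘv⟩ := theta_props C y hy hyC lam hTI hinv hl2
  obtain ⟨χ₁, χ₂, hi1, hi2, hn1, hn2, hdeg, hΘe⟩ := exceptional_pair hΘg hΘn hΘ1 hΘ0
  refine ⟨χ₁, χ₂, hi1, hi2, hn1, hn2, hdeg, ?_⟩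
  intro g hg
  have h0 : Θ g = 0 := by
    apply hΘv
    intro z hz
    by_contra hcon
    apply hg
    have := hord _ hcon
    have ho : orderOf (z⁻¹ * g * z) = orderOf g := by
      have := orderOf_injective (MulAut.conj z⁻¹).toMonoidHom (MulAut.conj z⁻¹).injective g
      simpa using this
    rw [← ho]; exact this
  rw [hΘe] at h0
  simp only [Pi.add_apply, Pi.sub_apply, Pi.one_apply] at h0
  linear_combination -h0


theorem invol_in_ker {χ₁ χ₂ : G → ℂ} (h1 : IsIrrCharacter G χ₁) (h2 : IsIrrCharacter G χ₂)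
    (hdeg : χ₁ 1 = χ₂ 1 + 1) (t : G) (ht : χ₁ t - χ₂ t = 1)
    (hprod : ∀ g : G, χ₁ (g * t * g⁻¹ * t) - χ₂ (g * t * g⁻¹ * t) = 1) : χ₁ t = χ₁ 1 := by
  have hN : (Nat.card G : ℂ) ≠ 0 := by exact_mod_cast Nat.card_pos.ne'
  have E1 := irr_sum_conj_mul ⟨χ₁, h1⟩ t t
  have E2 := irr_sum_conj_mul ⟨χ₂, h2⟩ t t
  simp only at E1 E2
  have E3 : ∑ g : G, χ₁ (g * t * g⁻¹ * t) = ∑ g : G, χ₂ (g * t * g⁻¹ * t) + (Nat.card G : ℂ) := by
    have : ∑ g : G, (χ₁ (g * t * g⁻¹ * t) - χ₂ (g * t * g⁻¹ * t)) = (Nat.card G : ℂ) := by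
      rw [Finset.sum_congr rfl fun g _ => hprod g]
      simp [Nat.card_eq_fintype_card]
    rw [Finset.sum_sub_distrib] at this
    linear_combination this
  have ht' : χ₁ t = χ₂ t + 1 := by linear_combination ht
  rw [hdeg, ht'] at E1
  set A := ∑ g : G, χ₁ (g * t * g⁻¹ * t)
  set B := ∑ g : G, χ₂ (g * t * g⁻¹ * t)
  have key : (Nat.card G : ℂ) * (χ₂ 1 - χ₂ t) ^ 2 = 0 := by
    linear_combination χ₂ 1 * E1 - (χ₂ 1 + 1) * E2 - χ₂ 1 * (χ₂ 1 + 1) * E3
  have h3 : χ₂ 1 - χ₂ t = 0 := by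
    rcases mul_eq_zero.1 key with h | h
    · exact absurd h hN
    · exact pow_eq_zero_iff (two_ne_zero) |>.1 h
  rw [ht', hdeg]
  linear_combination -h3

open Cfsg.Agent.Lib.helper6_QuatSyl Cfsg.Agent.Lib.helper6_QuatInv Cfsg.Agent.Lib.CharQuot
  Cfsg.Agent.Lib.CharIto Subgroup in
theorem exists_normal_even {S : Sylow 2 G} {n : ℕ} {x y : G}
    (h : QData (S : Subgroup G) (2 ^ (n + 2)) x y) :
    ∃ M : Subgroup G, M.Normal ∧ x ^ (2 ^ (n + 2)) ∈ M ∧ ¬ commutator G ≤ M := by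
  obtain ⟨χ₁, χ₂, h1, h2, -, -, hdeg, hv⟩ := exists_pair h
  set t := x ^ (2 ^ (n + 2)) with ht
  have ot : orderOf t = 2 := h.orderOf_xm
  have hS : ∀ s ∈ (S : Subgroup G), orderOf s = 2 → s = t := fun s hs => h.invol_eq hs
  have h4 : 2 ^ 2 ≤ 2 ^ (n + 2) := Nat.pow_le_pow_right (by norm_num) (by omega)
  have hker : χ₁ t = χ₁ 1 := by
    apply invol_in_ker h1 h2 hdeg t
    · apply hv
      rw [ot]
      intro hd
      have := Nat.le_of_dvd (by norm_num) hd
      omega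
    · intro g
      apply hv
      intro hd
      have o1 : orderOf (g * t * g⁻¹) = 2 := (orderOf_conj' g t).trans ot
      apply odd_orderOf_mul_invol S t hS o1 ot
      exact (dvd_pow_self 2 (by omega)).trans hd
  have hc1 := isCharacter_of_isIrr h1
  refine ⟨charKer χ₁ hc1, inferInstance, hker, ?_⟩
  intro hle
  haveI : IsMulCommutative (G ⧸ charKer χ₁ hc1) :=
    Normal.quotient_commutative_iff_commutator_le.mpr hle
  obtain ⟨χ', hχ', he⟩ := exists_deflate_irr (charKer χ₁ hc1) h1 (fun n hn => hn)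
  have h5 : χ' 1 = 1 := degree_one_of_comm (fun a b => mul_comm' a b) hχ'
  have h6 : χ₁ 1 = 1 := by
    rw [he]; exact h5
  rw [h6] at hdeg
  apply irr_degree_ne_zero h2
  linear_combination -hdeg

end Cfsg.Agent.Lib.helper6_QuatChar
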