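import Mathlib
import Cfsg.Agent.Lib.helper6_Homo
import Cfsg.Agent.Lib.helper6_Lattice
import Cfsg.Agent.Lib.helper6_QuatChar
import Cfsg.Agent.S0840

/-!
# Brauer's theorem on groups with homocyclic Sylow 2-subgroups of rank two: characters
-/

set_option autoImplicit false

namespace Cfsg.Agent.Lib.helper6_HomoChar

open Cfsg Cfsg.Agent.Lib.CharBasic Cfsg.Agent.Lib.CharOrtho Cfsg.Agent.Lib.CharComplete
  Cfsg.Agent.Lib.CharMore Cfsg.Agent.Lib.CharInd Cfsg.Agent.Lib.CharGen Cfsg.Agent.Lib.CharLinear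
  Cfsg.Agent.Lib.Helper2_BlockLocal Cfsg.Agent.Lib.Helper2_BlockOm
  Cfsg.Agent.Lib.Helper2_BlockThird Cfsg.Agent.Lib.Helper2_PrincipalSection
  Cfsg.Agent.Lib.Helper2_BlockOrtho2 Cfsg.Agent.Lib.helper8_Defect
  Cfsg.Agent.Lib.Helper2_BlockQuot Cfsg.Agent.Lib.Helper2_BlockOrtho
  Cfsg.Agent.Lib.helper8_DefectZero
open scoped ComplexConjugate Classical

universe u

variable {G : Type u} [Group G]

structure HSetup (P : Subgroup G) (σ : G) (q : ℕ) : Prop where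
  comm : ∀ a ∈ P, ∀ b ∈ P, a * b = b * a
  card : Nat.card P = q
  q16 : 16 ≤ q
  two : ∀ x ∈ P, ∃ k : ℕ, orderOf x = 2 ^ k
  norm : ∀ x ∈ P, σ * x * σ⁻¹ ∈ P
  fpf : ∀ x ∈ P, σ * x * σ⁻¹ = x → x = 1
  cube : ∀ x ∈ P, σ * (σ * (σ * x * σ⁻¹) * σ⁻¹) * σ⁻¹ = x
  fus : ∀ x ∈ P, ∀ y ∈ P, IsConj x y → y = x ∨ y = σ * x * σ⁻¹ ∨ y = σ * (σ * x * σ⁻¹) * σ⁻¹
  core : ∀ x ∈ P, x ≠ 1 → ∃ k : ℕ, q = 2 ^ k ∧
    (pPrimeCore 2 (Subgroup.centralizer ({x} : Set G))).index = 2 ^ k ∧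
    (Nat.card (Subgroup.centralizer ({x} : Set G))).factorization 2 = k
  noinv : ∀ u x : G, orderOf u = 2 → (∃ k : ℕ, orderOf x = 2 ^ k) → u * x * u⁻¹ = x⁻¹ → x ^ 2 = 1
  sq : ∃ z ∈ P, z ^ 2 ≠ 1
  inv : ∃ t ∈ P, orderOf t = 2

def cj (P : Subgroup G) (σ : G) (hn : ∀ x ∈ P, σ * x * σ⁻¹ ∈ P) : P →* P where
  toFun x := ⟨σ * x * σ⁻¹, hn x x.2⟩
  map_one' := by apply Subtype.ext; simp
  map_mul' a b := by apply Subtype.ext; simp

variable {P : Subgroup G} {σ : G} {q : ℕ}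

theorem HSetup.cj_inj (hs : HSetup P σ q) : Function.Injective (cj P σ hs.norm) := by
  intro a b hab
  have h1 : σ * (a : G) * σ⁻¹ = σ * (b : G) * σ⁻¹ := congrArg Subtype.val hab
  apply Subtype.ext
  simpa using h1

theorem HSetup.cj_cube (hs : HSetup P σ q) (x : P) :
    cj P σ hs.norm (cj P σ hs.norm (cj P σ hs.norm x)) = x := Subtype.ext (hs.cube x x.2)

theorem HSetup.cj_ne (hs : HSetup P σ q) {x : P} (hx : x ≠ 1) : cj P σ hs.norm x ≠ x :=
  fun h => hx (Subtype.ext (hs.fpf x x.2 (congrArg Subtype.val h)))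

theorem HSetup.cj2_ne (hs : HSetup P σ q) {x : P} (hx : x ≠ 1) :
    cj P σ hs.norm (cj P σ hs.norm x) ≠ x := by
  intro h
  apply hs.cj_ne hx
  have := congrArg (cj P σ hs.norm) h
  rw [hs.cj_cube] at this
  exact this.symm

theorem gamma [Fintype G] (hs : HSetup P σ q) {M : Ideal AlgInt} (hM : IsPModular 2 M)
    (x y : P) (hx : x ≠ 1) :
    ∑ χ ∈ Finset.univ.filter (fun χ : IrrCharacter G => χ ∈ principalBlock M G),
      (χ : G → ℂ) y * conj ((χ : G → ℂ) x) =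
    (q : ℂ) * ((if y = x then 1 else 0) + (if y = cj P σ hs.norm x then 1 else 0) +
      (if y = cj P σ hs.norm (cj P σ hs.norm x) then 1 else 0)) := by
  set c := cj P σ hs.norm with hc
  have hx1 : (x : G) ≠ 1 := fun h => hx (Subtype.ext h)
  have d1 : c x ≠ x := hs.cj_ne hx
  have d2 : c (c x) ≠ c x := fun h => d1 (hs.cj_inj h)
  have d3 : c (c x) ≠ x := hs.cj2_ne hx
  by_cases hconj : IsConj (x : G) (y : G)
  · have hy : y = x ∨ y = c x ∨ y = c (c x) := by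
      rcases hs.fus x x.2 y y.2 hconj with h | h | h
      · left; exact Subtype.ext h
      · right; left; exact Subtype.ext h
      · right; right; exact Subtype.ext h
    have hind : ((if y = x then 1 else 0) + (if y = c x then 1 else 0) +
        (if y = c (c x) then 1 else 0) : ℂ) = 1 := by
      rcases hy with h | h | h
      · rw [h, if_pos rfl, if_neg d1.symm, if_neg d3.symm]; norm_num
      · rw [h, if_neg d1, if_pos rfl, if_neg d2.symm]; norm_num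
      · rw [h, if_neg d3, if_neg d2, if_pos rfl]; norm_num
    rw [hind, mul_one]
    obtain ⟨k, hqk, hidx, hfac⟩ := hs.core x x.2 hx1
    have hnorm : ∑ᶠ ζ ∈ principalBlock M G, ‖(ζ : G → ℂ) x‖ ^ 2 = (q : ℝ) := by
      have h1 := principal_section_sum hM (z := (x : G)) (hs.two x x.2) 1
        (by rw [orderOf_one]; norm_num)
      have h2 := principal_sum_pcomplement hM hidx (y := 1) (by rw [orderOf_one]; norm_num)
      rw [h2, hfac] at h1
      simp only [Subgroup.coe_one, mul_one] at h1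
      rw [h1, hqk]
    rw [Cfsg.Agent.Lib.Helper7_ZS12.finsum_block] at hnorm
    have h3 : ∀ χ : IrrCharacter G, (χ : G → ℂ) y * conj ((χ : G → ℂ) x) =
        ((‖(χ : G → ℂ) x‖ ^ 2 : ℝ) : ℂ) := by
      intro χ
      obtain ⟨g, hg⟩ := isConj_iff.1 hconj
      have : (χ : G → ℂ) y = (χ : G → ℂ) x := by
        rw [← hg]; exact isClassFunction_of_isCharacter (isCharacter_of_isIrr χ.2) _ _
      rw [this, Complex.mul_conj, Complex.normSq_eq_norm_sq]
    rw [Finset.sum_congr rfl (fun χ _ => h3 χ), ← Complex.ofReal_sum, hnorm]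
    simp
  · have n1 : y ≠ x := fun h => hconj (by rw [h])
    have n2 : y ≠ c x := fun h => hconj (by rw [h]; exact isConj_iff.2 ⟨σ, rfl⟩)
    have n3 : y ≠ c (c x) := fun h => hconj (by
      rw [h]; exact isConj_iff.2 ⟨σ * σ, by show _ = σ * (σ * (x : G) * σ⁻¹) * σ⁻¹; group⟩)
    rw [if_neg n1, if_neg n2, if_neg n3]
    have h1 := block_orthogonality hM (g := (y : G)) (h := (x : G)) (x := (y : G)) (y := (x : G))
      ⟨1, mul_one _, Commute.one_right _, hs.two y y.2, by rw [orderOf_one]; norm_num⟩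
      ⟨1, mul_one _, Commute.one_right _, hs.two x x.2, by rw [orderOf_one]; norm_num⟩
      (fun h => hconj h.symm) (principalBlock_isPBlock M G)
    rw [Finset.sum_filter]
    simp only [add_zero, mul_zero]
    refine Eq.trans ?_ h1
    refine Finset.sum_congr rfl fun χ _ => ?_
    split_ifs <;> simp

theorem exists_u [Fintype G] (P : Subgroup G) [Fintype P] (μ : P →* ℂˣ) :
    ∃ z : IrrCharacter G → ℤ, ∀ χ : IrrCharacter G, (z χ : ℂ) =
      (Nat.card P : ℂ)⁻¹ * ∑ x : P, (1 - ((μ x : ℂˣ) : ℂ)) * conj ((χ : G → ℂ) x) := by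
  have hg : IsGeneralizedCharacter P ((1 : P → ℂ) - fun x => ((μ x : ℂˣ) : ℂ)) :=
    isGen_sub (isGen_of_isCharacter isCharacter_one) (isGen_of_isCharacter (isCharacter_hom μ))
  obtain ⟨z, hz, -⟩ := exists_int_mult (isGen_indFun P hg)
  refine ⟨z, fun χ => ?_⟩
  rw [← hz χ, frobenius_reciprocity P _ _ (irr_classFunction χ)]
  rfl

theorem hom_fun_ne {P : Subgroup G} {μ ν : P →* ℂˣ} (h : μ ≠ ν) :
    (fun x => ((μ x : ℂˣ) : ℂ)) ≠ fun x => ((ν x : ℂˣ) : ℂ) :=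
  fun h' => h (MonoidHom.ext fun x => Units.ext (congrFun h' x))

theorem inner_theta (P : Subgroup G) [Fintype P] (μ ν : P →* ℂˣ) (hμ : μ ≠ 1) (hν : ν ≠ 1) :
    (Nat.card P : ℂ)⁻¹ * ∑ x : P, (1 - ((μ x : ℂˣ) : ℂ)) * conj (1 - ((ν x : ℂˣ) : ℂ)) =
      1 + if μ = ν then 1 else 0 := by
  set U : P → ℂ := fun x => ((μ x : ℂˣ) : ℂ) with hU
  set V : P → ℂ := fun x => ((ν x : ℂˣ) : ℂ) with hV
  have hUi : IsIrrCharacter P U := isIrr_hom μ
  have hVi : IsIrrCharacter P V := isIrr_hom ν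
  have h1i : IsIrrCharacter P (1 : P → ℂ) := isIrr_one
  have hU1 : U ≠ 1 := hom_fun_ne hμ
  have hV1 : V ≠ 1 := hom_fun_ne hν
  have e : (Nat.card P : ℂ)⁻¹ * ∑ x : P, (1 - ((μ x : ℂˣ) : ℂ)) * conj (1 - ((ν x : ℂˣ) : ℂ)) =
      classInner ((1 : P → ℂ) - U) (1 - V) := rfl
  rw [e]
  simp only [classInner_sub_left, classInner_sub_right]
  rw [classInner_irr_self h1i, classInner_irr_ne h1i hVi hV1.symm, classInner_irr_ne hUi h1i hU1]
  by_cases h : μ = ν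
  · have : U = V := by rw [hU, hV, h]
    rw [if_pos h, this, classInner_irr_self hVi]; norm_num
  · rw [if_neg h, classInner_irr_ne hUi hVi (hom_fun_ne h)]; norm_num

theorem inner_theta_one (P : Subgroup G) [Fintype P] (μ : P →* ℂˣ) (hμ : μ ≠ 1) :
    (Nat.card P : ℂ)⁻¹ * ∑ x : P, (1 - ((μ x : ℂˣ) : ℂ)) = 1 := by
  set U : P → ℂ := fun x => ((μ x : ℂˣ) : ℂ) with hU
  have hUi : IsIrrCharacter P U := isIrr_hom μ
  have h1i : IsIrrCharacter P (1 : P → ℂ) := isIrr_one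
  have hU1 : U ≠ 1 := hom_fun_ne hμ
  have e : (Nat.card P : ℂ)⁻¹ * ∑ x : P, (1 - ((μ x : ℂˣ) : ℂ)) =
      classInner ((1 : P → ℂ) - U) 1 := by
    unfold classInner
    simp [hU]
  rw [e, classInner_sub_left, classInner_irr_self h1i, classInner_irr_ne hUi h1i hU1]
  norm_num

theorem HSetup.comp_ne_one (hs : HSetup P σ q) {ν : P →* ℂˣ} (hν : ν ≠ 1) :
    ν.comp (cj P σ hs.norm) ≠ 1 := by
  intro h
  apply hν
  ext x
  have := congrArg (fun f : P →* ℂˣ => f (cj P σ hs.norm (cj P σ hs.norm x))) h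
  simp only [MonoidHom.comp_apply, hs.cj_cube, MonoidHom.one_apply] at this
  rw [this]; rfl

theorem HSetup.comp_ne [Finite G] (hs : HSetup P σ q) {ν : P →* ℂˣ} (hν : ν ≠ 1) :
    ν ≠ ν.comp (cj P σ hs.norm) := by
  intro h
  apply hν
  set c := cj P σ hs.norm with hc
  have hcomm : ∀ a b : P, a * b = b * a := fun a b => Subtype.ext (hs.comm a a.2 b b.2)
  have hinj : Function.Injective (fun x : P => c x * x⁻¹) := by
    intro a b hab
    simp only at hab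
    have h1 : c (a * b⁻¹) = a * b⁻¹ := by
      calc c (a * b⁻¹) = c a * (c b)⁻¹ := by rw [map_mul, map_inv]
        _ = (c b * b⁻¹ * a) * (c b)⁻¹ := by rw [← eq_mul_of_mul_inv_eq hab]
        _ = (c b)⁻¹ * (c b * b⁻¹ * a) := hcomm _ _
        _ = b⁻¹ * a := by group
        _ = a * b⁻¹ := hcomm _ _
    by_contra hne
    exact hs.cj_ne (x := a * b⁻¹) (fun h0 => hne (mul_inv_eq_one.1 h0)) h1
  have hsurj := Finite.injective_iff_surjective.1 hinj
  ext y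
  obtain ⟨x, rfl⟩ := hsurj y
  have h2 : ν (c x) = ν x := by
    have := congrArg (fun f : P →* ℂˣ => f x) h
    simp only [MonoidHom.comp_apply] at this
    exact this.symm
  simp only [map_mul, map_inv, h2, mul_inv_cancel, MonoidHom.one_apply]

theorem HSetup.comp3 (hs : HSetup P σ q) (ν : P →* ℂˣ) :
    ((ν.comp (cj P σ hs.norm)).comp (cj P σ hs.norm)).comp (cj P σ hs.norm) = ν := by
  ext x
  simp only [MonoidHom.comp_apply, hs.cj_cube]

theorem HSetup.comp2_ne [Finite G] (hs : HSetup P σ q) {ν : P →* ℂˣ} (hν : ν ≠ 1) :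
    ν ≠ (ν.comp (cj P σ hs.norm)).comp (cj P σ hs.norm) := by
  intro h
  apply hs.comp_ne hν
  have := congrArg (fun f : P →* ℂˣ => f.comp (cj P σ hs.norm)) h
  simp only [hs.comp3] at this
  exact this.symm

theorem gram [Fintype G] [Fintype P] (hs : HSetup P σ q) {M : Ideal AlgInt}
    (hM : IsPModular 2 M) (u : (P →* ℂˣ) → IrrCharacter G → ℤ)
    (hu : ∀ μ χ, (u μ χ : ℂ) = (Nat.card P : ℂ)⁻¹ *
      ∑ x : P, (1 - ((μ x : ℂˣ) : ℂ)) * conj ((χ : G → ℂ) x))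
    (μ ν : P →* ℂˣ) (hμ : μ ≠ 1) (hν : ν ≠ 1) :
    ∑ χ ∈ Finset.univ.filter (fun χ : IrrCharacter G => χ ∈ principalBlock M G),
      (u μ χ : ℂ) * (u ν χ : ℂ) = 3 + (if μ = ν then 1 else 0) +
        (if μ = ν.comp (cj P σ hs.norm) then 1 else 0) +
        (if μ = (ν.comp (cj P σ hs.norm)).comp (cj P σ hs.norm) then 1 else 0) := by
  set c := cj P σ hs.norm with hc
  set Q : ℂ := (Nat.card P : ℂ) with hQ
  have hQ0 : Q ≠ 0 := by rw [hQ]; exact_mod_cast Nat.card_pos.ne'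
  have hQq : (q : ℂ) = Q := by rw [hQ, hs.card]
  set θ : (P →* ℂˣ) → P → ℂ := fun μ x => 1 - ((μ x : ℂˣ) : ℂ) with hθ
  have ea : ∀ χ : IrrCharacter G, (u μ χ : ℂ) * (u ν χ : ℂ) = Q⁻¹ * Q⁻¹ *
      ∑ x : P, ∑ y : P, θ μ x * conj (θ ν y) * ((χ : G → ℂ) y * conj ((χ : G → ℂ) x)) := by
    intro χ
    have h1 : (u ν χ : ℂ) = conj (u ν χ : ℂ) := (map_intCast _ _).symm
    rw [h1, hu μ χ, hu ν χ, map_mul, map_inv₀, map_natCast, map_sum, mul_mul_mul_comm,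
      Finset.sum_mul_sum]
    congr 1
    refine Finset.sum_congr rfl fun x _ => Finset.sum_congr rfl fun y _ => ?_
    rw [map_mul, Complex.conj_conj]
    ring
  rw [Finset.sum_congr rfl (fun χ _ => ea χ), ← Finset.mul_sum, Finset.sum_comm]
  have eb : ∀ x : P, ∑ χ ∈ Finset.univ.filter (fun χ : IrrCharacter G => χ ∈ principalBlock M G),
      ∑ y : P, θ μ x * conj (θ ν y) * ((χ : G → ℂ) y * conj ((χ : G → ℂ) x)) =
      Q * (θ μ x * conj (θ ν x) + θ μ x * conj (θ (ν.comp c) x) +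
        θ μ x * conj (θ ((ν.comp c).comp c) x)) := by
    intro x
    by_cases hx : x = 1
    · have : θ μ x = 0 := by simp [hθ, hx]
      simp [this]
    · rw [Finset.sum_comm]
      have e1 : ∀ y : P, ∑ χ ∈ Finset.univ.filter
          (fun χ : IrrCharacter G => χ ∈ principalBlock M G),
          θ μ x * conj (θ ν y) * ((χ : G → ℂ) y * conj ((χ : G → ℂ) x)) =
          (if y = x then Q * (θ μ x * conj (θ ν y)) else 0) +
          (if y = c x then Q * (θ μ x * conj (θ ν y)) else 0) +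
          (if y = c (c x) then Q * (θ μ x * conj (θ ν y)) else 0) := by
        intro y
        rw [← Finset.mul_sum, gamma hs hM x y hx, hQq]
        split_ifs <;> ring
      rw [Finset.sum_congr rfl (fun y _ => e1 y), Finset.sum_add_distrib, Finset.sum_add_distrib,
        Finset.sum_ite_eq', Finset.sum_ite_eq', Finset.sum_ite_eq']
      simp only [Finset.mem_univ, if_true]
      have e2 : θ (ν.comp c) x = θ ν (c x) := rfl
      have e3 : θ ((ν.comp c).comp c) x = θ ν (c (c x)) := rfl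
      rw [e2, e3]; ring
  rw [Finset.sum_congr rfl (fun x _ => eb x), ← Finset.mul_sum, Finset.sum_add_distrib,
    Finset.sum_add_distrib]
  have i1 := inner_theta P μ ν hμ hν
  have i2 := inner_theta P μ (ν.comp c) hμ (hs.comp_ne_one hν)
  have i3 := inner_theta P μ ((ν.comp c).comp c) hμ (hs.comp_ne_one (hs.comp_ne_one hν))
  rw [← hQ] at i1 i2 i3
  have e4 : Q⁻¹ * Q⁻¹ * (Q * (∑ x : P, θ μ x * conj (θ ν x) +
      ∑ x : P, θ μ x * conj (θ (ν.comp c) x) + ∑ x : P, θ μ x * conj (θ ((ν.comp c).comp c) x))) =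
      Q⁻¹ * ∑ x : P, θ μ x * conj (θ ν x) + Q⁻¹ * ∑ x : P, θ μ x * conj (θ (ν.comp c) x) +
      Q⁻¹ * ∑ x : P, θ μ x * conj (θ ((ν.comp c).comp c) x) := by
    field_simp
  rw [e4]
  simp only [hθ]
  rw [i1, i2, i3]
  ring

section dual

theorem dual_exists {A : Type*} [CommGroup A] [Finite A] {a : A} (ha : a ≠ 1) :
    ∃ φ : A →* ℂˣ, φ a ≠ 1 := by
  haveI : NeZero ((Monoid.exponent A : ℕ) : ℂ) :=
    ⟨by exact_mod_cast Monoid.exponent_ne_zero_of_finite⟩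
  exact CommGroup.exists_apply_ne_one_of_hasEnoughRootsOfUnity A ℂ ha

theorem dual_card {A : Type*} [CommGroup A] [Finite A] : Nat.card (A →* ℂˣ) = Nat.card A := by
  haveI : NeZero ((Monoid.exponent A : ℕ) : ℂ) :=
    ⟨by exact_mod_cast Monoid.exponent_ne_zero_of_finite⟩
  exact CommGroup.card_monoidHom_of_hasEnoughRootsOfUnity A ℂ

theorem dual_exists' {A : Type*} [inst : Group A] [Finite A] (hc : ∀ a b : A, a * b = b * a)
    {a : A} (ha : a ≠ 1) : ∃ φ : A →* ℂˣ, φ a ≠ 1 := by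
  letI : CommGroup A := { inst with mul_comm := hc }
  exact dual_exists ha

theorem dual_card' {A : Type*} [inst : Group A] [Finite A] (hc : ∀ a b : A, a * b = b * a) :
    Nat.card (A →* ℂˣ) = Nat.card A := by
  letI : CommGroup A := { inst with mul_comm := hc }
  exact dual_card

theorem dual_finite' {A : Type*} [inst : Group A] [Finite A] (hc : ∀ a b : A, a * b = b * a) :
    Finite (A →* ℂˣ) := by
  letI : CommGroup A := { inst with mul_comm := hc }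
  infer_instance

theorem dual_orth {A : Type*} [Group A] [Finite A] [Fintype (A →* ℂˣ)]
    (hc : ∀ a b : A, a * b = b * a) (y : A) :
    ∑ μ : A →* ℂˣ, ((μ y : ℂˣ) : ℂ) = if y = 1 then (Nat.card A : ℂ) else 0 := by
  split_ifs with hy
  · subst hy
    simp only [map_one, Units.val_one, Finset.sum_const, Finset.card_univ, nsmul_eq_mul, mul_one]
    rw [← dual_card' hc, Nat.card_eq_fintype_card]
  · obtain ⟨φ, hφ⟩ := dual_exists' hc hy
    have h1 : ∑ μ : A →* ℂˣ, ((μ y : ℂˣ) : ℂ) =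
        ((φ y : ℂˣ) : ℂ) * ∑ μ : A →* ℂˣ, ((μ y : ℂˣ) : ℂ) := by
      rw [Finset.mul_sum]
      exact (Fintype.sum_equiv (Equiv.mulLeft φ) _ _ (fun μ => by simp)).symm
    have h2 : (1 - ((φ y : ℂˣ) : ℂ)) * ∑ μ : A →* ℂˣ, ((μ y : ℂˣ) : ℂ) = 0 := by
      linear_combination h1
    rcases mul_eq_zero.1 h2 with h3 | h3
    · exfalso; apply hφ; apply Units.ext
      simp only [Units.val_one]
      linear_combination -h3
    · exact h3

end dual

theorem weight_rel [Fintype G] [Fintype P] (u : (P →* ℂˣ) → IrrCharacter G → ℤ)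
    (hu : ∀ μ χ, (u μ χ : ℂ) = (Nat.card P : ℂ)⁻¹ *
      ∑ x : P, (1 - ((μ x : ℂˣ) : ℂ)) * conj ((χ : G → ℂ) x))
    (B : Finset (IrrCharacter G)) (w : IrrCharacter G → ℂ) (μ : P →* ℂˣ)
    (h : ∀ x : P, μ x ≠ 1 → ∑ χ ∈ B, w χ * conj ((χ : G → ℂ) x) = 0) :
    ∑ χ ∈ B, w χ * (u μ χ : ℂ) = 0 := by
  have e : ∀ χ : IrrCharacter G, w χ * (u μ χ : ℂ) = (Nat.card P : ℂ)⁻¹ *
      ∑ x : P, (1 - ((μ x : ℂˣ) : ℂ)) * (w χ * conj ((χ : G → ℂ) x)) := by
    intro χ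
    rw [hu, Finset.mul_sum, Finset.mul_sum, Finset.mul_sum]
    refine Finset.sum_congr rfl fun x _ => ?_
    ring
  rw [Finset.sum_congr rfl (fun χ _ => e χ), ← Finset.mul_sum, Finset.sum_comm,
    Finset.sum_eq_zero, mul_zero]
  intro x _
  rw [← Finset.mul_sum]
  by_cases hx : μ x = 1
  · rw [hx]; simp
  · rw [h x hx, mul_zero]

theorem two_dvd_of_ne_one (hs : HSetup P σ q) {x : G} (hx : x ∈ P) (hx1 : x ≠ 1) :
    2 ∣ orderOf x := by
  obtain ⟨k, hk⟩ := hs.two x hx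
  rw [hk]
  rcases k with _ | k
  · rw [pow_zero, orderOf_eq_one_iff] at hk
    exact absurd hk hx1
  · exact Dvd.intro_left _ rfl

theorem deg_rel [Fintype G] [Fintype P] (hs : HSetup P σ q) {M : Ideal AlgInt}
    (hM : IsPModular 2 M) (u : (P →* ℂˣ) → IrrCharacter G → ℤ)
    (hu : ∀ μ χ, (u μ χ : ℂ) = (Nat.card P : ℂ)⁻¹ *
      ∑ x : P, (1 - ((μ x : ℂˣ) : ℂ)) * conj ((χ : G → ℂ) x)) (μ : P →* ℂˣ) :
    ∑ χ ∈ Finset.univ.filter (fun χ : IrrCharacter G => χ ∈ principalBlock M G),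
      (χ : G → ℂ) 1 * (u μ χ : ℂ) = 0 := by
  apply weight_rel u hu
  intro x hx
  have hx1 : (x : G) ≠ 1 := by
    intro h
    apply hx
    have : x = 1 := Subtype.ext h
    rw [this, map_one]
  have h2 : 2 ∣ orderOf (x : G)⁻¹ := by
    rw [orderOf_inv]; exact two_dvd_of_ne_one hs x.2 hx1
  have := weak_block_orthogonality hM (principalBlock_isPBlock M G) (x := 1) (y := (x : G)⁻¹)
    (by rw [orderOf_one]; norm_num) h2
  rw [← this]
  refine Finset.sum_congr rfl fun χ _ => ?_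
  rw [inv_of_isCharacter (isCharacter_of_isIrr χ.2)]

theorem u_one [Fintype G] [Fintype P] (u : (P →* ℂˣ) → IrrCharacter G → ℤ)
    (hu : ∀ μ χ, (u μ χ : ℂ) = (Nat.card P : ℂ)⁻¹ *
      ∑ x : P, (1 - ((μ x : ℂˣ) : ℂ)) * conj ((χ : G → ℂ) x)) {μ : P →* ℂˣ} (hμ : μ ≠ 1) :
    u μ (oneIrr G) = 1 := by
  have h1 := hu μ (oneIrr G)
  have h2 : ∀ x : G, (oneIrr G : G → ℂ) x = 1 := fun x => rfl
  simp only [h2, map_one, mul_one] at h1
  rw [inner_theta_one P μ hμ] at h1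
  exact_mod_cast h1

theorem u_triv [Fintype G] [Fintype P] (u : (P →* ℂˣ) → IrrCharacter G → ℤ)
    (hu : ∀ μ χ, (u μ χ : ℂ) = (Nat.card P : ℂ)⁻¹ *
      ∑ x : P, (1 - ((μ x : ℂˣ) : ℂ)) * conj ((χ : G → ℂ) x)) (χ : IrrCharacter G) :
    u 1 χ = 0 := by
  have h1 := hu 1 χ
  simp only [MonoidHom.one_apply, Units.val_one, sub_self, zero_mul, Finset.sum_const_zero,
    mul_zero] at h1
  exact_mod_cast h1

theorem value_formula [Fintype G] [Fintype P] [Fintype (P →* ℂˣ)] (hs : HSetup P σ q)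
    (u : (P →* ℂˣ) → IrrCharacter G → ℤ)
    (hu : ∀ μ χ, (u μ χ : ℂ) = (Nat.card P : ℂ)⁻¹ *
      ∑ x : P, (1 - ((μ x : ℂˣ) : ℂ)) * conj ((χ : G → ℂ) x)) (χ : IrrCharacter G)
    (x0 : P) (hx0 : x0 ≠ 1) :
    conj ((χ : G → ℂ) x0) = - ∑ μ : P →* ℂˣ, (u μ χ : ℂ) * ((μ x0⁻¹ : ℂˣ) : ℂ) := by
  have hcomm : ∀ a b : P, a * b = b * a := fun a b => Subtype.ext (hs.comm a a.2 b b.2)
  set Q : ℂ := (Nat.card P : ℂ) with hQ
  have hQ0 : Q ≠ 0 := by rw [hQ]; exact_mod_cast Nat.card_pos.ne'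
  have e : ∀ μ : P →* ℂˣ, (u μ χ : ℂ) * ((μ x0⁻¹ : ℂˣ) : ℂ) = Q⁻¹ *
      ∑ x : P, conj ((χ : G → ℂ) x) * (((μ x0⁻¹ : ℂˣ) : ℂ) - ((μ (x * x0⁻¹) : ℂˣ) : ℂ)) := by
    intro μ
    rw [hu, mul_assoc, Finset.sum_mul]
    congr 1
    refine Finset.sum_congr rfl fun x _ => ?_
    rw [map_mul, Units.val_mul]; ring
  rw [Finset.sum_congr rfl (fun μ _ => e μ), ← Finset.mul_sum, Finset.sum_comm]
  have e2 : ∀ x : P, ∑ μ : P →* ℂˣ, conj ((χ : G → ℂ) x) *
      (((μ x0⁻¹ : ℂˣ) : ℂ) - ((μ (x * x0⁻¹) : ℂˣ) : ℂ)) =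
      if x = x0 then - (Q * conj ((χ : G → ℂ) x)) else 0 := by
    intro x
    rw [← Finset.mul_sum, Finset.sum_sub_distrib, dual_orth hcomm, dual_orth hcomm,
      if_neg (fun h => hx0 (inv_eq_one.1 h))]
    by_cases hx : x = x0
    · rw [if_pos hx, if_pos (by rw [hx, mul_inv_cancel])]; ring
    · rw [if_neg hx, if_neg (fun h => hx (mul_inv_eq_one.1 h))]; ring
  rw [Finset.sum_congr rfl (fun x _ => e2 x), Finset.sum_ite_eq']
  simp only [Finset.mem_univ, if_true]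
  field_simp

open Cfsg.Agent.Lib.helper6_Homo Cfsg.Agent.Lib.Helper2_PPart in
theorem theta_vanish [Fintype G] (hs : HSetup P σ q) {t : G} (ht : orderOf t = 2) {g z : G}
    (hgz : IsPPart 2 g z) (hz : z ^ 2 ≠ 1) :
    ∑ ψ : IrrCharacter G, ((ψ : G → ℂ) t * (ψ : G → ℂ) t / (ψ : G → ℂ) 1) * (ψ : G → ℂ) g = 0 := by
  have h1 := Cfsg.Agent.S0840.result t t g⁻¹
  have hempty : IsEmpty {p : G × G // IsConj t p.1 ∧ IsConj t p.2 ∧ p.1 * p.2 = g⁻¹} := by
    constructor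
    rintro ⟨⟨a, b⟩, ha, hb, hab⟩
    simp only at ha hb hab
    have oa : orderOf a = 2 := by
      obtain ⟨c, hc⟩ := isConj_iff.1 ha
      rw [← hc, orderOf_conj'', ht]
    have ob : orderOf b = 2 := by
      obtain ⟨c, hc⟩ := isConj_iff.1 hb
      rw [← hc, orderOf_conj'', ht]
    have haa := sq_of_order oa
    have hbb := sq_of_order ob
    have hai : a⁻¹ = a := inv_eq_of_mul_eq_one_left haa
    have hbi : b⁻¹ = b := inv_eq_of_mul_eq_one_left hbb
    have hg : g = b * a := by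
      have : g = (a * b)⁻¹ := by rw [hab, inv_inv]
      rw [this, mul_inv_rev, hai, hbi]
    have hinv : a * g * a⁻¹ = g⁻¹ := by
      rw [← hab, hg, hai, mul_assoc, mul_assoc, haa, mul_one]
    obtain ⟨y, hxy, hc, hx, hy⟩ := hgz
    obtain ⟨n, m, hn, -⟩ := isPPart_eq_pow Nat.prime_two hxy hc hx hy
    have hz' : a * z * a⁻¹ = z⁻¹ := by rw [hn, ← conj_pow, hinv, inv_pow]
    exact hz (hs.noinv a z oa hx hz')
  rw [Nat.card_of_isEmpty, finsum_eq_sum_of_fintype, Nat.cast_zero] at h1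
  have hk : (Nat.card {x : G // IsConj t x} : ℂ) ≠ 0 := by
    haveI : Nonempty {x : G // IsConj t x} := ⟨⟨t, IsConj.refl t⟩⟩
    exact_mod_cast Nat.card_pos.ne'
  have hG : (Nat.card G : ℂ) ≠ 0 := by exact_mod_cast Nat.card_pos.ne'
  have h2 := (mul_eq_zero.1 h1.symm).resolve_left (div_ne_zero (mul_ne_zero hk hk) hG)
  rw [← h2]
  refine Finset.sum_congr rfl fun ψ _ => ?_
  rw [inv_of_isCharacter (isCharacter_of_isIrr ψ.2), Complex.conj_conj]
  ring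

theorem block_vanish [Fintype G] (hs : HSetup P σ q) {M : Ideal AlgInt} (hM : IsPModular 2 M)
    {t : G} (ht : orderOf t = 2) (x : P) (hx : (x : G) ^ 2 ≠ 1) :
    ∑ χ ∈ Finset.univ.filter (fun χ : IrrCharacter G => χ ∈ principalBlock M G),
      ((χ : G → ℂ) t * (χ : G → ℂ) t / (χ : G → ℂ) 1) * conj ((χ : G → ℂ) x) = 0 := by
  set ϑ : G → ℂ := ∑ ψ : IrrCharacter G,
    ((ψ : G → ℂ) t * (ψ : G → ℂ) t / (ψ : G → ℂ) 1) • (ψ : G → ℂ) with hϑ
  have hv : ∀ u z : G, IsPPart 2 u z → IsConj (x : G)⁻¹ z → ϑ u = 0 := by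
    intro u z huz hconj
    have hz : z ^ 2 ≠ 1 := by
      obtain ⟨c, hc⟩ := isConj_iff.1 hconj
      rw [← hc, conj_pow]
      intro h
      apply hx
      have h3 : ((x : G)⁻¹) ^ 2 = 1 := by
        have := congrArg (fun w => c⁻¹ * w * c) h
        simpa [mul_assoc] using this
      rw [inv_pow, inv_eq_one] at h3
      exact h3
    have := theta_vanish hs ht huz hz
    rw [hϑ, Finset.sum_apply]
    simpa only [Pi.smul_apply, smul_eq_mul] using this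
  have h1 := blockPart_section hM hv (principalBlock_isPBlock M G) (u := (x : G)⁻¹)
    (z := (x : G)⁻¹)
    ⟨1, mul_one _, Commute.one_right _, by rw [orderOf_inv]; exact hs.two x x.2,
      by rw [orderOf_one]; norm_num⟩ (IsConj.refl _)
  unfold blockPart at h1
  rw [Cfsg.Agent.Lib.Helper7_ZS12.finsum_block] at h1
  rw [← h1]
  refine Finset.sum_congr rfl fun χ _ => ?_
  rw [inv_of_isCharacter (isCharacter_of_isIrr χ.2)]
  congr 1
  have e : classInner ϑ (χ : G → ℂ) = (χ : G → ℂ) t * (χ : G → ℂ) t / (χ : G → ℂ) 1 := by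
    rw [hϑ, classInner_sum_left]
    simp only [classInner_smul_left]
    rw [Finset.sum_eq_single χ, classInner_irr_self χ.2, mul_one]
    · intro ψ _ hψ
      rw [classInner_irr_ne ψ.2 χ.2 (fun h => hψ (Subtype.ext h)), mul_zero]
    · intro h; exact absurd (Finset.mem_univ _) h
  rw [← e]
  congr
  exact Subsingleton.elim _ _

theorem u_comp [Fintype G] [Fintype P] (hs : HSetup P σ q)
    (u : (P →* ℂˣ) → IrrCharacter G → ℤ)
    (hu : ∀ μ χ, (u μ χ : ℂ) = (Nat.card P : ℂ)⁻¹ *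
      ∑ x : P, (1 - ((μ x : ℂˣ) : ℂ)) * conj ((χ : G → ℂ) x)) (ν : P →* ℂˣ)
    (χ : IrrCharacter G) : u (ν.comp (cj P σ hs.norm)) χ = u ν χ := by
  have hbij : Function.Bijective (cj P σ hs.norm) :=
    ⟨hs.cj_inj, Finite.injective_iff_surjective.1 hs.cj_inj⟩
  have h1 : (u (ν.comp (cj P σ hs.norm)) χ : ℂ) = (u ν χ : ℂ) := by
    rw [hu, hu]
    congr 1
    rw [← hbij.sum_comp (fun x : P => (1 - ((ν x : ℂˣ) : ℂ)) * conj ((χ : G → ℂ) x))]
    refine Finset.sum_congr rfl fun x _ => ?_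
    have h2 : (χ : G → ℂ) ((cj P σ hs.norm x : P) : G) = (χ : G → ℂ) x :=
      irr_classFunction χ _ _
    rw [h2]; rfl
  exact_mod_cast h1

theorem pm_one {a : ℤ} (h : -1 ≤ a ∧ a ≤ 1) (h0 : a ≠ 0) : a = 1 ∨ a = -1 := by omega

open Cfsg.Agent.Lib.helper6_Lattice Cfsg.Agent.Lib.CharQuot in
theorem HSetup.exists_normal [Finite G] (hs : HSetup P σ q) :
    ∃ K : Subgroup G, K.Normal ∧ K ≠ ⊤ ∧ P ≤ K := by
  haveI := Fintype.ofFinite G
  haveI : Fintype P := Fintype.ofFinite P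
  have hcomm : ∀ a b : P, a * b = b * a := fun a b => Subtype.ext (hs.comm a a.2 b b.2)
  haveI : Finite (P →* ℂˣ) := dual_finite' hcomm
  haveI : Fintype (P →* ℂˣ) := Fintype.ofFinite _
  obtain ⟨M, hM⟩ := exists_modular Nat.prime_two
  have hPr := isPrime_of_modular hM
  choose u hu using fun μ : P →* ℂˣ => exists_u P μ
  set Bf := Finset.univ.filter (fun χ : IrrCharacter G => χ ∈ principalBlock M G) with hBf
  set c := cj P σ hs.norm with hc
  set o := oneIrr G with ho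
  have hone : ∀ x : G, (o : G → ℂ) x = 1 := fun x => rfl
  have h0mem : o ∈ Bf := by
    rw [hBf, Finset.mem_filter]; exact ⟨Finset.mem_univ _, oneIrr_mem_principal hPr G⟩
  set f : IrrCharacter G → ℤ := fun χ => (charDegree (χ : G → ℂ) : ℤ) with hf
  have hfpos : ∀ χ, 0 < f χ := fun χ => by
    simp only [hf]; exact_mod_cast (irr_charDegree χ.2).1
  have hf1 : ∀ χ : IrrCharacter G, (χ : G → ℂ) 1 = (f χ : ℂ) := fun χ => by
    rw [(irr_charDegree χ.2).2.1]; simp [hf]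
  have hgood : ∀ μ : P →* ℂˣ, μ ≠ 1 → Good Bf f o (u μ) := by
    intro μ hμ
    refine ⟨?_, ?_, u_one u hu hμ⟩
    · have h1 := gram hs hM u hu μ μ hμ hμ
      rw [if_pos rfl, if_neg (hs.comp_ne hμ), if_neg (hs.comp2_ne hμ)] at h1
      have h2 : ((∑ χ ∈ Bf, u μ χ * u μ χ : ℤ) : ℂ) = ((4 : ℤ) : ℂ) := by
        push_cast; rw [h1]; norm_num
      exact_mod_cast h2
    · have h1 := deg_rel hs hM u hu μ
      simp only [hf1] at h1
      exact_mod_cast h1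
  have h3 : ∀ μ ν : P →* ℂˣ, μ ≠ 1 → ν ≠ 1 →
      ¬ (μ = ν ∨ μ = ν.comp c ∨ μ = (ν.comp c).comp c) → ∑ χ ∈ Bf, u μ χ * u ν χ = 3 := by
    intro μ ν hμ hν hR
    have h1 := gram hs hM u hu μ ν hμ hν
    simp only [not_or] at hR
    rw [if_neg hR.1, if_neg hR.2.1, if_neg hR.2.2] at h1
    have h2 : ((∑ χ ∈ Bf, u μ χ * u ν χ : ℤ) : ℂ) = ((3 : ℤ) : ℂ) := by
      push_cast; rw [h1]; norm_num
    exact_mod_cast h2
  have hmany : ∀ a b c' d : P →* ℂˣ, ∃ κ : P →* ℂˣ, κ ≠ 1 ∧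
      ¬ (κ = a ∨ κ = a.comp c ∨ κ = (a.comp c).comp c) ∧
      ¬ (κ = b ∨ κ = b.comp c ∨ κ = (b.comp c).comp c) ∧
      ¬ (κ = c' ∨ κ = c'.comp c ∨ κ = (c'.comp c).comp c) ∧
      ¬ (κ = d ∨ κ = d.comp c ∨ κ = (d.comp c).comp c) := by
    intro a b c' d
    let l : List (P →* ℂˣ) := [1, a, a.comp c, (a.comp c).comp c, b, b.comp c, (b.comp c).comp c,
      c', c'.comp c, (c'.comp c).comp c, d, d.comp c, (d.comp c).comp c]
    have hcard : l.toFinset.card < Fintype.card (P →* ℂˣ) := by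
      calc l.toFinset.card ≤ l.length := List.toFinset_card_le l
        _ = 13 := rfl
        _ < 16 := by norm_num
        _ ≤ q := hs.q16
        _ = Fintype.card (P →* ℂˣ) := by
          rw [← Nat.card_eq_fintype_card, dual_card' hcomm, hs.card]
    obtain ⟨κ, hκ⟩ : ∃ κ, κ ∉ l.toFinset := by
      by_contra hcon
      push Not at hcon
      have : l.toFinset = Finset.univ := Finset.eq_univ_iff_forall.2 hcon
      rw [this, Finset.card_univ] at hcard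
      exact lt_irrefl _ hcard
    simp only [l, List.mem_toFinset, List.mem_cons, List.not_mem_nil, or_false, not_or] at hκ
    refine ⟨κ, hκ.1, ?_, ?_, ?_, ?_⟩ <;> simp only [not_or]
    · exact ⟨hκ.2.1, hκ.2.2.1, hκ.2.2.2.1⟩
    · exact ⟨hκ.2.2.2.2.1, hκ.2.2.2.2.2.1, hκ.2.2.2.2.2.2.1⟩
    · exact ⟨hκ.2.2.2.2.2.2.2.1, hκ.2.2.2.2.2.2.2.2.1, hκ.2.2.2.2.2.2.2.2.2.1⟩
    · exact ⟨hκ.2.2.2.2.2.2.2.2.2.2.1, hκ.2.2.2.2.2.2.2.2.2.2.2.1, hκ.2.2.2.2.2.2.2.2.2.2.2.2⟩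
  -- the character `l`
  obtain ⟨z, hzP, hz2⟩ := hs.sq
  obtain ⟨φ, hφ⟩ := dual_exists' hcomm (a := (⟨z, hzP⟩ : P) ^ 2)
    (fun h => hz2 (congrArg Subtype.val h))
  set l : P →* ℂˣ := φ ^ 2 with hl'
  have hlx : ∀ x : P, l x = φ (x ^ 2) := fun x => by rw [hl', MonoidHom.pow_apply, map_pow]
  have hl : l ≠ 1 := by
    intro h
    apply hφ
    rw [← hlx, h]; rfl
  have hl_inv : ∀ x : P, (x : G) ^ 2 = 1 → l x = 1 := by
    intro x hx
    have : x ^ 2 = 1 := Subtype.ext hx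
    rw [hlx, this, map_one]
  obtain ⟨X, hXB, hXo, hXu, hX⟩ := structure_lemma Bf f o h0mem (fun χ _ => hfpos χ)
    (fun μ : P →* ℂˣ => μ ≠ 1) (fun μ ν => μ = ν ∨ μ = ν.comp c ∨ μ = (ν.comp c).comp c) u
    hgood h3 hmany l hl
  have hY : ∀ Y ∈ Bf, Y ≠ X → u l Y ≠ 0 → ∀ μ : P →* ℂˣ, μ ≠ 1 → u μ Y = u l Y := by
    intro Y hYB hYX hYu μ hμ
    by_cases hR : μ = l ∨ μ = l.comp c ∨ μ = (l.comp c).comp c
    · rcases hR with h | h | h
      · rw [h]
      · rw [h]; exact u_comp hs u hu l Y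
      · rw [h, hc, u_comp hs u hu, u_comp hs u hu]
    · exact (hX μ hμ hR).2 Y hYB hYX hYu
  have hXv : ∀ μ : P →* ℂˣ, (u μ X : ℂ) = (u l X : ℂ) * ((if μ = l then 1 else 0) +
      (if μ = l.comp c then 1 else 0) + (if μ = (l.comp c).comp c then 1 else 0)) := by
    intro μ
    by_cases hμ : μ = 1
    · rw [hμ, u_triv u hu, if_neg hl.symm, if_neg (hs.comp_ne_one hl).symm,
        if_neg (hs.comp_ne_one (hs.comp_ne_one hl)).symm]
      simp
    by_cases hR : μ = l ∨ μ = l.comp c ∨ μ = (l.comp c).comp c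
    · rcases hR with h | h | h
      · rw [h, if_pos rfl, if_neg (hs.comp_ne hl), if_neg (hs.comp2_ne hl)]; ring
      · rw [h, if_neg (hs.comp_ne hl).symm, if_pos rfl,
          if_neg (hs.comp_ne (hs.comp_ne_one hl)), hc, u_comp hs u hu]; ring
      · rw [h, if_neg (hs.comp2_ne hl).symm, if_neg (hs.comp_ne (hs.comp_ne_one hl)).symm,
          if_pos rfl, hc, u_comp hs u hu, u_comp hs u hu]; ring
    · rw [(hX μ hμ hR).1]
      simp only [not_or] at hR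
      rw [if_neg hR.1, if_neg hR.2.1, if_neg hR.2.2]; simp
  have hYval : ∀ Y ∈ Bf, Y ≠ X → u l Y ≠ 0 → ∀ x0 : P, x0 ≠ 1 →
      (Y : G → ℂ) x0 = (u l Y : ℂ) := by
    intro Y hYB hYX hYu x0 hx0
    have h1 := value_formula hs u hu Y x0 hx0
    have e : ∀ μ : P →* ℂˣ, (u μ Y : ℂ) * ((μ x0⁻¹ : ℂˣ) : ℂ) =
        (u l Y : ℂ) * ((μ x0⁻¹ : ℂˣ) : ℂ) - (if μ = 1 then (u l Y : ℂ) else 0) := by
      intro μ
      by_cases hμ : μ = 1
      · rw [if_pos hμ, hμ, u_triv u hu]; simp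
      · rw [if_neg hμ, hY Y hYB hYX hYu μ hμ]; ring
    rw [Finset.sum_congr rfl (fun μ _ => e μ), Finset.sum_sub_distrib, ← Finset.mul_sum,
      dual_orth hcomm, if_neg (fun h => hx0 (inv_eq_one.1 h)), Finset.sum_ite_eq'] at h1
    simp only [Finset.mem_univ, if_true, mul_zero, zero_sub, neg_neg] at h1
    have h2 := congrArg conj h1
    rw [Complex.conj_conj, map_intCast] at h2
    exact h2
  -- the value of `X` at an involution
  obtain ⟨t, htP, ot⟩ := hs.inv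
  have ht1 : (⟨t, htP⟩ : P) ≠ 1 := by
    intro h
    have : t = 1 := congrArg Subtype.val h
    rw [this, orderOf_one] at ot; norm_num at ot
  have htt : t ^ 2 = 1 := by rw [← ot]; exact pow_orderOf_eq_one t
  have hsq : ∀ x : P, (x : G) ^ 2 = 1 → ((c x : P) : G) ^ 2 = 1 := by
    intro x hx
    show (σ * (x : G) * σ⁻¹) ^ 2 = 1
    rw [conj_pow, hx]; group
  have hti : (((⟨t, htP⟩ : P)⁻¹ : P) : G) ^ 2 = 1 := by
    show (t⁻¹) ^ 2 = 1
    rw [inv_pow, htt, inv_one]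
  have hXt : (X : G → ℂ) t = -3 * (u l X : ℂ) := by
    have h1 := value_formula hs u hu X ⟨t, htP⟩ ht1
    have e : ∀ μ : P →* ℂˣ, (u μ X : ℂ) * ((μ (⟨t, htP⟩ : P)⁻¹ : ℂˣ) : ℂ) =
        (if μ = l then (u l X : ℂ) * ((μ (⟨t, htP⟩ : P)⁻¹ : ℂˣ) : ℂ) else 0) +
        (if μ = l.comp c then (u l X : ℂ) * ((μ (⟨t, htP⟩ : P)⁻¹ : ℂˣ) : ℂ) else 0) +
        (if μ = (l.comp c).comp c then (u l X : ℂ) * ((μ (⟨t, htP⟩ : P)⁻¹ : ℂˣ) : ℂ) else 0) := by
      intro μ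
      rw [hXv μ]
      split_ifs <;> ring
    rw [Finset.sum_congr rfl (fun μ _ => e μ), Finset.sum_add_distrib, Finset.sum_add_distrib,
      Finset.sum_ite_eq', Finset.sum_ite_eq', Finset.sum_ite_eq'] at h1
    simp only [Finset.mem_univ, if_true, MonoidHom.comp_apply] at h1
    rw [hl_inv _ hti, hl_inv _ (hsq _ hti), hl_inv _ (hsq _ (hsq _ hti))] at h1
    have h2 := congrArg conj h1
    rw [Complex.conj_conj] at h2
    simp only [Units.val_one, mul_one, map_neg, map_add, map_intCast] at h2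
    rw [h2]; ring
  -- the support of `u l`
  obtain ⟨Y1, Y2, hY1B, hY2B, hY12, hY1o, hY2o, hY1X, hY2X, hY1u, hY2u, hzero⟩ :=
    support_four Bf (u l) h0mem hXB hXo (u_one u hu hl) hXu (hgood l hl).1
  have hsum : ∀ F : IrrCharacter G → ℂ, ∑ χ ∈ Bf, F χ * (u l χ : ℂ) =
      F o + (F X * (u l X : ℂ) + (F Y1 * (u l Y1 : ℂ) + F Y2 * (u l Y2 : ℂ))) := by
    intro F
    rw [sum_four Bf (fun χ => F χ * (u l χ : ℂ)) h0mem hXB hY1B hY2B hXo.symm hY1o.symm hY2o.symm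
      hY1X.symm hY2X.symm hY12 (fun i hi h1 h2 h3 h4 => by rw [hzero i hi h1 h2 h3 h4]; simp)]
    rw [u_one u hu hl]; simp
  have sX := pm_one (entry_bound Bf (u l) h0mem (u_one u hu hl) (hgood l hl).1 hXB) hXu
  have s1 := pm_one (entry_bound Bf (u l) h0mem (u_one u hu hl) (hgood l hl).1 hY1B) hY1u
  have s2 := pm_one (entry_bound Bf (u l) h0mem (u_one u hu hl) (hgood l hl).1 hY2B) hY2u
  have sq1 : ∀ {a : ℤ}, (a = 1 ∨ a = -1) → (a : ℂ) * a = 1 := by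
    intro a ha
    rcases ha with rfl | rfl <;> norm_num
  have E1 := deg_rel hs hM u hu l
  rw [hsum, hone, hf1, hf1, hf1] at E1
  have E1' : 1 + u l X * f X + u l Y1 * f Y1 + u l Y2 * f Y2 = 0 := by
    have : ((1 + u l X * f X + u l Y1 * f Y1 + u l Y2 * f Y2 : ℤ) : ℂ) = ((0 : ℤ) : ℂ) := by
      push_cast; linear_combination E1
    exact_mod_cast this
  have E2 : ∑ χ ∈ Bf, ((χ : G → ℂ) t * (χ : G → ℂ) t / (χ : G → ℂ) 1) * (u l χ : ℂ) = 0 :=
    weight_rel u hu Bf _ l (fun x hx => block_vanish hs hM ot x (fun h => hx (hl_inv x h)))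
  have v1 := hYval Y1 hY1B hY1X hY1u ⟨t, htP⟩ ht1
  have v2 := hYval Y2 hY2B hY2X hY2u ⟨t, htP⟩ ht1
  simp only at v1 v2
  rw [hsum, hone, hone, hf1, hf1, hf1, hXt, v1, v2] at E2
  have hd0 : (f X : ℂ) ≠ 0 := by exact_mod_cast (hfpos X).ne'
  have hf10 : (f Y1 : ℂ) ≠ 0 := by exact_mod_cast (hfpos Y1).ne'
  have hf20 : (f Y2 : ℂ) ≠ 0 := by exact_mod_cast (hfpos Y2).ne'
  have E2' : f X * f Y1 * f Y2 + 9 * u l X * f Y1 * f Y2 + u l Y1 * f X * f Y2 +
      u l Y2 * f X * f Y1 = 0 := by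
    have t1 : (-3 * (u l X : ℂ)) * (-3 * (u l X : ℂ)) / (f X : ℂ) * (u l X : ℂ) =
        9 * (u l X : ℂ) / (f X : ℂ) := by
      have e9 : (-3 * (u l X : ℂ)) * (-3 * (u l X : ℂ)) / (f X : ℂ) * (u l X : ℂ) =
          9 * (((u l X : ℂ) * (u l X : ℂ)) * (u l X : ℂ)) / (f X : ℂ) := by ring
      rw [e9, sq1 sX, one_mul]
    have t2 : (u l Y1 : ℂ) * (u l Y1 : ℂ) / (f Y1 : ℂ) * (u l Y1 : ℂ) =
        (u l Y1 : ℂ) / (f Y1 : ℂ) := by
      rw [sq1 s1]; ring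
    have t3 : (u l Y2 : ℂ) * (u l Y2 : ℂ) / (f Y2 : ℂ) * (u l Y2 : ℂ) =
        (u l Y2 : ℂ) / (f Y2 : ℂ) := by
      rw [sq1 s2]; ring
    rw [t1, t2, t3] at E2
    have h5 : ((f X * f Y1 * f Y2 + 9 * u l X * f Y1 * f Y2 + u l Y1 * f X * f Y2 +
      u l Y2 * f X * f Y1 : ℤ) : ℂ) = ((0 : ℤ) : ℂ) := by
      push_cast
      field_simp at E2
      linear_combination E2
    exact_mod_cast h5
  have hcong : ∀ Y ∈ Bf, Y ≠ X → u l Y ≠ 0 → (u l Y = 1 ∨ u l Y = -1) →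
      ∃ j : ℤ, u l Y * f Y = 1 + q * j := by
    intro Y hYB hYX hYu hpm
    obtain ⟨m, hm⟩ := sum_subgroup_nat (isCharacter_of_isIrr Y.2) P
    have e : ∀ x : P, (Y : G → ℂ) x = (u l Y : ℂ) +
        (if x = 1 then (f Y : ℂ) - (u l Y : ℂ) else 0) := by
      intro x
      by_cases hx : x = 1
      · rw [if_pos hx, hx, Subgroup.coe_one, hf1]; ring
      · rw [if_neg hx, hYval Y hYB hYX hYu x hx]; ring
    rw [Finset.sum_congr rfl (fun x _ => e x), Finset.sum_add_distrib, Finset.sum_const,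
      Finset.sum_ite_eq', Finset.card_univ, ← Nat.card_eq_fintype_card, hs.card] at hm
    simp only [Finset.mem_univ, if_true, nsmul_eq_mul] at hm
    have h6 : (q : ℤ) * u l Y + (f Y - u l Y) = q * m := by
      have : (((q : ℤ) * u l Y + (f Y - u l Y) : ℤ) : ℂ) = (((q : ℤ) * m : ℤ) : ℂ) := by
        push_cast; exact hm
      exact_mod_cast this
    have h7 : u l Y * u l Y = 1 := by rcases hpm with h | h <;> rw [h] <;> norm_num
    exact ⟨u l Y * (m - u l Y), by linear_combination u l Y * h6 + h7⟩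
  obtain ⟨j1, hj1⟩ := hcong Y1 hY1B hY1X hY1u s1
  obtain ⟨j2, hj2⟩ := hcong Y2 hY2B hY2X hY2u s2
  have hfin := arith (q := (q : ℤ)) (by exact_mod_cast hs.q16) hj1 hj2
    (arith2 sX s1 s2 E1' E2')
  have hδ : u l Y1 = 1 ∧ f Y1 = 1 := by
    have h8 := hfin.1
    have h9 := hfpos Y1
    rcases s1 with h | h
    · rw [h] at h8; exact ⟨h, by linarith⟩
    · rw [h] at h8; exfalso; linarith
  refine ⟨charKer (Y1 : G → ℂ) (isCharacter_of_isIrr Y1.2), inferInstance, ?_, ?_⟩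
  · intro h
    apply hY1o
    apply Subtype.ext
    funext g
    have hg : g ∈ charKer (Y1 : G → ℂ) (isCharacter_of_isIrr Y1.2) := h ▸ Subgroup.mem_top g
    rw [mem_charKer, hf1, hδ.2] at hg
    rw [hg, hone]; norm_num
  · intro x hx
    rw [mem_charKer]
    by_cases hx1 : (⟨x, hx⟩ : P) = 1
    · have : x = 1 := congrArg Subtype.val hx1
      rw [this]
    · have := hYval Y1 hY1B hY1X hY1u ⟨x, hx⟩ hx1
      simp only at this
      rw [this, hf1, hδ.1, hδ.2]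

end Cfsg.Agent.Lib.helper6_HomoChar
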