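import Mathlib
import Cfsg.Agent.Lib.helper6_HomoChar
import Cfsg.Agent.Lib.Helper3_PComp

/-!
# Brauer's theorem on groups with homocyclic Sylow 2-subgroups of rank two
-/

set_option autoImplicit false

namespace Cfsg.Agent.Lib.helper6_HomoFin

open Subgroup Cfsg Cfsg.Agent.Lib.helper6_Homo Cfsg.Agent.Lib.helper6_HomoChar
  Cfsg.Agent.Lib.helper6_Klein Cfsg.Agent.Lib.Helper3_PComp

universe u

variable {G : Type u} [Group G] [Finite G]

theorem centralizer_core (P : Sylow 2 G) {z₁ z₂ : G} (h : Rk2 (P : Subgroup G) z₁ z₂) {k : ℕ}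
    (hk : Nat.card (P : Subgroup G) = 2 ^ k) {z : G} (hzP : z ∈ (P : Subgroup G)) (hz1 : z ≠ 1) :
    (pPrimeCore 2 (centralizer ({z} : Set G))).index = 2 ^ k ∧
      (Nat.card (centralizer ({z} : Set G))).factorization 2 = k := by
  set C := centralizer ({z} : Set G) with hC
  have hle : (P : Subgroup G) ≤ C := fun s hs =>
    Subgroup.mem_centralizer_singleton_iff.2 (h.comm s hs z hzP)
  set P' : Sylow 2 C := P.subtype hle with hP'
  have hcard : Nat.card P' = 2 ^ k := by
    have : Nat.card ((P : Subgroup G).subgroupOf C) = Nat.card (P : Subgroup G) :=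
      Nat.card_congr (Subgroup.subgroupOfEquivOfLe hle).toEquiv
    exact this.trans hk
  have hN : normalizer ((P' : Subgroup C) : Set C) ≤ centralizer ((P' : Subgroup C) : Set C) := by
    intro n hn
    rw [Subgroup.mem_centralizer_iff]
    intro a ha
    have hnG : (n : G) ∈ normalizer ((P : Subgroup G) : Set G) := by
      apply Cfsg.Agent.Lib.Helper7_Max.mem_normalizer_of_conj_mem
      intro d hd
      have h1 : (⟨d, hle hd⟩ : C) ∈ (P' : Subgroup C) := hd
      have h2 := (Subgroup.mem_normalizer_iff.1 hn _).1 h1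
      exact h2
    have hnz : (n : G) * z * (n : G)⁻¹ = z :=
      mul_inv_eq_iff_eq_mul.2 (Subgroup.mem_centralizer_singleton_iff.1 n.2)
    have h3 := norm_fix P h hzP hz1 hnz hnG (a := (a : G)) ha
    apply Subtype.ext
    exact (mul_inv_eq_iff_eq_mul.1 h3).symm
  refine ⟨?_, ?_⟩
  · rw [index_core_of_burnside P' hN, hcard]
  · have h3 := Sylow.card_eq_multiplicity P'
    rw [hcard] at h3
    exact (Nat.pow_right_injective (le_refl 2) h3).symm

theorem hsetup (P : Sylow 2 G) (m : ℕ) (hm : 2 ≤ m)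
    (e : (P : Subgroup G) ≃* Multiplicative (ZMod (2 ^ m) × ZMod (2 ^ m)))
    (hNC : ¬ normalizer ((P : Subgroup G) : Set G) ≤ centralizer ((P : Subgroup G) : Set G)) :
    ∃ σ : G, HSetup (P : Subgroup G) σ (2 ^ (2 * m)) := by
  obtain ⟨z₁, z₂, h⟩ := rk2_of_equiv (P : Subgroup G) m (by omega) e
  obtain ⟨σ, hσ, hfix⟩ := exists_fpf P h hNC
  have hcard := card_of_equiv (P : Subgroup G) m e
  refine ⟨σ, ?_⟩
  constructor
  · exact h.comm
  · exact hcard
  · calc 16 = 2 ^ 4 := by norm_num
      _ ≤ 2 ^ (2 * m) := Nat.pow_le_pow_right (by norm_num) (by omega)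
  · intro x hx
    obtain ⟨b, hb⟩ := (IsPGroup.iff_orderOf.1 P.2) ⟨x, hx⟩
    rw [Subgroup.orderOf_mk] at hb
    exact ⟨b, hb⟩
  · intro x hx; exact conj_mem _ hσ hx
  · exact hfix
  · intro x hx; exact cube P h hσ hfix hx
  · intro x hx y hy hxy; exact fusion P h hσ hfix hx hy hxy
  · intro x hx hx1
    exact ⟨2 * m, rfl, centralizer_core P h hcard hx hx1⟩
  · rintro u x hu ⟨k, hk⟩ hinv
    exact no_invert P h.comm hu hk hinv
  · exact exists_sq_ne (P : Subgroup G) m hm e
  · exact ⟨z₁, h.m1, h.o1⟩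

theorem normal_of_normal_in (P : Sylow 2 G) {K : Subgroup G} (hK : K.Normal)
    (hPK : (P : Subgroup G) ≤ K) (hn : ((P.subtype hPK : Sylow 2 K) : Subgroup K).Normal) :
    (P : Subgroup G).Normal := by
  constructor
  intro x hx g
  have hy : g * x * g⁻¹ ∈ K := hK.conj_mem x (hPK hx) g
  obtain ⟨b, hb⟩ := (IsPGroup.iff_orderOf.1 P.2) ⟨x, hx⟩
  rw [Subgroup.orderOf_mk] at hb
  have ho : orderOf (⟨g * x * g⁻¹, hy⟩ : K) = 2 ^ b := by
    rw [Subgroup.orderOf_mk, orderOf_conj'', hb]
  obtain ⟨Q, hQ⟩ := (isPGroup_zpowers_of ho).exists_le_sylow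
  letI := Sylow.unique_of_normal (P.subtype hPK) hn
  have hQP : Q = P.subtype hPK := Subsingleton.elim _ _
  have h1 : (⟨g * x * g⁻¹, hy⟩ : K) ∈ (Q : Subgroup K) := hQ (mem_zpowers _)
  rw [hQP] at h1
  exact h1

theorem brauer_normal : ∀ (n : ℕ) (G : Type u) [Group G] [Finite G], Nat.card G = n →
    ∀ (P : Sylow 2 G) (m : ℕ), 2 ≤ m →
    ∀ (_ : (P : Subgroup G) ≃* Multiplicative (ZMod (2 ^ m) × ZMod (2 ^ m))),
    pPrimeCore 2 G = ⊥ → (P : Subgroup G).Normal := by
  intro n
  induction n using Nat.strong_induction_on with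
  | _ n ih =>
    intro G _ _ hn P m hm e hO
    by_cases hNC : normalizer ((P : Subgroup G) : Set G) ≤ centralizer ((P : Subgroup G) : Set G)
    · have hc := MonoidHom.ker_transferSylow_isComplement' P hNC
      have hK := MonoidHom.not_dvd_card_ker_transferSylow P hNC
      have hle : (MonoidHom.transferSylow P hNC).ker ≤ pPrimeCore 2 G :=
        Cfsg.Agent.Lib.Helper4_Core.le_pPrimeCore (MonoidHom.normal_ker _)
          ((Nat.Prime.coprime_iff_not_dvd Nat.prime_two).mpr hK).symm
      rw [hO, le_bot_iff] at hle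
      rw [hle, Subgroup.isComplement'_bot_left] at hc
      rw [hc]
      infer_instance
    · obtain ⟨σ, hs⟩ := hsetup P m hm e hNC
      obtain ⟨K, hKn, hKtop, hPK⟩ := hs.exists_normal
      have hlt : Nat.card K < n := by
        rw [← hn]
        have h1 := K.card_mul_index
        have h2 : K.index ≠ 1 := fun h => hKtop (Subgroup.index_eq_one.1 h)
        have h3 : K.index ≠ 0 := Subgroup.index_ne_zero_of_finite
        have h4 : 0 < Nat.card K := Nat.card_pos
        have h5 : 2 ≤ K.index := by omega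
        nlinarith
      have hOK : pPrimeCore 2 K = ⊥ := by
        rw [pPrimeCore_subgroup_eq hKn.isSubnormal, hO]
        exact Subgroup.bot_subgroupOf K
      have e' : ((P.subtype hPK : Sylow 2 K) : Subgroup K) ≃*
          Multiplicative (ZMod (2 ^ m) × ZMod (2 ^ m)) :=
        (Subgroup.subgroupOfEquivOfLe hPK).trans e
      exact normal_of_normal_in P hKn hPK (ih _ hlt K rfl (P.subtype hPK) m hm e' hOK)

theorem brauer (P : Sylow 2 G) (m : ℕ) (hm : 2 ≤ m)
    (e : (P : Subgroup G) ≃* Multiplicative (ZMod (2 ^ m) × ZMod (2 ^ m)))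
    (hO : pPrimeCore 2 G = ⊥) :
    (P : Subgroup G).Normal ∧ centralizer ((P : Subgroup G) : Set G) = (P : Subgroup G) ∧
      ((P : Subgroup G).index = 1 ∨ (P : Subgroup G).index = 3) := by
  have hn := brauer_normal _ G rfl P m hm e hO
  obtain ⟨z₁, z₂, h⟩ := rk2_of_equiv (P : Subgroup G) m (by omega) e
  set C := centralizer ((P : Subgroup G) : Set G) with hC
  have hCn : C.Normal := by rw [hC]; infer_instance
  have hle : (P : Subgroup G) ≤ C := fun a ha =>
    Subgroup.mem_centralizer_iff.2 (fun b hb => h.comm b hb a ha)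
  have hOC : pPrimeCore 2 C = ⊥ := by
    rw [pPrimeCore_subgroup_eq hCn.isSubnormal, hO]
    exact Subgroup.bot_subgroupOf C
  set P' : Sylow 2 C := P.subtype hle with hP'
  have hN : normalizer ((P' : Subgroup C) : Set C) ≤ centralizer ((P' : Subgroup C) : Set C) := by
    intro n _
    rw [Subgroup.mem_centralizer_iff]
    intro a ha
    apply Subtype.ext
    exact (Subgroup.mem_centralizer_iff.1 n.2) a ha
  have hidx := index_core_of_burnside P' hN
  rw [hOC, Subgroup.index_bot] at hidx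
  have hcard : Nat.card P' = Nat.card (P : Subgroup G) :=
    Nat.card_congr (Subgroup.subgroupOfEquivOfLe hle).toEquiv
  have hCP : C = (P : Subgroup G) :=
    (Subgroup.eq_of_le_of_card_ge hle (by rw [hidx, hcard])).symm
  refine ⟨hn, hCP, ?_⟩
  have h1 := relIndex_cases P h
  rw [← hC, hCP, Subgroup.normalizer_eq_top_iff.2 hn, Subgroup.relIndex_top_right] at h1
  exact h1

end Cfsg.Agent.Lib.helper6_HomoFin
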