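import Mathlib
import Cfsg.Agent.Lib.Helper7_Max

/-!
# Kegel's lemma on permutable conjugates
-/

set_option autoImplicit false

namespace Cfsg.Agent.Lib.helper6_Kegel
open Subgroup

variable {G : Type*} [Group G]

theorem perm_sup (A A' C S1 S2 : Subgroup G)
    (h1 : ∀ g, g ∈ S1 ↔ ∃ a ∈ A, ∃ c ∈ C, g = a * c)
    (h2 : ∀ g, g ∈ S2 ↔ ∃ a ∈ A', ∃ c ∈ C, g = a * c) :
    ∀ g, g ∈ (A ⊔ A') ⊔ C ↔ ∃ a ∈ A ⊔ A', ∃ c ∈ C, g = a * c := by
  have hA1 : A ≤ S1 := fun a ha => (h1 a).2 ⟨a, ha, 1, C.one_mem, (mul_one a).symm⟩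
  have hC1 : C ≤ S1 := fun c hc => (h1 c).2 ⟨1, A.one_mem, c, hc, (one_mul c).symm⟩
  have hA2 : A' ≤ S2 := fun a ha => (h2 a).2 ⟨a, ha, 1, C.one_mem, (mul_one a).symm⟩
  have hC2 : C ≤ S2 := fun c hc => (h2 c).2 ⟨1, A'.one_mem, c, hc, (one_mul c).symm⟩
  have key : ∀ a ∈ A ⊔ A', (∀ c ∈ C, ∃ a2 ∈ A ⊔ A', ∃ c2 ∈ C, c * a = a2 * c2) ∧
      (∀ c ∈ C, ∃ a2 ∈ A ⊔ A', ∃ c2 ∈ C, a * c = c2 * a2) := by
    intro a ha
    rw [Subgroup.sup_eq_closure] at ha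
    induction ha using Subgroup.closure_induction with
    | mem a ha =>
      rcases ha with ha | ha
      · constructor
        · intro c hc
          obtain ⟨a2, ha2, c2, hc2, e⟩ := (h1 (c * a)).1 (S1.mul_mem (hC1 hc) (hA1 ha))
          exact ⟨a2, (le_sup_left : A ≤ A ⊔ A') ha2, c2, hc2, e⟩
        · intro c hc
          obtain ⟨a2, ha2, c2, hc2, e⟩ := (h1 (c⁻¹ * a⁻¹)).1
            (S1.mul_mem (S1.inv_mem (hC1 hc)) (S1.inv_mem (hA1 ha)))
          refine ⟨a2⁻¹, (A ⊔ A').inv_mem ((le_sup_left : A ≤ A ⊔ A') ha2), c2⁻¹, C.inv_mem hc2, ?_⟩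
          rw [← mul_inv_rev, ← e]; group
      · constructor
        · intro c hc
          obtain ⟨a2, ha2, c2, hc2, e⟩ := (h2 (c * a)).1 (S2.mul_mem (hC2 hc) (hA2 ha))
          exact ⟨a2, (le_sup_right : A' ≤ A ⊔ A') ha2, c2, hc2, e⟩
        · intro c hc
          obtain ⟨a2, ha2, c2, hc2, e⟩ := (h2 (c⁻¹ * a⁻¹)).1
            (S2.mul_mem (S2.inv_mem (hC2 hc)) (S2.inv_mem (hA2 ha)))
          refine ⟨a2⁻¹, (A ⊔ A').inv_mem ((le_sup_right : A' ≤ A ⊔ A') ha2), c2⁻¹, C.inv_mem hc2, ?_⟩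
          rw [← mul_inv_rev, ← e]; group
    | one =>
      exact ⟨fun c hc => ⟨1, one_mem _, c, hc, by simp⟩, fun c hc => ⟨1, one_mem _, c, hc, by simp⟩⟩
    | mul a b _ _ iha ihb =>
      constructor
      · intro c hc
        obtain ⟨a2, ha2, c2, hc2, e⟩ := iha.1 c hc
        obtain ⟨a3, ha3, c3, hc3, e'⟩ := ihb.1 c2 hc2
        refine ⟨a2 * a3, mul_mem ha2 ha3, c3, hc3, ?_⟩
        rw [← mul_assoc, e, mul_assoc, e', mul_assoc]
      · intro c hc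
        obtain ⟨a2, ha2, c2, hc2, e⟩ := ihb.2 c hc
        obtain ⟨a3, ha3, c3, hc3, e'⟩ := iha.2 c2 hc2
        refine ⟨a3 * a2, mul_mem ha3 ha2, c3, hc3, ?_⟩
        rw [mul_assoc, e, ← mul_assoc, e', mul_assoc]
    | inv a _ iha =>
      constructor
      · intro c hc
        obtain ⟨a2, ha2, c2, hc2, e⟩ := iha.2 c⁻¹ (C.inv_mem hc)
        refine ⟨a2⁻¹, inv_mem ha2, c2⁻¹, C.inv_mem hc2, ?_⟩
        rw [← mul_inv_rev, ← e]; group
      · intro c hc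
        obtain ⟨a2, ha2, c2, hc2, e⟩ := iha.1 c⁻¹ (C.inv_mem hc)
        refine ⟨a2⁻¹, inv_mem ha2, c2⁻¹, C.inv_mem hc2, ?_⟩
        rw [← mul_inv_rev, ← e]; group
  intro g
  constructor
  · intro hg
    rw [Subgroup.sup_eq_closure] at hg
    induction hg using Subgroup.closure_induction with
    | mem g hg =>
      rcases hg with hg | hg
      · exact ⟨g, hg, 1, C.one_mem, (mul_one g).symm⟩
      · exact ⟨1, one_mem _, g, hg, (one_mul g).symm⟩
    | one => exact ⟨1, one_mem _, 1, C.one_mem, (mul_one 1).symm⟩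
    | mul g₁ g₂ _ _ ih₁ ih₂ =>
      obtain ⟨a1, ha1, c1, hc1, rfl⟩ := ih₁
      obtain ⟨a2, ha2, c2, hc2, rfl⟩ := ih₂
      obtain ⟨a3, ha3, c3, hc3, e⟩ := (key a2 ha2).1 c1 hc1
      refine ⟨a1 * a3, mul_mem ha1 ha3, c3 * c2, C.mul_mem hc3 hc2, ?_⟩
      calc a1 * c1 * (a2 * c2) = a1 * (c1 * a2) * c2 := by group
        _ = a1 * (a3 * c3) * c2 := by rw [e]
        _ = a1 * a3 * (c3 * c2) := by group
    | inv g _ ih =>
      obtain ⟨a1, ha1, c1, hc1, rfl⟩ := ih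
      obtain ⟨a3, ha3, c3, hc3, e⟩ := (key a1⁻¹ (inv_mem ha1)).1 c1⁻¹ (C.inv_mem hc1)
      exact ⟨a3, ha3, c3, hc3, by rw [mul_inv_rev, e]⟩
  · rintro ⟨a, ha, c, hc, rfl⟩
    exact mul_mem ((le_sup_left : A ⊔ A' ≤ _) ha) ((le_sup_right : C ≤ _) hc)

/-- elementwise form of the hypothesis. -/
def Hyp (A B : Subgroup G) : Prop :=
  ∀ x : G, ∃ S : Subgroup G, S ≠ ⊤ ∧ ∀ g, g ∈ S ↔ ∃ a ∈ A, ∃ c ∈ B, g = a * (x * c * x⁻¹)

theorem kegel [Finite G] (B : Subgroup G) (A : Subgroup G) (h : Hyp A B) :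
    ∃ N : Subgroup G, N.Normal ∧ N ≠ ⊤ ∧ (A ≤ N ∨ B ≤ N) := by
  induction A using WellFoundedGT.induction with
  | ind A ih =>
    by_cases hAn : A.Normal
    · obtain ⟨S, hS, hS'⟩ := h 1
      refine ⟨A, hAn, ?_, Or.inl le_rfl⟩
      intro h0
      apply hS
      rw [eq_top_iff, ← h0]
      intro a ha
      exact (hS' a).2 ⟨a, ha, 1, B.one_mem, by simp⟩
    by_cases hBn : normalClosure (B : Set G) = ⊤
    swap
    · exact ⟨normalClosure (B : Set G), inferInstance, hBn, Or.inr le_normalClosure⟩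
    -- some conjugate of `B` does not normalize `A`
    have hex : ∃ x : G, ∃ c ∈ B, x * c * x⁻¹ ∉ normalizer (A : Set G) := by
      by_contra hcon
      push Not at hcon
      apply hAn
      rw [← normalizer_eq_top_iff, eq_top_iff, ← hBn, normalClosure, closure_le]
      rintro d hd
      rw [Group.mem_conjugatesOfSet_iff] at hd
      obtain ⟨c, hc, hcd⟩ := hd
      rw [isConj_iff] at hcd
      obtain ⟨x, rfl⟩ := hcd
      exact hcon x c hc
    obtain ⟨x, c₀, hc₀, hb⟩ := hex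
    set b := x * c₀ * x⁻¹ with hbdef
    set A' : Subgroup G := A.map (MulAut.conj b).toMonoidHom with hA'
    have hmemA' : ∀ g, g ∈ A' ↔ ∃ a ∈ A, g = b * a * b⁻¹ := by
      intro g
      constructor
      · rintro ⟨a, ha, rfl⟩
        exact ⟨a, ha, rfl⟩
      · rintro ⟨a, ha, rfl⟩
        exact ⟨a, ha, rfl⟩
    have hlt : A < A ⊔ A' := by
      refine lt_of_le_of_ne le_sup_left ?_
      intro h0
      apply hb
      apply Cfsg.Agent.Lib.Helper7_Max.mem_normalizer_of_conj_mem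
      intro a ha
      rw [h0]
      exact (le_sup_right : A' ≤ _) ((hmemA' _).2 ⟨a, ha, rfl⟩)
    obtain ⟨H, hH, hH'⟩ := h x
    have hAH : A ≤ H := fun a ha => (hH' a).2 ⟨a, ha, 1, B.one_mem, by simp⟩
    have hBH : ∀ c ∈ B, x * c * x⁻¹ ∈ H := fun c hc => (hH' _).2 ⟨1, A.one_mem, c, hc, by simp⟩
    have hbH : b ∈ H := hBH c₀ hc₀
    have hA'H : A' ≤ H := by
      intro g hg
      obtain ⟨a, ha, rfl⟩ := (hmemA' g).1 hg
      exact H.mul_mem (H.mul_mem hbH (hAH ha)) (H.inv_mem hbH)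
    have hsupH : A ⊔ A' ≤ H := sup_le hAH hA'H
    have hyp : Hyp (A ⊔ A') B := by
      intro y
      set C : Subgroup G := B.map (MulAut.conj y).toMonoidHom with hC
      have hmemC : ∀ g, g ∈ C ↔ ∃ c ∈ B, g = y * c * y⁻¹ := by
        intro g
        constructor
        · rintro ⟨a, ha, rfl⟩
          exact ⟨a, ha, rfl⟩
        · rintro ⟨a, ha, rfl⟩
          exact ⟨a, ha, rfl⟩
      obtain ⟨S1, _, hS1⟩ := h y
      obtain ⟨S0, _, hS0⟩ := h (b⁻¹ * y)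
      have h1 : ∀ g, g ∈ S1 ↔ ∃ a ∈ A, ∃ c ∈ C, g = a * c := by
        intro g
        rw [hS1]
        constructor
        · rintro ⟨a, ha, c, hc, rfl⟩
          exact ⟨a, ha, _, (hmemC _).2 ⟨c, hc, rfl⟩, rfl⟩
        · rintro ⟨a, ha, c, hc, rfl⟩
          obtain ⟨c', hc', rfl⟩ := (hmemC c).1 hc
          exact ⟨a, ha, c', hc', rfl⟩
      have h2 : ∀ g, g ∈ S0.map (MulAut.conj b).toMonoidHom ↔ ∃ a ∈ A', ∃ c ∈ C, g = a * c := by
        intro g
        constructor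
        · rintro ⟨s, hs, rfl⟩
          obtain ⟨a, ha, c, hc, rfl⟩ := (hS0 s).1 hs
          refine ⟨b * a * b⁻¹, (hmemA' _).2 ⟨a, ha, rfl⟩, y * c * y⁻¹, (hmemC _).2 ⟨c, hc, rfl⟩, ?_⟩
          change b * (a * (b⁻¹ * y * c * (b⁻¹ * y)⁻¹)) * b⁻¹ = _
          group
        · rintro ⟨a, ha, c, hc, rfl⟩
          obtain ⟨a', ha', rfl⟩ := (hmemA' a).1 ha
          obtain ⟨c', hc', rfl⟩ := (hmemC c).1 hc
          refine ⟨a' * (b⁻¹ * y * c' * (b⁻¹ * y)⁻¹), (hS0 _).2 ⟨a', ha', c', hc', rfl⟩, ?_⟩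
          change b * (a' * (b⁻¹ * y * c' * (b⁻¹ * y)⁻¹)) * b⁻¹ = _
          group
      have h3 := perm_sup A A' C S1 _ h1 h2
      refine ⟨(A ⊔ A') ⊔ C, ?_, ?_⟩
      · intro htop
        -- `G = H · C`
        have hall : ∀ g : G, ∃ a ∈ H, ∃ c ∈ C, g = a * c := by
          intro g
          obtain ⟨a, ha, c, hc, e⟩ := (h3 g).1 (by rw [htop]; trivial)
          exact ⟨a, hsupH ha, c, hc, e⟩
        obtain ⟨k, hk, d, hd, e⟩ := hall (x * y⁻¹)
        -- `C ≤ H`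
        have hCH : C ≤ H := by
          intro g hg
          -- `g' = d g d⁻¹ ∈ C`, `k g' k⁻¹ ∈ B^x`
          have hg' : d⁻¹ * g * d ∈ C := C.mul_mem (C.mul_mem (C.inv_mem hd) hg) hd
          -- use `d * (d⁻¹ g d) * d⁻¹ = g`
          obtain ⟨c, hc, e2⟩ := (hmemC g).1 hg
          -- `x c' x⁻¹ = k d (y c' y⁻¹) d⁻¹ k⁻¹`
          obtain ⟨c', hc', e3⟩ := (hmemC _).1 hg'
          have e4 : x * c' * x⁻¹ = k * g * k⁻¹ := by
            have hx : x = k * d * y := by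
              rw [← e]; group
            have : x * c' * x⁻¹ = k * (d * (y * c' * y⁻¹) * d⁻¹) * k⁻¹ := by
              rw [hx]; group
            rw [this, ← e3]; group
          have h5 := hBH c' hc'
          rw [e4] at h5
          have : g = k⁻¹ * (k * g * k⁻¹) * k := by group
          rw [this]
          exact H.mul_mem (H.mul_mem (H.inv_mem hk) h5) hk
        apply hH
        rw [eq_top_iff]
        intro g _
        obtain ⟨a, ha, c, hc, rfl⟩ := hall g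
        exact H.mul_mem ha (hCH hc)
      · intro g
        rw [h3]
        constructor
        · rintro ⟨a, ha, c, hc, rfl⟩
          obtain ⟨c', hc', rfl⟩ := (hmemC c).1 hc
          exact ⟨a, ha, c', hc', rfl⟩
        · rintro ⟨a, ha, c, hc, rfl⟩
          exact ⟨a, ha, _, (hmemC _).2 ⟨c, hc, rfl⟩, rfl⟩
    obtain ⟨N, hN, hN1, hN2⟩ := ih _ hlt hyp
    exact ⟨N, hN, hN1, hN2.imp (fun h0 => le_sup_left.trans h0) id⟩

end Cfsg.Agent.Lib.helper6_Kegel
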