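import Mathlib
import Cfsg.Agent.Lib.helper6_EANormal
import Cfsg.Agent.Lib.Helper9_Metacyclic

/-!
# `Ω₁` of a non-cyclic metacyclic `p`-group, `p` odd
-/

set_option autoImplicit false

namespace Cfsg.Agent.Lib.helper6_MetaOmega
open Cfsg Subgroup

theorem omega {R : Type*} [Group R] [Finite R] {p : ℕ} [Fact p.Prime] (hp : p ≠ 2)
    (hR : IsPGroup p R) (hm : Cfsg.IsMetacyclic R) (hnc : ¬ IsCyclic R) :
    Cfsg.IsElementaryAbelian p (Subgroup.closure {x : R | x ^ p = 1}) ∧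
      Nat.card (Subgroup.closure {x : R | x ^ p = 1}) = p ^ 2 := by
  have h1 : ¬ IsCyclic (⊤ : Subgroup R) := by
    intro h
    exact hnc (isCyclic_of_surjective (Subgroup.topEquiv : (⊤ : Subgroup R) ≃* R)
      Subgroup.topEquiv.surjective)
  obtain ⟨A, -, -, ⟨hAc, hAe⟩, hAcard⟩ := Cfsg.Agent.Lib.helper6_EANormal.main hp _ R rfl hR ⊤ h1
  have hle : A ≤ Subgroup.closure {x : R | x ^ p = 1} :=
    fun a ha => Subgroup.subset_closure (hAe a ha)
  have hd := Cfsg.Agent.Lib.Helper9_Metacyclic.card_omega_dvd hp hR hm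
  have hpos : 0 < p ^ 2 := pow_pos (Fact.out : p.Prime).pos 2
  have heq : A = Subgroup.closure {x : R | x ^ p = 1} :=
    Subgroup.eq_of_le_of_card_ge hle (by rw [hAcard]; exact Nat.le_of_dvd hpos hd)
  rw [← heq]
  exact ⟨⟨hAc, hAe⟩, hAcard⟩

end Cfsg.Agent.Lib.helper6_MetaOmega
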