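import Mathlib
import Cfsg.Agent.Lib.helper6_QuatChar

/-!
# Brauer–Suzuki for generalized quaternion Sylow 2-subgroups of order at least 16
-/

set_option autoImplicit false

namespace Cfsg.Agent.Lib.helper6_QuatFin

open Subgroup Cfsg.Agent.Lib.helper6_QuatSyl Cfsg.Agent.Lib.helper6_QuatInv
  Cfsg.Agent.Lib.helper6_QuatChar Cfsg.Agent.Lib.helper6_Sylow
open scoped commutatorElement

universe u

theorem qdata_subgroupOf {G : Type*} [Group G] {S : Subgroup G} {m : ℕ} {x y : G}
    (h : QData S m x y) (H : Subgroup G) (hSH : S ≤ H) :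
    QData (S.subgroupOf H) m (⟨x, hSH h.hx⟩ : H) (⟨y, hSH h.hy⟩ : H) where
  hx := h.hx
  hy := h.hy
  ox := by
    rw [← Subgroup.orderOf_coe]; exact h.ox
  inv := Subtype.ext h.inv
  sq := Subtype.ext h.sq
  cover := by
    intro s hs
    rcases h.cover s hs with ⟨k, hk⟩ | ⟨k, hk⟩
    · exact Or.inl ⟨k, Subtype.ext hk⟩
    · exact Or.inr ⟨k, Subtype.ext hk⟩
  card := by
    rw [Nat.card_congr (Subgroup.subgroupOfEquivOfLe hSH).toEquiv]; exact h.card
  pos := h.pos

theorem normal_closure_invol {G : Type*} [Group G] :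
    (closure {g : G | orderOf g = 2}).Normal := by
  constructor
  intro n hn g
  have : closure {g : G | orderOf g = 2} ≤
      (closure {g : G | orderOf g = 2}).comap (MulAut.conj g).toMonoidHom := by
    rw [closure_le]
    intro a ha
    apply Subgroup.subset_closure
    exact (orderOf_injective (MulAut.conj g).toMonoidHom (MulAut.conj g).injective a).trans ha
  exact this hn

variable {G : Type u} [Group G] [Finite G]

/-- A normal subgroup with nonabelian quotient containing all involutions. -/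
theorem exists_normal_invol {S : Sylow 2 G} {n : ℕ} {x y : G}
    (h : QData (S : Subgroup G) (2 ^ (n + 2)) x y) :
    ∃ M : Subgroup G, M.Normal ∧ (∀ a : G, orderOf a = 2 → a ∈ M) ∧ ¬ commutator G ≤ M := by
  haveI := Fintype.ofFinite G
  obtain ⟨M, hM, ht, hc⟩ := exists_normal_even h
  refine ⟨M, hM, ?_, hc⟩
  intro a oa
  obtain ⟨k, hk⟩ := invol_conj S (x ^ 2 ^ (n + 2)) (fun s hs => h.invol_eq hs) oa
  have h1 : a = k⁻¹ * (x ^ 2 ^ (n + 2)) * k⁻¹⁻¹ := by rw [← hk]; group
  rw [h1]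
  exact hM.conj_mem _ ht _

/-- Relative version. -/
theorem exists_invol_rel {S : Sylow 2 G} {n : ℕ} {x y : G}
    (h : QData (S : Subgroup G) (2 ^ (n + 2)) x y) (H : Subgroup G) (hSH : (S : Subgroup G) ≤ H) :
    ∃ M : Subgroup G, (∀ a ∈ H, orderOf a = 2 → a ∈ M) ∧ ¬ ⁅H, H⁆ ≤ M := by
  have h' := qdata_subgroupOf h H hSH
  have h'' : QData ((S.subtype hSH : Sylow 2 H) : Subgroup H) (2 ^ (n + 2))
    (⟨x, hSH h.hx⟩ : H) (⟨y, hSH h.hy⟩ : H) := h'
  obtain ⟨M, -, hinv, hc⟩ := exists_normal_invol h''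
  refine ⟨M.map H.subtype, ?_, ?_⟩
  · intro a ha oa
    refine ⟨⟨a, ha⟩, hinv _ ?_, rfl⟩
    rw [← Subgroup.orderOf_coe]; exact oa
  · intro hle
    apply hc
    have h1 : (commutator H).map H.subtype = ⁅H, H⁆ := by
      rw [commutator_def, Subgroup.map_commutator, ← MonoidHom.range_eq_map, Subgroup.range_subtype]
    rw [← h1] at hle
    exact (Subgroup.map_le_map_iff_of_injective H.subtype_injective).1 hle

theorem commutator_sup_le (L S : Subgroup G) [hL : L.Normal] : ⁅L ⊔ S, L ⊔ S⁆ ≤ ⁅S, S⁆ ⊔ L := by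
  set φ := QuotientGroup.mk' L with hφ
  have h1 : (L ⊔ S).map φ = S.map φ := by
    rw [Subgroup.map_sup]
    have : L.map φ = ⊥ := by
      rw [Subgroup.map_eq_bot_iff, QuotientGroup.ker_mk']
    rw [this, bot_sup_eq]
  have h2 : (⁅L ⊔ S, L ⊔ S⁆).map φ = (⁅S, S⁆).map φ := by
    rw [Subgroup.map_commutator, Subgroup.map_commutator, h1]
  have h3 : ⁅L ⊔ S, L ⊔ S⁆ ≤ ((⁅L ⊔ S, L ⊔ S⁆).map φ).comap φ := Subgroup.le_comap_map _ _
  rw [h2, Subgroup.comap_map_eq, QuotientGroup.ker_mk'] at h3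
  exact h3

theorem sq_not_mem_closure {S : Sylow 2 G} {n : ℕ} {x y : G}
    (h : QData (S : Subgroup G) (2 ^ (n + 2)) x y) :
    x ^ 2 ∉ closure {g : G | orderOf g = 2} := by
  intro hx2
  set L := closure {g : G | orderOf g = 2} with hL
  haveI : L.Normal := normal_closure_invol
  obtain ⟨M, hinv, hc⟩ := exists_invol_rel h (L ⊔ S) le_sup_right
  apply hc
  have hLM : L ≤ M := by
    rw [hL, closure_le]
    intro a ha
    exact hinv a ((le_sup_left : L ≤ L ⊔ S) (Subgroup.subset_closure ha)) ha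
  refine (commutator_sup_le L S).trans ?_
  rw [h.commutator_eq]
  refine sup_le ?_ hLM
  rw [zpowers_le]
  exact hLM hx2

theorem inf_closure_le {S : Sylow 2 G} {n : ℕ} {x y : G}
    (h : QData (S : Subgroup G) (2 ^ (n + 2)) x y) :
    (S : Subgroup G) ⊓ closure {g : G | orderOf g = 2} ≤ zpowers x := by
  set L := closure {g : G | orderOf g = 2} with hL
  haveI hLn : L.Normal := normal_closure_invol
  intro s hs
  rcases h.cover s hs.1 with ⟨k, rfl⟩ | ⟨k, rfl⟩
  · exact pow_mem (mem_zpowers x) k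
  · exfalso
    apply sq_not_mem_closure h
    have h1 : x * (y * x ^ k) * x⁻¹ ∈ L := hLn.conj_mem _ hs.2 x
    have h2 := L.mul_mem h1 (L.inv_mem hs.2)
    have h3 : y * x⁻¹ * y⁻¹ = x := by
      have := congrArg (fun z => z⁻¹) h.inv
      simpa [mul_assoc] using this
    have h4 : x * (y * x ^ k) * x⁻¹ * (y * x ^ k)⁻¹ = x ^ 2 := by
      have : x * (y * x ^ k) * x⁻¹ * (y * x ^ k)⁻¹ = x * (y * x⁻¹ * y⁻¹) := by
        have hc : x ^ k * x⁻¹ = x⁻¹ * x ^ k := ((Commute.refl x).pow_left k).inv_right.eq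
        calc x * (y * x ^ k) * x⁻¹ * (y * x ^ k)⁻¹
            = x * y * (x ^ k * x⁻¹) * (x ^ k)⁻¹ * y⁻¹ := by group
          _ = x * (y * x⁻¹ * y⁻¹) := by rw [hc]; group
      rw [this, h3, pow_two]
    rw [h4] at h2
    exact h2

theorem sylow_closure_cyclic {S : Sylow 2 G} {n : ℕ} {x y : G}
    (h : QData (S : Subgroup G) (2 ^ (n + 2)) x y)
    (L : Subgroup G) (hL : L = closure {g : G | orderOf g = 2})
    (Q : Sylow 2 L) : IsCyclic Q := by
  haveI hLn : L.Normal := hL ▸ normal_closure_invol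
  have hQ' : IsPGroup 2 ((Q : Subgroup L).map L.subtype) := Q.2.map _
  obtain ⟨R, hR⟩ := hQ'.exists_le_sylow
  obtain ⟨k, hk⟩ := sylow_conj S R
  have hmem : ∀ q : Q, k * ((q : L) : G) * k⁻¹ ∈ zpowers x := by
    intro q
    apply inf_closure_le h
    refine ⟨hk _ (hR ⟨q, q.2, rfl⟩), hL ▸ hLn.conj_mem _ (q : L).2 k⟩
  let ψ : Q →* zpowers x := MonoidHom.mk' (fun q => ⟨k * ((q : L) : G) * k⁻¹, hmem q⟩) (by
    intro a b
    apply Subtype.ext
    simp only [Subgroup.coe_mul]
    group)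
  have hinj : Function.Injective ψ := by
    intro a b hab
    have h1 : k * ((a : L) : G) * k⁻¹ = k * ((b : L) : G) * k⁻¹ := congrArg Subtype.val hab
    have h2 : ((a : L) : G) = ((b : L) : G) := by simpa using h1
    exact Subtype.ext (Subtype.ext h2)
  exact isCyclic_of_injective ψ hinj


/-- If the Sylow 2-subgroups have a unique involution, the subgroup generated by the involutions
has cyclic Sylow 2-subgroups and `O(G) = 1`, then `G` has a unique involution. -/
theorem unique_invol_of_cyclic (S : Sylow 2 G) (t : G)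
    (hS : ∀ s ∈ (S : Subgroup G), orderOf s = 2 → s = t) (ot : orderOf t = 2)
    (L : Subgroup G) (hL : L = closure {g : G | orderOf g = 2})
    (hcyc : ∀ Q : Sylow 2 L, IsCyclic Q)
    (hO : ∀ N : Subgroup G, N.Normal → Odd (Nat.card N) → N = ⊥) :
    ∀ a : G, orderOf a = 2 → a = t := by
  haveI hLn : L.Normal := hL ▸ normal_closure_invol
  have hmemL : ∀ a : G, orderOf a = 2 → a ∈ L := by
    intro a oa
    rw [hL]; exact Subgroup.subset_closure oa
  obtain ⟨P⟩ : Nonempty (Sylow 2 L) := inferInstance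
  have heven : Even (Nat.card L) := by
    rw [even_iff_two_dvd]
    have h1 : orderOf (⟨t, hmemL t ot⟩ : L) = 2 := by
      rw [← Subgroup.orderOf_coe]; exact ot
    rw [← h1]
    exact orderOf_dvd_natCard _
  obtain ⟨V, -, -, hVodd⟩ := exists_transfer P (hcyc P) heven
  have hP2 : ∀ l : L, ∃ j : ℕ, (V l) ^ 2 ^ j = 1 := fun l => P.2 (V l)
  have hKn : (V.ker.map L.subtype).Normal := by
    constructor
    rintro _ ⟨k, hk, rfl⟩ g
    have hmem : g * (k : G) * g⁻¹ ∈ L := hLn.conj_mem _ k.2 g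
    refine ⟨⟨_, hmem⟩, ?_, rfl⟩
    show (⟨_, hmem⟩ : L) ∈ V.ker
    rw [MonoidHom.mem_ker]
    have o1 : orderOf (⟨_, hmem⟩ : L) = orderOf k := by
      rw [← Subgroup.orderOf_coe, ← Subgroup.orderOf_coe]
      exact orderOf_conj' g (k : G)
    have o2 : orderOf k ∣ Nat.card V.ker := by
      have : orderOf (⟨k, hk⟩ : V.ker) = orderOf k := by
        rw [← Subgroup.orderOf_coe]
      rw [← this]; exact orderOf_dvd_natCard _
    have e1 : V ⟨_, hmem⟩ ^ Nat.card V.ker = 1 := by
      rw [← map_pow]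
      have : (⟨_, hmem⟩ : L) ^ Nat.card V.ker = 1 := by
        rw [← orderOf_dvd_iff_pow_eq_one, o1]; exact o2
      rw [this, map_one]
    obtain ⟨j, hj⟩ := hP2 ⟨_, hmem⟩
    have hcop : Nat.gcd (Nat.card V.ker) (2 ^ j) = 1 :=
      Nat.Coprime.pow_right j
        (Nat.coprime_comm.1 ((Nat.Prime.coprime_iff_not_dvd Nat.prime_two).2 hVodd))
    have h3 := pow_gcd_eq_one.2 ⟨e1, hj⟩
    rwa [hcop, pow_one] at h3
  have hKodd : Odd (Nat.card (V.ker.map L.subtype)) := by
    rw [Subgroup.card_map_of_injective L.subtype_injective]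
    exact Nat.odd_iff.2 (Nat.two_dvd_ne_zero.1 hVodd)
  have hK := hO _ hKn hKodd
  rw [Subgroup.map_eq_bot_iff_of_injective _ L.subtype_injective] at hK
  have hL2 : IsPGroup 2 L := by
    intro l
    obtain ⟨j, hj⟩ := hP2 l
    refine ⟨j, ?_⟩
    rw [← map_pow] at hj
    have : l ^ 2 ^ j ∈ V.ker := hj
    rw [hK] at this
    exact this
  intro a oa
  exact eq_of_mem_two_subgroup S t hS L hL2 (hmemL a oa) (hmemL t ot) oa ot

/-- A central element of a group with `O(G) = 1` is a 2-element. -/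
theorem central_two_element (hO : ∀ N : Subgroup G, N.Normal → Odd (Nat.card N) → N = ⊥)
    {z : G} (hz : z ∈ center G) : ∃ j : ℕ, z ^ 2 ^ j = 1 := by
  obtain ⟨j, r, hr, ho⟩ := Nat.exists_eq_two_pow_mul_odd (orderOf_pos z).ne'
  refine ⟨j, ?_⟩
  have hzc : z ^ 2 ^ j ∈ center G := pow_mem hz _
  have hn : (zpowers (z ^ 2 ^ j)).Normal := by
    constructor
    intro d hd g
    obtain ⟨i, rfl⟩ := mem_zpowers_iff.1 hd
    have h1 : (z ^ 2 ^ j) ^ i ∈ center G := zpow_mem hzc i
    have h2 : g * (z ^ 2 ^ j) ^ i * g⁻¹ = (z ^ 2 ^ j) ^ i := by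
      rw [mul_inv_eq_iff_eq_mul]; exact (mem_center_iff.1 h1 g)
    rw [h2]; exact hd
  have hodd : Odd (Nat.card (zpowers (z ^ 2 ^ j))) := by
    rw [Nat.card_zpowers, orderOf_pow' z (by positivity), ho,
      Nat.gcd_eq_right (Dvd.intro _ rfl), Nat.mul_div_cancel_left _ (by positivity)]
    exact hr
  have := hO _ hn hodd
  rwa [zpowers_eq_bot] at this

theorem center_card {S : Sylow 2 G} {n : ℕ} {x y : G}
    (h : QData (S : Subgroup G) (2 ^ (n + 2)) x y)
    (hO : ∀ N : Subgroup G, N.Normal → Odd (Nat.card N) → N = ⊥) :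
    Nat.card (center G) = 2 := by
  set t := x ^ (2 ^ (n + 2)) with ht
  have ot : orderOf t = 2 := h.orderOf_xm
  have hS : ∀ s ∈ (S : Subgroup G), orderOf s = 2 → s = t := fun s hs => h.invol_eq hs
  have huniq := unique_invol_of_cyclic S t hS ot _ rfl (fun Q => sylow_closure_cyclic h _ rfl Q) hO
  have h4 : 2 ^ 2 ≤ 2 ^ (n + 2) := Nat.pow_le_pow_right (by norm_num) (by omega)
  have htc : t ∈ center G := by
    rw [mem_center_iff]
    intro g
    have := huniq (g * t * g⁻¹) ((orderOf_conj' g t).trans ot)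
    exact mul_inv_eq_iff_eq_mul.1 this
  have hc : center G = zpowers t := by
    apply le_antisymm
    · intro z hz
      obtain ⟨j, hj⟩ := central_two_element hO hz
      have hzp : IsPGroup 2 (zpowers z) := by
        have h1 : orderOf z ∣ 2 ^ j := orderOf_dvd_of_pow_eq_one hj
        obtain ⟨i, -, hi⟩ := (Nat.dvd_prime_pow Nat.prime_two).1 h1
        exact IsPGroup.of_card (n := i) (by rw [Nat.card_zpowers, hi])
      obtain ⟨Q, hQ⟩ := hzp.exists_le_sylow
      obtain ⟨k, hk⟩ := sylow_conj S Q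
      have hzS : z ∈ (S : Subgroup G) := by
        have h1 := hk z (hQ (mem_zpowers z))
        have h2 : k * z * k⁻¹ = z := by
          rw [mul_inv_eq_iff_eq_mul]; exact (mem_center_iff.1 hz k)
        rwa [h2] at h1
      have hsq : z * z = 1 :=
        h.center_sq (by omega) hzS (mem_center_iff.1 hz x).symm (mem_center_iff.1 hz y).symm
      rcases h.unique_invol hzS hsq with h1 | h1
      · rw [h1]; exact one_mem _
      · rw [h1]; exact mem_zpowers _
    · rw [zpowers_le]; exact htc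
  rw [hc, Nat.card_zpowers, ot]

end Cfsg.Agent.Lib.helper6_QuatFin
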