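import Mathlib
import Cfsg.Agent.Lib.Helper7_ZStar
import Cfsg.Agent.Lib.helper6_QuatFin

/-!
# The principal 2-block of a group with quaternion Sylow 2-subgroups of order 8
-/

set_option autoImplicit false

namespace Cfsg.Agent.Lib.helper6_Q8Block

open Cfsg Cfsg.Agent.Lib.Helper2_Basic Cfsg.Agent.Lib.Helper7_ZS1 Cfsg.Agent.Lib.Helper7_ZS4
  Cfsg.Agent.Lib.Helper7_ZS5 Cfsg.Agent.Lib.Helper2_Isolated Cfsg.Agent.Lib.Helper3_Core
  Cfsg.Agent.Lib.Helper3_PComp Cfsg.Agent.Lib.Helper7_ZS6 Cfsg.Agent.Lib.Helper7_ZS7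
  Cfsg.Agent.Lib.Helper7_ZS8

open scoped commutatorElement

universe u

variable {G : Type u} [Group G]

section fusion

variable [Finite G] (S : Sylow 2 G) {t : G} (htS : t ∈ S) (h : Q8Like (⟨t, htS⟩ : S))

include h in
theorem exists_fused' (hperf : (S : Subgroup G) ≤ commutator G) (v : S) (hv : v * v = ⟨t, htS⟩) :
    ∃ w : S, w ∉ Subgroup.zpowers v ∧ IsConj (v : G) (w : G) := by
  by_contra hcon
  push Not at hcon
  have hcon' : ∀ w : S, IsConj (v : G) (w : G) → w ∈ Subgroup.zpowers v := by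
    intro w hw
    by_contra h1
    exact hcon w h1 hw
  have K : ∀ a : S, a ∈ Subgroup.zpowers v → ∀ (u : G) (hu : u * (a : G) * u⁻¹ ∈ S),
      (⟨u * (a : G) * u⁻¹, hu⟩ : S) ∈ Subgroup.zpowers v := by
    intro a ha u hu
    rcases h.mem_cases hv ha with rfl | rfl | rfl | rfl
    · have : (⟨u * ((1 : S) : G) * u⁻¹, hu⟩ : S) = 1 := by
        apply Subtype.ext; simp
      rw [this]; exact Subgroup.one_mem _
    · have : (⟨u * ((⟨t, htS⟩ : S) : G) * u⁻¹, hu⟩ : S) = ⟨t, htS⟩ := by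
        apply Subtype.ext
        exact conj_t_eq S htS h hu
      rw [this]; exact Q8Like.z_mem hv
    · exact hcon' _ (isConj_iff.mpr ⟨u, rfl⟩)
    · have hu' : u * (v : G) * u⁻¹ ∈ S := by
        have h0 := S.inv_mem hu
        have e : (u * ((v⁻¹ : S) : G) * u⁻¹)⁻¹ = u * (v : G) * u⁻¹ := by
          simp [mul_assoc]
        rw [e] at h0
        exact h0
      have h1 := hcon' ⟨_, hu'⟩ (isConj_iff.mpr ⟨u, rfl⟩)
      have : (⟨u * ((v⁻¹ : S) : G) * u⁻¹, hu⟩ : S) = (⟨u * (v : G) * u⁻¹, hu'⟩ : S)⁻¹ := by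
        apply Subtype.ext; simp [mul_assoc]
      rw [this]; exact Subgroup.inv_mem _ h1
  have hfoc : Subgroup.focalSubgroup (S : Subgroup G) ≤ (Subgroup.zpowers v).map (S : Subgroup G).subtype := by
    rw [Subgroup.focalSubgroup_def, Subgroup.closure_le]
    rintro g ⟨hgS, x, hxS, u, rfl⟩
    have hy : u * x⁻¹ * u⁻¹ ∈ S := by
      have := S.mul_mem (S.inv_mem hxS) hgS
      have e : x⁻¹ * ⁅x, u⁆ = u * x⁻¹ * u⁻¹ := by rw [commutatorElement_def]; group
      rwa [e] at this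
    refine ⟨(⟨x, hxS⟩ : S) * ⟨u * x⁻¹ * u⁻¹, hy⟩, ?_, ?_⟩
    · rw [SetLike.mem_coe, Subgroup.mul_mem_iff_of_index_two (h.index_two hv)]
      constructor
      · intro h1
        exact K (⟨x, hxS⟩ : S)⁻¹ (Subgroup.inv_mem _ h1) u hy
      · intro h1
        have hu : u⁻¹ * ((⟨u * x⁻¹ * u⁻¹, hy⟩ : S) : G) * u⁻¹⁻¹ ∈ S := by
          have e : u⁻¹ * (u * x⁻¹ * u⁻¹) * u⁻¹⁻¹ = x⁻¹ := by group
          rw [e]; exact S.inv_mem hxS
        have h2 := K _ h1 u⁻¹ hu
        have e : (⟨u⁻¹ * ((⟨u * x⁻¹ * u⁻¹, hy⟩ : S) : G) * u⁻¹⁻¹, hu⟩ : S) = (⟨x, hxS⟩ : S)⁻¹ := by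
          apply Subtype.ext
          show u⁻¹ * (u * x⁻¹ * u⁻¹) * u⁻¹⁻¹ = x⁻¹
          group
        rw [e] at h2
        simpa using Subgroup.inv_mem _ h2
    · show x * (u * x⁻¹ * u⁻¹) = ⁅x, u⁆
      rw [commutatorElement_def]; group
  obtain ⟨x, hx⟩ := h.exists_not_mem hv
  have h1 : (x : G) ∈ Subgroup.focalSubgroup (S : Subgroup G) := by
    rw [← Subgroup.commutator_inf_eq_focalSubgroup]
    exact ⟨hperf x.2, x.2⟩
  obtain ⟨y, hy, hyx⟩ := hfoc h1
  have : y = x := Subtype.ext hyx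
  exact hx (this ▸ hy)

include h in
theorem all_fused' (hperf : (S : Subgroup G) ≤ commutator G) (v y : S) (hv : v * v = ⟨t, htS⟩)
    (hy : y * y = ⟨t, htS⟩) : IsConj (v : G) (y : G) := by
  obtain ⟨w, hw, hvw⟩ := exists_fused' S htS h hperf v hv
  have hww := h.sq_of_not_mem hv hw
  have main : ∀ y' : S, y' * y' = ⟨t, htS⟩ →
      (y' ∈ Subgroup.zpowers v ∨ y' ∈ Subgroup.zpowers w) → IsConj (v : G) (y' : G) := by
    intro y' hy' hor
    rcases hor with h1 | h1
    · exact fused_of_mem S htS h hv hy' h1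
    · exact hvw.trans (fused_of_mem S htS h hww hy' h1)
  by_cases h1 : y ∈ Subgroup.zpowers v
  · exact main y hy (Or.inl h1)
  by_cases h2 : y ∈ Subgroup.zpowers w
  · exact main y hy (Or.inr h2)
  obtain ⟨y', hy', hyy'⟩ := exists_fused' S htS h hperf y hy
  have hy's := h.sq_of_not_mem hy hy'
  refine (main y' hy's ?_).trans hyy'.symm
  by_contra hcon
  push Not at hcon
  obtain ⟨h3, h4⟩ := hcon
  have h5 : y⁻¹ * y' ∈ Subgroup.zpowers v := by
    rw [Subgroup.mul_mem_iff_of_index_two (h.index_two hv), Subgroup.inv_mem_iff]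
    exact ⟨fun a => absurd a h1, fun a => absurd a h3⟩
  have h6 : y⁻¹ * y' ∈ Subgroup.zpowers w := by
    rw [Subgroup.mul_mem_iff_of_index_two (h.index_two hww), Subgroup.inv_mem_iff]
    exact ⟨fun a => absurd a h2, fun a => absurd a h4⟩
  have hvw' : v ∉ Subgroup.zpowers w := by
    intro h7
    obtain ⟨k, hk⟩ := Subgroup.mem_zpowers_iff.mp h7
    apply hw
    apply h.mem_of_commute hv
    rw [← hk]
    exact (Commute.refl w).zpow_right k
  rcases h.mem_cases hv h5 with h7 | h7 | h7 | h7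
  · apply hy'
    rw [← inv_mul_eq_one.mp h7]
    exact Subgroup.mem_zpowers y
  · apply hy'
    have : y' = y * ⟨t, htS⟩ := by rw [← h7]; group
    rw [this]
    exact Subgroup.mul_mem _ (Subgroup.mem_zpowers y) (Q8Like.z_mem hy)
  · exact hvw' (h7 ▸ h6)
  · apply hvw'
    have := Subgroup.inv_mem _ h6
    rw [h7, inv_inv] at this
    exact this

end fusion


section setup

open Subgroup Cfsg.Agent.Lib.helper6_QuatSyl Cfsg.Agent.Lib.helper6_QuatInv
  Cfsg.Agent.Lib.helper6_Sylow Cfsg.Agent.Lib.Helper7_ZS9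

theorem q8like_proper_cyclic {Q : Type*} [Group Q] {z : Q} (h : Q8Like z) (T : Subgroup Q)
    (hT : T ≠ ⊤) : IsCyclic T := by
  haveI : Finite Q := Nat.finite_of_card_ne_zero (by rw [h.card]; norm_num)
  by_cases hex : ∃ w ∈ T, w * w = z
  · obtain ⟨w, hw, hww⟩ := hex
    have hle : zpowers w ≤ T := zpowers_le.2 hw
    have hTe : T = zpowers w := by
      have h1 := Subgroup.relIndex_mul_index hle
      rw [h.index_two hww] at h1
      have h2 : T.index ≠ 1 := fun h0 => hT (Subgroup.index_eq_one.1 h0)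
      have h3 : (zpowers w).relIndex T = 1 := by
        have h4 : (zpowers w).relIndex T ∣ 2 := Dvd.intro _ h1
        rcases (Nat.Prime.eq_one_or_self_of_dvd Nat.prime_two _ h4) with h5 | h5
        · exact h5
        · exfalso
          rw [h5] at h1
          omega
      exact le_antisymm (Subgroup.relIndex_eq_one.1 h3) hle
    subst hTe
    infer_instance
  · push Not at hex
    have hle : T ≤ zpowers z := by
      intro x hx
      rcases h.el x with h1 | h1 | h1
      · rw [h1]; exact one_mem _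
      · rw [h1]; exact mem_zpowers _
      · exact absurd h1 (hex x hx)
    exact isCyclic_of_injective (Subgroup.inclusion hle) (Subgroup.inclusion_injective hle)

variable [Finite G]

theorem core_eq_bot (hO : ∀ N : Subgroup G, N.Normal → Odd (Nat.card N) → N = ⊥) :
    pPrimeCore 2 G = ⊥ :=
  hO _ (rad_normal (fitClass_coprime 2)) ((Nat.coprime_two_right).mp (pPrimeCore_coprime 2 G))

theorem sylow_le_commutator (S : Sylow 2 G) {t : G} (htS : t ∈ S)
    (h : Q8Like (⟨t, htS⟩ : S)) (hcore : pPrimeCore 2 G = ⊥) (hG : (S : Subgroup G) ≠ ⊤) :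
    (S : Subgroup G) ≤ commutator G := by
  by_contra hcon
  obtain ⟨s, hsS, hsD⟩ := SetLike.not_le_iff_exists.1 hcon
  apply hG
  let φ : G →* Abelianization G := Abelianization.of
  obtain ⟨k, m, hm, hA⟩ := Nat.exists_eq_two_pow_mul_odd (Nat.card_pos (α := Abelianization G)).ne'
  let ψ : Abelianization G →* Abelianization G := powMonoidHom m
  set N := (ψ.comp φ).ker with hN
  have hNn : N.Normal := MonoidHom.normal_ker _
  have hmemN : ∀ g, g ∈ N ↔ φ g ^ m = 1 := fun g => MonoidHom.mem_ker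
  have h1 : ∀ g : G, g ^ 2 ^ k ∈ N := by
    intro g
    rw [hmemN, map_pow, ← pow_mul, ← hA]
    exact pow_card_eq_one'
  have h2 : s ∉ N := by
    intro hs
    rw [hmemN] at hs
    have h8 : φ s ^ 8 = 1 := by
      rw [← map_pow]
      have h9 : s ^ 8 = 1 := by
        have h10 := pow_card_eq_one' (x := (⟨s, hsS⟩ : S))
        rw [h.card] at h10
        exact congrArg Subtype.val h10
      rw [h9, map_one]
    have hcop : Nat.gcd m 8 = 1 :=
      (Nat.Coprime.pow_right 3 (Nat.coprime_two_right.2 hm) : Nat.Coprime m (2 ^ 3))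
    have h11 := pow_gcd_eq_one.2 ⟨hs, h8⟩
    rw [hcop, pow_one] at h11
    apply hsD
    rw [← Abelianization.ker_of]
    exact h11
  have hT : N.subgroupOf (S : Subgroup G) ≠ ⊤ := by
    intro h0
    apply h2
    have h3 : (⟨s, hsS⟩ : S) ∈ N.subgroupOf (S : Subgroup G) := by rw [h0]; trivial
    exact h3
  have hTc : IsCyclic (N.subgroupOf (S : Subgroup G)) := q8like_proper_cyclic h _ hT
  obtain ⟨P⟩ : Nonempty (Sylow 2 N) := inferInstance
  have hPc : IsCyclic P := by
    have hQ' : IsPGroup 2 ((P : Subgroup N).map N.subtype) := P.2.map _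
    obtain ⟨R, hR⟩ := hQ'.exists_le_sylow
    obtain ⟨k', hk'⟩ := Cfsg.Agent.Lib.helper6_Sylow.sylow_conj S R
    let ψ' : P →* N.subgroupOf (S : Subgroup G) := MonoidHom.mk'
      (fun q => ⟨⟨k' * ((q : N) : G) * k'⁻¹, hk' _ (hR ⟨q, q.2, rfl⟩)⟩,
        hNn.conj_mem _ (q : N).2 k'⟩) (by
      intro a b
      apply Subtype.ext
      apply Subtype.ext
      simp only [Subgroup.coe_mul]
      group)
    have hinj : Function.Injective ψ' := by
      intro a b hab
      have e1 : k' * ((a : N) : G) * k'⁻¹ = k' * ((b : N) : G) * k'⁻¹ :=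
        congrArg (fun z => ((z : (S : Subgroup G)) : G)) (congrArg Subtype.val hab)
      have e2 : ((a : N) : G) = ((b : N) : G) := by simpa using e1
      exact Subtype.ext (Subtype.ext e2)
    exact isCyclic_of_injective ψ' hinj
  have hcoreN : pPrimeCore 2 N = ⊥ := by
    have h3 : (pPrimeCore 2 N).map N.subtype ≤ pPrimeCore 2 G :=
      rad_normal_le (fitClass_coprime 2) N
    rw [hcore] at h3
    exact (Subgroup.map_eq_bot_iff_of_injective _ N.subtype_injective).1 (le_bot_iff.1 h3)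
  have hN2 : IsPGroup 2 N := by
    by_cases h2N : 2 ∣ Nat.card N
    · have h3 := index_core_of_cyclic h2N P hPc
      rw [hcoreN, Subgroup.index_bot] at h3
      obtain ⟨j, hj⟩ := P.2.exists_card_eq
      exact IsPGroup.of_card (n := j) (h3.trans hj)
    · have hle : N ≤ pPrimeCore 2 G := Cfsg.Agent.Lib.Helper4_Core.le_pPrimeCore hNn
        ((Nat.Prime.coprime_iff_not_dvd Nat.prime_two).2 h2N).symm
      rw [hcore] at hle
      intro n
      refine ⟨0, ?_⟩
      have h3 := hle n.2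
      rw [Subgroup.mem_bot] at h3
      apply Subtype.ext
      simpa using h3
  have hG2 : IsPGroup 2 G := by
    intro g
    obtain ⟨j, hj⟩ := hN2 ⟨g ^ 2 ^ k, h1 g⟩
    refine ⟨k + j, ?_⟩
    have h3 : (g ^ 2 ^ k) ^ 2 ^ j = 1 := by
      have := congrArg Subtype.val hj
      simpa using this
    rw [pow_add, pow_mul]; exact h3
  exact (S.is_maximal' (hG2.to_subgroup ⊤) le_top).symm


structure Q8Setup (G : Type u) [Group G] (t v : G) : Prop where
  ot : orderOf t = 2
  central : ∀ g : G, t * g = g * t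
  uniq : ∀ x : G, orderOf x = 2 → x = t
  vv : v * v = t
  iso : IsIsolatedInvolution t
  hall : ∀ (S' : Sylow 2 G) (h : t ∈ S'), Q8Like (⟨t, h⟩ : S')
  fused : ∀ u : G, u * u = t → IsConj v u
  mem : ∀ S' : Sylow 2 G, t ∈ S'

theorem q8_setup (S : Sylow 2 G) (e : (S : Subgroup G) ≃* QuaternionGroup 2)
    (hO : ∀ N : Subgroup G, N.Normal → Odd (Nat.card N) → N = ⊥) (hG : (S : Subgroup G) ≠ ⊤) :
    ∃ t v : G, Q8Setup G t v := by
  obtain ⟨x, y, h⟩ := exists_qdata (S : Subgroup G) 2 e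
  set t := x ^ 2 with ht
  have ot : orderOf t = 2 := h.orderOf_xm
  have htS : t ∈ S := h.pow_mem 2
  have hS : ∀ s ∈ (S : Subgroup G), orderOf s = 2 → s = t := fun s hs => h.invol_eq hs
  have hiso : IsIsolatedInvolution t :=
    ⟨ot, fun g hc => (commuting_invol_eq S t hS ot
      ((Cfsg.Agent.Lib.helper6_QuatInv.orderOf_conj' g t).trans ot) hc).symm⟩
  have hcore := core_eq_bot hO
  have hcen : ∀ g : G, t * g = g * t := by
    intro g
    have h1 := Cfsg.Agent.Lib.Helper7_ZStar.zstar hiso g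
    rw [hcore, Subgroup.mem_bot] at h1
    have h2 : t * g * t⁻¹ = g := mul_inv_eq_one.1 h1
    exact mul_inv_eq_iff_eq_mul.1 h2
  have huniq : ∀ z : G, orderOf z = 2 → z = t := by
    intro z hz
    obtain ⟨k, hk⟩ := invol_conj S t hS hz
    have h1 : z = k⁻¹ * t * k := by rw [← hk]; group
    rw [h1, mul_assoc, hcen k, inv_mul_cancel_left]
  have hun : ∀ z : G, orderOf z = 2 → Commute t z → z = t := fun z hz _ => huniq z hz
  have hc8 : Nat.card S = 8 := by
    have := h.card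
    simpa using this
  have hnc : ¬ IsCyclic S := by
    intro hc
    haveI : IsCyclic (QuaternionGroup 2) := isCyclic_of_surjective e e.surjective
    have h1 := IsCyclic.exponent_eq_card (α := QuaternionGroup 2)
    rw [QuaternionGroup.exponent, Nat.card_eq_fintype_card, QuaternionGroup.card] at h1
    norm_num at h1
  have hall := q8like_of_sylow hiso hun S hc8 hnc
  have hmem : ∀ S' : Sylow 2 G, t ∈ S' := by
    intro S'
    obtain ⟨k, hk⟩ := Cfsg.Agent.Lib.helper6_Sylow.sylow_conj S' S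
    have h1 := hk t htS
    have h2 : k * t * k⁻¹ = t := by rw [← hcen k, mul_inv_cancel_right]
    rwa [h2] at h1
  have hle := sylow_le_commutator S htS (hall S htS) hcore hG
  refine ⟨t, x, ot, hcen, huniq, (pow_two x).symm, hiso, hall, ?_, hmem⟩
  intro u hu
  have ou : orderOf u = 4 := orderOf_four_of_sq hu ot
  have hp : IsPGroup 2 (zpowers u) := IsPGroup.of_card (n := 2) (by
    rw [Nat.card_zpowers, ou]; norm_num)
  obtain ⟨R, hR⟩ := hp.exists_le_sylow
  obtain ⟨k, hk⟩ := Cfsg.Agent.Lib.helper6_Sylow.sylow_conj S R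
  have h1 := hk u (hR (mem_zpowers u))
  have h2 : (k * u * k⁻¹) * (k * u * k⁻¹) = t := by
    have : (k * u * k⁻¹) * (k * u * k⁻¹) = k * (u * u) * k⁻¹ := by group
    rw [this, hu, ← hcen k, mul_inv_cancel_right]
  have h3 := all_fused' S htS (hall S htS) hle ⟨x, h.hx⟩ ⟨_, h1⟩
    (Subtype.ext (pow_two x).symm) (Subtype.ext h2)
  have h4 : IsConj (k * u * k⁻¹) u := (isConj_iff.2 ⟨k, rfl⟩ : IsConj u (k * u * k⁻¹)).symm
  exact h3.trans h4

end setup


section count

open Cfsg.Agent.Lib.CharComplete Cfsg.Agent.Lib.CharMore Cfsg.Agent.Lib.CharBasic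
open scoped Classical

variable {t v : G}

theorem Q8Setup.tt (hs : Q8Setup G t v) : t * t = 1 := by
  rw [← pow_two, ← hs.ot, pow_orderOf_eq_one]

theorem Q8Setup.orderOf_t_mul (hs : Q8Setup G t v) {y : G} (hy : ¬ 2 ∣ orderOf y) :
    orderOf (t * y) = 2 * orderOf y := by
  have hc : Commute t y := hs.central y
  have := hc.orderOf_mul_eq_mul_orderOf_of_coprime (by
    rw [hs.ot]; exact (Nat.Prime.coprime_iff_not_dvd Nat.prime_two).2 hy)
  rw [this, hs.ot]

theorem Q8Setup.tri [Finite G] (hs : Q8Setup G t v) (g : G) :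
    (¬ 2 ∣ orderOf g ∧ 2 ∣ orderOf (t * g) ∧ ¬ 4 ∣ orderOf g) ∨
    (2 ∣ orderOf g ∧ ¬ 2 ∣ orderOf (t * g) ∧ ¬ 4 ∣ orderOf g) ∨
    (2 ∣ orderOf g ∧ 2 ∣ orderOf (t * g) ∧ 4 ∣ orderOf g) := by
  by_cases h1 : 2 ∣ orderOf g
  · by_cases h2 : 2 ∣ orderOf (t * g)
    · right; right
      refine ⟨h1, h2, ?_⟩
      by_contra h4
      obtain ⟨r, hr⟩ := h1
      have hrodd : ¬ 2 ∣ r := by
        intro ⟨q, hq⟩
        apply h4
        exact ⟨q, by rw [hr, hq]; ring⟩
      have hr0 : r ≠ 0 := by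
        intro h0
        have := orderOf_pos g
        rw [hr, h0] at this
        omega
      have o1 : orderOf (g ^ r) = 2 := by
        rw [orderOf_pow' g hr0, hr, Nat.gcd_eq_right (Dvd.intro_left 2 rfl)]
        exact Nat.mul_div_cancel _ (Nat.pos_of_ne_zero hr0)
      have e1 := hs.uniq _ o1
      have e2 : (t * g) ^ r = 1 := by
        have hc : Commute t g := hs.central g
        rw [hc.mul_pow, e1]
        obtain ⟨j, hj⟩ := Nat.odd_iff.2 (Nat.two_dvd_ne_zero.1 hrodd)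
        rw [hj, pow_succ, pow_mul, pow_two, hs.tt, one_pow, one_mul, hs.tt]
      exact hrodd (h2.trans (orderOf_dvd_of_pow_eq_one e2))
    · right; left
      refine ⟨h1, h2, ?_⟩
      have h3 := hs.orderOf_t_mul h2
      rw [← mul_assoc, hs.tt, one_mul] at h3
      rw [h3]
      intro ⟨q, hq⟩
      apply h2
      exact ⟨q, by omega⟩
  · left
    refine ⟨h1, ?_, fun h4 => h1 ((by norm_num : 2 ∣ 4).trans h4)⟩
    rw [hs.orderOf_t_mul h1]
    exact Dvd.intro _ rfl

theorem Q8Setup.split [Fintype G] (hs : Q8Setup G t v) (f : G → ℂ) :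
    ∑ g, f g = ∑ g, (if ¬ 2 ∣ orderOf g then f g else 0) +
      ∑ g, (if ¬ 2 ∣ orderOf g then f (t * g) else 0) +
      ∑ g, (if 4 ∣ orderOf g then f g else 0) := by
  have h1 : ∀ g, f g = (if ¬ 2 ∣ orderOf g then f g else 0) +
      (if ¬ 2 ∣ orderOf (t * g) then f (t * (t * g)) else 0) +
      (if 4 ∣ orderOf g then f g else 0) := by
    intro g
    have e : t * (t * g) = g := by rw [← mul_assoc, hs.tt, one_mul]
    rw [e]
    rcases hs.tri g with ⟨a, b, c⟩ | ⟨a, b, c⟩ | ⟨a, b, c⟩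
    · rw [if_pos a, if_neg (not_not.2 b), if_neg c]; ring
    · rw [if_neg (not_not.2 a), if_pos b, if_neg c]; ring
    · rw [if_neg (not_not.2 a), if_neg (not_not.2 b), if_pos c]; ring
  have h2 : ∑ g, (if ¬ 2 ∣ orderOf (t * g) then f (t * (t * g)) else 0) =
      ∑ g, (if ¬ 2 ∣ orderOf g then f (t * g) else 0) :=
    Equiv.sum_comp (Equiv.mulLeft t) (fun g => if ¬ 2 ∣ orderOf g then f (t * g) else 0)
  rw [← h2, ← Finset.sum_add_distrib, ← Finset.sum_add_distrib]
  exact Finset.sum_congr rfl fun g _ => h1 g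

theorem Q8Setup.sign [Fintype G] (hs : Q8Setup G t v) (χ : IrrCharacter G) :
    ∃ s : ℂ, (s = 1 ∨ s = -1) ∧ ∀ g, (χ : G → ℂ) (t * g) = s * (χ : G → ℂ) g := by
  have hN : (Nat.card G : ℂ) ≠ 0 := by exact_mod_cast Nat.card_pos.ne'
  have h1 : (χ : G → ℂ) 1 ≠ 0 := irr_degree_ne_zero χ.2
  have key : ∀ g, (χ : G → ℂ) (t * g) = ((χ : G → ℂ) t / (χ : G → ℂ) 1) * (χ : G → ℂ) g := by
    intro g
    have E := irr_sum_conj_mul χ t g
    have e1 : ∀ x : G, x * t * x⁻¹ * g = t * g := by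
      intro x
      rw [← hs.central x, mul_inv_cancel_right]
    simp only [e1, Finset.sum_const, Finset.card_univ, nsmul_eq_mul,
      ← Nat.card_eq_fintype_card] at E
    field_simp
    have : (Nat.card G : ℂ) * ((χ : G → ℂ) (t * g) * (χ : G → ℂ) 1) =
        (Nat.card G : ℂ) * ((χ : G → ℂ) t * (χ : G → ℂ) g) := by linear_combination E
    exact mul_left_cancel₀ hN this
  refine ⟨(χ : G → ℂ) t / (χ : G → ℂ) 1, ?_, key⟩
  have h2 := key t
  rw [hs.tt] at h2
  set s := (χ : G → ℂ) t / (χ : G → ℂ) 1 with hsd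
  have h3 : (χ : G → ℂ) t = s * (χ : G → ℂ) 1 := by rw [hsd]; field_simp
  rw [h3] at h2
  have h4 : (s - 1) * (s + 1) = 0 := by
    have : (χ : G → ℂ) 1 * ((s - 1) * (s + 1)) = 0 := by linear_combination -h2
    exact (mul_eq_zero.1 this).resolve_left h1
  rcases mul_eq_zero.1 h4 with h | h
  · left; linear_combination h
  · right; linear_combination h


open Cfsg.Agent.Lib.Helper2_BlockLocal
  Cfsg.Agent.Lib.Helper2_BlockOm Cfsg.Agent.Lib.Helper2_BlockThird
  Cfsg.Agent.Lib.Helper2_PrincipalSection Cfsg.Agent.Lib.Helper2_BlockOrtho2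
  Cfsg.Agent.Lib.helper8_Defect Cfsg.Agent.Lib.Helper2_BlockQuot
  Cfsg.Agent.Lib.Helper2_BlockOrtho Cfsg.Agent.Lib.Helper2_PPart
  Cfsg.Agent.Lib.helper8_DefectZero Cfsg.Agent.Lib.Helper7_ZS9 Cfsg.Agent.Lib.Helper7_ZS11
  Cfsg.Agent.Lib.CharOrtho
open scoped ComplexConjugate

theorem Q8Setup.value [Finite G] (hs : Q8Setup G t v) {M : Ideal AlgInt} (hM : IsPModular 2 M)
    {χ : IrrCharacter G} (hχ : χ ∈ principalBlock M G) {g : G} (hg : 4 ∣ orderOf g) :
    (χ : G → ℂ) g = (χ : G → ℂ) v := by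
  obtain ⟨a, y, hxy, hcomm, ⟨k, hk⟩, hy⟩ := exists_isPPart Nat.prime_two g
  set u := g ^ a with hu
  have ho : orderOf g = 2 ^ k * orderOf y := by
    rw [← hxy, hcomm.orderOf_mul_eq_mul_orderOf_of_coprime (by
      rw [hk]
      exact Nat.Coprime.pow_left k ((Nat.Prime.coprime_iff_not_dvd Nat.prime_two).2 hy)), hk]
  have hk2 : 2 ≤ k := by
    by_contra hlt
    have h01 : k = 0 ∨ k = 1 := by omega
    rcases h01 with rfl | rfl
    · rw [pow_zero, one_mul] at ho
      rw [ho] at hg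
      exact hy ((by norm_num : 2 ∣ 4).trans hg)
    · rw [ho] at hg
      obtain ⟨q, hq⟩ := hg
      exact hy ⟨q, by omega⟩
  have hp : IsPGroup 2 (Subgroup.zpowers u) :=
    IsPGroup.of_card (n := k) (by rw [Nat.card_zpowers, hk])
  obtain ⟨R, hR⟩ := hp.exists_le_sylow
  have huR := hR (Subgroup.mem_zpowers u)
  have hq := hs.hall R (hs.mem R)
  have h4 : 4 ≤ 2 ^ k := by
    have : 2 ^ 2 ≤ 2 ^ k := Nat.pow_le_pow_right (by norm_num) hk2
    omega
  have huu : u * u = t := by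
    rcases hq.el ⟨u, huR⟩ with h1 | h1 | h1
    · exfalso
      have h2 : u = 1 := congrArg Subtype.val h1
      rw [h2, orderOf_one] at hk
      omega
    · exfalso
      have h2 : u = t := congrArg Subtype.val h1
      rw [h2, hs.ot] at hk
      omega
    · exact congrArg Subtype.val h1
  obtain ⟨hidx, -⟩ := centralizer_core hs.iso hs.hall huu
  have hyC : y ∈ Subgroup.centralizer ({u} : Set G) :=
    Subgroup.mem_centralizer_singleton_iff.2 hcomm.eq.symm
  have hy' : ¬ 2 ∣ orderOf (⟨y, hyC⟩ : Subgroup.centralizer ({u} : Set G)) := by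
    rw [← Subgroup.orderOf_coe]; exact hy
  have hcore := mem_core_of_regular Nat.prime_two hidx hy'
  have h1 := principal_core_invariant hM ⟨k, hk⟩ (v := y) ⟨⟨y, hyC⟩, hcore, rfl⟩ hχ
  rw [← hxy, h1]
  obtain ⟨w, hw⟩ := isConj_iff.1 (hs.fused u huu)
  rw [← hw]
  exact isClassFunction_of_isCharacter (isCharacter_of_isIrr χ.2) _ _

theorem Q8Setup.integral [Finite G] (hs : Q8Setup G t v) (χ : IrrCharacter G) :
    ∃ c : ℤ, (χ : G → ℂ) v = c := by
  have := Fintype.ofFinite G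
  have ov : orderOf v = 4 := orderOf_four_of_sq hs.vv hs.ot
  have hp : IsPGroup 2 (Subgroup.zpowers v) :=
    IsPGroup.of_card (n := 2) (by rw [Nat.card_zpowers, ov]; norm_num)
  obtain ⟨R, hR⟩ := hp.exists_le_sylow
  have hvR := hR (Subgroup.mem_zpowers v)
  set P : Subgroup G := (R : Subgroup G) with hP
  have htP : t ∈ P := hs.mem R
  have hq : Q8Like (⟨t, htP⟩ : P) := hs.hall R (hs.mem R)
  have hv : (⟨v, hvR⟩ : P) * ⟨v, hvR⟩ = ⟨t, htP⟩ := Subtype.ext hs.vv
  have hch : IsCharacter G χ := isCharacter_of_isIrr χ.2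
  have hcl : ∀ y : P, y ≠ 1 → y ≠ ⟨t, htP⟩ → (χ : G → ℂ) y = (χ : G → ℂ) v := by
    intro y h1 h2
    have hy : y * y = ⟨t, htP⟩ := ((hq.el y).resolve_left h1).resolve_left h2
    obtain ⟨w, hw⟩ := isConj_iff.mp (hs.fused y (congrArg Subtype.val hy))
    rw [← hw]
    exact isClassFunction_of_isCharacter hch _ _
  obtain ⟨m1, hm1⟩ := sum_subgroup_nat hch P
  obtain ⟨m2, hm2⟩ := sum_subgroup_nat (isCharacter_restrict P hch)
    (Subgroup.zpowers (⟨v, hvR⟩ : P))
  have h1 := sum_theta_general (Subgroup.zpowers (⟨v, hvR⟩ : P)) (hq.index_two hv)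
    (fun y : P => (χ : G → ℂ) y)
  have h2 := sum_phi_theta hq hv (fun y : P => (χ : G → ℂ) y) ((χ : G → ℂ) v) hcl
  have h3 := h2.symm.trans h1
  rw [hm1, hm2, hq.card, Nat.card_zpowers, hq.orderOf_four hv] at h3
  replace h1 := h3
  refine ⟨2 * m1 - m2, ?_⟩
  push_cast at h1 ⊢
  linear_combination h1 / 8


theorem Q8Setup.card_principal [Finite G] (hs : Q8Setup G t v) (M : Ideal AlgInt)
    (hM : IsPModular 2 M) : Nat.card (principalBlock M G) = 7 := by
  have := Fintype.ofFinite G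
  have hPr := isPrime_of_modular hM
  have hn : (Nat.card G : ℂ) ≠ 0 := by exact_mod_cast Nat.card_pos.ne'
  have hch : ∀ χ : IrrCharacter G, IsCharacter G χ := fun χ => isCharacter_of_isIrr χ.2
  choose s hs1 hs2 using hs.sign
  choose c hc using hs.integral
  have ov : orderOf v = 4 := orderOf_four_of_sq hs.vv hs.ot
  set Bf : Finset (IrrCharacter G) := Finset.univ.filter (fun χ => χ ∈ principalBlock M G) with hBf
  have hmemB : ∀ χ, χ ∈ Bf ↔ χ ∈ principalBlock M G := fun χ => by rw [hBf]; simp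
  obtain ⟨hidx, hfac⟩ := centralizer_core hs.iso hs.hall hs.vv
  have hnorm : ∑ᶠ ζ ∈ principalBlock M G, ‖(ζ : G → ℂ) v‖ ^ 2 = 4 := by
    have h1 := principal_section_sum hM (z := v) ⟨2, by rw [ov]; norm_num⟩ 1
      (by rw [orderOf_one]; norm_num)
    have h2 := principal_sum_pcomplement hM hidx (y := 1) (by rw [orderOf_one]; norm_num)
    rw [h2, hfac] at h1
    simp only [Subgroup.coe_one, mul_one] at h1
    rw [h1]; norm_num
  have hsum : ∑ χ ∈ Bf, c χ ^ 2 = 4 := by
    rw [Cfsg.Agent.Lib.Helper7_ZS12.finsum_block] at hnorm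
    have h1 : ∀ χ ∈ Bf, ‖(χ : G → ℂ) v‖ ^ 2 = ((c χ ^ 2 : ℤ) : ℝ) := by
      intro χ _
      rw [hc χ, Complex.norm_intCast, sq_abs]
      push_cast; ring
    rw [Finset.sum_congr rfl h1] at hnorm
    exact_mod_cast hnorm
  have h0mem : oneIrr G ∈ Bf := (hmemB _).2 (oneIrr_mem_principal hPr G)
  have hone' : ∀ x : G, (oneIrr G : G → ℂ) x = 1 := fun x => rfl
  have hc0 : c (oneIrr G) = 1 := by
    have := hc (oneIrr G)
    rw [hone'] at this
    exact_mod_cast this.symm
  -- sums of irreducible characters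
  have hsumχ : ∀ χ : IrrCharacter G, χ ≠ oneIrr G → ∑ g, (χ : G → ℂ) g = 0 := by
    intro χ hχ
    have h1 := classInner_irr_ne χ.2 (oneIrr G).2 (fun h => hχ (Subtype.ext h))
    unfold classInner at h1
    simp only [hone', map_one, mul_one] at h1
    exact (mul_eq_zero.1 h1).resolve_left (inv_ne_zero hn)
  have hsum1 : ∑ g, (oneIrr G : G → ℂ) g = (Nat.card G : ℂ) := by
    simp [hone', Nat.card_eq_fintype_card]
  have hnormχ : ∀ χ : IrrCharacter G, ∑ g, (χ : G → ℂ) g * conj ((χ : G → ℂ) g) =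
      (Nat.card G : ℂ) := by
    intro χ
    have h1 := classInner_irr_self χ.2
    unfold classInner at h1
    field_simp at h1
    exact h1
  -- (bound)
  have hbound : ∀ χ ∈ Bf, c χ = 0 ∨ c χ ^ 2 = 1 := by
    intro χ hχ
    by_contra hcon
    push Not at hcon
    obtain ⟨h0, h1⟩ := hcon
    have h4 : 4 ≤ c χ ^ 2 := by
      rcases lt_trichotomy (c χ) 0 with h | h | h
      · have : c χ ≤ -1 := by omega
        rcases eq_or_lt_of_le this with h' | h'
        · exfalso; apply h1; rw [h']; norm_num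
        · nlinarith
      · exact absurd h h0
      · have : 1 ≤ c χ := by omega
        rcases eq_or_lt_of_le this with h' | h'
        · exfalso; apply h1; rw [← h']; norm_num
        · nlinarith
    have hii : χ ≠ oneIrr G := by
      intro h; rw [h, hc0] at h4; norm_num at h4
    have hsub : ({oneIrr G, χ} : Finset (IrrCharacter G)) ⊆ Bf := by
      intro j hj
      simp only [Finset.mem_insert, Finset.mem_singleton] at hj
      rcases hj with rfl | rfl
      · exact h0mem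
      · exact hχ
    have := Finset.sum_le_sum_of_subset_of_nonneg (f := fun j => c j ^ 2) hsub
      (fun j _ _ => sq_nonneg _)
    rw [Finset.sum_pair hii.symm, hsum, hc0] at this
    linarith
  -- (d)
  have hd : ∀ χ : IrrCharacter G, s χ = -1 → c χ = 0 := by
    intro χ hsχ
    have h1 : (t * v) * (t * v) = t := by
      calc (t * v) * (t * v) = t * (v * t) * v := by group
        _ = t * (t * v) * v := by rw [hs.central v]
        _ = (t * t) * (v * v) := by group
        _ = t := by rw [hs.tt, hs.vv, one_mul]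
    obtain ⟨w, hw⟩ := isConj_iff.1 (hs.fused _ h1)
    have h2 : (χ : G → ℂ) (t * v) = (χ : G → ℂ) v := by
      rw [← hw]; exact isClassFunction_of_isCharacter (hch χ) _ _
    rw [hs2, hsχ, hc χ] at h2
    have h3 : (c χ : ℂ) = 0 := by linear_combination -h2 / 2
    exact_mod_cast h3
  have hval : ∀ χ ∈ Bf, ∀ g : G, 4 ∣ orderOf g → (χ : G → ℂ) g = c χ := by
    intro χ hχ g hg
    rw [hs.value hM ((hmemB χ).1 hχ) hg, hc χ]
  -- (e)
  have he : ∀ χ ∈ Bf, s χ = 1 → c χ ≠ 0 := by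
    intro χ hχ hsχ h0
    have hne : χ ≠ oneIrr G := by
      intro h; rw [h, hc0] at h0; norm_num at h0
    have h1 := hs.split (fun g => (χ : G → ℂ) g)
    rw [hsumχ χ hne] at h1
    have h2 : ∑ g, (if ¬ 2 ∣ orderOf g then (χ : G → ℂ) (t * g) else 0) =
        ∑ g, (if ¬ 2 ∣ orderOf g then (χ : G → ℂ) g else 0) :=
      Finset.sum_congr rfl fun g _ => by rw [hs2, hsχ, one_mul]
    have h3 : ∑ g, (if 4 ∣ orderOf g then (χ : G → ℂ) g else 0) = 0 := by
      apply Finset.sum_eq_zero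
      intro g _
      split_ifs with h4
      · rw [hval χ hχ g h4, h0]; norm_num
      · rfl
    rw [h2, h3, add_zero] at h1
    have h4 : ∑ g, (if ¬ 2 ∣ orderOf g then (χ : G → ℂ) g else 0) = 0 := by
      linear_combination -h1 / 2
    apply (mem_principal_iff hM χ).1 ((hmemB χ).1 hχ)
    have h5 : Om (reg 2 G) (χ : G → ℂ) = 0 := by
      unfold Om reg
      have : ∑ g, (if 2 ∣ orderOf g then (0 : ℂ) else 1) * (χ : G → ℂ) g =
          ∑ g, (if ¬ 2 ∣ orderOf g then (χ : G → ℂ) g else 0) := by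
        refine Finset.sum_congr rfl fun g _ => ?_
        by_cases h6 : 2 ∣ orderOf g
        · rw [if_pos h6, if_neg (not_not.2 h6), zero_mul]
        · rw [if_neg h6, if_pos h6, one_mul]
      rw [this, h4, zero_div]
    rw [h5]
    exact ideal_zero hPr
  have hsc : ∀ χ : IrrCharacter G, (c χ : ℂ) * s χ = c χ := by
    intro χ
    rcases hs1 χ with h | h
    · rw [h, mul_one]
    · rw [hd χ h]; simp
  have key1 : ∀ χ ∈ Bf, ((c χ : ℂ)) ^ 2 = (1 + s χ) / 2 := by
    intro χ hχ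
    rcases hs1 χ with h | h
    · rcases hbound χ hχ with h0 | h0
      · exact absurd h0 (he χ hχ h)
      · rw [h]
        have : ((c χ : ℂ)) ^ 2 = ((c χ ^ 2 : ℤ) : ℂ) := by push_cast; ring
        rw [this, h0]; norm_num
    · rw [h, hd χ h]; norm_num
  have hwbo : ∀ y : G, ¬ 2 ∣ orderOf y → ∑ χ ∈ Bf, (c χ : ℂ) * (χ : G → ℂ) y = 0 := by
    intro y hy
    have := weak_block_orthogonality hM (principalBlock_isPBlock M G) hy
      (y := v) (by rw [ov]; norm_num)
    rw [← this]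
    exact Finset.sum_congr rfl fun χ _ => by rw [hc χ]; ring
  have hsumC : ∑ χ ∈ Bf, (c χ : ℂ) ^ 2 = 4 := by
    have : ∑ χ ∈ Bf, (c χ : ℂ) ^ 2 = ((∑ χ ∈ Bf, c χ ^ 2 : ℤ) : ℂ) := by push_cast; rfl
    rw [this, hsum]; norm_num
  set X4 : ℂ := ∑ g : G, (if 4 ∣ orderOf g then (1 : ℂ) else 0) with hX4
  -- (g)
  have hg : 4 * X4 = (Nat.card G : ℂ) := by
    have h1 := hs.split (fun g => ∑ χ ∈ Bf, (c χ : ℂ) * (χ : G → ℂ) g)
    have l1 : ∑ g, ∑ χ ∈ Bf, (c χ : ℂ) * (χ : G → ℂ) g = (Nat.card G : ℂ) := by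
      rw [Finset.sum_comm]
      simp only [← Finset.mul_sum]
      rw [Finset.sum_eq_single_of_mem (oneIrr G) h0mem, hsum1, hc0]
      · norm_num
      · intro χ _ hχ
        rw [hsumχ χ hχ, mul_zero]
    have l2 : ∑ g, (if ¬ 2 ∣ orderOf g then ∑ χ ∈ Bf, (c χ : ℂ) * (χ : G → ℂ) g else 0) = 0 := by
      apply Finset.sum_eq_zero
      intro g _
      split_ifs with h4
      · rfl
      · exact hwbo g h4
    have l3 : ∑ g, (if ¬ 2 ∣ orderOf g then ∑ χ ∈ Bf, (c χ : ℂ) * (χ : G → ℂ) (t * g) else 0)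
        = 0 := by
      apply Finset.sum_eq_zero
      intro g _
      split_ifs with h4
      · rfl
      · rw [← hwbo g h4]
        refine Finset.sum_congr rfl fun χ _ => ?_
        rw [hs2, ← mul_assoc, hsc]
    have l4 : ∑ g, (if 4 ∣ orderOf g then ∑ χ ∈ Bf, (c χ : ℂ) * (χ : G → ℂ) g else 0) =
        4 * X4 := by
      rw [hX4, Finset.mul_sum]
      refine Finset.sum_congr rfl fun g _ => ?_
      split_ifs with h4
      · rw [mul_one, ← hsumC]
        refine Finset.sum_congr rfl fun χ hχ => ?_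
        rw [hval χ hχ g h4]; ring
      · rw [mul_zero]
    rw [l1, l2, l3, l4] at h1
    linear_combination -h1
  -- sum of signs
  have hsreal : ∀ χ : IrrCharacter G, conj (s χ) = s χ := by
    intro χ
    rcases hs1 χ with h | h <;> rw [h] <;> simp
  have hss : ∀ χ : IrrCharacter G, s χ * s χ = 1 := by
    intro χ
    rcases hs1 χ with h | h <;> rw [h] <;> norm_num
  have hE : ∀ y : G, ¬ 2 ∣ orderOf y →
      ∑ χ ∈ Bf, s χ * ((χ : G → ℂ) y * conj ((χ : G → ℂ) y)) = 0 := by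
    intro y hy
    have hy' : ¬ 2 ∣ orderOf y⁻¹ := by rw [orderOf_inv]; exact hy
    have := weak_block_orthogonality hM (principalBlock_isPBlock M G) hy'
      (y := t * y) (by rw [hs.orderOf_t_mul hy]; exact Dvd.intro _ rfl)
    rw [← this]
    refine Finset.sum_congr rfl fun χ _ => ?_
    rw [inv_of_isCharacter (hch χ), hs2]; ring
  have hsign : ∑ χ ∈ Bf, s χ = 1 := by
    have h1 := hs.split (fun g => ∑ χ ∈ Bf, s χ * ((χ : G → ℂ) g * conj ((χ : G → ℂ) g)))
    have l1 : ∑ g, ∑ χ ∈ Bf, s χ * ((χ : G → ℂ) g * conj ((χ : G → ℂ) g)) =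
        (Nat.card G : ℂ) * ∑ χ ∈ Bf, s χ := by
      rw [Finset.sum_comm, Finset.mul_sum]
      refine Finset.sum_congr rfl fun χ _ => ?_
      rw [← Finset.mul_sum, hnormχ χ]; ring
    have l2 : ∑ g, (if ¬ 2 ∣ orderOf g then
        ∑ χ ∈ Bf, s χ * ((χ : G → ℂ) g * conj ((χ : G → ℂ) g)) else 0) = 0 := by
      apply Finset.sum_eq_zero
      intro g _
      split_ifs with h4
      · rfl
      · exact hE g h4
    have l3 : ∑ g, (if ¬ 2 ∣ orderOf g then
        ∑ χ ∈ Bf, s χ * ((χ : G → ℂ) (t * g) * conj ((χ : G → ℂ) (t * g))) else 0) = 0 := by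
      apply Finset.sum_eq_zero
      intro g _
      split_ifs with h4
      · rfl
      · rw [← hE g h4]
        refine Finset.sum_congr rfl fun χ _ => ?_
        rw [hs2, map_mul, hsreal]
        linear_combination (s χ * ((χ : G → ℂ) g * conj ((χ : G → ℂ) g))) * hss χ
    have l4 : ∑ g, (if 4 ∣ orderOf g then
        ∑ χ ∈ Bf, s χ * ((χ : G → ℂ) g * conj ((χ : G → ℂ) g)) else 0) = 4 * X4 := by
      rw [hX4, Finset.mul_sum]
      refine Finset.sum_congr rfl fun g _ => ?_
      split_ifs with h4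
      · rw [mul_one, ← hsumC]
        refine Finset.sum_congr rfl fun χ hχ => ?_
        rw [hval χ hχ g h4, map_intCast]
        linear_combination (c χ : ℂ) * hsc χ
      · rw [mul_zero]
    rw [l1, l2, l3, l4, hg] at h1
    have h2 : (Nat.card G : ℂ) * (∑ χ ∈ Bf, s χ) = (Nat.card G : ℂ) * 1 := by
      linear_combination h1
    exact mul_left_cancel₀ hn h2
  have hcard : (Bf.card : ℂ) = 7 := by
    have h1 : ∑ χ ∈ Bf, (c χ : ℂ) ^ 2 = ∑ χ ∈ Bf, (1 + s χ) / 2 :=
      Finset.sum_congr rfl key1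
    rw [hsumC, ← Finset.sum_div, Finset.sum_add_distrib, hsign, Finset.sum_const,
      nsmul_eq_mul, mul_one] at h1
    linear_combination -2 * h1
  have hcard' : Bf.card = 7 := by exact_mod_cast hcard
  rw [← hcard']
  exact Nat.subtype_card _ (fun χ => hmemB χ)

end count

end Cfsg.Agent.Lib.helper6_Q8Block
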