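import Mathlib
import Cfsg.Agent.Lib.helper6_Lattice

/-!
# A coherence lemma for integer vectors with Gram matrix `m + identity`
-/

set_option autoImplicit false

namespace Cfsg.Agent.Lib.helper8_BL1

open Cfsg.Agent.Lib.helper6_Lattice
open scoped Classical

variable {ι Λ : Type*}

/-- indicator of a point. -/
noncomputable def dl (a i : ι) : ℤ := if i = a then 1 else 0

theorem dl_self (a : ι) : dl a a = 1 := if_pos rfl

theorem dl_ne {a i : ι} (h : i ≠ a) : dl a i = 0 := if_neg h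

theorem dl_nonneg (a i : ι) : 0 ≤ dl a i := by
  unfold dl; split_ifs <;> norm_num

theorem sum_dl_mul (B : Finset ι) {a : ι} (ha : a ∈ B) (F : ι → ℤ) :
    ∑ i ∈ B, dl a i * F i = F a := by
  unfold dl
  simp only [ite_mul, one_mul, zero_mul]
  rw [Finset.sum_ite_eq' B a, if_pos ha]

theorem diff (B : Finset ι) (f : ι → ℤ) (hf : ∀ i ∈ B, 0 < f i) (x : ι → ℤ)
    (hn : ∑ i ∈ B, x i * x i = 2) (hd : ∑ i ∈ B, x i * f i = 0) :
    ∃ α ∈ B, ∃ β ∈ B, α ≠ β ∧ ∀ i ∈ B, x i = dl α i - dl β i := by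
  obtain ⟨a, ha, b, hb, hab, h1, h2, h0⟩ := norm_two B x hn
  have hs := sum_two B (fun i => x i * f i) ha hb hab
    (fun i hi h3 h4 => by simp only [h0 i hi h3 h4, zero_mul])
  rw [hd] at hs
  have fa := hf a ha
  have fb := hf b hb
  have ca : x a = 1 ∨ x a = -1 := by
    have : (x a - 1) * (x a + 1) = 0 := by linear_combination h1
    rcases mul_eq_zero.mp this with h | h
    · left; linarith
    · right; linarith
  have cb : x b = 1 ∨ x b = -1 := by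
    have : (x b - 1) * (x b + 1) = 0 := by linear_combination h2
    rcases mul_eq_zero.mp this with h | h
    · left; linarith
    · right; linarith
  rcases ca with ca | ca <;> rcases cb with cb | cb
  · rw [ca, cb] at hs; exfalso; linarith
  · refine ⟨a, ha, b, hb, hab, fun i hi => ?_⟩
    by_cases hia : i = a
    · subst hia; rw [dl_self, dl_ne hab, ca]; norm_num
    · by_cases hib : i = b
      · subst hib; rw [dl_self, dl_ne hia, cb]; norm_num
      · rw [dl_ne hia, dl_ne hib, h0 i hi hia hib]; norm_num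
  · refine ⟨b, hb, a, ha, hab.symm, fun i hi => ?_⟩
    by_cases hia : i = a
    · subst hia; rw [dl_self, dl_ne hab, ca]; norm_num
    · by_cases hib : i = b
      · subst hib; rw [dl_self, dl_ne hia, cb]; norm_num
      · rw [dl_ne hia, dl_ne hib, h0 i hi hia hib]; norm_num
  · rw [ca, cb] at hs; exfalso; linarith

theorem coherence_aux (B : Finset ι) (u : Λ → ι → ℤ) (R : Λ → Λ → Prop) (m : ℤ)
    (hgram : ∀ μ ν, ∑ i ∈ B, u μ i * u ν i = m + (if R μ ν then 1 else 0))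
    (hrefl : ∀ μ, R μ μ) (μ₀ : Λ) (δ : ℤ) (w : ι → ℤ) (e : Λ → ι) (hδ : δ = 1 ∨ δ = -1)
    (he : ∀ μ, e μ ∈ B) (hu : ∀ μ, ∀ i ∈ B, u μ i = w i - δ * dl (e μ) i) :
    ∃ d : ℤ, (∀ μ, w (e μ) = d) ∧ (∀ μ ν, e μ = e ν ↔ R μ ν) := by
  have hδ2 : δ * δ = 1 := by rcases hδ with h | h <;> rw [h] <;> norm_num
  have key : ∀ μ ν, ∑ i ∈ B, u μ i * u ν i =
      ∑ i ∈ B, w i * w i - δ * w (e ν) - δ * w (e μ) + dl (e ν) (e μ) := by
    intro μ ν
    have e1 : ∀ i ∈ B, u μ i * u ν i = w i * w i - δ * (dl (e ν) i * w i) - δ * (dl (e μ) i * w i)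
        + dl (e μ) i * dl (e ν) i := by
      intro i hi
      rw [hu μ i hi, hu ν i hi]
      linear_combination (dl (e μ) i * dl (e ν) i) * hδ2
    rw [Finset.sum_congr rfl e1, Finset.sum_add_distrib, Finset.sum_sub_distrib,
      Finset.sum_sub_distrib, ← Finset.mul_sum, ← Finset.mul_sum, sum_dl_mul B (he ν),
      sum_dl_mul B (he μ), sum_dl_mul B (he μ)]
  have hd : ∀ μ, w (e μ) = w (e μ₀) := by
    intro μ
    have h1 := key μ μ
    have h2 := key μ₀ μ₀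
    rw [hgram, if_pos (hrefl _), dl_self] at h1 h2
    have h3 : δ * (w (e μ) - w (e μ₀)) = 0 := by linarith
    have h4 : δ * (δ * (w (e μ) - w (e μ₀))) = 0 := by rw [h3, mul_zero]
    rw [← mul_assoc, hδ2, one_mul] at h4
    linarith
  refine ⟨w (e μ₀), hd, fun μ ν => ?_⟩
  have h1 := key μ ν
  have h2 := key μ₀ μ₀
  rw [hgram, if_pos (hrefl _), dl_self] at h2
  rw [hgram, hd μ, hd ν] at h1
  have h3 : (if R μ ν then (1 : ℤ) else 0) = dl (e ν) (e μ) := by linarith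
  constructor
  · intro h
    rw [h, dl_self] at h3
    by_contra hR
    rw [if_neg hR] at h3
    exact zero_ne_one h3
  · intro hR
    rw [if_pos hR] at h3
    by_contra h
    rw [dl_ne h] at h3
    exact one_ne_zero h3

theorem coherence (B : Finset ι) (f : ι → ℤ) (hf : ∀ i ∈ B, 0 < f i) (u : Λ → ι → ℤ)
    (R : Λ → Λ → Prop) (m : ℤ)
    (hgram : ∀ μ ν, ∑ i ∈ B, u μ i * u ν i = m + (if R μ ν then 1 else 0))
    (hrefl : ∀ μ, R μ μ) (hdeg : ∀ μ, ∑ i ∈ B, u μ i * f i = 0)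
    (μ₀ ν₀ : Λ) (h0 : ¬ R μ₀ ν₀) :
    ∃ (δ : ℤ) (w : ι → ℤ) (e : Λ → ι) (d : ℤ), (δ = 1 ∨ δ = -1) ∧ (∀ μ, e μ ∈ B) ∧
      (∀ μ, ∀ i ∈ B, u μ i = w i - δ * dl (e μ) i) ∧ (∀ μ, w (e μ) = d) ∧
      (∀ μ ν, e μ = e ν ↔ R μ ν) := by
  have hsymm : ∀ μ ν, R μ ν → R ν μ := by
    intro μ ν h
    have h1 := hgram μ ν
    have h2 := hgram ν μ
    rw [if_pos h] at h1
    have h3 : ∑ i ∈ B, u μ i * u ν i = ∑ i ∈ B, u ν i * u μ i :=
      Finset.sum_congr rfl fun i _ => mul_comm _ _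
    by_contra hn
    rw [if_neg hn] at h2
    linarith
  have hexp : ∀ μ ν μ' ν', ∑ i ∈ B, (u μ i - u ν i) * (u μ' i - u ν' i) =
      (if R μ μ' then (1 : ℤ) else 0) - (if R μ ν' then 1 else 0) - (if R ν μ' then 1 else 0)
        + (if R ν ν' then 1 else 0) := by
    intro μ ν μ' ν'
    have e1 : ∀ i ∈ B, (u μ i - u ν i) * (u μ' i - u ν' i) =
        u μ i * u μ' i - u μ i * u ν' i - u ν i * u μ' i + u ν i * u ν' i := fun i _ => by ring
    rw [Finset.sum_congr rfl e1, Finset.sum_add_distrib, Finset.sum_sub_distrib,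
      Finset.sum_sub_distrib, hgram, hgram, hgram, hgram]
    ring
  have hEq : ∀ μ ν, R μ ν → ∀ i ∈ B, u μ i = u ν i := by
    intro μ ν h i hi
    have h1 := hexp μ ν μ ν
    rw [if_pos (hrefl μ), if_pos h, if_pos (hsymm _ _ h), if_pos (hrefl ν)] at h1
    have h2 : ∑ i ∈ B, (u μ i - u ν i) * (u μ i - u ν i) = 0 := by rw [h1]; norm_num
    have h3 := (Finset.sum_eq_zero_iff_of_nonneg (fun i _ => mul_self_nonneg _)).mp h2 i hi
    have := mul_self_eq_zero.mp h3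
    linarith
  have hDiff : ∀ μ ν, ¬ R μ ν → ∃ α ∈ B, ∃ β ∈ B, α ≠ β ∧
      ∀ i ∈ B, u μ i - u ν i = dl α i - dl β i := by
    intro μ ν h
    apply diff B f hf (fun i => u μ i - u ν i)
    · have h1 := hexp μ ν μ ν
      rw [if_pos (hrefl μ), if_neg h, if_neg (fun h' => h (hsymm _ _ h')), if_pos (hrefl ν)] at h1
      rw [h1]; norm_num
    · simp only [sub_mul]
      rw [Finset.sum_sub_distrib, hdeg, hdeg, sub_zero]
  obtain ⟨α₀, -, β₀, -, -, -⟩ := hDiff μ₀ ν₀ h0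
  have hch : ∀ ν, ∃ α β : ι, ¬ R μ₀ ν → (α ∈ B ∧ β ∈ B ∧ α ≠ β ∧
      ∀ i ∈ B, u μ₀ i - u ν i = dl α i - dl β i) := by
    intro ν
    by_cases h : R μ₀ ν
    · exact ⟨α₀, β₀, fun h' => absurd h h'⟩
    · obtain ⟨α, h1, β, h2, h3, h4⟩ := hDiff μ₀ ν h
      exact ⟨α, β, fun _ => ⟨h1, h2, h3, h4⟩⟩
  choose α β hαβ using hch
  have hpair : ∀ ν ν', ¬ R μ₀ ν → ¬ R μ₀ ν' → α ν = α ν' ∨ β ν = β ν' := by
    intro ν ν' h h'
    obtain ⟨a1, a2, a3, a4⟩ := hαβ ν h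
    obtain ⟨b1, b2, b3, b4⟩ := hαβ ν' h'
    have h1 := hexp μ₀ ν μ₀ ν'
    rw [if_pos (hrefl μ₀), if_neg h', if_neg (fun hh => h (hsymm _ _ hh))] at h1
    have e1 : ∀ i ∈ B, (u μ₀ i - u ν i) * (u μ₀ i - u ν' i) =
        dl (α ν) i * (dl (α ν') i - dl (β ν') i) - dl (β ν) i * (dl (α ν') i - dl (β ν') i) := by
      intro i hi
      rw [a4 i hi, b4 i hi]; ring
    rw [Finset.sum_congr rfl e1, Finset.sum_sub_distrib, sum_dl_mul B a1, sum_dl_mul B a2] at h1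
    by_contra hcon
    push Not at hcon
    rw [dl_ne hcon.1, dl_ne hcon.2] at h1
    have p1 := dl_nonneg (β ν') (α ν)
    have p2 := dl_nonneg (α ν') (β ν)
    have p3 : (0 : ℤ) ≤ if R ν ν' then 1 else 0 := by split_ifs <;> norm_num
    linarith
  have hdich : (∀ ν, ¬ R μ₀ ν → α ν = α ν₀) ∨ (∀ ν, ¬ R μ₀ ν → β ν = β ν₀) := by
    by_contra hcon
    push Not at hcon
    obtain ⟨⟨ν1, r1, n1⟩, ⟨ν2, r2, n2⟩⟩ := hcon
    have q1 := (hpair ν1 ν₀ r1 h0).resolve_left n1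
    have q2 := (hpair ν2 ν₀ r2 h0).resolve_right n2
    rcases hpair ν1 ν2 r1 r2 with q3 | q3
    · exact n1 (q3.trans q2)
    · exact n2 (q3.symm.trans q1)
  obtain ⟨z1, z2, z3, z4⟩ := hαβ ν₀ h0
  rcases hdich with hA | hB
  · have he : ∀ μ, (if R μ₀ μ then α ν₀ else β μ) ∈ B := by
      intro μ
      split_ifs with h
      · exact z1
      · exact (hαβ μ h).2.1
    have hu : ∀ μ, ∀ i ∈ B, u μ i = (u μ₀ i - dl (α ν₀) i) -
        (-1) * dl (if R μ₀ μ then α ν₀ else β μ) i := by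
      intro μ i hi
      split_ifs with h
      · rw [← hEq μ₀ μ h i hi]; ring
      · have := (hαβ μ h).2.2.2 i hi
        rw [hA μ h] at this
        linarith
    obtain ⟨d, hd1, hd2⟩ := coherence_aux B u R m hgram hrefl μ₀ (-1) _ _ (Or.inr rfl) he hu
    exact ⟨-1, _, _, d, Or.inr rfl, he, hu, hd1, hd2⟩
  · have he : ∀ μ, (if R μ₀ μ then β ν₀ else α μ) ∈ B := by
      intro μ
      split_ifs with h
      · exact z2
      · exact (hαβ μ h).1
    have hu : ∀ μ, ∀ i ∈ B, u μ i = (u μ₀ i + dl (β ν₀) i) -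
        1 * dl (if R μ₀ μ then β ν₀ else α μ) i := by
      intro μ i hi
      split_ifs with h
      · rw [← hEq μ₀ μ h i hi]; ring
      · have := (hαβ μ h).2.2.2 i hi
        rw [hB μ h] at this
        linarith
    obtain ⟨d, hd1, hd2⟩ := coherence_aux B u R m hgram hrefl μ₀ 1 _ _ (Or.inl rfl) he hu
    exact ⟨1, _, _, d, Or.inl rfl, he, hu, hd1, hd2⟩

end Cfsg.Agent.Lib.helper8_BL1
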