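import Mathlib
import Cfsg.Agent.Lib.helper6_HomoChar
import Cfsg.Agent.Lib.helper8_BL1

/-!
# Abelian Sylow subgroups with a Frobenius-type normalizer: group theory
-/

set_option autoImplicit false

namespace Cfsg.Agent.Lib.helper8_BL2

open Cfsg Cfsg.Agent.Lib.Helper3_PComp

universe u

variable {G : Type u} [Group G]

structure FSetup (p : ℕ) (P : Subgroup G) (A : Subgroup (MulAut P)) (m : ℕ) : Prop where
  comm : ∀ x y : P, x * y = y * x
  pel : ∀ x : P, ∃ k : ℕ, orderOf (x : G) = p ^ k
  card : Nat.card A = m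
  conj : ∀ b ∈ A, ∀ x : P, IsConj (x : G) ((b x : P) : G)
  free : ∀ b ∈ A, ∀ x : P, x ≠ 1 → b x = x → b = 1
  fus : ∀ x y : P, IsConj (x : G) (y : G) → ∃ b ∈ A, y = b x
  core : ∀ x : P, x ≠ 1 → ∃ k : ℕ, Nat.card P = p ^ k ∧
    (pPrimeCore p (Subgroup.centralizer ({(x : G)} : Set G))).index = p ^ k ∧
    (Nat.card (Subgroup.centralizer ({(x : G)} : Set G))).factorization p = k

theorem index_core_of_complement' {X : Type u} [Group X] [Finite X] (p : ℕ) [hp : Fact p.Prime]
    (P : Sylow p X) {K : Subgroup X} (hKn : K.Normal) (hc : K.IsComplement' (P : Subgroup X)) :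
    (pPrimeCore p X).index = Nat.card P := by
  have hcard := hc.card_mul_card
  have hK : ¬ p ∣ Nat.card K := by
    intro h
    have h1 := P.not_dvd_index
    apply h1
    have h2 := (P : Subgroup X).card_mul_index
    rw [← hcard, mul_comm] at h2
    have : (P : Subgroup X).index = Nat.card K := Nat.eq_of_mul_eq_mul_right Nat.card_pos h2
    rw [this]; exact h
  have hle : K ≤ pPrimeCore p X :=
    Cfsg.Agent.Lib.Helper4_Core.le_pPrimeCore hKn
      ((Nat.Prime.coprime_iff_not_dvd hp.out).mpr hK).symm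
  have hcop := pPrimeCore_coprime p X
  obtain ⟨k, hk⟩ := P.2.exists_card_eq
  have h1 : Nat.card (pPrimeCore p X) ∣ Nat.card K := by
    have h3 : Nat.card (pPrimeCore p X) ∣ Nat.card K * Nat.card P := by
      rw [hcard]; exact Subgroup.card_subgroup_dvd_card _
    refine Nat.Coprime.dvd_of_dvd_mul_right ?_ h3
    rw [hk]
    exact Nat.Coprime.pow_right _ hcop
  have h3 : Nat.card (pPrimeCore p X) = Nat.card K :=
    Nat.dvd_antisymm h1 (Subgroup.card_dvd_of_le hle)
  have h4 := (pPrimeCore p X).card_mul_index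
  rw [h3, ← hcard] at h4
  exact Nat.eq_of_mul_eq_mul_left Nat.card_pos h4

theorem setup_of_hyp [Finite G] (p : ℕ) [hp : Fact p.Prime] (P : Sylow p G)
    (hab : IsMulCommutative P) (m : ℕ)
    (hCN : (Subgroup.centralizer ((P : Subgroup G) : Set G)).relIndex
      (Subgroup.normalizer ((P : Subgroup G) : Set G)) = m)
    (hfrob : ∀ y : G, y ∈ (P : Subgroup G) → y ≠ 1 →
      Subgroup.centralizer ({y} : Set G) ⊓ Subgroup.normalizer ((P : Subgroup G) : Set G) =
        Subgroup.centralizer ((P : Subgroup G) : Set G)) :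
    FSetup p (P : Subgroup G) (P : Subgroup G).normalizerMonoidHom.range m := by
  have hcomm : ∀ x y : (P : Subgroup G), x * y = y * x := fun x y => hab.is_comm.comm x y
  refine ⟨hcomm, ?_, ?_, ?_, ?_, ?_, ?_⟩
  · intro x
    obtain ⟨k, hk⟩ := IsPGroup.iff_orderOf.mp P.2 x
    exact ⟨k, by rw [← hk, Subgroup.orderOf_coe]⟩
  · rw [← Subgroup.index_ker, Subgroup.normalizerMonoidHom_ker]; exact hCN
  · rintro b ⟨n, rfl⟩ x
    exact isConj_iff.2 ⟨n, rfl⟩
  · rintro b ⟨n, rfl⟩ x hx hfix
    have h1 : (n : G) * x * (n : G)⁻¹ = x := congrArg Subtype.val hfix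
    have hx1 : (x : G) ≠ 1 := fun h => hx (Subtype.ext h)
    have h2 : n ∈ (P : Subgroup G).normalizerMonoidHom.ker := by
      rw [Subgroup.normalizerMonoidHom_ker, Subgroup.mem_subgroupOf, ← hfrob x x.2 hx1]
      refine Subgroup.mem_inf.mpr ⟨?_, n.2⟩
      rw [Subgroup.mem_centralizer_singleton_iff]
      calc (n : G) * x = (n : G) * x * (n : G)⁻¹ * n := by group
        _ = x * n := by rw [h1]
    exact h2
  · intro x y hxy
    obtain ⟨g, hg⟩ := isConj_iff.1 hxy
    obtain ⟨n, hn, h1⟩ := P.conj_eq_normalizer_conj_of_mem x g⁻¹ x.2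
      (by rw [inv_inv, hg]; exact y.2)
    refine ⟨(P : Subgroup G).normalizerMonoidHom ⟨n⁻¹, inv_mem hn⟩, ⟨_, rfl⟩, ?_⟩
    apply Subtype.ext
    rw [inv_inv, hg] at h1
    rw [h1]
    show n⁻¹ * x * n = n⁻¹ * x * n⁻¹⁻¹
    rw [inv_inv]
  · intro x hx
    have hx1 : (x : G) ≠ 1 := fun h => hx (Subtype.ext h)
    obtain ⟨k, hk⟩ := P.2.exists_card_eq
    set X := Subgroup.centralizer ({(x : G)} : Set G) with hX
    have hPX : (P : Subgroup G) ≤ X := by
      intro s hs
      rw [hX, Subgroup.mem_centralizer_singleton_iff]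
      exact congrArg Subtype.val (hcomm ⟨s, hs⟩ x)
    set P' : Sylow p X := P.subtype hPX with hP'
    have hmem : ∀ w : X, w ∈ (P' : Subgroup X) ↔ (w : G) ∈ (P : Subgroup G) := by
      intro w
      rw [hP', Sylow.coe_subtype, Subgroup.mem_subgroupOf]
    have hcardP : Nat.card (P' : Subgroup X) = p ^ k := by
      rw [hP', Sylow.coe_subtype, ← hk]
      exact Nat.card_congr (Subgroup.subgroupOfEquivOfLe hPX).toEquiv
    have hNC : Subgroup.normalizer ((P' : Subgroup X) : Set X) ≤
        Subgroup.centralizer ((P' : Subgroup X) : Set X) := by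
      intro h hh
      have h1 : (h : G) ∈ Subgroup.normalizer ((P : Subgroup G) : Set G) := by
        have h2 : h ∈ (Subgroup.normalizer ((P : Subgroup G) : Set G)).subgroupOf X := by
          rw [Subgroup.subgroupOf_normalizer_eq hPX]
          rw [hP', Sylow.coe_subtype] at hh
          exact hh
        exact Subgroup.mem_subgroupOf.mp h2
      have h3 : (h : G) ∈ Subgroup.centralizer ((P : Subgroup G) : Set G) := by
        rw [← hfrob x x.2 hx1]
        exact Subgroup.mem_inf.mpr ⟨h.2, h1⟩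
      rw [Subgroup.mem_centralizer_iff]
      intro a ha
      apply Subtype.ext
      exact (Subgroup.mem_centralizer_iff.mp h3) a ((hmem a).mp ha)
    have hKc := MonoidHom.ker_transferSylow_isComplement' P' hNC
    refine ⟨k, hk, ?_, ?_⟩
    · rw [index_core_of_complement' p P' (MonoidHom.normal_ker _) hKc]; exact hcardP
    · have h3 := Sylow.card_eq_multiplicity P'
      rw [hcardP] at h3
      exact (Nat.pow_right_injective hp.out.two_le h3).symm

end Cfsg.Agent.Lib.helper8_BL2
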