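import Mathlib
import Cfsg.Agent.Lib.helper8_BL2

/-!
# Abelian Sylow subgroups with a Frobenius-type normalizer: Gram matrix
-/

set_option autoImplicit false

namespace Cfsg.Agent.Lib.helper8_BL3

open Cfsg Cfsg.Agent.Lib.CharBasic Cfsg.Agent.Lib.CharOrtho Cfsg.Agent.Lib.CharComplete
  Cfsg.Agent.Lib.CharMore Cfsg.Agent.Lib.CharInd Cfsg.Agent.Lib.CharGen Cfsg.Agent.Lib.CharLinear
  Cfsg.Agent.Lib.Helper2_BlockLocal Cfsg.Agent.Lib.Helper2_BlockOm
  Cfsg.Agent.Lib.Helper2_BlockThird Cfsg.Agent.Lib.Helper2_PrincipalSection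
  Cfsg.Agent.Lib.Helper2_BlockOrtho2 Cfsg.Agent.Lib.helper8_Defect
  Cfsg.Agent.Lib.Helper2_BlockQuot Cfsg.Agent.Lib.Helper2_BlockOrtho
  Cfsg.Agent.Lib.helper8_DefectZero Cfsg.Agent.Lib.helper6_HomoChar Cfsg.Agent.Lib.helper8_BL2
open scoped ComplexConjugate Classical

universe u

variable {G : Type u} [Group G] {p : ℕ} {P : Subgroup G} {A : Subgroup (MulAut P)} {m : ℕ}

/-- the action on the dual group. -/
def act (b : MulAut P) (ν : P →* ℂˣ) : P →* ℂˣ := ν.comp b.toMonoidHom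

theorem act_apply (b : MulAut P) (ν : P →* ℂˣ) (x : P) : act b ν x = ν (b x) := rfl

theorem uniq (hs : FSetup p P A m) {b b' : MulAut P} (hb : b ∈ A) (hb' : b' ∈ A) {x : P}
    (hx : x ≠ 1) (h : b x = b' x) : b = b' := by
  have h1 : (b'⁻¹ * b) x = x := by
    rw [MulAut.mul_apply, h, MulAut.inv_apply_self]
  have h2 := hs.free _ (A.mul_mem (A.inv_mem hb') hb) x hx h1
  exact (inv_mul_eq_one.mp h2).symm

theorem gamma [Fintype G] [Fintype A] (hs : FSetup p P A m) {M : Ideal AlgInt}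
    (hM : IsPModular p M) (x y : P) (hx : x ≠ 1) :
    ∑ χ ∈ Finset.univ.filter (fun χ : IrrCharacter G => χ ∈ principalBlock M G),
      (χ : G → ℂ) y * conj ((χ : G → ℂ) x) =
    (Nat.card P : ℂ) * ∑ b : A, (if y = (b : MulAut P) x then 1 else 0) := by
  have hp1 : ¬ p ∣ 1 := fun h => hM.1.one_lt.ne' (Nat.dvd_one.mp h)
  by_cases hconj : IsConj (x : G) (y : G)
  · obtain ⟨b₀, hb₀, hy⟩ := hs.fus x y hconj
    have hind : ∑ b : A, (if y = (b : MulAut P) x then (1 : ℂ) else 0) = 1 := by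
      rw [Finset.sum_eq_single (⟨b₀, hb₀⟩ : A), if_pos hy]
      · intro b _ hb
        rw [if_neg]
        intro h
        apply hb
        apply Subtype.ext
        exact uniq hs b.2 hb₀ hx (h.symm.trans hy)
      · intro h; exact absurd (Finset.mem_univ _) h
    rw [hind, mul_one]
    obtain ⟨k, hqk, hidx, hfac⟩ := hs.core x hx
    have hnorm : ∑ᶠ ζ ∈ principalBlock M G, ‖(ζ : G → ℂ) x‖ ^ 2 = (Nat.card P : ℝ) := by
      have h1 := principal_section_sum hM (z := (x : G)) (hs.pel x) 1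
        (by rw [orderOf_one]; exact hp1)
      have h2 := principal_sum_pcomplement hM hidx (y := 1) (by rw [orderOf_one]; exact hp1)
      rw [h2, hfac] at h1
      simp only [Subgroup.coe_one, mul_one] at h1
      rw [h1, hqk]
    rw [Cfsg.Agent.Lib.Helper7_ZS12.finsum_block] at hnorm
    have h3 : ∀ χ : IrrCharacter G, (χ : G → ℂ) y * conj ((χ : G → ℂ) x) =
        ((‖(χ : G → ℂ) x‖ ^ 2 : ℝ) : ℂ) := by
      intro χ
      obtain ⟨g, hg⟩ := isConj_iff.1 hconj
      have : (χ : G → ℂ) y = (χ : G → ℂ) x := by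
        rw [← hg]; exact isClassFunction_of_isCharacter (isCharacter_of_isIrr χ.2) _ _
      rw [this, Complex.mul_conj, Complex.normSq_eq_norm_sq]
    rw [Finset.sum_congr rfl (fun χ _ => h3 χ), ← Complex.ofReal_sum, hnorm]
    simp
  · have hz : ∑ b : A, (if y = (b : MulAut P) x then (1 : ℂ) else 0) = 0 := by
      apply Finset.sum_eq_zero
      intro b _
      rw [if_neg]
      intro h
      apply hconj
      rw [h]
      exact hs.conj b b.2 x
    rw [hz, mul_zero]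
    have h1 := block_orthogonality hM (g := (y : G)) (h := (x : G)) (x := (y : G)) (y := (x : G))
      ⟨1, mul_one _, Commute.one_right _, hs.pel y, by rw [orderOf_one]; exact hp1⟩
      ⟨1, mul_one _, Commute.one_right _, hs.pel x, by rw [orderOf_one]; exact hp1⟩
      (fun h => hconj h.symm) (principalBlock_isPBlock M G)
    rw [Finset.sum_filter]
    refine Eq.trans ?_ h1
    refine Finset.sum_congr rfl fun χ _ => ?_
    split_ifs <;> simp

theorem act_ne_one {ν : P →* ℂˣ} (hν : ν ≠ 1) (b : MulAut P) : act b ν ≠ 1 := by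
  intro h
  apply hν
  ext x
  have := congrArg (fun f : P →* ℂˣ => f (b⁻¹ x)) h
  simp only [act_apply, MulAut.apply_inv_self, MonoidHom.one_apply] at this
  rw [this]; rfl

theorem dual_free [Finite G] (hs : FSetup p P A m) {ν : P →* ℂˣ} (hν : ν ≠ 1)
    {b : MulAut P} (hb : b ∈ A) (h : act b ν = ν) : b = 1 := by
  by_contra hb1
  apply hν
  have hcomm := hs.comm
  have hne : ∀ x : P, x ≠ 1 → b x ≠ x := fun x hx hfix => hb1 (hs.free b hb x hx hfix)
  have hinj : Function.Injective (fun x : P => b x * x⁻¹) := by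
    intro a c hab
    simp only at hab
    have h1 : b (a * c⁻¹) = a * c⁻¹ := by
      calc b (a * c⁻¹) = b a * (b c)⁻¹ := by rw [map_mul, map_inv]
        _ = (b c * c⁻¹ * a) * (b c)⁻¹ := by rw [← eq_mul_of_mul_inv_eq hab]
        _ = (b c)⁻¹ * (b c * c⁻¹ * a) := hcomm _ _
        _ = c⁻¹ * a := by group
        _ = a * c⁻¹ := hcomm _ _
    by_contra hne'
    exact hne (a * c⁻¹) (fun h0 => hne' (mul_inv_eq_one.1 h0)) h1
  have hsurj := Finite.injective_iff_surjective.1 hinj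
  ext y
  obtain ⟨x, rfl⟩ := hsurj y
  have h2 : ν (b x) = ν x := by
    have := congrArg (fun f : P →* ℂˣ => f x) h
    simpa only [act_apply] using this
  simp only [map_mul, map_inv, h2, mul_inv_cancel, MonoidHom.one_apply]

theorem act_mul (b c : MulAut P) (ν : P →* ℂˣ) : act b (act c ν) = act (c * b) ν := rfl

theorem act_one (ν : P →* ℂˣ) : act 1 ν = ν := rfl

theorem dual_uniq [Finite G] (hs : FSetup p P A m) {ν : P →* ℂˣ} (hν : ν ≠ 1)
    {b c : MulAut P} (hb : b ∈ A) (hc : c ∈ A) (h : act b ν = act c ν) : b = c := by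
  have h1 : act (b * c⁻¹) ν = ν := by
    rw [← act_mul, h, act_mul, mul_inv_cancel, act_one]
  exact mul_inv_eq_one.mp (dual_free hs hν (A.mul_mem hb (A.inv_mem hc)) h1)

/-- the orbit relation on the dual group. -/
def Rel (A : Subgroup (MulAut P)) (μ ν : P →* ℂˣ) : Prop := ∃ b ∈ A, μ = act b ν

theorem gram [Fintype G] [Fintype P] [Fintype A] (hs : FSetup p P A m) {M : Ideal AlgInt}
    (hM : IsPModular p M) (u : (P →* ℂˣ) → IrrCharacter G → ℤ)
    (hu : ∀ μ χ, (u μ χ : ℂ) = (Nat.card P : ℂ)⁻¹ *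
      ∑ x : P, (1 - ((μ x : ℂˣ) : ℂ)) * conj ((χ : G → ℂ) x))
    (μ ν : P →* ℂˣ) (hμ : μ ≠ 1) (hν : ν ≠ 1) :
    ∑ χ ∈ Finset.univ.filter (fun χ : IrrCharacter G => χ ∈ principalBlock M G),
      u μ χ * u ν χ = (m : ℤ) + (if Rel A μ ν then 1 else 0) := by
  set Q : ℂ := (Nat.card P : ℂ) with hQ
  have hQ0 : Q ≠ 0 := by rw [hQ]; exact_mod_cast Nat.card_pos.ne'
  set θ : (P →* ℂˣ) → P → ℂ := fun μ x => 1 - ((μ x : ℂˣ) : ℂ) with hθ
  have ea : ∀ χ : IrrCharacter G, (u μ χ : ℂ) * (u ν χ : ℂ) = Q⁻¹ * Q⁻¹ *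
      ∑ x : P, ∑ y : P, θ μ x * conj (θ ν y) * ((χ : G → ℂ) y * conj ((χ : G → ℂ) x)) := by
    intro χ
    have h1 : (u ν χ : ℂ) = conj (u ν χ : ℂ) := (map_intCast _ _).symm
    rw [h1, hu μ χ, hu ν χ, map_mul, map_inv₀, map_natCast, map_sum, mul_mul_mul_comm,
      Finset.sum_mul_sum]
    congr 1
    refine Finset.sum_congr rfl fun x _ => Finset.sum_congr rfl fun y _ => ?_
    rw [map_mul, Complex.conj_conj]
    ring
  have eb : ∀ x : P, ∑ χ ∈ Finset.univ.filter (fun χ : IrrCharacter G => χ ∈ principalBlock M G),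
      ∑ y : P, θ μ x * conj (θ ν y) * ((χ : G → ℂ) y * conj ((χ : G → ℂ) x)) =
      Q * ∑ b : A, θ μ x * conj (θ (act (b : MulAut P) ν) x) := by
    intro x
    by_cases hx : x = 1
    · have : θ μ x = 0 := by simp [hθ, hx]
      simp [this]
    · rw [Finset.sum_comm]
      have e1 : ∀ y : P, ∑ χ ∈ Finset.univ.filter
          (fun χ : IrrCharacter G => χ ∈ principalBlock M G),
          θ μ x * conj (θ ν y) * ((χ : G → ℂ) y * conj ((χ : G → ℂ) x)) =
          ∑ b : A, (if y = (b : MulAut P) x then Q * (θ μ x * conj (θ ν y)) else 0) := by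
        intro y
        rw [← Finset.mul_sum, gamma hs hM x y hx, ← hQ, Finset.mul_sum, Finset.mul_sum]
        refine Finset.sum_congr rfl fun b _ => ?_
        split_ifs <;> ring
      rw [Finset.sum_congr rfl (fun y _ => e1 y), Finset.sum_comm, Finset.mul_sum]
      refine Finset.sum_congr rfl fun b _ => ?_
      rw [Finset.sum_ite_eq']
      simp only [Finset.mem_univ, if_true]
      rfl
  have main : ∑ χ ∈ Finset.univ.filter (fun χ : IrrCharacter G => χ ∈ principalBlock M G),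
      (u μ χ : ℂ) * (u ν χ : ℂ) = ∑ b : A, (1 + if μ = act (b : MulAut P) ν then (1 : ℂ) else 0) := by
    rw [Finset.sum_congr rfl (fun χ _ => ea χ), ← Finset.mul_sum, Finset.sum_comm,
      Finset.sum_congr rfl (fun x _ => eb x), ← Finset.mul_sum, Finset.sum_comm]
    have i1 : ∀ b : A, ∑ x : P, θ μ x * conj (θ (act (b : MulAut P) ν) x) =
        Q * (1 + if μ = act (b : MulAut P) ν then (1 : ℂ) else 0) := by
      intro b
      rw [← inner_theta P μ (act (b : MulAut P) ν) hμ (act_ne_one hν _), ← hQ,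
        mul_inv_cancel_left₀ hQ0]
    rw [Finset.sum_congr rfl (fun b _ => i1 b), ← Finset.mul_sum]
    field_simp
  have hcount : ∑ b : A, (if μ = act (b : MulAut P) ν then (1 : ℂ) else 0) =
      if Rel A μ ν then 1 else 0 := by
    by_cases hR : Rel A μ ν
    · obtain ⟨b₀, hb₀, h0⟩ := hR
      rw [if_pos ⟨b₀, hb₀, h0⟩, Finset.sum_eq_single (⟨b₀, hb₀⟩ : A), if_pos h0]
      · intro b _ hb
        rw [if_neg]
        intro h
        apply hb
        apply Subtype.ext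
        exact dual_uniq hs hν b.2 hb₀ (h.symm.trans h0)
      · intro h; exact absurd (Finset.mem_univ _) h
    · rw [if_neg hR]
      apply Finset.sum_eq_zero
      intro b _
      rw [if_neg]
      intro h
      exact hR ⟨b, b.2, h⟩
  rw [Finset.sum_add_distrib, hcount, Finset.sum_const, Finset.card_univ, ← Nat.card_eq_fintype_card,
    hs.card] at main
  have : ((∑ χ ∈ Finset.univ.filter (fun χ : IrrCharacter G => χ ∈ principalBlock M G),
      u μ χ * u ν χ : ℤ) : ℂ) = (((m : ℤ) + (if Rel A μ ν then 1 else 0) : ℤ) : ℂ) := by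
    push_cast
    rw [main]
    simp
  exact_mod_cast this

theorem value_formula [Fintype G] [Fintype P] [Fintype (P →* ℂˣ)]
    (hcomm : ∀ a b : P, a * b = b * a)
    (u : (P →* ℂˣ) → IrrCharacter G → ℤ)
    (hu : ∀ μ χ, (u μ χ : ℂ) = (Nat.card P : ℂ)⁻¹ *
      ∑ x : P, (1 - ((μ x : ℂˣ) : ℂ)) * conj ((χ : G → ℂ) x)) (χ : IrrCharacter G)
    (x0 : P) (hx0 : x0 ≠ 1) :
    (χ : G → ℂ) x0 = - ∑ μ : P →* ℂˣ, (u μ χ : ℂ) * ((μ x0 : ℂˣ) : ℂ) := by
  set Q : ℂ := (Nat.card P : ℂ) with hQ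
  have hQ0 : Q ≠ 0 := by rw [hQ]; exact_mod_cast Nat.card_pos.ne'
  have e : ∀ μ : P →* ℂˣ, (u μ χ : ℂ) * ((μ x0 : ℂˣ) : ℂ) = Q⁻¹ *
      ∑ x : P, conj ((χ : G → ℂ) x) * (((μ x0 : ℂˣ) : ℂ) - ((μ (x * x0) : ℂˣ) : ℂ)) := by
    intro μ
    rw [hu, mul_assoc, Finset.sum_mul]
    congr 1
    refine Finset.sum_congr rfl fun x _ => ?_
    rw [map_mul, Units.val_mul]; ring
  rw [Finset.sum_congr rfl (fun μ _ => e μ), ← Finset.mul_sum, Finset.sum_comm]
  have e2 : ∀ x : P, ∑ μ : P →* ℂˣ, conj ((χ : G → ℂ) x) *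
      (((μ x0 : ℂˣ) : ℂ) - ((μ (x * x0) : ℂˣ) : ℂ)) =
      if x = x0⁻¹ then - (Q * conj ((χ : G → ℂ) x)) else 0 := by
    intro x
    rw [← Finset.mul_sum, Finset.sum_sub_distrib, dual_orth hcomm, dual_orth hcomm,
      if_neg hx0]
    by_cases hx : x = x0⁻¹
    · rw [if_pos hx, if_pos (by rw [hx, inv_mul_cancel])]; ring
    · rw [if_neg hx, if_neg (fun h => hx (mul_eq_one_iff_eq_inv.1 h))]; ring
  rw [Finset.sum_congr rfl (fun x _ => e2 x), Finset.sum_ite_eq']
  simp only [Finset.mem_univ, if_true]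
  have h3 : conj ((χ : G → ℂ) ((x0⁻¹ : P) : G)) = (χ : G → ℂ) x0 := by
    rw [Subgroup.coe_inv, inv_of_isCharacter (isCharacter_of_isIrr χ.2), Complex.conj_conj]
  rw [h3]
  field_simp

end Cfsg.Agent.Lib.helper8_BL3
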