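import Mathlib
import Cfsg.Agent.Lib.helper8_BL3

/-!
# Abelian Sylow subgroups with a Frobenius-type normalizer: the principal block
-/

set_option autoImplicit false

namespace Cfsg.Agent.Lib.helper8_BL4

open Cfsg Cfsg.Agent.Lib.CharBasic Cfsg.Agent.Lib.CharOrtho Cfsg.Agent.Lib.CharComplete
  Cfsg.Agent.Lib.CharMore Cfsg.Agent.Lib.CharInd Cfsg.Agent.Lib.CharGen Cfsg.Agent.Lib.CharLinear
  Cfsg.Agent.Lib.Helper2_BlockLocal Cfsg.Agent.Lib.Helper2_BlockOm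
  Cfsg.Agent.Lib.Helper2_BlockThird Cfsg.Agent.Lib.Helper2_PrincipalSection
  Cfsg.Agent.Lib.Helper2_BlockOrtho2 Cfsg.Agent.Lib.helper8_Defect
  Cfsg.Agent.Lib.Helper2_BlockQuot Cfsg.Agent.Lib.Helper2_BlockOrtho
  Cfsg.Agent.Lib.helper8_DefectZero Cfsg.Agent.Lib.helper6_HomoChar Cfsg.Agent.Lib.helper8_BL2
  Cfsg.Agent.Lib.helper8_BL3 Cfsg.Agent.Lib.helper8_BL1
open scoped ComplexConjugate Classical

universe u

variable {G : Type u} [Group G] {p : ℕ} {P : Subgroup G} {A : Subgroup (MulAut P)} {m : ℕ}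

theorem dvd_order (hs : FSetup p P A m) {x : P} (hx : x ≠ 1) : p ∣ orderOf (x : G) := by
  obtain ⟨k, hk⟩ := hs.pel x
  rw [hk]
  rcases k with _ | k
  · rw [pow_zero, orderOf_eq_one_iff] at hk
    exact absurd (Subtype.ext hk) hx
  · exact Dvd.intro_left _ rfl

theorem reg_rel [Fintype G] [Fintype P] (hs : FSetup p P A m) {M : Ideal AlgInt}
    (hM : IsPModular p M) (u : (P →* ℂˣ) → IrrCharacter G → ℤ)
    (hu : ∀ μ χ, (u μ χ : ℂ) = (Nat.card P : ℂ)⁻¹ *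
      ∑ x : P, (1 - ((μ x : ℂˣ) : ℂ)) * conj ((χ : G → ℂ) x)) (μ : P →* ℂˣ) {g : G}
    (hg : ¬ p ∣ orderOf g) :
    ∑ χ ∈ Finset.univ.filter (fun χ : IrrCharacter G => χ ∈ principalBlock M G),
      (χ : G → ℂ) g * (u μ χ : ℂ) = 0 := by
  apply weight_rel u hu
  intro x hx
  have hx1 : x ≠ 1 := by
    intro h
    apply hx
    rw [h, map_one]
  have h2 : p ∣ orderOf (x : G)⁻¹ := by
    rw [orderOf_inv]; exact dvd_order hs hx1
  have := weak_block_orthogonality hM (principalBlock_isPBlock M G) (x := g) (y := (x : G)⁻¹)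
    hg h2
  rw [← this]
  refine Finset.sum_congr rfl fun χ _ => ?_
  rw [inv_of_isCharacter (isCharacter_of_isIrr χ.2)]

theorem exists_pair [Finite G] [Fintype P] [Fintype A] [Fintype (P →* ℂˣ)] (hs : FSetup p P A m)
    (hm2 : m + 1 < Nat.card P) :
    ∃ μ₀ ν₀ : P →* ℂˣ, μ₀ ≠ 1 ∧ ν₀ ≠ 1 ∧ ¬ Rel A μ₀ ν₀ := by
  have hcardD : Fintype.card (P →* ℂˣ) = Nat.card P := by
    rw [← Nat.card_eq_fintype_card]; exact dual_card' hs.comm
  obtain ⟨μ₀, hμ₀⟩ := Fintype.exists_ne_of_one_lt_card (by rw [hcardD]; omega) (1 : P →* ℂˣ)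
  by_contra hcon
  push Not at hcon
  have h1 := hcon μ₀
  let f : Option A → (P →* ℂˣ) := fun o => match o with
    | none => 1
    | some b => act (b : MulAut P)⁻¹ μ₀
  have hsurj : Function.Surjective f := by
    intro ν
    by_cases hν : ν = 1
    · exact ⟨none, hν.symm⟩
    · obtain ⟨b, hb, h2⟩ := h1 ν hμ₀ hν
      refine ⟨some ⟨b, hb⟩, ?_⟩
      show act b⁻¹ μ₀ = ν
      rw [h2, act_mul, mul_inv_cancel, act_one]
  have h3 := Fintype.card_le_of_surjective f hsurj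
  rw [hcardD, Fintype.card_option, ← Nat.card_eq_fintype_card, hs.card] at h3
  omega

theorem rel_ne_one {μ ν : P →* ℂˣ} (hμ : μ ≠ 1) (h : Rel A μ ν) : ν ≠ 1 := by
  rintro rfl
  obtain ⟨b, -, h1⟩ := h
  exact hμ h1

theorem main [Fintype G] [Fintype P] [Fintype A] [Fintype (P →* ℂˣ)] (hs : FSetup p P A m)
    {M : Ideal AlgInt} (hM : IsPModular p M) (hm2 : m + 1 < Nat.card P) :
    ∃ (XF YF : Finset (IrrCharacter G)) (w : IrrCharacter G → ℤ) (d δ : ℤ)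
      (e : {μ : P →* ℂˣ // μ ≠ 1} → IrrCharacter G),
      XF ∪ YF = Finset.univ.filter (fun χ : IrrCharacter G => χ ∈ principalBlock M G) ∧
      Disjoint XF YF ∧ YF.card * m = Nat.card P - 1 ∧ oneIrr G ∈ XF ∧ (δ = 1 ∨ δ = -1) ∧
      (∀ χ ∈ XF, ∀ y : P, y ≠ 1 → (χ : G → ℂ) y = (w χ : ℂ)) ∧
      (∀ μ, e μ ∈ YF) ∧ (∀ η ∈ YF, ∃ μ, e μ = η) ∧ (∀ μ ν, e μ = e ν ↔ Rel A μ.1 ν.1) ∧
      (∀ μ, ∀ y : P, y ≠ 1 → (e μ : G → ℂ) y = (d : ℂ) + (δ : ℂ) *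
        ∑ ν : P →* ℂˣ, if Rel A μ.1 ν then ((ν y : ℂˣ) : ℂ) else 0) ∧
      ((d - δ) ^ 2 + ((YF.card : ℤ) - 1) * d ^ 2 + ∑ χ ∈ XF, w χ ^ 2 = (m : ℤ) + 1) ∧
      (∀ η ∈ YF, ∀ η' ∈ YF, ∀ g : G, ¬ p ∣ orderOf g → (η : G → ℂ) g = (η' : G → ℂ) g) ∧
      (∀ η ∈ YF, ∀ g : G, ¬ p ∣ orderOf g →
        ((YF.card : ℂ) * d - δ) * (η : G → ℂ) g + ∑ χ ∈ XF, (w χ : ℂ) * (χ : G → ℂ) g = 0) := by
  have hPr := isPrime_of_modular hM
  have hp1 : ¬ p ∣ 1 := fun h => hM.1.one_lt.ne' (Nat.dvd_one.mp h)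
  choose u hu using fun μ : P →* ℂˣ => exists_u P μ
  set B := Finset.univ.filter (fun χ : IrrCharacter G => χ ∈ principalBlock M G) with hB
  have hreg := fun (μ : P →* ℂˣ) (g : G) (hg : ¬ p ∣ orderOf g) => reg_rel hs hM u hu μ hg
  rw [← hB] at hreg
  have hdeg : ∀ μ : P →* ℂˣ, ∑ χ ∈ B, u μ χ * (charDegree (χ : G → ℂ) : ℤ) = 0 := by
    intro μ
    have h1 : ((∑ χ ∈ B, u μ χ * (charDegree (χ : G → ℂ) : ℤ) : ℤ) : ℂ) = 0 := by
      push_cast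
      rw [← hreg μ 1 (by rw [orderOf_one]; exact hp1)]
      refine Finset.sum_congr rfl fun χ _ => ?_
      rw [(irr_charDegree χ.2).2.1]; ring
    exact_mod_cast h1
  obtain ⟨μ₀, ν₀, hμ₀, hν₀, hnr⟩ := exists_pair hs hm2
  obtain ⟨δ, w, e, d, hδ, heB, hform, hd, hiff⟩ :=
    coherence (Λ := {μ : P →* ℂˣ // μ ≠ 1}) B (fun χ => (charDegree (χ : G → ℂ) : ℤ))
      (fun χ _ => by exact_mod_cast (irr_charDegree χ.2).1) (fun μ => u μ.1)
      (fun μ ν => Rel A μ.1 ν.1) (m : ℤ) (fun μ ν => gram hs hM u hu μ.1 ν.1 μ.2 ν.2)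
      (fun μ => ⟨1, A.one_mem, rfl⟩) (fun μ => hdeg μ.1) ⟨μ₀, hμ₀⟩ ⟨ν₀, hν₀⟩ hnr
  have hδ2 : δ * δ = 1 := by rcases hδ with h | h <;> rw [h] <;> norm_num
  set YF : Finset (IrrCharacter G) := Finset.univ.image e with hYF
  have hYB : YF ⊆ B := by
    intro η hη
    obtain ⟨μ, -, rfl⟩ := Finset.mem_image.mp hη
    exact heB μ
  have heY : ∀ μ, e μ ∈ YF := fun μ => Finset.mem_image_of_mem e (Finset.mem_univ μ)
  have hYe : ∀ η ∈ YF, ∃ μ, e μ = η := by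
    intro η hη
    obtain ⟨μ, -, h⟩ := Finset.mem_image.mp hη
    exact ⟨μ, h⟩
  have hXB : B \ YF ⊆ B := Finset.sdiff_subset
  have hdlX : ∀ χ ∈ B \ YF, ∀ μ, dl (e μ) χ = 0 := by
    intro χ hχ μ
    apply dl_ne
    rintro rfl
    exact (Finset.mem_sdiff.mp hχ).2 (heY μ)
  have hsplit : ∀ F : IrrCharacter G → ℂ, ∑ χ ∈ B, F χ = ∑ χ ∈ B \ YF, F χ + ∑ χ ∈ YF, F χ :=
    fun F => (Finset.sum_sdiff hYB).symm
  have hsplitZ : ∀ F : IrrCharacter G → ℤ, ∑ χ ∈ B, F χ = ∑ χ ∈ B \ YF, F χ + ∑ χ ∈ YF, F χ :=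
    fun F => (Finset.sum_sdiff hYB).symm
  have hwY : ∀ η ∈ YF, w η = d := by
    intro η hη
    obtain ⟨μ, rfl⟩ := hYe η hη
    exact hd μ
  -- card of Y
  have hcardY : YF.card * m = Nat.card P - 1 := by
    have h1 := Finset.card_eq_sum_card_image e Finset.univ
    have h2 : ∀ η ∈ Finset.univ.image e,
        (Finset.univ.filter (fun μ => e μ = η)).card = m := by
      intro η hη
      obtain ⟨ν, rfl⟩ := hYe η hη
      have h3 : Finset.univ.filter (fun μ => e μ = e ν) =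
          Finset.univ.image (fun b : A => (⟨act (b : MulAut P) ν.1, act_ne_one ν.2 _⟩ :
            {μ : P →* ℂˣ // μ ≠ 1})) := by
        ext μ
        simp only [Finset.mem_filter, Finset.mem_univ, true_and, Finset.mem_image]
        rw [hiff]
        constructor
        · rintro ⟨b, hb, h⟩
          exact ⟨⟨b, hb⟩, Subtype.ext h.symm⟩
        · rintro ⟨b, h⟩
          exact ⟨b, b.2, (congrArg Subtype.val h).symm⟩
      rw [h3, Finset.card_image_of_injective, Finset.card_univ, ← Nat.card_eq_fintype_card, hs.card]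
      intro b c hbc
      apply Subtype.ext
      exact dual_uniq hs ν.2 b.2 c.2 (congrArg Subtype.val hbc)
    rw [Finset.sum_congr rfl h2, Finset.sum_const, smul_eq_mul, Finset.card_univ] at h1
    rw [← h1, Fintype.card_subtype_compl, Fintype.card_subtype_eq, ← Nat.card_eq_fintype_card,
      dual_card' hs.comm]
  -- trivial character
  have hone : oneIrr G ∈ B \ YF := by
    rw [Finset.mem_sdiff]
    have h1B : oneIrr G ∈ B := by
      rw [hB, Finset.mem_filter]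
      exact ⟨Finset.mem_univ _, oneIrr_mem_principal hPr G⟩
    refine ⟨h1B, fun hY => ?_⟩
    obtain ⟨μ, hμ⟩ := hYe _ hY
    have hne : ∃ κ, e κ ≠ e μ := by
      by_contra hcon
      push Not at hcon
      exact hnr ((hiff ⟨μ₀, hμ₀⟩ ⟨ν₀, hν₀⟩).mp ((hcon _).trans (hcon _).symm))
    obtain ⟨κ, hκ⟩ := hne
    have h1 := hform μ _ h1B
    have h2 := hform κ _ h1B
    rw [u_one u hu μ.2, ← hμ, dl_self] at h1
    rw [u_one u hu κ.2, ← hμ, dl_ne (Ne.symm hκ)] at h2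
    rcases hδ with h | h <;> rw [h] at h1 <;> omega
  -- values
  have hsumΛ : ∀ y : P, y ≠ 1 → ∑ μ : {μ : P →* ℂˣ // μ ≠ 1}, ((μ.1 y : ℂˣ) : ℂ) = -1 := by
    intro y hy
    have h1 := dual_orth hs.comm y
    rw [if_neg hy, Fintype.sum_eq_add_sum_subtype_ne _ (1 : P →* ℂˣ)] at h1
    simp only [MonoidHom.one_apply, Units.val_one] at h1
    linear_combination h1
  have hval : ∀ χ ∈ B, ∀ y : P, y ≠ 1 → (χ : G → ℂ) y = (w χ : ℂ) + (δ : ℂ) *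
      ∑ μ : {μ : P →* ℂˣ // μ ≠ 1}, (dl (e μ) χ : ℂ) * ((μ.1 y : ℂˣ) : ℂ) := by
    intro χ hχ y hy
    rw [value_formula hs.comm u hu χ y hy, Fintype.sum_eq_add_sum_subtype_ne _ (1 : P →* ℂˣ),
      u_triv u hu]
    have h1 : ∀ μ : {μ : P →* ℂˣ // μ ≠ 1}, (u μ.1 χ : ℂ) * ((μ.1 y : ℂˣ) : ℂ) =
        (w χ : ℂ) * ((μ.1 y : ℂˣ) : ℂ) - (δ : ℂ) * ((dl (e μ) χ : ℂ) * ((μ.1 y : ℂˣ) : ℂ)) := by
      intro μ
      have := hform μ χ hχ
      rw [this]; push_cast; ring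
    rw [Finset.sum_congr rfl (fun μ _ => h1 μ), Finset.sum_sub_distrib, ← Finset.mul_sum,
      ← Finset.mul_sum, hsumΛ y hy]
    push_cast; ring
  have h3 : ∀ (g : G) (κ : {μ : P →* ℂˣ // μ ≠ 1}), ∑ χ ∈ B, (χ : G → ℂ) g * (u κ.1 χ : ℂ) =
      ∑ χ ∈ B, (χ : G → ℂ) g * (w χ : ℂ) - (δ : ℂ) * (e κ : G → ℂ) g := by
    intro g κ
    have h4 : ∀ χ ∈ B, (χ : G → ℂ) g * (u κ.1 χ : ℂ) = (χ : G → ℂ) g * (w χ : ℂ) -
        (δ : ℂ) * (if χ = e κ then (χ : G → ℂ) g else 0) := by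
      intro χ hχ
      have := hform κ χ hχ
      rw [this]
      unfold dl
      split_ifs <;> push_cast <;> ring
    rw [Finset.sum_congr rfl h4, Finset.sum_sub_distrib, ← Finset.mul_sum,
      Finset.sum_ite_eq' B (e κ), if_pos (heB κ)]
  have hagree : ∀ η ∈ YF, ∀ η' ∈ YF, ∀ g : G, ¬ p ∣ orderOf g →
      (η : G → ℂ) g = (η' : G → ℂ) g := by
    intro η hη η' hη' g hg
    obtain ⟨μ, rfl⟩ := hYe η hη
    obtain ⟨ν, rfl⟩ := hYe η' hη'
    have h1 := hreg μ.1 g hg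
    have h2 := hreg ν.1 g hg
    rw [h3] at h1 h2
    have h5 : (δ : ℂ) * ((e μ : G → ℂ) g - (e ν : G → ℂ) g) = 0 := by linear_combination h2 - h1
    have hδ0 : (δ : ℂ) ≠ 0 := by
      rcases hδ with h | h <;> rw [h] <;> norm_num
    have := (mul_eq_zero.mp h5).resolve_left hδ0
    linear_combination this
  refine ⟨B \ YF, YF, w, d, δ, e, Finset.sdiff_union_of_subset hYB, Finset.sdiff_disjoint, hcardY,
    hone, hδ, ?_, heY, hYe, hiff, ?_, ?_, ?_, ?_⟩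
  · intro χ hχ y hy
    rw [hval χ (hXB hχ) y hy, Finset.sum_eq_zero, mul_zero, add_zero]
    intro μ _
    rw [hdlX χ hχ μ]; simp
  · intro μ y hy
    rw [hval _ (heB μ) y hy, hd μ, Fintype.sum_eq_add_sum_subtype_ne _ (1 : P →* ℂˣ),
      if_neg (fun h => rel_ne_one μ.2 h rfl), zero_add]
    congr 2
    refine Finset.sum_congr rfl fun ν _ => ?_
    by_cases h : Rel A μ.1 ν.1
    · rw [if_pos h, (hiff μ ν).mpr h, dl_self]; simp
    · rw [if_neg h, dl_ne (fun h' => h ((hiff μ ν).mp h'))]; simp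
  · have h1 := gram hs hM u hu μ₀ μ₀ hμ₀ hμ₀
    rw [if_pos ⟨1, A.one_mem, rfl⟩, ← hB, hsplitZ] at h1
    have h2 : ∑ χ ∈ B \ YF, u μ₀ χ * u μ₀ χ = ∑ χ ∈ B \ YF, w χ ^ 2 := by
      refine Finset.sum_congr rfl fun χ hχ => ?_
      have := hform ⟨μ₀, hμ₀⟩ χ (hXB hχ)
      simp only at this
      rw [this, hdlX χ hχ]; ring
    have h3 : ∑ χ ∈ YF, u μ₀ χ * u μ₀ χ = (YF.card : ℤ) * d ^ 2 - 2 * d * δ + 1 := by
      have h4 : ∀ χ ∈ YF, u μ₀ χ * u μ₀ χ = d ^ 2 +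
          dl (e ⟨μ₀, hμ₀⟩) χ * (dl (e ⟨μ₀, hμ₀⟩) χ - 2 * d * δ) := by
        intro χ hχ
        have := hform ⟨μ₀, hμ₀⟩ χ (hYB hχ)
        simp only at this
        rw [this, hwY χ hχ]
        linear_combination (dl (e ⟨μ₀, hμ₀⟩) χ * dl (e ⟨μ₀, hμ₀⟩) χ) * hδ2
      rw [Finset.sum_congr rfl h4, Finset.sum_add_distrib, sum_dl_mul YF (heY _), dl_self,
        Finset.sum_const, nsmul_eq_mul]
      ring
    rw [h2, h3] at h1
    linear_combination h1 + hδ2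
  · exact hagree
  · intro η hη g hg
    obtain ⟨μ, rfl⟩ := hYe η hη
    have h1 := hreg μ.1 g hg
    rw [h3, hsplit] at h1
    have h2 : ∑ χ ∈ YF, (χ : G → ℂ) g * (w χ : ℂ) = (YF.card : ℂ) * ((e μ : G → ℂ) g * (d : ℂ)) := by
      rw [Finset.sum_congr rfl (fun χ hχ => by rw [hagree χ hχ (e μ) hη g hg, hwY χ hχ]),
        Finset.sum_const, nsmul_eq_mul]
    rw [h2] at h1
    have h4 : ∑ χ ∈ B \ YF, (w χ : ℂ) * (χ : G → ℂ) g = ∑ χ ∈ B \ YF, (χ : G → ℂ) g * (w χ : ℂ) :=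
      Finset.sum_congr rfl fun χ _ => mul_comm _ _
    rw [h4]
    linear_combination h1

end Cfsg.Agent.Lib.helper8_BL4
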