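import Mathlib
import Cfsg.Agent.Lib.helper8_BL4

/-!
# Abelian Sylow subgroups with a Frobenius-type normalizer: the principal block
-/

set_option autoImplicit false

namespace Cfsg.Agent.Lib.helper8_BL5

open Cfsg Cfsg.Agent.Lib.CharBasic Cfsg.Agent.Lib.CharOrtho Cfsg.Agent.Lib.CharComplete
  Cfsg.Agent.Lib.CharMore Cfsg.Agent.Lib.CharInd Cfsg.Agent.Lib.CharGen Cfsg.Agent.Lib.CharLinear
  Cfsg.Agent.Lib.Helper2_BlockLocal Cfsg.Agent.Lib.Helper2_BlockOm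
  Cfsg.Agent.Lib.Helper2_BlockThird Cfsg.Agent.Lib.Helper2_PrincipalSection
  Cfsg.Agent.Lib.Helper2_BlockOrtho2 Cfsg.Agent.Lib.helper8_Defect
  Cfsg.Agent.Lib.Helper2_BlockQuot Cfsg.Agent.Lib.Helper2_BlockOrtho
  Cfsg.Agent.Lib.helper8_DefectZero Cfsg.Agent.Lib.helper6_HomoChar Cfsg.Agent.Lib.helper8_BL2
  Cfsg.Agent.Lib.helper8_BL3 Cfsg.Agent.Lib.helper8_BL1 Cfsg.Agent.Lib.helper8_BL4
open scoped ComplexConjugate Classical

universe u

variable {G : Type u} [Group G] {p : ℕ} {P : Subgroup G} {A : Subgroup (MulAut P)} {m : ℕ}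

/-- the shape of the decomposition vectors. -/
structure Form (B : Finset (IrrCharacter G)) (u : (P →* ℂˣ) → IrrCharacter G → ℤ) (δ : ℤ)
    (w : IrrCharacter G → ℤ) (e : {μ : P →* ℂˣ // μ ≠ 1} → IrrCharacter G) : Prop where
  sign : δ = 1 ∨ δ = -1
  mem : ∀ μ, e μ ∈ B
  form : ∀ μ, ∀ χ ∈ B, u μ.1 χ = w χ - δ * dl (e μ) χ

theorem deg_rel [Fintype G] [Fintype P] (hs : FSetup p P A m)
    {M : Ideal AlgInt} (hM : IsPModular p M) (u : (P →* ℂˣ) → IrrCharacter G → ℤ)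
    (hu : ∀ μ χ, (u μ χ : ℂ) = (Nat.card P : ℂ)⁻¹ *
      ∑ x : P, (1 - ((μ x : ℂˣ) : ℂ)) * conj ((χ : G → ℂ) x)) (μ : P →* ℂˣ) :
    ∑ χ ∈ Finset.univ.filter (fun χ : IrrCharacter G => χ ∈ principalBlock M G),
      u μ χ * (charDegree (χ : G → ℂ) : ℤ) = 0 := by
  have hp1 : ¬ p ∣ 1 := fun h => hM.1.one_lt.ne' (Nat.dvd_one.mp h)
  have h1 : ((∑ χ ∈ Finset.univ.filter (fun χ : IrrCharacter G => χ ∈ principalBlock M G),
      u μ χ * (charDegree (χ : G → ℂ) : ℤ) : ℤ) : ℂ) = 0 := by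
    push_cast
    rw [← reg_rel hs hM u hu μ (g := 1) (by rw [orderOf_one]; exact hp1)]
    refine Finset.sum_congr rfl fun χ _ => ?_
    rw [(irr_charDegree χ.2).2.1]; ring
  exact_mod_cast h1

theorem exists_form [Fintype G] [Fintype P] [Fintype A] [Fintype (P →* ℂˣ)] (hs : FSetup p P A m)
    {M : Ideal AlgInt} (hM : IsPModular p M) (hm2 : m + 1 < Nat.card P)
    (u : (P →* ℂˣ) → IrrCharacter G → ℤ)
    (hu : ∀ μ χ, (u μ χ : ℂ) = (Nat.card P : ℂ)⁻¹ *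
      ∑ x : P, (1 - ((μ x : ℂˣ) : ℂ)) * conj ((χ : G → ℂ) x)) :
    ∃ (δ : ℤ) (w : IrrCharacter G → ℤ) (e : {μ : P →* ℂˣ // μ ≠ 1} → IrrCharacter G),
      Form (Finset.univ.filter (fun χ : IrrCharacter G => χ ∈ principalBlock M G)) u δ w e := by
  obtain ⟨μ₀, ν₀, hμ₀, hν₀, hnr⟩ := exists_pair hs hm2
  obtain ⟨δ, w, e, d, hδ, heB, hform, hd, hiff⟩ :=
    coherence (Λ := {μ : P →* ℂˣ // μ ≠ 1})
      (Finset.univ.filter (fun χ : IrrCharacter G => χ ∈ principalBlock M G))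
      (fun χ => (charDegree (χ : G → ℂ) : ℤ))
      (fun χ _ => by exact_mod_cast (irr_charDegree χ.2).1) (fun μ => u μ.1)
      (fun μ ν => Rel A μ.1 ν.1) (m : ℤ) (fun μ ν => gram hs hM u hu μ.1 ν.1 μ.2 ν.2)
      (fun μ => ⟨1, A.one_mem, rfl⟩) (fun μ => deg_rel hs hM u hu μ.1) ⟨μ₀, hμ₀⟩ ⟨ν₀, hν₀⟩ hnr
  exact ⟨δ, w, e, hδ, heB, hform⟩

theorem post [Fintype G] [Fintype P] [Fintype A] [Fintype (P →* ℂˣ)] (hs : FSetup p P A m)
    {M : Ideal AlgInt} (hM : IsPModular p M) (hm2 : m + 1 < Nat.card P)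
    (u : (P →* ℂˣ) → IrrCharacter G → ℤ)
    (hu : ∀ μ χ, (u μ χ : ℂ) = (Nat.card P : ℂ)⁻¹ *
      ∑ x : P, (1 - ((μ x : ℂˣ) : ℂ)) * conj ((χ : G → ℂ) x))
    {δ : ℤ} {w : IrrCharacter G → ℤ} {e : {μ : P →* ℂˣ // μ ≠ 1} → IrrCharacter G}
    (hF : Form (Finset.univ.filter (fun χ : IrrCharacter G => χ ∈ principalBlock M G)) u δ w e) :
    ∃ (XF YF : Finset (IrrCharacter G)) (d : ℤ),
      XF ∪ YF = Finset.univ.filter (fun χ : IrrCharacter G => χ ∈ principalBlock M G) ∧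
      Disjoint XF YF ∧ YF.card * m = Nat.card P - 1 ∧ oneIrr G ∈ XF ∧ (∀ μ, w (e μ) = d) ∧
      (∀ χ ∈ XF, ∀ y : P, y ≠ 1 → (χ : G → ℂ) y = (w χ : ℂ)) ∧
      (∀ μ, e μ ∈ YF) ∧ (∀ η ∈ YF, ∃ μ, e μ = η) ∧ (∀ μ ν, e μ = e ν ↔ Rel A μ.1 ν.1) ∧
      (∀ μ, ∀ y : P, y ≠ 1 → (e μ : G → ℂ) y = (d : ℂ) + (δ : ℂ) *
        ∑ ν : P →* ℂˣ, if Rel A μ.1 ν then ((ν y : ℂˣ) : ℂ) else 0) ∧
      ((d - δ) ^ 2 + ((YF.card : ℤ) - 1) * d ^ 2 + ∑ χ ∈ XF, w χ ^ 2 = (m : ℤ) + 1) ∧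
      (∀ η ∈ YF, ∀ η' ∈ YF, ∀ g : G, ¬ p ∣ orderOf g → (η : G → ℂ) g = (η' : G → ℂ) g) ∧
      (∀ η ∈ YF, ∀ g : G, ¬ p ∣ orderOf g →
        ((YF.card : ℂ) * d - δ) * (η : G → ℂ) g + ∑ χ ∈ XF, (w χ : ℂ) * (χ : G → ℂ) g = 0) := by
  have hPr := isPrime_of_modular hM
  have hp1 : ¬ p ∣ 1 := fun h => hM.1.one_lt.ne' (Nat.dvd_one.mp h)
  set B := Finset.univ.filter (fun χ : IrrCharacter G => χ ∈ principalBlock M G) with hB
  have hreg := fun (μ : P →* ℂˣ) (g : G) (hg : ¬ p ∣ orderOf g) => reg_rel hs hM u hu μ hg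
  rw [← hB] at hreg
  obtain ⟨μ₀, ν₀, hμ₀, hν₀, hnr⟩ := exists_pair hs hm2
  have hδ := hF.sign
  have heB := hF.mem
  have hform := hF.form
  obtain ⟨d, hd, hiff⟩ := coherence_aux (Λ := {μ : P →* ℂˣ // μ ≠ 1}) B (fun μ => u μ.1)
    (fun μ ν => Rel A μ.1 ν.1) (m : ℤ) (fun μ ν => gram hs hM u hu μ.1 ν.1 μ.2 ν.2)
    (fun μ => ⟨1, A.one_mem, rfl⟩) ⟨μ₀, hμ₀⟩ δ w e hδ heB hform
  have hδ2 : δ * δ = 1 := by rcases hδ with h | h <;> rw [h] <;> norm_num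
  set YF : Finset (IrrCharacter G) := Finset.univ.image e with hYF
  have hYB : YF ⊆ B := by
    intro η hη
    obtain ⟨μ, -, rfl⟩ := Finset.mem_image.mp hη
    exact heB μ
  have heY : ∀ μ, e μ ∈ YF := fun μ => Finset.mem_image_of_mem e (Finset.mem_univ μ)
  have hYe : ∀ η ∈ YF, ∃ μ, e μ = η := by
    intro η hη
    obtain ⟨μ, -, h⟩ := Finset.mem_image.mp hη
    exact ⟨μ, h⟩
  have hXB : B \ YF ⊆ B := Finset.sdiff_subset
  have hdlX : ∀ χ ∈ B \ YF, ∀ μ, dl (e μ) χ = 0 := by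
    intro χ hχ μ
    apply dl_ne
    rintro rfl
    exact (Finset.mem_sdiff.mp hχ).2 (heY μ)
  have hsplit : ∀ F : IrrCharacter G → ℂ, ∑ χ ∈ B, F χ = ∑ χ ∈ B \ YF, F χ + ∑ χ ∈ YF, F χ :=
    fun F => (Finset.sum_sdiff hYB).symm
  have hsplitZ : ∀ F : IrrCharacter G → ℤ, ∑ χ ∈ B, F χ = ∑ χ ∈ B \ YF, F χ + ∑ χ ∈ YF, F χ :=
    fun F => (Finset.sum_sdiff hYB).symm
  have hwY : ∀ η ∈ YF, w η = d := by
    intro η hη
    obtain ⟨μ, rfl⟩ := hYe η hη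
    exact hd μ
  -- card of Y
  have hcardY : YF.card * m = Nat.card P - 1 := by
    have h1 := Finset.card_eq_sum_card_image e Finset.univ
    have h2 : ∀ η ∈ Finset.univ.image e,
        (Finset.univ.filter (fun μ => e μ = η)).card = m := by
      intro η hη
      obtain ⟨ν, rfl⟩ := hYe η hη
      have h3 : Finset.univ.filter (fun μ => e μ = e ν) =
          Finset.univ.image (fun b : A => (⟨act (b : MulAut P) ν.1, act_ne_one ν.2 _⟩ :
            {μ : P →* ℂˣ // μ ≠ 1})) := by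
        ext μ
        simp only [Finset.mem_filter, Finset.mem_univ, true_and, Finset.mem_image]
        rw [hiff]
        constructor
        · rintro ⟨b, hb, h⟩
          exact ⟨⟨b, hb⟩, Subtype.ext h.symm⟩
        · rintro ⟨b, h⟩
          exact ⟨b, b.2, (congrArg Subtype.val h).symm⟩
      rw [h3, Finset.card_image_of_injective, Finset.card_univ, ← Nat.card_eq_fintype_card, hs.card]
      intro b c hbc
      apply Subtype.ext
      exact dual_uniq hs ν.2 b.2 c.2 (congrArg Subtype.val hbc)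
    rw [Finset.sum_congr rfl h2, Finset.sum_const, smul_eq_mul, Finset.card_univ] at h1
    rw [← h1, Fintype.card_subtype_compl, Fintype.card_subtype_eq, ← Nat.card_eq_fintype_card,
      dual_card' hs.comm]
  -- trivial character
  have hone : oneIrr G ∈ B \ YF := by
    rw [Finset.mem_sdiff]
    have h1B : oneIrr G ∈ B := by
      rw [hB, Finset.mem_filter]
      exact ⟨Finset.mem_univ _, oneIrr_mem_principal hPr G⟩
    refine ⟨h1B, fun hY => ?_⟩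
    obtain ⟨μ, hμ⟩ := hYe _ hY
    have hne : ∃ κ, e κ ≠ e μ := by
      by_contra hcon
      push Not at hcon
      exact hnr ((hiff ⟨μ₀, hμ₀⟩ ⟨ν₀, hν₀⟩).mp ((hcon _).trans (hcon _).symm))
    obtain ⟨κ, hκ⟩ := hne
    have h1 := hform μ _ h1B
    have h2 := hform κ _ h1B
    rw [u_one u hu μ.2, ← hμ, dl_self] at h1
    rw [u_one u hu κ.2, ← hμ, dl_ne (Ne.symm hκ)] at h2
    rcases hδ with h | h <;> rw [h] at h1 <;> omega
  -- values
  have hsumΛ : ∀ y : P, y ≠ 1 → ∑ μ : {μ : P →* ℂˣ // μ ≠ 1}, ((μ.1 y : ℂˣ) : ℂ) = -1 := by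
    intro y hy
    have h1 := dual_orth hs.comm y
    rw [if_neg hy, Fintype.sum_eq_add_sum_subtype_ne _ (1 : P →* ℂˣ)] at h1
    simp only [MonoidHom.one_apply, Units.val_one] at h1
    linear_combination h1
  have hval : ∀ χ ∈ B, ∀ y : P, y ≠ 1 → (χ : G → ℂ) y = (w χ : ℂ) + (δ : ℂ) *
      ∑ μ : {μ : P →* ℂˣ // μ ≠ 1}, (dl (e μ) χ : ℂ) * ((μ.1 y : ℂˣ) : ℂ) := by
    intro χ hχ y hy
    rw [value_formula hs.comm u hu χ y hy, Fintype.sum_eq_add_sum_subtype_ne _ (1 : P →* ℂˣ),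
      u_triv u hu]
    have h1 : ∀ μ : {μ : P →* ℂˣ // μ ≠ 1}, (u μ.1 χ : ℂ) * ((μ.1 y : ℂˣ) : ℂ) =
        (w χ : ℂ) * ((μ.1 y : ℂˣ) : ℂ) - (δ : ℂ) * ((dl (e μ) χ : ℂ) * ((μ.1 y : ℂˣ) : ℂ)) := by
      intro μ
      have := hform μ χ hχ
      rw [this]; push_cast; ring
    rw [Finset.sum_congr rfl (fun μ _ => h1 μ), Finset.sum_sub_distrib, ← Finset.mul_sum,
      ← Finset.mul_sum, hsumΛ y hy]
    push_cast; ring
  have h3 : ∀ (g : G) (κ : {μ : P →* ℂˣ // μ ≠ 1}), ∑ χ ∈ B, (χ : G → ℂ) g * (u κ.1 χ : ℂ) =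
      ∑ χ ∈ B, (χ : G → ℂ) g * (w χ : ℂ) - (δ : ℂ) * (e κ : G → ℂ) g := by
    intro g κ
    have h4 : ∀ χ ∈ B, (χ : G → ℂ) g * (u κ.1 χ : ℂ) = (χ : G → ℂ) g * (w χ : ℂ) -
        (δ : ℂ) * (if χ = e κ then (χ : G → ℂ) g else 0) := by
      intro χ hχ
      have := hform κ χ hχ
      rw [this]
      unfold dl
      split_ifs <;> push_cast <;> ring
    rw [Finset.sum_congr rfl h4, Finset.sum_sub_distrib, ← Finset.mul_sum,
      Finset.sum_ite_eq' B (e κ), if_pos (heB κ)]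
  have hagree : ∀ η ∈ YF, ∀ η' ∈ YF, ∀ g : G, ¬ p ∣ orderOf g →
      (η : G → ℂ) g = (η' : G → ℂ) g := by
    intro η hη η' hη' g hg
    obtain ⟨μ, rfl⟩ := hYe η hη
    obtain ⟨ν, rfl⟩ := hYe η' hη'
    have h1 := hreg μ.1 g hg
    have h2 := hreg ν.1 g hg
    rw [h3] at h1 h2
    have h5 : (δ : ℂ) * ((e μ : G → ℂ) g - (e ν : G → ℂ) g) = 0 := by linear_combination h2 - h1
    have hδ0 : (δ : ℂ) ≠ 0 := by
      rcases hδ with h | h <;> rw [h] <;> norm_num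
    have := (mul_eq_zero.mp h5).resolve_left hδ0
    linear_combination this
  refine ⟨B \ YF, YF, d, Finset.sdiff_union_of_subset hYB, Finset.sdiff_disjoint, hcardY,
    hone, hd, ?_, heY, hYe, hiff, ?_, ?_, ?_, ?_⟩
  · intro χ hχ y hy
    rw [hval χ (hXB hχ) y hy, Finset.sum_eq_zero, mul_zero, add_zero]
    intro μ _
    rw [hdlX χ hχ μ]; simp
  · intro μ y hy
    rw [hval _ (heB μ) y hy, hd μ, Fintype.sum_eq_add_sum_subtype_ne _ (1 : P →* ℂˣ),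
      if_neg (fun h => rel_ne_one μ.2 h rfl), zero_add]
    congr 2
    refine Finset.sum_congr rfl fun ν _ => ?_
    by_cases h : Rel A μ.1 ν.1
    · rw [if_pos h, (hiff μ ν).mpr h, dl_self]; simp
    · rw [if_neg h, dl_ne (fun h' => h ((hiff μ ν).mp h'))]; simp
  · have h1 := gram hs hM u hu μ₀ μ₀ hμ₀ hμ₀
    rw [if_pos ⟨1, A.one_mem, rfl⟩, ← hB, hsplitZ] at h1
    have h2 : ∑ χ ∈ B \ YF, u μ₀ χ * u μ₀ χ = ∑ χ ∈ B \ YF, w χ ^ 2 := by
      refine Finset.sum_congr rfl fun χ hχ => ?_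
      have := hform ⟨μ₀, hμ₀⟩ χ (hXB hχ)
      simp only at this
      rw [this, hdlX χ hχ]; ring
    have h3 : ∑ χ ∈ YF, u μ₀ χ * u μ₀ χ = (YF.card : ℤ) * d ^ 2 - 2 * d * δ + 1 := by
      have h4 : ∀ χ ∈ YF, u μ₀ χ * u μ₀ χ = d ^ 2 +
          dl (e ⟨μ₀, hμ₀⟩) χ * (dl (e ⟨μ₀, hμ₀⟩) χ - 2 * d * δ) := by
        intro χ hχ
        have := hform ⟨μ₀, hμ₀⟩ χ (hYB hχ)
        simp only at this
        rw [this, hwY χ hχ]
        linear_combination (dl (e ⟨μ₀, hμ₀⟩) χ * dl (e ⟨μ₀, hμ₀⟩) χ) * hδ2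
      rw [Finset.sum_congr rfl h4, Finset.sum_add_distrib, sum_dl_mul YF (heY _), dl_self,
        Finset.sum_const, nsmul_eq_mul]
      ring
    rw [h2, h3] at h1
    linear_combination h1 + hδ2
  · exact hagree
  · intro η hη g hg
    obtain ⟨μ, rfl⟩ := hYe η hη
    have h1 := hreg μ.1 g hg
    rw [h3, hsplit] at h1
    have h2 : ∑ χ ∈ YF, (χ : G → ℂ) g * (w χ : ℂ) = (YF.card : ℂ) * ((e μ : G → ℂ) g * (d : ℂ)) := by
      rw [Finset.sum_congr rfl (fun χ hχ => by rw [hagree χ hχ (e μ) hη g hg, hwY χ hχ]),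
        Finset.sum_const, nsmul_eq_mul]
    rw [h2] at h1
    have h4 : ∑ χ ∈ B \ YF, (w χ : ℂ) * (χ : G → ℂ) g = ∑ χ ∈ B \ YF, (χ : G → ℂ) g * (w χ : ℂ) :=
      Finset.sum_congr rfl fun χ _ => mul_comm _ _
    rw [h4]
    linear_combination h1



theorem exists_ne_one (h : 1 < Nat.card P) : ∃ y : P, y ≠ 1 := by
  by_contra hcon
  push Not at hcon
  have : Subsingleton P := ⟨fun a b => (hcon a).trans (hcon b).symm⟩
  rw [Nat.card_unique] at h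
  exact lt_irrefl _ h

theorem form3 [Fintype G] [Fintype P] [Fintype A] [Fintype (P →* ℂˣ)] (hs : FSetup p P A 3)
    {M : Ideal AlgInt} (hM : IsPModular p M) (hm2 : 3 + 1 < Nat.card P)
    (u : (P →* ℂˣ) → IrrCharacter G → ℤ)
    (hu : ∀ μ χ, (u μ χ : ℂ) = (Nat.card P : ℂ)⁻¹ *
      ∑ x : P, (1 - ((μ x : ℂˣ) : ℂ)) * conj ((χ : G → ℂ) x)) :
    ∃ (δ : ℤ) (w : IrrCharacter G → ℤ) (e : {μ : P →* ℂˣ // μ ≠ 1} → IrrCharacter G),
      Form (Finset.univ.filter (fun χ : IrrCharacter G => χ ∈ principalBlock M G)) u δ w e ∧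
      ∀ μ, w (e μ) = 0 := by
  have hp1 : ¬ p ∣ 1 := fun h => hM.1.one_lt.ne' (Nat.dvd_one.mp h)
  obtain ⟨δ, w, e, hF⟩ := exists_form hs hM hm2 u hu
  obtain ⟨XF, YF, d, hU, hdisj, hcard, hone, hd, hX, heY, hYe, hiff, hYval, hnorm, hagree, hrel⟩ :=
    post hs hM hm2 u hu hF
  by_cases hd0 : d = 0
  · exact ⟨δ, w, e, hF, fun μ => (hd μ).trans hd0⟩
  obtain ⟨y₀, hy₀⟩ := exists_ne_one (P := P) (by omega)
  obtain ⟨μ₀, ν₀, hμ₀, hν₀, hnr⟩ := exists_pair hs hm2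
  have hw1 : w (oneIrr G) = 1 := by
    have h1 := hX _ hone y₀ hy₀
    have h2 : (oneIrr G : G → ℂ) y₀ = 1 := rfl
    rw [h2] at h1
    exact_mod_cast h1.symm
  have hS : 1 ≤ ∑ χ ∈ XF, w χ ^ 2 := by
    have := Finset.single_le_sum (f := fun χ => w χ ^ 2) (fun χ _ => sq_nonneg _) hone
    simp only [hw1] at this
    linarith
  have hr2 : (2 : ℤ) ≤ (YF.card : ℤ) := by
    have : 2 ≤ YF.card := by omega
    exact_mod_cast this
  have hdδ : d = δ := by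
    have h1 : 0 < d ^ 2 := by positivity
    have h2 : 0 ≤ (d - δ) ^ 2 := sq_nonneg _
    have h3 : d ^ 2 ≤ 3 := by
      push_cast at hnorm
      nlinarith
    have h4 : -1 ≤ d := by nlinarith
    have h5 : d ≤ 1 := by nlinarith
    push_cast at hnorm
    rcases hF.sign with rfl | rfl
    · interval_cases d
      · exfalso; nlinarith
      · exact absurd rfl hd0
      · rfl
    · interval_cases d
      · rfl
      · exact absurd rfl hd0
      · exfalso; nlinarith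
  have hδ2 : δ ^ 2 = 1 := by rcases hF.sign with h | h <;> rw [h] <;> norm_num
  rw [hdδ, sub_self, hδ2] at hnorm
  push_cast at hnorm
  have hr4 : YF.card ≤ 4 := by
    have : (YF.card : ℤ) ≤ 4 := by linarith
    exact_mod_cast this
  have hYB : YF ⊆ Finset.univ.filter (fun χ : IrrCharacter G => χ ∈ principalBlock M G) := by
    rw [← hU]; exact Finset.subset_union_right
  have hr2' : 2 ≤ YF.card := by exact_mod_cast hr2
  have hcases : YF.card = 2 ∨ YF.card = 3 ∨ YF.card = 4 := by omega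
  rcases hcases with hr | hr | hr
  · obtain ⟨η1, η2, hne, hYF⟩ := Finset.card_eq_two.mp hr
    have hm1 : η1 ∈ YF := by rw [hYF]; simp
    have hm2' : η2 ∈ YF := by rw [hYF]; simp
    have hcs : ∀ χ ∈ YF, χ = η1 ∨ χ = η2 := by
      intro χ hχ
      rw [hYF] at hχ
      simpa using hχ
    have hwY : ∀ χ ∈ YF, w χ = δ := by
      intro χ hχ
      obtain ⟨μ, rfl⟩ := hYe χ hχ
      rw [hd μ, hdδ]
    have he' : ∀ μ, (if e μ = η1 then η2 else η1) ∈ YF := by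
      intro μ
      split_ifs
      · exact hm2'
      · exact hm1
    refine ⟨-δ, fun χ => if χ ∈ YF then 0 else w χ, fun μ => if e μ = η1 then η2 else η1,
      ⟨?_, fun μ => hYB (he' μ), ?_⟩, fun μ => if_pos (he' μ)⟩
    · rcases hF.sign with h | h
      · right; rw [h]
      · left; rw [h]; norm_num
    · intro μ χ hχ
      have h := hF.form μ χ hχ
      by_cases hχY : χ ∈ YF
      · simp only [if_pos hχY]
        rw [h, hwY χ hχY]
        rcases hcs _ (heY μ) with h1 | h1 <;> rcases hcs χ hχY with h2 | h2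
        · rw [h1, h2, if_pos rfl, dl_self, dl_ne hne]; ring
        · rw [h1, h2, if_pos rfl, dl_self, dl_ne hne.symm]; ring
        · rw [h1, h2, if_neg hne.symm, dl_self, dl_ne hne]; ring
        · rw [h1, h2, if_neg hne.symm, dl_self, dl_ne hne.symm]; ring
      · simp only [if_neg hχY]
        have n1 : χ ≠ e μ := fun h' => hχY (by rw [h']; exact heY μ)
        have n2 : χ ≠ (if e μ = η1 then η2 else η1) := fun h' => hχY (by rw [h']; exact he' μ)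
        rw [h, dl_ne n1, dl_ne n2]
        ring
  · exfalso
    obtain ⟨k, hk, -, -⟩ := hs.core y₀ hy₀
    have h10 : p ^ k = 10 := by rw [← hk]; omega
    have hp := hM.1
    have h2 : 2 = p := (Nat.prime_dvd_prime_iff_eq Nat.prime_two hp).mp
      (Nat.Prime.dvd_of_dvd_pow Nat.prime_two (by rw [h10]; norm_num))
    have h5 : 5 = p := (Nat.prime_dvd_prime_iff_eq (by norm_num) hp).mp
      (Nat.Prime.dvd_of_dvd_pow (by norm_num) (by rw [h10]; norm_num))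
    omega
  · exfalso
    rw [hr] at hnorm
    have hS1 : ∑ χ ∈ XF, w χ ^ 2 = 1 := by push_cast at hnorm; linarith
    have h1 := Finset.add_sum_erase XF (fun χ => w χ ^ 2) hone
    simp only [hw1] at h1
    have h2 : ∑ χ ∈ XF.erase (oneIrr G), w χ ^ 2 = 0 := by linarith
    have h3 := (Finset.sum_eq_zero_iff_of_nonneg (fun χ _ => sq_nonneg (w χ))).mp h2
    have h4 := hrel (e ⟨μ₀, hμ₀⟩) (heY _) 1 (by rw [orderOf_one]; exact hp1)
    rw [← Finset.add_sum_erase XF _ hone, Finset.sum_eq_zero, hw1, hr, hdδ,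
      (irr_charDegree (e ⟨μ₀, hμ₀⟩).2).2.1] at h4
    · have h5 : (oneIrr G : G → ℂ) 1 = 1 := rfl
      rw [h5] at h4
      have h6 : (4 * δ - δ) * (charDegree (e ⟨μ₀, hμ₀⟩ : G → ℂ) : ℤ) + 1 = 0 := by
        have : (((4 * δ - δ) * (charDegree (e ⟨μ₀, hμ₀⟩ : G → ℂ) : ℤ) + 1 : ℤ) : ℂ) = 0 := by
          push_cast
          push_cast at h4
          linear_combination h4
        exact_mod_cast this
      rcases hF.sign with h | h <;> rw [h] at h6 <;> omega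
    · intro χ hχ
      have := h3 χ hχ
      have h7 : w χ = 0 := by simpa using this
      rw [h7]; simp

end Cfsg.Agent.Lib.helper8_BL5
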