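import Mathlib
import Cfsg.Agent.Lib.helper8_BL5
import Cfsg.Agent.Lib.Helper1_Invol2

/-!
# Abelian Sylow subgroups with a Frobenius-type normalizer of index three: involutions
-/

set_option autoImplicit false

namespace Cfsg.Agent.Lib.helper8_BL6

open Cfsg Cfsg.Agent.Lib.CharBasic Cfsg.Agent.Lib.CharOrtho Cfsg.Agent.Lib.CharComplete
  Cfsg.Agent.Lib.CharMore Cfsg.Agent.Lib.CharInd Cfsg.Agent.Lib.CharGen Cfsg.Agent.Lib.CharLinear
  Cfsg.Agent.Lib.Helper2_BlockLocal Cfsg.Agent.Lib.Helper2_BlockOm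
  Cfsg.Agent.Lib.Helper2_BlockThird Cfsg.Agent.Lib.Helper2_PrincipalSection
  Cfsg.Agent.Lib.Helper2_BlockOrtho2 Cfsg.Agent.Lib.helper8_Defect
  Cfsg.Agent.Lib.Helper2_BlockQuot Cfsg.Agent.Lib.Helper2_BlockOrtho
  Cfsg.Agent.Lib.helper8_DefectZero Cfsg.Agent.Lib.helper6_HomoChar Cfsg.Agent.Lib.helper8_BL2
  Cfsg.Agent.Lib.helper8_BL3 Cfsg.Agent.Lib.helper8_BL1 Cfsg.Agent.Lib.helper8_BL4
  Cfsg.Agent.Lib.helper6_Homo Cfsg.Agent.Lib.Helper2_PPart
open scoped ComplexConjugate Classical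

universe u

variable {G : Type u} [Group G] {p : ℕ} {P : Subgroup G} {A : Subgroup (MulAut P)} {m : ℕ}

theorem theta_vanish' [Fintype G] {t g : G}
    (hno : ∀ a b : G, IsConj t a → IsConj t b → a * b ≠ g⁻¹) :
    ∑ ψ : IrrCharacter G, ((ψ : G → ℂ) t * (ψ : G → ℂ) t / (ψ : G → ℂ) 1) * (ψ : G → ℂ) g = 0 := by
  have h1 := Cfsg.Agent.S0840.result t t g⁻¹
  have hempty : IsEmpty {p : G × G // IsConj t p.1 ∧ IsConj t p.2 ∧ p.1 * p.2 = g⁻¹} := by
    constructor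
    rintro ⟨⟨a, b⟩, ha, hb, hab⟩
    exact hno a b ha hb hab
  rw [Nat.card_of_isEmpty, finsum_eq_sum_of_fintype, Nat.cast_zero] at h1
  have hk : (Nat.card {x : G // IsConj t x} : ℂ) ≠ 0 := by
    have : Nonempty {x : G // IsConj t x} := ⟨⟨t, IsConj.refl t⟩⟩
    exact_mod_cast Nat.card_pos.ne'
  have hG : (Nat.card G : ℂ) ≠ 0 := by exact_mod_cast Nat.card_pos.ne'
  have h2 := (mul_eq_zero.1 h1.symm).resolve_left (div_ne_zero (mul_ne_zero hk hk) hG)
  rw [← h2]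
  refine Finset.sum_congr rfl fun ψ _ => ?_
  rw [inv_of_isCharacter (isCharacter_of_isIrr ψ.2), Complex.conj_conj]
  ring

theorem block_vanish' [Fintype G] {M : Ideal AlgInt} (hM : IsPModular p M)
    {t : G} (x : G) (hxp : ∃ k : ℕ, orderOf x = p ^ k)
    (hno : ∀ a b g z : G, IsConj t a → IsConj t b → IsPPart p g z → IsConj x⁻¹ z →
      a * b ≠ g⁻¹) :
    ∑ χ ∈ Finset.univ.filter (fun χ : IrrCharacter G => χ ∈ principalBlock M G),
      ((χ : G → ℂ) t * (χ : G → ℂ) t / (χ : G → ℂ) 1) * conj ((χ : G → ℂ) x) = 0 := by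
  have hp1 : ¬ p ∣ 1 := fun h => hM.1.one_lt.ne' (Nat.dvd_one.mp h)
  set ϑ : G → ℂ := ∑ ψ : IrrCharacter G,
    ((ψ : G → ℂ) t * (ψ : G → ℂ) t / (ψ : G → ℂ) 1) • (ψ : G → ℂ) with hϑ
  have hv : ∀ u z : G, IsPPart p u z → IsConj (x : G)⁻¹ z → ϑ u = 0 := by
    intro u z huz hconj
    have := theta_vanish' (t := t) (g := u) (fun a b ha hb => hno a b u z ha hb huz hconj)
    rw [hϑ, Finset.sum_apply]
    simpa only [Pi.smul_apply, smul_eq_mul] using this
  have h1 := blockPart_section hM hv (principalBlock_isPBlock M G) (u := (x : G)⁻¹)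
    (z := (x : G)⁻¹)
    ⟨1, mul_one _, Commute.one_right _, by rw [orderOf_inv]; exact hxp,
      by rw [orderOf_one]; exact hp1⟩ (IsConj.refl _)
  unfold blockPart at h1
  rw [Cfsg.Agent.Lib.Helper7_ZS12.finsum_block] at h1
  rw [← h1]
  refine Finset.sum_congr rfl fun χ _ => ?_
  rw [inv_of_isCharacter (isCharacter_of_isIrr χ.2)]
  congr 1
  have e : classInner ϑ (χ : G → ℂ) = (χ : G → ℂ) t * (χ : G → ℂ) t / (χ : G → ℂ) 1 := by
    rw [hϑ, classInner_sum_left]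
    simp only [classInner_smul_left]
    rw [Finset.sum_eq_single χ, classInner_irr_self χ.2, mul_one]
    · intro ψ _ hψ
      rw [classInner_irr_ne ψ.2 χ.2 (fun h => hψ (Subtype.ext h)), mul_zero]
    · intro h; exact absurd (Finset.mem_univ _) h
  rw [← e]
  congr
  exact Subsingleton.elim _ _

/-- if a product of two conjugates of an involution is `g⁻¹`, the first inverts the `p`-part. -/
theorem inverts_part [Finite G] (hp : p.Prime) {t a b g z : G} (ht : orderOf t = 2) (ha : IsConj t a)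
    (hb : IsConj t b) (hgz : IsPPart p g z) (hab : a * b = g⁻¹) :
    a * a = 1 ∧ b * b = 1 ∧ g = b * a ∧ a * g * a⁻¹ = g⁻¹ ∧ a * z * a⁻¹ = z⁻¹ := by
  have oa : orderOf a = 2 := by
    obtain ⟨c, hc⟩ := isConj_iff.1 ha
    rw [← hc, orderOf_conj'', ht]
  have ob : orderOf b = 2 := by
    obtain ⟨c, hc⟩ := isConj_iff.1 hb
    rw [← hc, orderOf_conj'', ht]
  have haa := sq_of_order oa
  have hbb := sq_of_order ob
  have hai : a⁻¹ = a := inv_eq_of_mul_eq_one_left haa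
  have hbi : b⁻¹ = b := inv_eq_of_mul_eq_one_left hbb
  have hg : g = b * a := by
    have : g = (a * b)⁻¹ := by rw [hab, inv_inv]
    rw [this, mul_inv_rev, hai, hbi]
  have hinv : a * g * a⁻¹ = g⁻¹ := by
    rw [← hab, hg, hai, mul_assoc, mul_assoc, haa, mul_one]
  obtain ⟨y, hxy, hc, hx, hy⟩ := hgz
  obtain ⟨n, m, hn, -⟩ := isPPart_eq_pow hp hxy hc hx hy
  exact ⟨haa, hbb, hg, hinv, by rw [hn, ← conj_pow, hinv, inv_pow]⟩

theorem cube_one (hs : FSetup p P A 3) {b : MulAut P} (hb : b ∈ A) : b * b * b = 1 := by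
  have h1 := pow_card_eq_one' (G := A) (x := ⟨b, hb⟩)
  rw [hs.card] at h1
  have h2 := congrArg Subtype.val h1
  simpa [pow_succ] using h2

theorem no_pairs_odd [Finite G] (hs : FSetup p P A 3) (hp : p.Prime) (hp2 : p ≠ 2) {t : G}
    (ht : orderOf t = 2) (x : P) (hx : x ≠ 1) (a b g z : G) (ha : IsConj t a) (hb : IsConj t b)
    (hgz : IsPPart p g z) (hxz : IsConj (x : G)⁻¹ z) : a * b ≠ g⁻¹ := by
  intro hab
  obtain ⟨-, -, -, -, hz⟩ := inverts_part hp ht ha hb hgz hab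
  have h1 : IsConj z z⁻¹ := isConj_iff.2 ⟨a, hz⟩
  have h2 : IsConj z⁻¹ (x : G) := by
    obtain ⟨c, hc⟩ := isConj_iff.1 hxz
    refine isConj_iff.2 ⟨c⁻¹, ?_⟩
    rw [← hc]; group
  have h3 : IsConj (x : G) ((x⁻¹ : P) : G) := ((hxz.trans h1).trans h2).symm
  obtain ⟨β, hβ, h4⟩ := hs.fus x x⁻¹ h3
  have h5 : (β * β) x = x := by
    rw [MulAut.mul_apply, ← h4, map_inv, ← h4, inv_inv]
  have h6 := hs.free _ (A.mul_mem hβ hβ) x hx h5
  have h7 := cube_one hs hβ
  rw [h6, one_mul] at h7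
  rw [h7, MulAut.one_apply] at h4
  have h8 : x * x = 1 := by
    nth_rewrite 1 [← h4]
    exact inv_mul_cancel x
  obtain ⟨k, hk⟩ := hs.pel x
  have h9 : orderOf (x : G) ∣ 2 := by
    apply orderOf_dvd_of_pow_eq_one
    rw [pow_two]
    exact congrArg Subtype.val h8
  rcases k with _ | k
  · rw [pow_zero, orderOf_eq_one_iff] at hk
    exact hx (Subtype.ext hk)
  · rw [hk] at h9
    have h10 : p ∣ 2 := (Dvd.intro_left _ rfl : p ∣ p ^ (k + 1)).trans h9
    exact hp2 ((Nat.prime_dvd_prime_iff_eq hp Nat.prime_two).mp h10)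

theorem prod_conj (hs : FSetup p P A 3) {b1 b2 : MulAut P} (h1 : b1 ∈ A) (h2 : b2 ∈ A)
    (hne : b1 ≠ b2) (t : P) (ht : t * t = 1) : ∃ b3 ∈ A, b2 t * b1 t = b3 t := by
  set β := b2 * b1⁻¹ with hβ
  have hβA : β ∈ A := A.mul_mem h2 (A.inv_mem h1)
  have hβ1 : β ≠ 1 := fun h => hne (mul_inv_eq_one.mp h).symm
  set s := b1 t with hs'
  have hβs : β s = b2 t := by
    rw [hβ, hs', MulAut.mul_apply, MulAut.inv_apply_self]
  have hss : s * s = 1 := by rw [hs', ← map_mul, ht, map_one]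
  have h3 : β (β (β s)) = s := by
    have := cube_one hs hβA
    have h4 := congrArg (fun f : MulAut P => f s) this
    simpa [MulAut.mul_apply] using h4
  have hN : s * β s * β (β s) = 1 := by
    by_contra hN
    apply hβ1
    apply hs.free β hβA _ hN
    rw [map_mul, map_mul, h3]
    calc β s * β (β s) * s = s * (β s * β (β s)) := hs.comm _ _
      _ = s * β s * β (β s) := (mul_assoc _ _ _).symm
  refine ⟨β * β * b1, A.mul_mem (A.mul_mem hβA hβA) h1, ?_⟩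
  rw [← hβs, MulAut.mul_apply, MulAut.mul_apply, ← hs']
  have h5 : β (β s) * β (β s) = 1 := by rw [← map_mul, ← map_mul, hss, map_one, map_one]
  calc β s * s = s * β s := hs.comm _ _
    _ = s * β s * (β (β s) * β (β s)) := by rw [h5, mul_one]
    _ = (s * β s * β (β s)) * β (β s) := by group
    _ = β (β s) := by rw [hN, one_mul]

open Cfsg.Agent.Lib.Helper1_Invol2 Cfsg.Agent.Lib.Helper7_ZS1 in
theorem no_pairs_two [Finite G] (S : Sylow 2 G) {A : Subgroup (MulAut (S : Subgroup G))}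
    (hs : FSetup 2 (S : Subgroup G) A 3) (t : (S : Subgroup G)) (ht : orderOf (t : G) = 2)
    (x : (S : Subgroup G)) (hxt : ¬ IsConj (t : G) (x : G)) (hx : x ≠ 1) (a b g z : G)
    (ha : IsConj (t : G) a) (hb : IsConj (t : G) b) (hgz : IsPPart 2 g z)
    (hxz : IsConj (x : G)⁻¹ z) : a * b ≠ g⁻¹ := by
  have : Fact (Nat.Prime 2) := ⟨Nat.prime_two⟩
  intro hab
  obtain ⟨haa, hbb, hg, hinv, hz⟩ := inverts_part Nat.prime_two ht ha hb hgz hab
  obtain ⟨v, hzv, hc, ⟨k, hk⟩, hv⟩ := id hgz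
  have htt : (t : G) * t = 1 := sq_of_order ht
  have oa : orderOf a = 2 := by
    obtain ⟨c, hc⟩ := isConj_iff.1 ha
    rw [← hc, orderOf_conj'', ht]
  have hz2 : z ^ 2 = 1 := no_invert S
    (fun a ha b hb => congrArg Subtype.val (hs.comm ⟨a, ha⟩ ⟨b, hb⟩)) oa hk hz
  have hzz : z * z = 1 := by rw [← pow_two]; exact hz2
  have hzi : z⁻¹ = z := inv_eq_of_mul_eq_one_left hzz
  have hz1 : z ≠ 1 := by
    intro h
    rw [h] at hxz
    have h1 := isConj_one_left.mp hxz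
    exact hx (Subtype.ext (inv_eq_one.mp h1))
  have haz : Commute a z := by
    rw [hzi] at hz
    show a * z = z * a
    calc a * z = a * z * a⁻¹ * a := by group
      _ = z * a := by rw [hz]
  obtain ⟨j, hj⟩ : Odd (orderOf v) := Nat.odd_iff.mpr (by omega)
  have hv2 : v ^ (2 * (j + 1)) = v := by
    have : 2 * (j + 1) = orderOf v + 1 := by omega
    rw [this, pow_succ, pow_orderOf_eq_one, one_mul]
  have hg2 : g ^ (2 * (j + 1)) = v := by
    rw [← hzv, hc.mul_pow, hv2, pow_mul, hz2, one_pow, one_mul]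
  set c := g ^ (j + 1) with hcdef
  have hcc : c * c = v := by rw [hcdef, ← pow_add, ← two_mul, hg2]
  have hac : a * c⁻¹ = c * a := by
    have h1 : a * c * a⁻¹ = c⁻¹ := by rw [hcdef, ← conj_pow, hinv, inv_pow]
    have h2 : a * c⁻¹ * a⁻¹ = c := by
      have := congrArg (fun w => w⁻¹) h1
      simp only [mul_inv_rev, inv_inv] at this
      rw [mul_assoc]; exact this
    calc a * c⁻¹ = a * c⁻¹ * a⁻¹ * a := by group
      _ = c * a := by rw [h2]
  have ha' : c * a * c⁻¹ = v * a := by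
    calc c * a * c⁻¹ = c * (a * c⁻¹) := mul_assoc _ _ _
      _ = c * c * a := by rw [hac, mul_assoc]
      _ = v * a := by rw [hcc]
  have hta' : IsConj (t : G) (v * a) := ha.trans (isConj_iff.2 ⟨c, ha'⟩)
  have ha'a' : (v * a) * (v * a) = 1 := sq_one_of_isConj htt hta'
  have hb' : b = z * (v * a) := by
    calc b = b * (a * a) := by rw [haa, mul_one]
      _ = (b * a) * a := (mul_assoc _ _ _).symm
      _ = z * v * a := by rw [← hg, hzv]
      _ = z * (v * a) := mul_assoc _ _ _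
  have hcz : Commute (v * a) z := hc.symm.mul_left haz
  obtain ⟨Q, haQ, hzQ⟩ := exists_sylow_of_commute ha'a' hzz hcz
  obtain ⟨k', hk'⟩ := MulAction.exists_smul_eq G Q S
  have hmem : ∀ w ∈ Q, k' * w * k'⁻¹ ∈ (S : Subgroup G) := by
    intro w hw
    rw [← hk']
    show k' * w * k'⁻¹ ∈ ((k' • Q : Sylow 2 G) : Subgroup G)
    rw [Sylow.coe_subgroup_smul]
    exact ⟨w, hw, by simp [MulAut.conj_apply]⟩
  set a2 : (S : Subgroup G) := ⟨k' * (v * a) * k'⁻¹, hmem _ haQ⟩ with ha2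
  set z2 : (S : Subgroup G) := ⟨k' * z * k'⁻¹, hmem _ hzQ⟩ with hz2'
  have hza : ((z2 * a2 : (S : Subgroup G)) : G) = k' * b * k'⁻¹ := by
    rw [hb']
    show k' * z * k'⁻¹ * (k' * (v * a) * k'⁻¹) = _
    group
  obtain ⟨β1, hβ1, e1⟩ := hs.fus t a2 (hta'.trans (isConj_iff.2 ⟨k', rfl⟩))
  obtain ⟨β2, hβ2, e2⟩ := hs.fus t (z2 * a2) (by
    rw [hza]; exact hb.trans (isConj_iff.2 ⟨k', rfl⟩))
  have hz21 : z2 ≠ 1 := by
    intro h
    have h1 : k' * z * k'⁻¹ = 1 := congrArg Subtype.val h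
    apply hz1
    have := congrArg (fun w => k'⁻¹ * w * k') h1
    simpa [mul_assoc] using this
  have hne : β1 ≠ β2 := by
    intro h
    rw [← h, ← e1] at e2
    exact hz21 (mul_eq_right.mp e2)
  obtain ⟨β3, hβ3, e3⟩ := prod_conj hs hβ1 hβ2 hne t (Subtype.ext htt)
  have ha2a2 : a2 * a2 = 1 := by
    apply Subtype.ext
    show k' * (v * a) * k'⁻¹ * (k' * (v * a) * k'⁻¹) = 1
    calc k' * (v * a) * k'⁻¹ * (k' * (v * a) * k'⁻¹) = k' * ((v * a) * (v * a)) * k'⁻¹ := by group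
      _ = 1 := by rw [ha'a']; group
  have hz3 : z2 = β3 t := by
    rw [← e3, ← e1, ← e2, mul_assoc, ha2a2, mul_one]
  have htz2 : IsConj (t : G) (z2 : G) := by rw [hz3]; exact hs.conj β3 hβ3 t
  have htz : IsConj (t : G) z := htz2.trans (isConj_iff.2 ⟨k'⁻¹, by
    show k'⁻¹ * (k' * z * k'⁻¹) * k'⁻¹⁻¹ = z
    group⟩)
  have hxx : (x : G)⁻¹ * (x : G)⁻¹ = 1 := sq_one_of_isConj hzz hxz.symm
  have hxi : (x : G)⁻¹ = x := by
    have := inv_eq_of_mul_eq_one_left hxx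
    rw [inv_inv] at this
    exact this.symm
  rw [hxi] at hxz
  exact hxt (htz.trans hxz.symm)

end Cfsg.Agent.Lib.helper8_BL6
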