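import Mathlib

/-!
# A quaternary quadratic form with a totally isotropic plane
-/

set_option autoImplicit false

namespace Cfsg.Agent.Lib.helper8_BL7

theorem isSquare_of_mul_sq {N V W : ℤ} (hV : V ≠ 0) (h : N * V ^ 2 = W ^ 2) : IsSquare N := by
  have h1 : V ^ 2 ∣ W ^ 2 := ⟨N, by rw [← h]; ring⟩
  obtain ⟨k, hk⟩ := (Int.pow_dvd_pow_iff (two_ne_zero)).mp h1
  refine ⟨k, ?_⟩
  have h2 : V ^ 2 ≠ 0 := pow_ne_zero _ hV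
  apply mul_right_cancel₀ h2
  rw [h, hk]; ring

theorem quad {s1 s2 s3 F1 F2 F3 x1 x2 x3 : ℤ} (h1 : s1 = 1 ∨ s1 = -1) (h2 : s2 = 1 ∨ s2 = -1)
    (h3 : s3 = 1 ∨ s3 = -1) (p1 : 0 < F1) (p2 : 0 < F2) (p3 : 0 < F3)
    (R1 : 1 + s1 * F1 + s2 * F2 + s3 * F3 = 0) (R2 : 1 + s1 * x1 + s2 * x2 + s3 * x3 = 0)
    (R3 : F1 * F2 * F3 + s1 * x1 ^ 2 * F2 * F3 + s2 * x2 ^ 2 * F1 * F3 + s3 * x3 ^ 2 * F1 * F2 = 0)
    (hne : x1 ≠ F1) : s1 * s2 * s3 = 1 ∧ IsSquare (F1 * F2 * F3) := by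
  obtain ⟨V1, hV1⟩ : ∃ V, V = x1 - F1 := ⟨_, rfl⟩
  obtain ⟨V2, hV2⟩ : ∃ V, V = x2 - F2 := ⟨_, rfl⟩
  obtain ⟨V3, hV3⟩ : ∃ V, V = x3 - F3 := ⟨_, rfl⟩
  have hV10 : V1 ≠ 0 := by rw [hV1]; exact sub_ne_zero.mpr hne
  have Q : s1 * V1 ^ 2 * F2 * F3 + F1 * (s2 * V2 ^ 2 * F3 + s3 * V3 ^ 2 * F2) = 0 := by
    rw [hV1, hV2, hV3]
    linear_combination R3 - 2 * F1 * F2 * F3 * R2 + F1 * F2 * F3 * R1
  have e1 : s2 * F2 + s3 * F3 = -1 - s1 * F1 := by linarith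
  have e2 : s2 * V2 + s3 * V3 = -s1 * V1 := by rw [hV1, hV2, hV3]; linarith
  have lag : (s2 * F2 + s3 * F3) * (s2 * V2 ^ 2 * F3 + s3 * V3 ^ 2 * F2) =
      F2 * F3 * (s2 * V2 + s3 * V3) ^ 2 + s2 * s3 * (F2 * V3 - F3 * V2) ^ 2 := by ring
  rw [e1, e2] at lag
  have key : s2 * s3 * F1 * (F2 * V3 - F3 * V2) ^ 2 = s1 * V1 ^ 2 * F2 * F3 := by
    linear_combination (-F1) * lag + (-1 - s1 * F1) * Q
  have hs1 : s1 * s1 = 1 := by rcases h1 with h | h <;> rw [h] <;> norm_num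
  have key2 : F1 * F2 * F3 * V1 ^ 2 = s1 * s2 * s3 * (F1 * (F2 * V3 - F3 * V2)) ^ 2 := by
    linear_combination (-(s1 * F1)) * key - (F1 * F2 * F3 * V1 ^ 2) * hs1
  have hpos : 0 < F1 * F2 * F3 * V1 ^ 2 := by positivity
  have hsgn : s1 * s2 * s3 = 1 ∨ s1 * s2 * s3 = -1 := by
    rcases h1 with h | h <;> rcases h2 with h' | h' <;> rcases h3 with h'' | h'' <;>
      rw [h, h', h''] <;> norm_num
  rcases hsgn with h | h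
  · refine ⟨h, ?_⟩
    rw [h, one_mul] at key2
    exact isSquare_of_mul_sq hV10 key2
  · exfalso
    rw [h] at key2
    have := sq_nonneg (F1 * (F2 * V3 - F3 * V2))
    linarith

end Cfsg.Agent.Lib.helper8_BL7
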