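import Mathlib
import Cfsg.Agent.Lib.helper8_BL6
import Cfsg.Agent.Lib.helper8_BL7
import Cfsg.Agent.Lib.CharGalois
import Cfsg.Agent.Lib.CharQuot

/-!
# Abelian Sylow subgroups with a Frobenius-type normalizer of index three: auxiliary lemmas
-/

set_option autoImplicit false

namespace Cfsg.Agent.Lib.helper8_BL8

open Cfsg Cfsg.Agent.Lib.CharBasic Cfsg.Agent.Lib.CharOrtho Cfsg.Agent.Lib.CharComplete
  Cfsg.Agent.Lib.CharMore Cfsg.Agent.Lib.CharInd Cfsg.Agent.Lib.CharGen Cfsg.Agent.Lib.CharLinear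
  Cfsg.Agent.Lib.Helper2_BlockLocal Cfsg.Agent.Lib.Helper2_BlockOm
  Cfsg.Agent.Lib.Helper2_BlockThird Cfsg.Agent.Lib.Helper2_PrincipalSection
  Cfsg.Agent.Lib.Helper2_BlockOrtho2 Cfsg.Agent.Lib.helper8_Defect
  Cfsg.Agent.Lib.Helper2_BlockQuot Cfsg.Agent.Lib.Helper2_BlockOrtho
  Cfsg.Agent.Lib.helper8_DefectZero Cfsg.Agent.Lib.helper6_HomoChar Cfsg.Agent.Lib.helper8_BL2
  Cfsg.Agent.Lib.helper8_BL3 Cfsg.Agent.Lib.helper8_BL1 Cfsg.Agent.Lib.helper8_BL4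
  Cfsg.Agent.Lib.helper8_BL5 Cfsg.Agent.Lib.CharQuot
open scoped ComplexConjugate Classical

universe u

variable {G : Type u} [Group G] {p : ℕ} {P : Subgroup G} {A : Subgroup (MulAut P)} {m : ℕ}

theorem ker_top [Finite G] (χ : IrrCharacter G) {t : G}
    (hK : ∀ K : Subgroup G, K.Normal → t ∈ K → K = ⊤) (h : (χ : G → ℂ) t = (χ : G → ℂ) 1) :
    χ = oneIrr G := by
  have := Fintype.ofFinite G
  have h1 := hK (charKer (χ : G → ℂ) (isCharacter_of_isIrr χ.2)) inferInstance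
    ((mem_charKer _ _).mpr h)
  have h2 : ∀ g : G, (χ : G → ℂ) g = (χ : G → ℂ) 1 := by
    intro g
    have hg : g ∈ charKer (χ : G → ℂ) (isCharacter_of_isIrr χ.2) := h1 ▸ Subgroup.mem_top g
    exact (mem_charKer _ _).mp hg
  by_contra hne
  have h3 := classInner_irr_ne χ.2 (oneIrr G).2 (fun h' => hne (Subtype.ext h'))
  unfold classInner at h3
  have h4 : ∀ g : G, (χ : G → ℂ) g * conj ((oneIrr G : G → ℂ) g) = (χ : G → ℂ) 1 := by
    intro g
    have : (oneIrr G : G → ℂ) g = 1 := rfl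
    rw [this, map_one, mul_one, h2]
  rw [Finset.sum_congr rfl (fun g _ => h4 g), Finset.sum_const, Finset.card_univ,
    ← Nat.card_eq_fintype_card, nsmul_eq_mul] at h3
  have hG : (Nat.card G : ℂ) ≠ 0 := by exact_mod_cast Nat.card_pos.ne'
  rw [inv_mul_cancel_left₀ hG] at h3
  exact irr_degree_ne_zero χ.2 h3

theorem int_invol [Finite G] (χ : IrrCharacter G) {t : G} (ht : orderOf t = 2) :
    ∃ z : ℤ, (χ : G → ℂ) t = z := by
  have := Fintype.ofFinite G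
  apply Cfsg.Agent.Lib.CharGalois.int_of_fixed (isCharacter_of_isIrr χ.2)
  intro k hk
  have h2 : 2 ∣ Nat.card G := ht ▸ orderOf_dvd_natCard t
  have hodd : Odd k := by
    rw [← Nat.not_even_iff_odd]
    intro he
    have h3 : 2 ∣ Nat.gcd k (Nat.card G) := Nat.dvd_gcd he.two_dvd h2
    rw [hk] at h3
    omega
  obtain ⟨j, rfl⟩ := hodd
  have : t ^ (2 * j + 1) = t := by
    rw [pow_succ, pow_mul, ← ht, pow_orderOf_eq_one, one_pow, one_mul]
  rw [this]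

theorem weight_form [Fintype G] [Fintype P] {B : Finset (IrrCharacter G)}
    (u : (P →* ℂˣ) → IrrCharacter G → ℤ)
    (hu : ∀ μ χ, (u μ χ : ℂ) = (Nat.card P : ℂ)⁻¹ *
      ∑ x : P, (1 - ((μ x : ℂˣ) : ℂ)) * conj ((χ : G → ℂ) x))
    {δ : ℤ} {w : IrrCharacter G → ℤ} {e : {μ : P →* ℂˣ // μ ≠ 1} → IrrCharacter G}
    (hF : Form B u δ w e) (hw0 : ∀ μ, w (e μ) = 0) {XF YF : Finset (IrrCharacter G)}
    (hU : XF ∪ YF = B) (hdisj : Disjoint XF YF) (heY : ∀ μ, e μ ∈ YF)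
    (hYe : ∀ η ∈ YF, ∃ μ, e μ = η) (W : IrrCharacter G → ℂ) (μ : {μ : P →* ℂˣ // μ ≠ 1})
    (h : ∀ x : P, μ.1 x ≠ 1 → ∑ χ ∈ B, W χ * conj ((χ : G → ℂ) x) = 0) :
    ∑ χ ∈ XF, W χ * (w χ : ℂ) = (δ : ℂ) * W (e μ) := by
  have h1 := weight_rel u hu B W μ.1 h
  rw [← hU, Finset.sum_union hdisj] at h1
  have hXB : ∀ χ ∈ XF, χ ∈ B := fun χ hχ => hU ▸ Finset.mem_union_left _ hχ
  have hYB : ∀ χ ∈ YF, χ ∈ B := fun χ hχ => hU ▸ Finset.mem_union_right _ hχ
  have h2 : ∑ χ ∈ XF, W χ * (u μ.1 χ : ℂ) = ∑ χ ∈ XF, W χ * (w χ : ℂ) := by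
    refine Finset.sum_congr rfl fun χ hχ => ?_
    have hne : χ ≠ e μ := fun h' => (Finset.disjoint_left.mp hdisj hχ) (h' ▸ heY μ)
    rw [hF.form μ χ (hXB χ hχ), dl_ne hne]
    simp
  have h3 : ∑ χ ∈ YF, W χ * (u μ.1 χ : ℂ) = - ((δ : ℂ) * W (e μ)) := by
    have h4 : ∀ χ ∈ YF, W χ * (u μ.1 χ : ℂ) = if χ = e μ then - ((δ : ℂ) * W χ) else 0 := by
      intro χ hχ
      obtain ⟨ν, rfl⟩ := hYe χ hχ
      rw [hF.form μ _ (hYB _ hχ), hw0 ν]
      unfold dl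
      split_ifs <;> push_cast <;> ring
    rw [Finset.sum_congr rfl h4, Finset.sum_ite_eq' YF (e μ), if_pos (heY μ)]
  rw [h2, h3] at h1
  linear_combination h1

theorem sum_rel [Finite G] [Fintype A] [Fintype (P →* ℂˣ)] (hs : FSetup p P A m)
    {μ : P →* ℂˣ} (hμ : μ ≠ 1) (F : (P →* ℂˣ) → ℂ) :
    ∑ ν : P →* ℂˣ, (if Rel A μ ν then F ν else 0) = ∑ b : A, F (act (b : MulAut P)⁻¹ μ) := by
  rw [← Finset.sum_filter]
  have h1 : Finset.univ.filter (fun ν => Rel A μ ν) =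
      Finset.univ.image (fun b : A => act (b : MulAut P)⁻¹ μ) := by
    ext ν
    simp only [Finset.mem_filter, Finset.mem_univ, true_and, Finset.mem_image]
    constructor
    · rintro ⟨b, hb, h⟩
      exact ⟨⟨b, hb⟩, by rw [h, act_mul, mul_inv_cancel, act_one]⟩
    · rintro ⟨b, rfl⟩
      exact ⟨b, b.2, by rw [act_mul, inv_mul_cancel, act_one]⟩
  rw [h1, Finset.sum_image]
  intro b _ c _ hbc
  have := dual_uniq hs hμ (A.inv_mem b.2) (A.inv_mem c.2) hbc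
  exact Subtype.ext (inv_injective this)

theorem unit_sq {v v' : ℂˣ} (h : v * v = 1) (h' : v' * v' = 1) (hiff : v = 1 ↔ v' = 1) :
    v * v'⁻¹ = 1 := by
  by_cases h1 : v = 1
  · rw [h1, hiff.mp h1]; simp
  · have h2 : v' ≠ 1 := fun hh => h1 (hiff.mpr hh)
    have e1 : (v : ℂ) = -1 := by
      have : (v : ℂ) * (v : ℂ) = 1 := by rw [← Units.val_mul, h, Units.val_one]
      rcases mul_self_eq_one_iff.mp this with h3 | h3
      · exact absurd (Units.ext h3) h1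
      · exact h3
    have e2 : (v' : ℂ) = -1 := by
      have : (v' : ℂ) * (v' : ℂ) = 1 := by rw [← Units.val_mul, h', Units.val_one]
      rcases mul_self_eq_one_iff.mp this with h3 | h3
      · exact absurd (Units.ext h3) h2
      · exact h3
    have : v = v' := Units.ext (e1.trans e2.symm)
    rw [this, mul_inv_cancel]

theorem exists_l [Finite G] [Fintype A] [Fintype (P →* ℂˣ)] (hs : FSetup p P A 3)
    (hq : 8 < Nat.card P) (t : P) (ht : t * t = 1) :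
    ∃ l : P →* ℂˣ, l ≠ 1 ∧ ∀ b ∈ A, l (b t) = 1 := by
  have hcardD : Fintype.card (P →* ℂˣ) = Nat.card P := by
    rw [← Nat.card_eq_fintype_card]; exact dual_card' hs.comm
  have hcardF : Fintype.card (A → Bool) = 8 := by
    rw [Fintype.card_fun, Fintype.card_bool, ← Nat.card_eq_fintype_card, hs.card]
    norm_num
  obtain ⟨l1, l2, hne, heq⟩ := Fintype.exists_ne_map_eq_of_card_lt
    (fun (l : P →* ℂˣ) (b : A) => decide (l ((b : MulAut P) t) = 1))
    (by rw [hcardF, hcardD]; exact hq)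
  refine ⟨l1 * l2⁻¹, fun h => hne (mul_inv_eq_one.mp h), fun b hb => ?_⟩
  have h1 := congrFun heq ⟨b, hb⟩
  simp only [decide_eq_decide] at h1
  rw [MonoidHom.mul_apply, MonoidHom.inv_apply]
  have hsq : ∀ l : P →* ℂˣ, l (b t) * l (b t) = 1 := by
    intro l
    rw [← map_mul, ← map_mul, ht, map_one, map_one]
  exact unit_sq (hsq l1) (hsq l2) h1

theorem cong [Finite G] [Fintype P] (χ : IrrCharacter G) {a : ℤ} (ha : a = 1 ∨ a = -1)
    (hval : ∀ y : P, y ≠ 1 → (χ : G → ℂ) y = (a : ℂ)) :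
    ∃ j : ℤ, a * (charDegree (χ : G → ℂ) : ℤ) = 1 + (Nat.card P : ℤ) * j := by
  obtain ⟨n, hn⟩ := sum_subgroup_nat (isCharacter_of_isIrr χ.2) P
  have e : ∀ x : P, (χ : G → ℂ) x = (a : ℂ) +
      (if x = 1 then ((charDegree (χ : G → ℂ) : ℤ) : ℂ) - (a : ℂ) else 0) := by
    intro x
    by_cases hx : x = 1
    · rw [if_pos hx, hx, Subgroup.coe_one, (irr_charDegree χ.2).2.1]; push_cast; ring
    · rw [if_neg hx, hval x hx]; ring
  rw [Finset.sum_congr rfl (fun x _ => e x), Finset.sum_add_distrib, Finset.sum_const,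
    Finset.sum_ite_eq', Finset.card_univ, ← Nat.card_eq_fintype_card] at hn
  simp only [Finset.mem_univ, if_true, nsmul_eq_mul] at hn
  have h6 : (Nat.card P : ℤ) * a + ((charDegree (χ : G → ℂ) : ℤ) - a) = (Nat.card P : ℤ) * n := by
    have : (((Nat.card P : ℤ) * a + ((charDegree (χ : G → ℂ) : ℤ) - a) : ℤ) : ℂ) =
        (((Nat.card P : ℤ) * n : ℤ) : ℂ) := by
      push_cast; push_cast at hn; exact hn
    exact_mod_cast this
  have h7 : a * a = 1 := by rcases ha with h | h <;> rw [h] <;> norm_num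
  exact ⟨a * (n - a), by linear_combination a * h6 + h7⟩

end Cfsg.Agent.Lib.helper8_BL8
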