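import Mathlib
import Cfsg.Prelude.Def_Characters
import Cfsg.Agent.Lib.helper8_Brauer3

set_option autoImplicit false

namespace Cfsg.Agent.Lib.helper8_BrauerLocal

open Cfsg Cfsg.Agent.Lib.CharBasic Cfsg.Agent.Lib.CharOrtho
  Cfsg.Agent.Lib.CharComplete Cfsg.Agent.Lib.CharIntegral Cfsg.Agent.Lib.CharMore
  Cfsg.Agent.Lib.CharInd Cfsg.Agent.Lib.CharGen Cfsg.Agent.Lib.helper8_Brauer1
  Cfsg.Agent.Lib.helper8_Brauer2 Cfsg.Agent.Lib.CharClifford Cfsg.Agent.Lib.CharCorr
  Cfsg.Agent.Lib.CharIto Cfsg.Agent.Lib.CharLinear Cfsg.Agent.Lib.CharCover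
  Cfsg.Agent.Lib.helper8_Center Cfsg.Agent.Lib.helper8_Kernel Cfsg.Agent.Lib.helper8_Brauer3
open scoped ComplexConjugate Classical commutatorElement

universe u

/-- The family of `p`-elementary subgroups. -/
def FEp (p : ℕ) (G : Type u) [Group G] : Subgroup G → Prop :=
  fun E => IsElementary p E

theorem one_mem_of_QE_local {p : ℕ} (hp : p.Prime) (n : ℕ) :
    ∀ (G : Type u) [Group G] [Fintype G], Nat.card G = n → QE p G → (1 : G → ℂ) ∈ I (FEp p G) := by
  induction n using Nat.strong_induction_on with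
  | _ n ih =>
  intro G _ _ hn hQE
  have hQE' := hQE
  obtain ⟨C, hCn, hCc, hCp, k, hk⟩ := hQE
  have : Fact p.Prime := ⟨hp⟩
  obtain ⟨P⟩ : Nonempty (Sylow p G) := inferInstance
  have hCcomm : ∀ a ∈ C, ∀ b ∈ C, a * b = b * a := by
    intro a ha b hb
    have := (IsCyclic.commGroup (α := C)).mul_comm ⟨a, ha⟩ ⟨b, hb⟩
    exact congrArg Subtype.val this
  have hCP : C ⊔ (P : Subgroup G) = ⊤ := by
    rw [← Subgroup.index_eq_one]
    have h1 : (C ⊔ (P : Subgroup G)).index ∣ C.index := Subgroup.index_dvd_of_le le_sup_left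
    have h2 : (C ⊔ (P : Subgroup G)).index ∣ (P : Subgroup G).index :=
      Subgroup.index_dvd_of_le le_sup_right
    rw [hk] at h1
    obtain ⟨j, -, hj⟩ := (Nat.dvd_prime_pow hp).mp h1
    rw [hj] at h2 ⊢
    rcases Nat.eq_zero_or_pos j with rfl | hj0
    · rfl
    · exact absurd ((dvd_pow_self p hj0.ne').trans h2) P.not_dvd_index
  set Z := C ⊓ Subgroup.centralizer ((P : Subgroup G) : Set G) with hZ
  have hZc : ∀ z ∈ Z, ∀ g : G, g * z = z * g := by
    intro z hz g
    have h1 : C ⊔ (P : Subgroup G) ≤ Subgroup.centralizer ({z} : Set G) := by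
      apply sup_le
      · intro c hc
        rw [Subgroup.mem_centralizer_singleton_iff]
        exact hCcomm c hc z hz.1
      · intro u hu
        rw [Subgroup.mem_centralizer_singleton_iff]
        exact Subgroup.mem_centralizer_iff.mp hz.2 u hu
    rw [hCP] at h1
    exact Subgroup.mem_centralizer_singleton_iff.mp (h1 (Subgroup.mem_top g))
  have hZn : Z.Normal := by
    constructor
    intro z hz g
    rw [hZc z hz g, mul_inv_cancel_right]
    exact hz
  set E := Z ⊔ (P : Subgroup G) with hE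
  have hEel : IsElementary p E := by
    have hZcyc : IsCyclic Z := Subgroup.isCyclic_of_le (inf_le_left : Z ≤ C)
    obtain ⟨z0, hz0⟩ := (Subgroup.isCyclic_iff_exists_zpowers_eq_top Z).mp hZcyc
    have hz0Z : z0 ∈ Z := hz0 ▸ Subgroup.mem_zpowers z0
    have hz0E : z0 ∈ E := (le_sup_left : Z ≤ E) hz0Z
    refine ⟨⟨z0, hz0E⟩, ?_, ?_, ?_⟩
    · rw [Subgroup.mem_center_iff]
      intro e
      exact Subtype.ext (hZc z0 hz0Z e)
    · rw [Subgroup.orderOf_mk]
      refine Nat.Coprime.coprime_dvd_left ?_ hCp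
      rw [← Nat.card_zpowers, hz0]
      exact Subgroup.card_dvd_of_le inf_le_left
    · have h1 : Subgroup.zpowers (⟨z0, hz0E⟩ : E) = Z.subgroupOf E := by
        ext y
        rw [Subgroup.mem_subgroupOf, ← hz0, Subgroup.mem_zpowers_iff, Subgroup.mem_zpowers_iff]
        constructor
        · rintro ⟨j, rfl⟩; exact ⟨j, by simp⟩
        · rintro ⟨j, hj⟩; exact ⟨j, Subtype.ext (by simpa using hj)⟩
      rw [h1]
      change ∃ k, Z.relIndex E = p ^ k
      rw [hE, Subgroup.relIndex_sup_left]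
      have h2 : Z.relIndex (P : Subgroup G) ∣ Nat.card (P : Subgroup G) :=
        Subgroup.relIndex_dvd_card _ _
      obtain ⟨a, ha⟩ := IsPGroup.iff_card.mp P.2
      rw [ha] at h2
      obtain ⟨j, -, hj⟩ := (Nat.dvd_prime_pow hp).mp h2
      exact ⟨j, hj⟩
  have := Fintype.ofFinite E
  have := Fintype.ofFinite C
  set Φ := indFun E (1 : E → ℂ) with hΦ
  have hΦc : IsCharacter G Φ := isCharacter_indFun E _ isCharacter_one
  have hΦI : Φ ∈ I (FEp p G) := ind_mem_I hEel isCharacter_one
  obtain ⟨m, hm, hexp⟩ := exists_mult hΦc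
  set triv : IrrCharacter G := ⟨1, isIrr_one⟩ with htriv
  have hm1 : m triv = 1 := by
    have h1 := hm triv
    rw [hΦ, frobenius_reciprocity E _ _ (isClassFunction_of_isCharacter isCharacter_one)] at h1
    have h2 : classInner (1 : E → ℂ) (fun h : E => (triv : G → ℂ) h) = 1 :=
      classInner_irr_self (isIrr_one (G := E))
    rw [h2] at h1
    exact_mod_cast h1.symm
  -- the main claim
  have claim : ∀ χ : IrrCharacter G, χ ≠ triv → m χ ≠ 0 → (χ : G → ℂ) ∈ I (FEp p G) := by
    intro χ hχ1 hmχ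
    have hχc := isCharacter_of_isIrr χ.2
    have hχcf := isClassFunction_of_isCharacter hχc
    have hc : classInner Φ (χ : G → ℂ) ≠ 0 := by
      rw [hm χ]; exact_mod_cast hmχ
    rw [hΦ, frobenius_reciprocity E _ _ hχcf] at hc
    have hres0 : (fun c : C => (χ : G → ℂ) c) ≠ 0 := by
      intro h0
      exact irr_degree_ne_zero χ.2 (congrFun h0 1)
    obtain ⟨lam, hlam⟩ := exists_constituent (isCharacter_restrict C hχc) hres0
    set T := inertia C hCn (lam : C → ℂ) with hT
    have hCT : C ≤ T :=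
      le_inertia C hCn (isClassFunction_of_isCharacter (isCharacter_of_isIrr lam.2))
    by_cases hTtop : T = ⊤
    · exfalso
      have hinv : ∀ g : G, conjFun C hCn (lam : C → ℂ) g = lam := by
        intro g
        have : g ∈ T := hTtop ▸ Subgroup.mem_top g
        exact this
      have hres := restrict_of_invariant C hCn χ.2 lam.2 hinv hlam
      set c0 := classInner (fun c : C => (χ : G → ℂ) c) (lam : C → ℂ) with hc0
      have hlam1 : (lam : C → ℂ) 1 = 1 :=
        degree_one_of_comm (fun a b => Subtype.ext (hCcomm a a.2 b b.2)) lam.2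
      have hχC : ∀ c : C, (χ : G → ℂ) c = c0 * (lam : C → ℂ) c := fun c => congrFun hres c
      have hχ1' : (χ : G → ℂ) 1 = c0 := by
        have := hχC 1
        rw [hlam1, mul_one] at this
        exact this
      set μ := homOfLinear (isCharacter_of_isIrr lam.2) hlam1 with hμ
      have hμa : ∀ c : C, ((μ c : ℂˣ) : ℂ) = (lam : C → ℂ) c := fun c => rfl
      -- `Z` lies in the kernel of `χ`
      have hs : ∑ e : E, (χ : G → ℂ) e ≠ 0 := by
        intro h0
        apply hc
        unfold classInner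
        simp only [Pi.one_apply, one_mul]
        rw [← map_sum, h0, map_zero, mul_zero]
      have hZker : ∀ z ∈ Z, (χ : G → ℂ) z = (χ : G → ℂ) 1 := by
        intro z hz
        have hzE : z ∈ E := (le_sup_left : Z ≤ E) hz
        have h1 : ∑ e : E, (χ : G → ℂ) e = ∑ e : E, (χ : G → ℂ) (e * z) := by
          rw [← Equiv.sum_comp (Equiv.mulRight (⟨z, hzE⟩ : E))]
          rfl
        simp only [central_mul χ.2 (hZc z hz)] at h1
        rw [← Finset.sum_mul] at h1
        have h2 : (χ : G → ℂ) z / (χ : G → ℂ) 1 = 1 := by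
          have h3 : (∑ e : E, (χ : G → ℂ) e) * 1 =
              (∑ e : E, (χ : G → ℂ) e) * ((χ : G → ℂ) z / (χ : G → ℂ) 1) := by
            rw [mul_one]; exact h1
          exact (mul_left_cancel₀ hs h3).symm
        have h0 := irr_degree_ne_zero χ.2
        field_simp at h2
        exact h2
      set K := (μ.ker).map C.subtype with hK
      have hKmem : ∀ c : C, μ c = 1 → (c : G) ∈ K := fun c hc =>
        Subgroup.mem_map.mpr ⟨c, hc, rfl⟩
      have hZK : Z ≤ K := by
        intro z hz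
        apply hKmem ⟨z, hz.1⟩
        apply Units.ext
        rw [hμa, Units.val_one]
        have h1 := hχC ⟨z, hz.1⟩
        have h2 : (χ : G → ℂ) z = c0 := by rw [hZker z hz, hχ1']
        have h3 : c0 * (lam : C → ℂ) ⟨z, hz.1⟩ = c0 * 1 := by
          rw [mul_one, ← h1]; exact h2
        exact mul_left_cancel₀ hlam h3
      have hcommK : ⁅C, (P : Subgroup G)⁆ ≤ K := by
        rw [Subgroup.commutator_le]
        intro c hcC u _
        have h1 : u * c⁻¹ * u⁻¹ ∈ C := hCn.conj_mem _ (C.inv_mem hcC) u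
        have h2 : ⁅c, u⁆ = ((⟨c, hcC⟩ * ⟨u * c⁻¹ * u⁻¹, h1⟩ : C) : G) := by
          simp only [commutatorElement_def, Subgroup.coe_mul]
          group
        rw [h2]
        apply hKmem
        rw [map_mul]
        have h3 : μ ⟨u * c⁻¹ * u⁻¹, h1⟩ = μ (⟨c, hcC⟩⁻¹) := by
          apply Units.ext
          rw [hμa, hμa]
          have := congrFun (hinv u) (⟨c, hcC⟩⁻¹ : C)
          rw [conjFun_apply] at this
          exact this
        rw [h3, map_inv, mul_inv_cancel]
      have hCK : C ≤ K := by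
        have h1 := Cfsg.Agent.S0026.result (P : Subgroup G) C
          (by rw [Subgroup.normalizer_eq_top]; exact le_top)
          (by
            obtain ⟨a, ha⟩ := IsPGroup.iff_card.mp P.2
            rw [ha]
            exact Nat.Coprime.pow_left a (Nat.Coprime.symm hCp))
          (Or.inr (Group.isSolvable_of_comm fun a b => Subtype.ext (hCcomm a a.2 b b.2)))
        rw [← h1]
        exact sup_le hcommK hZK
      have hCker : ∀ c ∈ C, (χ : G → ℂ) c = (χ : G → ℂ) 1 := by
        intro c hcC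
        obtain ⟨c', hc', hcc'⟩ := Subgroup.mem_map.mp (hCK hcC)
        have h1 : c' = ⟨c, hcC⟩ := Subtype.ext hcc'
        rw [h1] at hc'
        have h2 := hχC ⟨c, hcC⟩
        have h3 : (lam : C → ℂ) ⟨c, hcC⟩ = 1 := by
          rw [← hμa, MonoidHom.mem_ker.mp hc', Units.val_one]
        rw [h3, mul_one, ← hχ1'] at h2
        exact h2
      obtain ⟨χb, hχb, hχbχ⟩ := deflate C χ.2 hCker
      have := Fintype.ofFinite (G ⧸ C)
      let f : E →* G ⧸ C := (QuotientGroup.mk' C).comp E.subtype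
      have hf : Function.Surjective f := by
        intro q
        obtain ⟨g, rfl⟩ := QuotientGroup.mk'_surjective C q
        have hg : g ∈ C ⊔ (P : Subgroup G) := hCP ▸ Subgroup.mem_top g
        obtain ⟨c, hcC, u, hu, rfl⟩ := Subgroup.mem_sup_of_normal_left.mp hg
        refine ⟨⟨u, (le_sup_right : (P : Subgroup G) ≤ E) hu⟩, ?_⟩
        change (QuotientGroup.mk u : G ⧸ C) = QuotientGroup.mk (c * u)
        rw [QuotientGroup.eq]
        have : u⁻¹ * (c * u) = u⁻¹ * c * u⁻¹⁻¹ := by group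
        rw [this]
        exact hCn.conj_mem c hcC u⁻¹
      have h1 := classInner_comp_surj f hf (1 : G ⧸ C → ℂ) χb
      have h2 := classInner_comp_surj (QuotientGroup.mk' C) (QuotientGroup.mk'_surjective C)
        (1 : G ⧸ C → ℂ) χb
      have e1 : (χb ∘ f) = fun e : E => (χ : G → ℂ) e := by
        ext e; exact hχbχ e
      have e2 : (χb ∘ (QuotientGroup.mk' C)) = (χ : G → ℂ) := by
        ext g; exact hχbχ g
      have e3 : ((1 : G ⧸ C → ℂ) ∘ f) = (1 : E → ℂ) := rfl
      have e4 : ((1 : G ⧸ C → ℂ) ∘ (QuotientGroup.mk' C)) = (1 : G → ℂ) := rfl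
      rw [e1, e3] at h1
      rw [e2, e4] at h2
      rw [h1, ← h2, classInner_irr isIrr_one χ.2] at hc
      apply hχ1
      by_contra hne
      apply hc
      rw [if_neg]
      intro h
      exact hne (Subtype.ext h.symm)
    · have := Fintype.ofFinite T
      obtain ⟨ψ, hψ, hψχ, -⟩ := corr_surj C T hCn hCT lam.2 (fun g => Iff.rfl) χ.2 hlam
      rw [← hψχ]
      have hlt : Nat.card T < n := by
        rw [← hn]
        have h1 : Nat.card T ≤ Nat.card G := Subgroup.card_le_card_group T
        rcases Nat.lt_or_ge (Nat.card T) (Nat.card G) with h | h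
        · exact h
        · exact absurd (Subgroup.eq_top_of_card_eq T (le_antisymm h1 h)) hTtop
      have h1T := ih _ hlt T rfl (QE_subgroup hp hQE' T)
      have h2 : ψ ∈ I (FEp p T) := by
        have := mul_char_mem_I h1T (isCharacter_of_isIrr hψ)
        rwa [one_mul] at this
      refine indFun_mem_I T ?_ h2
      intro K hK
      exact isElementary_equiv (K.equivMapOfInjective T.subtype T.subtype_injective) hK
  have hfinal : (1 : G → ℂ) = Φ - ∑ χ ∈ Finset.univ.erase triv, (m χ : ℂ) • (χ : G → ℂ) := by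
    conv_rhs => rw [hexp]
    rw [← Finset.add_sum_erase _ _ (Finset.mem_univ triv), hm1]
    simp [htriv]
  rw [hfinal]
  refine (I (FEp p G)).sub_mem hΦI (AddSubgroup.sum_mem _ fun χ hχ => ?_)
  by_cases hmχ : m χ = 0
  · rw [hmχ]; simp only [Nat.cast_zero, zero_smul]; exact (I (FEp p G)).zero_mem
  · rw [Nat.cast_smul_eq_nsmul]
    exact (I (FEp p G)).nsmul_mem (claim χ (Finset.ne_of_mem_erase hχ) hmχ) _


variable {G : Type u} [Group G] [Fintype G]

/-- Local form of Banaschewski's lemma. -/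
theorem const_mem_I {F : Subgroup G → Prop} {p : ℕ} (hp : p.Prime)
    (h : ∀ x : G, ∃ f ∈ I F, ∃ n : ℤ, f x = n ∧ ¬ (p : ℤ) ∣ n) :
    ∃ m : ℤ, ¬ (p : ℤ) ∣ m ∧ (fun _ : G => (m : ℂ)) ∈ I F := by
  choose f hf n hfx hn using h
  have hp' : Prime (p : ℤ) := Nat.prime_iff_prime_int.mp hp
  have key : ∀ S : Finset G, ∃ r ∈ I F, ∃ m : ℤ, ¬ (p : ℤ) ∣ m ∧ ∀ x ∈ S, r x = m := by
    intro S
    induction S using Finset.induction_on with
    | empty => exact ⟨0, (I F).zero_mem, 1, fun h => hp'.not_isUnit (isUnit_of_dvd_one h), by simp⟩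
    | insert a S _ ih =>
      obtain ⟨r, hr, m, hm, hrS⟩ := ih
      refine ⟨(n a) • r + m • f a - r * f a,
        (I F).sub_mem ((I F).add_mem ((I F).zsmul_mem hr _) ((I F).zsmul_mem (hf a) _))
          (mul_gen_mem_I hr (isGen_of_mem_I (hf a))), m * n a, ?_, ?_⟩
      · intro hd
        rcases hp'.dvd_or_dvd hd with h | h
        · exact hm h
        · exact hn a h
      · intro x hx
        simp only [Pi.add_apply, Pi.sub_apply, Pi.mul_apply, Pi.smul_apply, zsmul_eq_mul,
          Pi.intCast_apply]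
        push_cast
        rcases Finset.mem_insert.mp hx with rfl | hx
        · rw [hfx]; ring
        · rw [hrS x hx]; ring
  obtain ⟨r, hr, m, hm, hr1⟩ := key Finset.univ
  refine ⟨m, hm, ?_⟩
  have : r = fun _ => (m : ℂ) := by
    ext x
    exact hr1 x (Finset.mem_univ x)
  rwa [this] at hr

/-- Some integer prime to `p` is a combination of characters induced from `p`-quasi-elementary
subgroups. -/
theorem const_mem_I_QE {p : ℕ} (hp : p.Prime) :
    ∃ m : ℤ, ¬ (p : ℤ) ∣ m ∧ (fun _ : G => (m : ℂ)) ∈ I (fun H : Subgroup G => QE p H) := by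
  apply const_mem_I hp
  intro x
  obtain ⟨H, hH, n, hn, hpn⟩ := exists_QE hp x
  exact ⟨_, ind_mem_I hH isCharacter_one, n, hn, hpn⟩

theorem I_QE_le {p : ℕ} (hp : p.Prime) :
    I (fun H : Subgroup G => QE p H) ≤ I (FEp p G) := by
  apply (AddSubgroup.closure_le _).mpr
  rintro f ⟨H, φ, hH, hφ, rfl⟩
  have := Fintype.ofFinite H
  have h1 := one_mem_of_QE_local hp _ H rfl hH
  have h2 : φ ∈ I (FEp p H) := by
    have := mul_char_mem_I h1 hφ
    rwa [one_mul] at this
  refine indFun_mem_I H ?_ h2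
  intro K hK
  exact isElementary_equiv (K.equivMapOfInjective H.subtype H.subtype_injective) hK

/-- **Brauer's induction theorem, local form.** -/
theorem const_mem_FEp {p : ℕ} (hp : p.Prime) :
    ∃ m : ℤ, ¬ (p : ℤ) ∣ m ∧ (fun _ : G => (m : ℂ)) ∈ I (FEp p G) := by
  obtain ⟨m, hm, h⟩ := const_mem_I_QE (G := G) hp
  exact ⟨m, hm, I_QE_le hp h⟩

theorem neg_list_sum (l : List ((E : Subgroup G) × ((E → ℂ) × ℤ))) :
    -(l.map fun t => (t.2.2 : ℂ) • indFun t.1 t.2.1).sum =
      ((l.map fun t => (⟨t.1, t.2.1, -t.2.2⟩ : (E : Subgroup G) × ((E → ℂ) × ℤ))).map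
        fun t => (t.2.2 : ℂ) • indFun t.1 t.2.1).sum := by
  induction l with
  | nil => simp
  | cons a l ih =>
    simp only [List.map_cons, List.sum_cons, neg_add, ih]
    congr 1
    simp

/-- Members of `I F` as explicit lists. -/
theorem exists_list_of_mem_I {F : Subgroup G → Prop} {f : G → ℂ} (h : f ∈ I F) :
    ∃ l : List ((E : Subgroup G) × ((E → ℂ) × ℤ)),
      (∀ t ∈ l, F t.1 ∧ IsCharacter t.1 t.2.1) ∧
      f = (l.map fun t => (t.2.2 : ℂ) • indFun t.1 t.2.1).sum := by
  induction h using AddSubgroup.closure_induction with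
  | mem x hx =>
    obtain ⟨E, φ, hE, hφ, rfl⟩ := hx
    refine ⟨[⟨E, φ, 1⟩], ?_, by simp⟩
    intro t ht
    rw [List.mem_singleton] at ht
    subst ht
    exact ⟨hE, hφ⟩
  | zero => exact ⟨[], by simp, by simp⟩
  | add x y _ _ hx hy =>
    obtain ⟨l1, h1, rfl⟩ := hx
    obtain ⟨l2, h2, rfl⟩ := hy
    refine ⟨l1 ++ l2, ?_, by simp⟩
    intro t ht
    rcases List.mem_append.mp ht with h | h
    · exact h1 t h
    · exact h2 t h
  | neg x _ hx =>
    obtain ⟨l, h1, rfl⟩ := hx
    refine ⟨l.map fun t => ⟨t.1, t.2.1, -t.2.2⟩, ?_, ?_⟩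
    · intro t ht
      obtain ⟨s, hs, rfl⟩ := List.mem_map.mp ht
      exact h1 s hs
    · exact neg_list_sum l

end Cfsg.Agent.Lib.helper8_BrauerLocal
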