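import Mathlib
import Cfsg.Agent.Lib.Helper7_ZS3
import Cfsg.Agent.Lib.helper8_Klein

set_option autoImplicit false

namespace Cfsg.Agent.Lib.helper8_Klein2

open Cfsg Cfsg.Agent.Lib.Helper2_BlockLocal Cfsg.Agent.Lib.helper8_BlockSum
  Cfsg.Agent.Lib.Helper2_BlockOm Cfsg.Agent.Lib.Helper2_BlockThird Cfsg.Agent.Lib.CharBasic
  Cfsg.Agent.Lib.Helper2_PrincipalSection Cfsg.Agent.Lib.Helper2_BlockOrtho2 Cfsg.Agent.Lib.helper8_Defect
  Cfsg.Agent.Lib.CharIntegral Cfsg.Agent.Lib.Helper2_BlockFMT Cfsg.Agent.Lib.helper8_SubSec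
  Cfsg.Agent.Lib.Helper2_PPart Cfsg.Agent.Lib.CharMore Cfsg.Agent.Lib.CharOrtho Cfsg.Agent.Lib.CharGen
  Cfsg.Agent.Lib.helper8_BlockRank Cfsg.Agent.Lib.Helper2_BlockQuot Cfsg.Agent.Lib.helper8_Kernel
  Cfsg.Agent.Lib.Helper2_BlockOrtho Cfsg.Agent.Lib.Helper2_SecondMain Cfsg.Agent.Lib.Helper2_Basic
  Cfsg.Agent.Lib.Helper7_ZS1 Cfsg.Agent.Lib.Helper2_BlockOsima Cfsg.Agent.Lib.CharComplete
  Cfsg.Agent.Lib.Helper7_ZS2 Cfsg.Agent.Lib.Helper7_ZS3 Cfsg.Agent.Lib.helper8_Klein
open scoped ComplexConjugate Classical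

universe u

variable {M : Ideal AlgInt} {G : Type u} [Group G]

theorem T_formula [Fintype G] (hM : IsPModular 2 M) {z t u : G} (hzo : ∃ k : ℕ, orderOf z = 2 ^ k)
    (htt : t * t = 1) (hu : u * u = 1) :
    ∑ χ : IrrCharacter G, (if χ ∈ principalBlock M G then (χ : G → ℂ) z else 0) *
        ((χ : G → ℂ) t * (χ : G → ℂ) u / (χ : G → ℂ) 1) =
      ∑ k : Subgroup.centralizer ({z} : Set G),
        blockCoeff (principalBlock M (Subgroup.centralizer ({z} : Set G))) k *
        ((Nat.card G : ℂ) / (((Subgroup.centralizer ({t} : Set G)).index : ℂ) *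
          ((Subgroup.centralizer ({u} : Set G)).index : ℂ)) *
          conv (classInd t) (classInd u) (z * (k : G))) := by
  set H := Subgroup.centralizer ({z} : Set G) with hH
  set N := conv (classInd t) (classInd u) with hN
  set it := ((Subgroup.centralizer ({t} : Set G)).index : ℂ) with hit
  set iu := ((Subgroup.centralizer ({u} : Set G)).index : ℂ) with hiu
  have hit0 : it ≠ 0 := index_centralizer_ne_zero t
  have hiu0 : iu ≠ 0 := index_centralizer_ne_zero u
  have hG0 : (Nat.card G : ℂ) ≠ 0 := by exact_mod_cast Nat.card_pos.ne'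
  have h1reg : ¬ 2 ∣ orderOf (1 : H) := by rw [orderOf_one]; norm_num
  set b0 := principalBlock M H with hb0
  have hB : ∀ χ : IrrCharacter G, (if χ ∈ principalBlock M G then (χ : G → ℂ) z else 0) =
      ∑ k : H, blockCoeff b0 k * (χ : G → ℂ) (z * (k : G)) := by
    intro χ
    have h := sum_induced_blocks hM hzo (principalBlock_isPBlock M G) χ 1 h1reg
    rw [filter_principal hM hzo, Finset.sum_singleton] at h
    have e1 : z * ((1 : H) : G) = z := by simp
    rw [e1] at h
    rw [← h]
    refine Finset.sum_congr rfl fun k _ => ?_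
    have hk := Subgroup.mem_centralizer_singleton_iff.mp k.2
    rw [hk]
  have hA : ∀ g : G, ∑ χ : IrrCharacter G, (χ : G → ℂ) g *
        ((χ : G → ℂ) t * (χ : G → ℂ) u / (χ : G → ℂ) 1) = (Nat.card G : ℂ) / (it * iu) * N g := by
    intro g
    rw [hN, conv_formula htt hu g, ← hit, ← hiu]
    field_simp
  simp only [hB, Finset.sum_mul]
  rw [Finset.sum_comm]
  refine Finset.sum_congr rfl fun k _ => ?_
  rw [← hA, Finset.mul_sum]
  refine Finset.sum_congr rfl fun χ _ => ?_
  ring

theorem d_formula [Fintype G] (hM : IsPModular 2 M) {z : G} (hzo : ∃ k : ℕ, orderOf z = 2 ^ k) :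
    ∑ χ : IrrCharacter G, (if χ ∈ principalBlock M G then (χ : G → ℂ) z else 0) *
        conj ((χ : G → ℂ) z) = (Nat.card (Subgroup.centralizer ({z} : Set G)) : ℂ) *
          blockCoeff (principalBlock M (Subgroup.centralizer ({z} : Set G))) 1 := by
  set H := Subgroup.centralizer ({z} : Set G) with hH
  have hH0 : (Nat.card H : ℂ) ≠ 0 := by exact_mod_cast Nat.card_pos.ne'
  have h1reg : ¬ 2 ∣ orderOf (1 : H) := by rw [orderOf_one]; norm_num
  have h := section_reduction hM hzo (principalBlock_isPBlock M G) 1 1 h1reg h1reg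
  rw [filter_principal hM hzo, Finset.sum_singleton] at h
  have e1 : z * ((1 : H) : G) = z := by simp
  rw [e1] at h
  rw [h]
  unfold blockCoeff
  rw [mul_inv_cancel_left₀ hH0, finsum_block, Finset.sum_filter]
  refine Finset.sum_congr rfl fun φ _ => ?_
  split_ifs <;> simp

theorem count [Fintype G] {g₀ : ℕ} (hg₀ : Odd g₀) (hG : Nat.card G = 4 * g₀) (P : Sylow 2 G)
    {J a : G} (hc : ∀ h : G, Commute h J) (hJ : J ∈ (P : Subgroup G)) (ha : a ∈ (P : Subgroup G))
    (hJ1 : J ≠ 1) (ha1 : a ≠ 1) (haJ : a ≠ J) (hJJ : J * J = 1) (haa : a * a = 1)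
    (cI : G → ℂ) (h01 : ∀ x, cI x = 1 ∨ cI x = 0) (hinv : ∀ x, cI x = 1 → x * x = 1 ∧ x ≠ 1)
    (h1 : ∀ x, IsConj a x → cI x = 1) (h2 : ∀ x, IsConj (J * a) x → cI x = 1) :
    ∑ x : G, ∑ y : G, (if Odd (orderOf (J * (x * y))) then cI x * cI y else 0) =
      2 * (((Subgroup.centralizer ({a} : Set G)).index : ℂ) *
        ((Subgroup.centralizer ({J * a} : Set G)).index : ℂ)) := by
  have hnot := not_conj hg₀ hG P hc hJ ha hJ1 ha1 haJ hJJ
  have key : ∀ x y : G, (if Odd (orderOf (J * (x * y))) then cI x * cI y else 0) =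
      classInd a x * classInd (J * a) y + classInd (J * a) x * classInd a y := by
    intro x y
    unfold classInd
    rcases h01 x with hx | hx
    · rcases h01 y with hy | hy
      · obtain ⟨hxx, hx1⟩ := hinv x hx
        obtain ⟨hyy, hy1⟩ := hinv y hy
        have hp := pair_iff hg₀ hG P hc hJ ha hJ1 ha1 haJ hJJ haa hxx hyy hx1 hy1
        rw [hx, hy]
        by_cases A : IsConj a x
        · have A' : ¬ IsConj (J * a) x := fun h => hnot (A.trans h.symm)
          by_cases B' : IsConj (J * a) y
          · have B : ¬ IsConj a y := fun h => hnot (h.trans B'.symm)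
            rw [if_pos (hp.mpr (Or.inl ⟨A, B'⟩)), if_pos A, if_neg A', if_pos B', if_neg B]
            norm_num
          · rw [if_neg (fun h => (hp.mp h).elim (fun h => B' h.2) (fun h => A' h.1)), if_neg A',
              if_neg B']
            norm_num
        · by_cases A' : IsConj (J * a) x
          · by_cases B : IsConj a y
            · have B' : ¬ IsConj (J * a) y := fun h => hnot (B.trans h.symm)
              rw [if_pos (hp.mpr (Or.inr ⟨A', B⟩)), if_neg A, if_pos A', if_neg B', if_pos B]
              norm_num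
            · rw [if_neg (fun h => (hp.mp h).elim (fun h => A h.1) (fun h => B h.2)), if_neg A,
                if_neg B]
              norm_num
          · rw [if_neg (fun h => (hp.mp h).elim (fun h => A h.1) (fun h => A' h.1)), if_neg A,
              if_neg A']
            norm_num
      · have B : ¬ IsConj a y := fun h => by rw [h1 y h] at hy; exact one_ne_zero hy
        have B' : ¬ IsConj (J * a) y := fun h => by rw [h2 y h] at hy; exact one_ne_zero hy
        rw [hy, if_neg B, if_neg B']
        simp only [mul_zero, ite_self, add_zero]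
    · have A : ¬ IsConj a x := fun h => by rw [h1 x h] at hx; exact one_ne_zero hx
      have A' : ¬ IsConj (J * a) x := fun h => by rw [h2 x h] at hx; exact one_ne_zero hx
      rw [hx, if_neg A, if_neg A']
      simp only [zero_mul, ite_self, add_zero]
  simp only [key, Finset.sum_add_distrib, ← Finset.mul_sum, ← Finset.sum_mul, sum_classInd]
  ring


theorem S_eq [Fintype G] {J : G} (hJJ : J * J = 1) (hJH : J ∈ Subgroup.centralizer ({J} : Set G)) :
    ∑ k : Subgroup.centralizer ({J} : Set G),
      (if Odd (orderOf k) then conv (classInd J) (classInd J) (J * (k : G)) else 0) =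
    ∑ x : Subgroup.centralizer ({J} : Set G), ∑ y : Subgroup.centralizer ({J} : Set G),
      (if Odd (orderOf ((⟨J, hJH⟩ : Subgroup.centralizer ({J} : Set G)) * (x * y))) then
        classInd J (x : G) * classInd J (y : G) else 0) := by
  set H := Subgroup.centralizer ({J} : Set G) with hH
  have hzo : ∃ k : ℕ, orderOf J = 2 ^ k :=
    orderOf_eq_pow_of_pow_eq_one Nat.prime_two (s := 1) (by rw [pow_one, pow_two, hJJ])
  have hJi : J⁻¹ = J := inv_eq_of_mul_eq_one_left hJJ
  have step1 : ∀ k : H, Odd (orderOf k) → conv (classInd J) (classInd J) (J * (k : G)) =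
      ∑ x : H, classInd J (x : G) * classInd J ((x : G)⁻¹ * (J * (k : G))) := by
    intro k hk
    unfold conv
    rw [← Finset.sum_subtype (Finset.univ.filter (fun x : G => x ∈ H)) (p := fun x => x ∈ H)
      (by simp) (fun x => classInd J x * classInd J (x⁻¹ * (J * (k : G))))]
    symm
    apply Finset.sum_filter_of_ne
    intro x _ hne
    have h1 : IsConj J x := by
      by_contra h
      apply hne
      unfold classInd
      rw [if_neg h, zero_mul]
    have h2 : IsConj J (x⁻¹ * (J * (k : G))) := by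
      by_contra h
      apply hne
      unfold classInd
      rw [if_neg h, mul_zero]
    have hxx := sq_one_of_isConj hJJ h1
    have hyy := sq_one_of_isConj hJJ h2
    have hinv := inv_prod hxx hyy
    have hxy : x * (x⁻¹ * (J * (k : G))) = J * (k : G) := by group
    rw [hxy] at hinv
    have hkc : Commute J (k : G) := (Subgroup.mem_centralizer_singleton_iff.mp k.2).symm
    have hk' : ¬ 2 ∣ orderOf (k : G) := by
      rw [Subgroup.orderOf_coe]
      exact hk.not_two_dvd_nat
    obtain ⟨a, b, ha, hb⟩ := isPPart_eq_pow Nat.prime_two rfl hkc hzo hk'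
    have hzinv : x * J * x⁻¹ = J⁻¹ := by
      have := conj_pow_inv hinv a
      rwa [← ha] at this
    rw [hH, Subgroup.mem_centralizer_singleton_iff]
    rw [hJi] at hzinv
    calc x * J = x * J * x⁻¹ * x := by group
      _ = J * x := by rw [hzinv]
  have step2 : ∀ k : H, (if Odd (orderOf k) then conv (classInd J) (classInd J) (J * (k : G)) else 0)
      = ∑ x : H, (if Odd (orderOf k) then
          classInd J (x : G) * classInd J ((x : G)⁻¹ * (J * (k : G))) else 0) := by
    intro k
    split_ifs with hk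
    · exact step1 k hk
    · simp
  rw [Finset.sum_congr rfl fun k _ => step2 k, Finset.sum_comm]
  refine Finset.sum_congr rfl fun x _ => ?_
  symm
  apply Fintype.sum_equiv (Equiv.mulLeft ((⟨J, hJH⟩ : H) * x))
  intro y
  have e1 : (Equiv.mulLeft ((⟨J, hJH⟩ : H) * x)) y = (⟨J, hJH⟩ : H) * (x * y) := by
    simp
  rw [e1]
  have e2 : (x : G)⁻¹ * (J * (((⟨J, hJH⟩ : H) * (x * y) : H) : G)) = (y : G) := by
    simp only [Subgroup.coe_mul]
    rw [← mul_assoc J J, hJJ]
    group
  rw [e2]


theorem card_centralizer_eq [Finite G] {P : Subgroup G} {J a w : G}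
    (hel : ∀ v ∈ P, v = 1 ∨ v = J ∨ v = a ∨ v = J * a) (hJ : J ∈ P) (ha : a ∈ P)
    (hw : w = a ∨ w = J * a) (hwH : w ∈ Subgroup.centralizer ({J} : Set G)) :
    Nat.card (Subgroup.centralizer
      ({(⟨w, hwH⟩ : Subgroup.centralizer ({J} : Set G))} : Set (Subgroup.centralizer ({J} : Set G)))) =
      Nat.card (Subgroup.centralizer (P : Set G)) := by
  set H := Subgroup.centralizer ({J} : Set G) with hH
  have hle : Subgroup.centralizer (P : Set G) ≤ H := by
    intro h hh
    rw [hH, Subgroup.mem_centralizer_singleton_iff]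
    exact ((Subgroup.mem_centralizer_iff.mp hh) J hJ).symm
  have heq : Subgroup.centralizer ({(⟨w, hwH⟩ : H)} : Set H) =
      (Subgroup.centralizer (P : Set G)).subgroupOf H := by
    ext h
    rw [Subgroup.mem_centralizer_singleton_iff, Subgroup.mem_subgroupOf, Subgroup.mem_centralizer_iff]
    have hhJ : (h : G) * J = J * (h : G) := Subgroup.mem_centralizer_singleton_iff.mp h.2
    constructor
    · intro h1
      have h2 : (h : G) * w = w * (h : G) := congrArg Subtype.val h1
      have h3 : (h : G) * a = a * (h : G) := by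
        rcases hw with rfl | rfl
        · exact h2
        · have : J * ((h : G) * a) = J * (a * (h : G)) := by
            rw [← mul_assoc, ← hhJ, mul_assoc, h2, mul_assoc]
          exact mul_left_cancel this
      intro v hv
      rcases hel v hv with rfl | rfl | rfl | rfl
      · simp
      · exact hhJ.symm
      · exact h3.symm
      · rw [mul_assoc, ← h3, ← mul_assoc, ← hhJ, mul_assoc]
    · intro h1
      apply Subtype.ext
      have hwP : w ∈ P := by
        rcases hw with rfl | rfl
        · exact ha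
        · exact P.mul_mem hJ ha
      exact (h1 w hwP).symm
  rw [heq]
  exact Nat.card_congr (Subgroup.subgroupOfEquivOfLe hle).toEquiv

theorem T_value [Fintype G] (hM : IsPModular 2 M) {g₀ : ℕ} (hg₀ : Odd g₀)
    (hG : Nat.card G = 4 * g₀) (hnc : ¬ ∃ N : Subgroup G, N.Normal ∧ Nat.card N = g₀)
    (P : Sylow 2 G) {J : G} (hJ : J ∈ (P : Subgroup G)) (hJ2 : orderOf J = 2)
    (h4 : ∑ χ : IrrCharacter G, (if χ ∈ principalBlock M G then (χ : G → ℂ) J else 0) *
        conj ((χ : G → ℂ) J) = 4) :
    ∑ χ : IrrCharacter G, (if χ ∈ principalBlock M G then (χ : G → ℂ) J else 0) *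
        ((χ : G → ℂ) J * (χ : G → ℂ) J / (χ : G → ℂ) 1) =
      8 * (Nat.card (Subgroup.centralizer ({J} : Set G)) : ℂ) ^ 3 /
        ((Nat.card G : ℂ) * (Nat.card (Subgroup.centralizer ((P : Subgroup G) : Set G)) : ℂ) ^ 2) := by
  have hJJ := sq_eq_one_of_orderOf_two hJ2
  have hJ1 := ne_one_of_orderOf_two hJ2
  have hzo : ∃ k : ℕ, orderOf J = 2 ^ k := ⟨1, by rw [hJ2, pow_one]⟩
  obtain ⟨a, haP, haa, ha1, haJ, hJa, hJJa⟩ := exists_fusion hg₀ hG hnc P hJ hJ1 hJJ
  have hP := card_sylow hg₀ hG P
  have hel := four_elements hP hJ haP hJ1 ha1 haJ hJJ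
  rw [T_formula hM hzo hJJ hJJ]
  have hd := d_formula hM hzo
  rw [h4] at hd
  set H := Subgroup.centralizer ({J} : Set G) with hH
  have hPH : (P : Subgroup G) ≤ H := by
    intro w hw
    rw [hH, Subgroup.mem_centralizer_singleton_iff]
    exact (sylow_comm hP hw hJ).eq
  obtain ⟨h₀, hh₀⟩ : 4 ∣ Nat.card H := by
    rw [← hP]
    exact Subgroup.card_dvd_of_le hPH
  have hh₀odd : Odd h₀ := by
    have h1 : Nat.card H ∣ Nat.card G := Subgroup.card_subgroup_dvd_card H
    rw [hh₀, hG] at h1
    exact Odd.of_dvd_nat hg₀ (Nat.dvd_of_mul_dvd_mul_left (by norm_num) h1)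
  set P' : Sylow 2 H := P.subtype hPH with hP'
  have hmem : ∀ w : H, w ∈ (P' : Subgroup H) ↔ (w : G) ∈ (P : Subgroup G) := by
    intro w
    rw [hP', Sylow.coe_subtype, Subgroup.mem_subgroupOf]
  have hJH : J ∈ H := hPH hJ
  have haH : a ∈ H := hPH haP
  set J' : H := ⟨J, hJH⟩ with hJ'
  set a' : H := ⟨a, haH⟩ with ha'
  have hc : ∀ h : H, Commute h J' := by
    intro h
    apply Subtype.ext
    exact Subgroup.mem_centralizer_singleton_iff.mp h.2
  have hJ'P : J' ∈ (P' : Subgroup H) := (hmem J').mpr hJ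
  have ha'P : a' ∈ (P' : Subgroup H) := (hmem a').mpr haP
  have hJ'1 : J' ≠ 1 := fun h => hJ1 (congrArg Subtype.val h)
  have ha'1 : a' ≠ 1 := fun h => ha1 (congrArg Subtype.val h)
  have ha'J' : a' ≠ J' := fun h => haJ (congrArg Subtype.val h)
  have hJ'J' : J' * J' = 1 := Subtype.ext hJJ
  have ha'a' : a' * a' = 1 := Subtype.ext haa
  set b0 := principalBlock M H with hb0
  set N := conv (classInd J) (classInd J) with hN
  set it := ((Subgroup.centralizer ({J} : Set G)).index : ℂ) with hit
  have hH0 : (Nat.card H : ℂ) ≠ 0 := by exact_mod_cast Nat.card_pos.ne'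
  have hG0 : (Nat.card G : ℂ) ≠ 0 := by exact_mod_cast Nat.card_pos.ne'
  have hC0 : (Nat.card (Subgroup.centralizer ((P : Subgroup G) : Set G)) : ℂ) ≠ 0 := by
    exact_mod_cast Nat.card_pos.ne'
  have hb1 : blockCoeff b0 1 = 4 / (Nat.card H : ℂ) := by
    rw [hd]; field_simp
  have hC : ∀ k : H, blockCoeff b0 k * ((Nat.card G : ℂ) / (it * it) * N (J * (k : G))) =
      4 / (Nat.card H : ℂ) * ((Nat.card G : ℂ) / (it * it)) *
        (if Odd (orderOf k) then N (J * (k : G)) else 0) := by
    intro k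
    by_cases hk : 2 ∣ orderOf k
    · rw [blockCoeff_singular hM (principalBlock_isPBlock M H) hk,
        if_neg (fun h : Odd (orderOf k) => h.not_two_dvd_nat hk)]
      simp
    · have hk' := odd_of_not_two_dvd hk
      rw [if_pos hk', blockCoeff_core hM
        (mem_core_of_odd hh₀odd hh₀ P' hc hJ'P ha'P hJ'1 ha'1 ha'J' hJ'J' hk'), hb1]
      ring
  rw [Finset.sum_congr rfl fun k _ => hC k, ← Finset.mul_sum, S_eq hJJ hJH]
  have hcount := count hh₀odd hh₀ P' hc hJ'P ha'P hJ'1 ha'1 ha'J' hJ'J' ha'a'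
    (fun x : H => classInd J (x : G))
    (by
      intro x
      unfold classInd
      split_ifs
      · exact Or.inl rfl
      · exact Or.inr rfl)
    (by
      intro x hx
      have h1 : IsConj J (x : G) := by
        by_contra h
        unfold classInd at hx
        rw [if_neg h] at hx
        exact zero_ne_one hx
      refine ⟨Subtype.ext (sq_one_of_isConj hJJ h1), ?_⟩
      rintro rfl
      apply hJ1
      exact isConj_one_right.mp h1.symm)
    (by
      intro x hx
      have h1 : IsConj a (x : G) := (H.subtype).map_isConj hx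
      unfold classInd
      rw [if_pos (hJa.trans h1)])
    (by
      intro x hx
      have h1 : IsConj (J * a) (x : G) := (H.subtype).map_isConj hx
      unfold classInd
      rw [if_pos (hJJa.trans h1)])
  rw [hcount]
  have hi1 : ((Subgroup.centralizer ({a'} : Set H)).index : ℂ) *
      (Nat.card (Subgroup.centralizer ((P : Subgroup G) : Set G)) : ℂ) = (Nat.card H : ℂ) := by
    rw [← card_centralizer_eq hel hJ haP (Or.inl rfl) haH, mul_comm]
    exact_mod_cast (Subgroup.centralizer ({a'} : Set H)).card_mul_index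
  have hi2 : ((Subgroup.centralizer ({J' * a'} : Set H)).index : ℂ) *
      (Nat.card (Subgroup.centralizer ((P : Subgroup G) : Set G)) : ℂ) = (Nat.card H : ℂ) := by
    rw [← card_centralizer_eq hel hJ haP (Or.inr rfl) (H.mul_mem hJH haH), mul_comm]
    exact_mod_cast (Subgroup.centralizer ({J' * a'} : Set H)).card_mul_index
  have hi3 : (Nat.card H : ℂ) * it = (Nat.card G : ℂ) := by
    rw [hit]
    exact_mod_cast H.card_mul_index
  have hit0 : it ≠ 0 := index_centralizer_ne_zero J
  rw [← eq_div_iff hC0] at hi1 hi2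
  rw [hi1, hi2, ← hi3]
  field_simp
  ring

end Cfsg.Agent.Lib.helper8_Klein2
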