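import Mathlib
import Cfsg.Agent.Lib.helper8_Klein2
import Cfsg.Agent.Lib.helper8_FS
import Cfsg.Agent.Lib.CharFS2
import Cfsg.Agent.Lib.CharOddIndex
import Cfsg.Agent.Lib.Helper7_PClass
import Cfsg.Agent.Lib.helper8_Broue3

set_option autoImplicit false

namespace Cfsg.Agent.Lib.helper8_Klein3

open Cfsg Cfsg.Agent.Lib.Helper2_BlockLocal Cfsg.Agent.Lib.helper8_BlockSum
  Cfsg.Agent.Lib.Helper2_BlockOm Cfsg.Agent.Lib.Helper2_BlockThird Cfsg.Agent.Lib.CharBasic
  Cfsg.Agent.Lib.Helper2_PrincipalSection Cfsg.Agent.Lib.Helper2_BlockOrtho2 Cfsg.Agent.Lib.helper8_Defect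
  Cfsg.Agent.Lib.CharIntegral Cfsg.Agent.Lib.Helper2_BlockFMT Cfsg.Agent.Lib.helper8_SubSec
  Cfsg.Agent.Lib.Helper2_PPart Cfsg.Agent.Lib.CharMore Cfsg.Agent.Lib.CharOrtho Cfsg.Agent.Lib.CharGen
  Cfsg.Agent.Lib.helper8_BlockRank Cfsg.Agent.Lib.Helper2_BlockQuot Cfsg.Agent.Lib.helper8_Kernel
  Cfsg.Agent.Lib.Helper2_BlockOrtho Cfsg.Agent.Lib.Helper2_SecondMain Cfsg.Agent.Lib.Helper2_Basic
  Cfsg.Agent.Lib.Helper7_ZS1 Cfsg.Agent.Lib.Helper2_BlockOsima Cfsg.Agent.Lib.CharComplete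
  Cfsg.Agent.Lib.Helper7_ZS2 Cfsg.Agent.Lib.Helper7_ZS3 Cfsg.Agent.Lib.helper8_Klein
  Cfsg.Agent.Lib.helper8_Klein2 Cfsg.Agent.Lib.helper8_FS Cfsg.Agent.Lib.CharFS
  Cfsg.Agent.Lib.CharFS2 Cfsg.Agent.Lib.CharOddIndex
open scoped ComplexConjugate Classical

universe u

variable {M : Ideal AlgInt} {G : Type u} [Group G]

theorem proj_formula [Fintype G] (hM : IsPModular 2 M) {z : G} (hzo : ∃ k : ℕ, orderOf z = 2 ^ k)
    (χ : IrrCharacter G) :
    (if χ ∈ principalBlock M G then (χ : G → ℂ) z else 0) =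
      ∑ k : Subgroup.centralizer ({z} : Set G),
        blockCoeff (principalBlock M (Subgroup.centralizer ({z} : Set G))) k *
          (χ : G → ℂ) (z * (k : G)) := by
  set H := Subgroup.centralizer ({z} : Set G) with hH
  have h1reg : ¬ 2 ∣ orderOf (1 : H) := by rw [orderOf_one]; norm_num
  have h := sum_induced_blocks hM hzo (principalBlock_isPBlock M G) χ 1 h1reg
  rw [filter_principal hM hzo, Finset.sum_singleton] at h
  have e1 : z * ((1 : H) : G) = z := by simp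
  rw [e1] at h
  rw [← h]
  refine Finset.sum_congr rfl fun k _ => ?_
  have hk := Subgroup.mem_centralizer_singleton_iff.mp k.2
  rw [hk]

theorem conj_mem_principal [Fintype G] {χ : IrrCharacter G} (h : χ ∈ principalBlock M G) :
    conjIrr χ ∈ principalBlock M G := by
  intro g
  have h1 := h g⁻¹
  have e1 : centralChar (fun _ : G => (1 : ℂ)) g⁻¹ = centralChar (fun _ : G => (1 : ℂ)) g := by
    unfold centralChar
    rw [Cfsg.Agent.Lib.helper8_Broue3.centralizer_inv]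
  have e2 : centralChar (χ : G → ℂ) g⁻¹ = centralChar (conjIrr χ : G → ℂ) g := by
    unfold centralChar
    rw [Cfsg.Agent.Lib.helper8_Broue3.centralizer_inv, conjIrr_apply, conjIrr_apply,
      inv_of_isCharacter (isCharacter_of_isIrr χ.2), irr_one_eq_conj (isCharacter_of_isIrr χ.2)]
  rw [e1, e2] at h1
  exact h1

theorem no_sqrt [Finite G] (P : Sylow 2 G) (hP : ∀ w ∈ (P : Subgroup G), w * w = 1) {J k s : G}
    (hJ1 : J ≠ 1) (hJJ : J * J = 1) (hc : Commute J k) (hk : Odd (orderOf k)) : s * s ≠ J * k := by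
  have : Fact (Nat.Prime 2) := ⟨Nat.prime_two⟩
  intro h
  set m := orderOf k with hm
  have h1 : (J * k) ^ m = J := by
    rw [hc.mul_pow, hm, pow_orderOf_eq_one, mul_one]
    obtain ⟨j, hj⟩ := hk
    rw [← hm, hj, pow_succ, pow_mul, pow_two, hJJ, one_pow, one_mul]
  have h2 : s ^ m * s ^ m = J := by
    rw [← h1, ← h, ← pow_two, ← pow_two, ← pow_mul, ← pow_mul, mul_comm]
  have h3 : ∃ j : ℕ, orderOf (s ^ m) = 2 ^ j := by
    apply orderOf_eq_pow_of_pow_eq_one Nat.prime_two (s := 2)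
    have : (2 : ℕ) ^ 2 = 2 * 2 := by norm_num
    rw [this, pow_mul, pow_two (s ^ m), h2, pow_two, hJJ]
  obtain ⟨g, hg⟩ := Cfsg.Agent.Lib.Helper7_PClass.exists_conj_mem_sylow P h3
  have h4 := hP _ hg
  apply hJ1
  rw [← h2]
  have : g * (s ^ m * s ^ m) * g⁻¹ = g * 1 * g⁻¹ := by
    rw [mul_one, mul_inv_cancel, ← h4]; group
  exact mul_left_cancel (mul_right_cancel this)

theorem fs_sum_zero [Fintype G] (hM : IsPModular 2 M) (P : Sylow 2 G)
    (hP : ∀ w ∈ (P : Subgroup G), w * w = 1) {J : G} (hJ2 : orderOf J = 2) :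
    ∑ χ : IrrCharacter G, (if χ ∈ principalBlock M G then
      fsInd (χ : G → ℂ) * (χ : G → ℂ) J else 0) = 0 := by
  have hJJ := sq_eq_one_of_orderOf_two hJ2
  have hJ1 := ne_one_of_orderOf_two hJ2
  have hzo : ∃ k : ℕ, orderOf J = 2 ^ k := ⟨1, by rw [hJ2, pow_one]⟩
  have e1 : ∀ χ : IrrCharacter G, (if χ ∈ principalBlock M G then
      fsInd (χ : G → ℂ) * (χ : G → ℂ) J else 0) = fsInd (χ : G → ℂ) *
      (if χ ∈ principalBlock M G then (χ : G → ℂ) J else 0) := by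
    intro χ
    split_ifs <;> simp
  simp only [e1, proj_formula hM hzo, Finset.mul_sum]
  rw [Finset.sum_comm]
  refine Finset.sum_eq_zero fun k _ => ?_
  have e2 : ∀ χ : IrrCharacter G, fsInd (χ : G → ℂ) *
      (blockCoeff (principalBlock M (Subgroup.centralizer ({J} : Set G))) k *
        (χ : G → ℂ) (J * (k : G))) =
      blockCoeff (principalBlock M (Subgroup.centralizer ({J} : Set G))) k *
        (fsInd (χ : G → ℂ) * (χ : G → ℂ) (J * (k : G))) := by
    intro χ; ring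
  rw [Finset.sum_congr rfl fun χ _ => e2 χ, ← Finset.mul_sum, ← sqrt_count]
  by_cases hk : 2 ∣ orderOf k
  · rw [blockCoeff_singular hM (principalBlock_isPBlock M _) hk, zero_mul]
  · have hk' : Odd (orderOf (k : G)) := by
      rw [Subgroup.orderOf_coe]
      exact odd_of_not_two_dvd hk
    have hkc : Commute J (k : G) := (Subgroup.mem_centralizer_singleton_iff.mp k.2).symm
    have : IsEmpty {s : G // s * s = J * (k : G)} :=
      ⟨fun s => no_sqrt P hP hJ1 hJJ hkc hk' s.2⟩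
    rw [Nat.card_of_isEmpty]
    simp

end Cfsg.Agent.Lib.helper8_Klein3
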