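import Mathlib
import Cfsg.Agent.Lib.helper8_Dih1
import Cfsg.Agent.Lib.helper8_Klein3

set_option autoImplicit false

namespace Cfsg.Agent.Lib.helper8_Dih2

open Cfsg Cfsg.Agent.Lib.Helper2_BlockLocal Cfsg.Agent.Lib.helper8_BlockSum
  Cfsg.Agent.Lib.Helper2_BlockOm Cfsg.Agent.Lib.Helper2_BlockThird Cfsg.Agent.Lib.CharBasic
  Cfsg.Agent.Lib.Helper2_PrincipalSection Cfsg.Agent.Lib.Helper2_BlockOrtho2 Cfsg.Agent.Lib.helper8_Defect
  Cfsg.Agent.Lib.Helper7_ZS1 Cfsg.Agent.Lib.Helper7_ZS13 Cfsg.Agent.Lib.Helper7_ZS14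
  Cfsg.Agent.Lib.Helper7_ZS15 Cfsg.Agent.Lib.helper8_Klein Cfsg.Agent.Lib.helper8_Klein2
  Cfsg.Agent.Lib.helper8_Klein3 Cfsg.Agent.Lib.helper8_Dih1
open scoped ComplexConjugate Classical

universe u

variable {M : Ideal AlgInt} {G : Type u} [Group G]

theorem norm_formula [Fintype G] (hM : IsPModular 2 M) {y : G} (hyo : ∃ k : ℕ, orderOf y = 2 ^ k)
    {j : ℕ} (hidx : (pPrimeCore 2 (Subgroup.centralizer ({y} : Set G))).index = 2 ^ j)
    (hfac : (Nat.card (Subgroup.centralizer ({y} : Set G))).factorization 2 = j) :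
    ∑ χ : IrrCharacter G, (if χ ∈ principalBlock M G then (χ : G → ℂ) y else 0) *
        conj ((χ : G → ℂ) y) = 2 ^ j := by
  rw [d_formula hM hyo]
  have h := sum_deg_sq hM hidx hfac
  set H := Subgroup.centralizer ({y} : Set G) with hH
  have hH0 : (Nat.card H : ℂ) ≠ 0 := by exact_mod_cast Nat.card_pos.ne'
  unfold blockCoeff
  rw [mul_inv_cancel_left₀ hH0]
  rw [finsum_block] at h ⊢
  have h1 : ∀ ψ ∈ Finset.univ.filter (fun ψ : IrrCharacter H => ψ ∈ principalBlock M H),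
      (ψ : H → ℂ) 1 * conj ((ψ : H → ℂ) 1) = (((charDegree (ψ : H → ℂ) : ℚ) ^ 2 : ℚ) : ℂ) := by
    intro ψ _
    rw [(irr_charDegree ψ.2).2.1, Complex.conj_natCast]
    push_cast; ring
  rw [Finset.sum_congr rfl h1, ← Rat.cast_sum, h]
  push_cast; rfl

theorem isPPart_self {y : G} (hyo : ∃ k : ℕ, orderOf y = 2 ^ k) : IsPPart 2 y y :=
  ⟨1, mul_one y, Commute.one_right y, hyo, by rw [orderOf_one]; norm_num⟩

theorem isPPart_one {y : G} (hy : ¬ 2 ∣ orderOf y) : IsPPart 2 y 1 :=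
  ⟨y, one_mul y, Commute.one_left y, ⟨0, by simp⟩, hy⟩

theorem orderOf_pow_two_of_mem [Finite G] {σ y : G} {k : ℕ} (hσo : orderOf σ = 2 ^ k)
    (hy : y ∈ Subgroup.zpowers σ) : ∃ j : ℕ, orderOf y = 2 ^ j := by
  have h1 : orderOf y ∣ 2 ^ k := by
    rw [← hσo]
    exact orderOf_dvd_of_mem_zpowers hy
  obtain ⟨j, -, hj⟩ := (Nat.dvd_prime_pow Nat.prime_two).mp h1
  exact ⟨j, hj⟩

/-- inverse elements of the cyclic part are conjugate. -/
theorem isConj_inv [Finite G] (S : Sylow 2 G) {σ : G} (hσ : σ ∈ (S : Subgroup G))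
    (hq : QLike (⟨σ, hσ⟩ : (S : Subgroup G))) {y : G} (hy : y ∈ Subgroup.zpowers σ) :
    IsConj y y⁻¹ := by
  have hne : (Subgroup.zpowers (⟨σ, hσ⟩ : (S : Subgroup G))) ≠ ⊤ := by
    intro h
    have := hq.idx
    rw [h, Subgroup.index_top] at this
    norm_num at this
  obtain ⟨s, -, hs⟩ := SetLike.exists_of_lt (lt_top_iff_ne_top.mpr hne)
  have h1 := hq.inv s hs
  have h2 : (s : G) * σ * (s : G)⁻¹ = σ⁻¹ := congrArg Subtype.val h1
  exact isConj_iff.mpr ⟨s, conj_inv_of_mem h2 hy⟩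

theorem S_formula [Fintype G] (hM : IsPModular 2 M) (S : Sylow 2 G) {σ : G} {k : ℕ}
    (hσS : σ ∈ (S : Subgroup G)) (hσo : orderOf σ = 2 ^ (k + 1))
    (hS : Nat.card (S : Subgroup G) = 2 ^ (k + 2))
    (hall : ∀ (S' : Sylow 2 G) (h : σ ∈ (S' : Subgroup G)), DLike (⟨σ, h⟩ : (S' : Subgroup G)))
    {y y' : G} (hy : y ∈ Subgroup.zpowers σ) (hy' : y' ∈ Subgroup.zpowers σ) (hy1 : y ≠ 1)
    (hy1' : y' ≠ 1) :
    ∑ χ : IrrCharacter G, (if χ ∈ principalBlock M G then (χ : G → ℂ) y else 0) *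
        conj ((χ : G → ℂ) y') =
      2 ^ (k + 1) * ((if y' = y then 1 else 0) + (if y' = y⁻¹ then 1 else 0)) := by
  have hyo := orderOf_pow_two_of_mem hσo hy
  have hyo' := orderOf_pow_two_of_mem hσo hy'
  have hd := hall S hσS
  by_cases hc : IsConj y y'
  · have hval : ∀ χ : IrrCharacter G, (χ : G → ℂ) y' = (χ : G → ℂ) y := fun χ =>
      (classFunction_of_isConj (irr_classFunction χ) hc).symm
    simp only [hval]
    obtain ⟨g, rfl⟩ := isConj_iff.mp hc
    have hcases := fusion S hσS hd.q hy hy'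
    by_cases hyy : y * y = 1
    · have hσo' : orderOf σ = 2 * 2 ^ k := by rw [hσo, pow_succ]; ring
      have hyz : y = σ ^ 2 ^ k := by
        rcases sq_one_cases hσo' hy hyy with h | h
        · exact absurd h hy1
        · exact h
      have hyi : y⁻¹ = y := inv_eq_of_mul_eq_one_left hyy
      have he : g * y * g⁻¹ = y := by
        rcases hcases with h | h
        · exact h
        · rw [h, hyi]
      obtain ⟨h1, h2⟩ := centralizer_core_z S hσS hd hσo' hS
      rw [← hyz] at h1 h2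
      rw [norm_formula hM hyo h1 h2, he, hyi, if_pos rfl]
      rw [pow_succ]; ring
    · obtain ⟨h1, h2⟩ := centralizer_core16 hσo (fun S' h => (hall S' h).q) hy hyy
      rw [norm_formula hM hyo h1 h2]
      have hne : y⁻¹ ≠ y := by
        intro h
        apply hyy
        nth_rewrite 1 [← h]
        exact inv_mul_cancel y
      rcases hcases with h | h
      · rw [h, if_pos rfl, if_neg hne.symm]; ring
      · rw [h, if_neg hne, if_pos rfl]; ring
  · rw [block_orthogonality hM (isPPart_self hyo) (isPPart_self hyo') hc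
      (principalBlock_isPBlock M G)]
    have h1 : y' ≠ y := by
      rintro rfl
      exact hc (IsConj.refl _)
    have h2 : y' ≠ y⁻¹ := by
      rintro rfl
      exact hc (isConj_inv S hσS hd.q hy)
    rw [if_neg h1, if_neg h2]; ring

end Cfsg.Agent.Lib.helper8_Dih2
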