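import Mathlib
import Cfsg.Agent.Lib.helper8_Dih2

set_option autoImplicit false

namespace Cfsg.Agent.Lib.helper8_Dih3

open Cfsg Cfsg.Agent.Lib.Helper2_BlockLocal Cfsg.Agent.Lib.helper8_BlockSum
  Cfsg.Agent.Lib.Helper2_BlockOm Cfsg.Agent.Lib.Helper2_BlockThird Cfsg.Agent.Lib.CharBasic
  Cfsg.Agent.Lib.Helper2_PrincipalSection Cfsg.Agent.Lib.Helper2_BlockOrtho2 Cfsg.Agent.Lib.helper8_Defect
  Cfsg.Agent.Lib.Helper7_ZS1 Cfsg.Agent.Lib.Helper7_ZS13 Cfsg.Agent.Lib.Helper7_ZS14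
  Cfsg.Agent.Lib.Helper7_ZS15 Cfsg.Agent.Lib.helper8_Klein Cfsg.Agent.Lib.helper8_Klein2
  Cfsg.Agent.Lib.helper8_Klein3 Cfsg.Agent.Lib.helper8_Dih1 Cfsg.Agent.Lib.helper8_Dih2
open scoped ComplexConjugate Classical

universe u

theorem geom {ζ : ℂ} {N : ℕ} (hζ : IsPrimitiveRoot ζ N) (t : ℕ) :
    ∑ l ∈ Finset.range N, ζ ^ (t * l) = if N ∣ t then (N : ℂ) else 0 := by
  simp only [pow_mul]
  split_ifs with h
  · rw [(hζ.pow_eq_one_iff_dvd t).mpr h]
    simp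
  · have h1 : ζ ^ t ≠ 1 := fun h2 => h ((hζ.pow_eq_one_iff_dvd t).mp h2)
    rw [geom_sum_eq h1, ← pow_mul, mul_comm, pow_mul, hζ.pow_eq_one, one_pow, sub_self, zero_div]

theorem conj_zeta {ζ : ℂ} {N : ℕ} (hζ : IsPrimitiveRoot ζ N) {k : ℕ} (hk : k ≤ N) (l : ℕ) :
    conj (ζ ^ (k * l)) = ζ ^ ((N - k) * l) := by
  have hN : ζ ^ N = 1 := hζ.pow_eq_one
  by_cases hN0 : N = 0
  · subst hN0
    have : k = 0 := by omega
    subst this
    simp
  have hnorm : ‖ζ‖ = 1 := hζ.norm'_eq_one hN0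
  have h1 : ζ ^ (k * l) * ζ ^ ((N - k) * l) = 1 := by
    rw [← pow_add, ← add_mul, Nat.add_sub_cancel' hk, pow_mul, hN, one_pow]
  have h2 : ζ ^ (k * l) * conj (ζ ^ (k * l)) = 1 := by
    rw [Complex.mul_conj, Complex.normSq_eq_norm_sq, norm_pow, hnorm]
    simp
  have h0 : ζ ^ (k * l) ≠ 0 := left_ne_zero_of_mul_eq_one h1
  exact mul_left_cancel₀ h0 (h2.trans h1.symm)

variable {M : Ideal AlgInt} {G : Type u} [Group G]

/-- `m_0 - m_j`. -/
noncomputable def cc (ζ : ℂ) (σ : G) (N : ℕ) (φ : G → ℂ) (j : ℕ) : ℂ :=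
  (N : ℂ)⁻¹ * ∑ l ∈ Finset.range N, φ (σ ^ l) * (1 - ζ ^ (j * l))

theorem sum_zpowers [Finite G] {σ : G} {N : ℕ} (hσ : orderOf σ = N)
    [Fintype (Subgroup.zpowers σ)] (F : G → ℂ) :
    ∑ y : Subgroup.zpowers σ, F y = ∑ l ∈ Finset.range N, F (σ ^ l) := by
  subst hσ
  rw [← Fin.sum_univ_eq_sum_range (fun l => F (σ ^ l)),
    ← Equiv.sum_comp (finEquivZPowers (isOfFinOrder_of_finite σ)) (fun y => F y)]
  refine Finset.sum_congr rfl fun i _ => ?_
  rw [finEquivZPowers_apply]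

theorem cc_int [Finite G] {ζ : ℂ} {σ : G} {N : ℕ} (hζ : IsPrimitiveRoot ζ N) (hσ : orderOf σ = N)
    {φ : G → ℂ} (hφ : IsCharacter G φ) (j : ℕ) : ∃ c : ℤ, cc ζ σ N φ j = c := by
  have := Fintype.ofFinite G
  have hN0 : N ≠ 0 := by
    rw [← hσ]; exact (orderOf_pos σ).ne'
  have hζ0 : ζ ≠ 0 := hζ.ne_zero hN0
  set P : Subgroup G := Subgroup.zpowers σ with hP
  set gen : P := ⟨σ, Subgroup.mem_zpowers σ⟩ with hgendef
  have hgen : ∀ x : P, x ∈ Subgroup.zpowers gen := fun x => mem_zpowers_subtype.mpr x.2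
  have hgeno : orderOf gen = N := by rw [← Subgroup.orderOf_coe]; exact hσ
  set u : ℂˣ := (Units.mk0 (ζ ^ j) (pow_ne_zero j hζ0))⁻¹ with hu
  have hdvd : orderOf u ∣ orderOf gen := by
    rw [hgeno]
    apply orderOf_dvd_of_pow_eq_one
    rw [hu, inv_pow, inv_eq_one]
    apply Units.ext
    simp only [Units.val_pow_eq_pow_val, Units.val_mk0, Units.val_one]
    rw [← pow_mul, mul_comm, pow_mul, hζ.pow_eq_one, one_pow]
  set lam : P →* ℂˣ := monoidHomOfForallMemZpowers hgen hdvd with hlamdef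
  have hlam : lam gen = u := monoidHomOfForallMemZpowers_apply_gen hgen hdvd
  obtain ⟨c, hc⟩ := coeff_int lam (isCharacter_restrict P hφ)
  refine ⟨c, ?_⟩
  rw [← hc]
  unfold cc
  have hcard : Nat.card P = N := by rw [hP, Nat.card_zpowers, hσ]
  rw [hcard]
  congr 1
  have key : ∀ y : P, (fun h : P => φ h) y * th lam y⁻¹ =
      (fun g : G => if hg : g ∈ P then φ g * th lam (⟨g, hg⟩ : P)⁻¹ else 0) (y : G) := by
    intro y
    simp only [dif_pos y.2]
  rw [Finset.sum_congr rfl fun y _ => key y,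
    sum_zpowers hσ (fun g : G => if hg : g ∈ P then φ g * th lam (⟨g, hg⟩ : P)⁻¹ else 0)]
  refine Finset.sum_congr rfl fun l _ => ?_
  have hm : σ ^ l ∈ P := Subgroup.pow_mem _ (Subgroup.mem_zpowers σ) l
  simp only [dif_pos hm]
  congr 1
  unfold th
  have e : (⟨σ ^ l, hm⟩ : P) = gen ^ l := by
    apply Subtype.ext
    simp [hgendef]
  rw [e, map_inv, map_pow, hlam, hu, inv_pow, inv_inv]
  simp only [Units.val_pow_eq_pow_val, Units.val_mk0]
  rw [← pow_mul]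


theorem pow_eq_iff {σ : G} {N : ℕ} (hσ : orderOf σ = N) {l l' : ℕ} (hl : l < N) (hl' : l' < N) :
    σ ^ l' = σ ^ l ↔ l' = l := by
  constructor
  · intro h
    exact pow_injOn_Iio_orderOf (by rw [hσ]; exact hl') (by rw [hσ]; exact hl) h
  · rintro rfl; rfl

theorem pow_inv_eq {σ : G} {N : ℕ} (hσ : orderOf σ = N) {l : ℕ} (hl : l ≤ N) :
    (σ ^ l)⁻¹ = σ ^ (N - l) := by
  apply inv_eq_of_mul_eq_one_right
  rw [← pow_add, Nat.add_sub_cancel' hl, ← hσ, pow_orderOf_eq_one]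

theorem pow_ne_one {σ : G} {N : ℕ} (hσ : orderOf σ = N) {l : ℕ} (hl0 : 0 < l) (hl : l < N) :
    σ ^ l ≠ 1 := by
  intro h
  have := orderOf_dvd_of_pow_eq_one h
  rw [hσ] at this
  exact absurd (Nat.le_of_dvd hl0 this) (by omega)

theorem dvd_lem2 {N i j : ℕ} (hi0 : 0 < i) (hi : i < N) (hj : j < N) :
    N ∣ i + j ↔ i + j = N := by
  constructor
  · rintro ⟨c, hc⟩
    have : c = 1 := by
      rcases c with _ | _ | c
      · omega
      · rfl
      · exfalso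
        have : N * (c + 1 + 1) ≥ 2 * N := by nlinarith
        omega
    subst this
    omega
  · intro h
    exact ⟨1, by omega⟩

theorem dvd_lem1 {N i j : ℕ} (hi0 : 0 < i) (hi : i < N) (hj0 : 0 < j) (hj : j < N) :
    N ∣ i + (N - j) ↔ i = j := by
  rw [dvd_lem2 hi0 hi (by omega)]
  omega

section setup

variable [Fintype G] (hM : IsPModular 2 M) (S : Sylow 2 G) {σ : G} {k : ℕ}
  (hσS : σ ∈ (S : Subgroup G)) (hσo : orderOf σ = 2 ^ (k + 1))
  (hS : Nat.card (S : Subgroup G) = 2 ^ (k + 2))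
  (hall : ∀ (S' : Sylow 2 G) (h : σ ∈ (S' : Subgroup G)), DLike (⟨σ, h⟩ : (S' : Subgroup G)))
  {ζ : ℂ} (hζ : IsPrimitiveRoot ζ (2 ^ (k + 1)))

include S hσS hall in
theorem real_val (χ : IrrCharacter G) (l : ℕ) :
    conj ((χ : G → ℂ) (σ ^ l)) = (χ : G → ℂ) (σ ^ l) := by
  rw [← inv_of_isCharacter (isCharacter_of_isIrr χ.2)]
  exact (classFunction_of_isConj (irr_classFunction χ)
    (isConj_inv S hσS (hall S hσS).q (Subgroup.pow_mem _ (Subgroup.mem_zpowers σ) l))).symm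

include hM S hσS hσo hS hall hζ in
theorem IP {i j : ℕ} (hi0 : 0 < i) (hi : i < 2 ^ (k + 1)) (hj0 : 0 < j) (hj : j < 2 ^ (k + 1)) :
    ∑ χ : IrrCharacter G, (if χ ∈ principalBlock M G then cc ζ σ (2 ^ (k + 1)) (χ : G → ℂ) i else 0) *
        conj (cc ζ σ (2 ^ (k + 1)) (χ : G → ℂ) j) =
      2 + (if i = j then 1 else 0) + (if i + j = 2 ^ (k + 1) then 1 else 0) := by
  set N : ℕ := 2 ^ (k + 1) with hN
  have hNpos : 0 < N := by rw [hN]; positivity
  have hN0 : (N : ℂ) ≠ 0 := by exact_mod_cast hNpos.ne'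
  have hNc : ((2 : ℂ) ^ (k + 1)) = (N : ℂ) := by rw [hN]; push_cast; rfl
  set T : ℕ → ℕ → ℂ := fun l l' => ∑ χ : IrrCharacter G,
    (if χ ∈ principalBlock M G then (χ : G → ℂ) (σ ^ l) else 0) * conj ((χ : G → ℂ) (σ ^ l')) with hT
  have e1 : ∀ χ : IrrCharacter G,
      (if χ ∈ principalBlock M G then cc ζ σ N (χ : G → ℂ) i else 0) *
        conj (cc ζ σ N (χ : G → ℂ) j) =
      (N : ℂ)⁻¹ * (N : ℂ)⁻¹ * ∑ l ∈ Finset.range N, ∑ l' ∈ Finset.range N,
        (1 - ζ ^ (i * l)) * conj (1 - ζ ^ (j * l')) *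
        ((if χ ∈ principalBlock M G then (χ : G → ℂ) (σ ^ l) else 0) *
          conj ((χ : G → ℂ) (σ ^ l'))) := by
    intro χ
    unfold cc
    rw [map_mul, map_inv₀, Complex.conj_natCast, map_sum]
    split_ifs with h
    · rw [mul_mul_mul_comm, Finset.sum_mul_sum]
      congr 1
      refine Finset.sum_congr rfl fun l _ => Finset.sum_congr rfl fun l' _ => ?_
      rw [map_mul]; ring
    · simp
  rw [Finset.sum_congr rfl fun χ _ => e1 χ, ← Finset.mul_sum, Finset.sum_comm]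
  have e2 : ∀ l ∈ Finset.range N, ∑ χ : IrrCharacter G, ∑ l' ∈ Finset.range N,
        (1 - ζ ^ (i * l)) * conj (1 - ζ ^ (j * l')) *
        ((if χ ∈ principalBlock M G then (χ : G → ℂ) (σ ^ l) else 0) *
          conj ((χ : G → ℂ) (σ ^ l'))) =
      (N : ℂ) * ((1 - ζ ^ (i * l)) * ((1 - ζ ^ ((N - j) * l)) + (1 - ζ ^ (j * l)))) := by
    intro l hl
    have hlN := Finset.mem_range.mp hl
    rw [Finset.sum_comm]
    simp only [← Finset.mul_sum]
    rcases Nat.eq_zero_or_pos l with rfl | hl0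
    · simp
    have e3 : ∀ l' ∈ Finset.range N, (1 - ζ ^ (i * l)) * conj (1 - ζ ^ (j * l')) * T l l' =
        (1 - ζ ^ (i * l)) * conj (1 - ζ ^ (j * l')) *
          ((N : ℂ) * ((if l' = l then 1 else 0) + (if l' = N - l then 1 else 0))) := by
      intro l' hl'
      have hl'N := Finset.mem_range.mp hl'
      rcases Nat.eq_zero_or_pos l' with rfl | hl'0
      · simp
      congr 1
      rw [hT]
      simp only
      rw [S_formula hM S hσS hσo hS hall (Subgroup.pow_mem _ (Subgroup.mem_zpowers σ) l)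
        (Subgroup.pow_mem _ (Subgroup.mem_zpowers σ) l') (pow_ne_one hσo hl0 hlN)
        (pow_ne_one hσo hl'0 hl'N), hNc, pow_inv_eq hσo hlN.le]
      simp only [pow_eq_iff hσo hlN hl'N, pow_eq_iff hσo (show N - l < N by omega) hl'N]
    rw [Finset.sum_congr rfl e3]
    simp only [mul_add, Finset.sum_add_distrib, mul_ite, mul_one, mul_zero]
    rw [Finset.sum_ite_eq' (Finset.range N) l, Finset.sum_ite_eq' (Finset.range N) (N - l),
      if_pos hl, if_pos (Finset.mem_range.mpr (by omega))]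
    have c1 : conj (1 - ζ ^ (j * l)) = 1 - ζ ^ ((N - j) * l) := by
      rw [map_sub, map_one, conj_zeta hζ hj.le]
    have c2 : conj (1 - ζ ^ (j * (N - l))) = 1 - ζ ^ (j * l) := by
      rw [map_sub, map_one, mul_comm j (N - l), ← conj_zeta hζ hlN.le, Complex.conj_conj, mul_comm]
    rw [c1, c2]
    ring
  rw [Finset.sum_congr rfl e2, ← Finset.mul_sum]
  have e4 : ∀ l ∈ Finset.range N,
      (1 - ζ ^ (i * l)) * ((1 - ζ ^ ((N - j) * l)) + (1 - ζ ^ (j * l))) =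
      2 - ζ ^ ((N - j) * l) - ζ ^ (j * l) - 2 * ζ ^ (i * l) + ζ ^ ((i + (N - j)) * l) +
        ζ ^ ((i + j) * l) := by
    intro l _
    rw [add_mul i, add_mul i, pow_add, pow_add]
    ring
  rw [Finset.sum_congr rfl e4]
  simp only [Finset.sum_add_distrib, Finset.sum_sub_distrib, ← Finset.mul_sum, geom hζ]
  have d1 : ¬ N ∣ N - j := fun h => absurd (Nat.le_of_dvd (by omega) h) (by omega)
  have d2 : ¬ N ∣ j := fun h => absurd (Nat.le_of_dvd hj0 h) (by omega)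
  have d3 : ¬ N ∣ i := fun h => absurd (Nat.le_of_dvd hi0 h) (by omega)
  have d4 : N ∣ i + (N - j) ↔ i = j := dvd_lem1 hi0 hi hj0 hj
  have d5 : N ∣ i + j ↔ i + j = N := dvd_lem2 hi0 hi hj
  rw [if_neg d1, if_neg d2, if_neg d3]
  simp only [d4, d5, Finset.sum_const, Finset.card_range, nsmul_eq_mul]
  split_ifs <;> field_simp <;> ring

include hζ in
theorem cc_one {j : ℕ} (hj0 : 0 < j) (hj : j < 2 ^ (k + 1)) :
    cc ζ σ (2 ^ (k + 1)) (fun _ : G => (1 : ℂ)) j = 1 := by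
  unfold cc
  have hNpos : 0 < 2 ^ (k + 1) := by positivity
  have hN0 : ((2 ^ (k + 1) : ℕ) : ℂ) ≠ 0 := by exact_mod_cast hNpos.ne'
  simp only [one_mul, Finset.sum_sub_distrib, geom hζ]
  rw [if_neg (fun h => absurd (Nat.le_of_dvd hj0 h) (by omega))]
  simp only [Finset.sum_const, Finset.card_range, nsmul_eq_mul, mul_one, sub_zero]
  exact inv_mul_cancel₀ hN0

include S hσS hσo hall hζ in
theorem cc_symm (χ : IrrCharacter G) {j : ℕ} (hj : j ≤ 2 ^ (k + 1)) :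
    cc ζ σ (2 ^ (k + 1)) (χ : G → ℂ) (2 ^ (k + 1) - j) = cc ζ σ (2 ^ (k + 1)) (χ : G → ℂ) j := by
  obtain ⟨c, hc⟩ := cc_int hζ hσo (isCharacter_of_isIrr χ.2) j
  have h1 : conj (cc ζ σ (2 ^ (k + 1)) (χ : G → ℂ) j) = cc ζ σ (2 ^ (k + 1)) (χ : G → ℂ) j := by
    rw [hc]; exact map_intCast _ _
  rw [← h1]
  unfold cc
  rw [map_mul, map_inv₀, Complex.conj_natCast, map_sum]
  congr 1
  refine Finset.sum_congr rfl fun l _ => ?_
  rw [map_mul, real_val S hσS hall, map_sub, map_one, conj_zeta hζ hj]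

include hM hσo in
theorem cc_deg {j : ℕ} {ρ : G} (hρ : ¬ 2 ∣ orderOf ρ) :
    ∑ χ : IrrCharacter G, (if χ ∈ principalBlock M G then cc ζ σ (2 ^ (k + 1)) (χ : G → ℂ) j else 0) *
        conj ((χ : G → ℂ) ρ) = 0 := by
  set N : ℕ := 2 ^ (k + 1) with hN
  have e1 : ∀ χ : IrrCharacter G,
      (if χ ∈ principalBlock M G then cc ζ σ N (χ : G → ℂ) j else 0) * conj ((χ : G → ℂ) ρ) =
      (N : ℂ)⁻¹ * ∑ l ∈ Finset.range N, (1 - ζ ^ (j * l)) *
        ((if χ ∈ principalBlock M G then (χ : G → ℂ) (σ ^ l) else 0) * conj ((χ : G → ℂ) ρ)) := by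
    intro χ
    unfold cc
    split_ifs with h
    · rw [mul_assoc, Finset.sum_mul]
      congr 1
      refine Finset.sum_congr rfl fun l _ => ?_
      ring
    · simp
  rw [Finset.sum_congr rfl fun χ _ => e1 χ, ← Finset.mul_sum, Finset.sum_comm]
  rw [Finset.sum_eq_zero, mul_zero]
  intro l hl
  have hlN := Finset.mem_range.mp hl
  rw [← Finset.mul_sum]
  rcases Nat.eq_zero_or_pos l with rfl | hl0
  · simp
  have hyo := orderOf_pow_two_of_mem hσo (Subgroup.pow_mem _ (Subgroup.mem_zpowers σ) l)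
  rw [block_orthogonality hM (isPPart_self hyo) (isPPart_one hρ) (fun h =>
    pow_ne_one hσo hl0 hlN (isConj_one_right.mp h.symm)) (principalBlock_isPBlock M G), mul_zero]

include S hσS hσo hall hζ in
theorem cc_inversion (χ : IrrCharacter G) {l₀ : ℕ} (hl0 : 0 < l₀) (hl : l₀ < 2 ^ (k + 1)) :
    (χ : G → ℂ) (σ ^ l₀) =
      - ∑ j ∈ Finset.range (2 ^ (k + 1)), cc ζ σ (2 ^ (k + 1)) (χ : G → ℂ) j * ζ ^ (j * l₀) := by
  set N : ℕ := 2 ^ (k + 1) with hN
  have hNpos : 0 < N := by rw [hN]; positivity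
  have hN0 : (N : ℂ) ≠ 0 := by exact_mod_cast hNpos.ne'
  unfold cc
  have e1 : ∀ j ∈ Finset.range N, (N : ℂ)⁻¹ * (∑ l ∈ Finset.range N,
      (χ : G → ℂ) (σ ^ l) * (1 - ζ ^ (j * l))) * ζ ^ (j * l₀) =
      (N : ℂ)⁻¹ * ∑ l ∈ Finset.range N, (χ : G → ℂ) (σ ^ l) *
        (ζ ^ (l₀ * j) - ζ ^ ((l + l₀) * j)) := by
    intro j _
    rw [mul_assoc, Finset.sum_mul]
    congr 1
    refine Finset.sum_congr rfl fun l _ => ?_
    rw [add_mul, pow_add, mul_comm l₀ j, mul_comm l j]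
    ring
  rw [Finset.sum_congr rfl e1, ← Finset.mul_sum, Finset.sum_comm]
  simp only [← Finset.mul_sum, Finset.sum_sub_distrib, geom hζ]
  rw [if_neg (fun h => absurd (Nat.le_of_dvd hl0 h) (by omega))]
  have e2 : ∀ l ∈ Finset.range N, (χ : G → ℂ) (σ ^ l) * (0 - if N ∣ l + l₀ then (N : ℂ) else 0) =
      if l = N - l₀ then - ((N : ℂ) * (χ : G → ℂ) (σ ^ (N - l₀))) else 0 := by
    intro l hl'
    have hlN := Finset.mem_range.mp hl'
    have : N ∣ l + l₀ ↔ l = N - l₀ := by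
      rw [add_comm, dvd_lem2 hl0 hl hlN]
      omega
    simp only [this]
    split_ifs with h
    · rw [h]; ring
    · ring
  rw [Finset.sum_congr rfl e2, Finset.sum_ite_eq' (Finset.range N) (N - l₀),
    if_pos (Finset.mem_range.mpr (by omega)), ← pow_inv_eq hσo hl.le,
    inv_of_isCharacter (isCharacter_of_isIrr χ.2), real_val S hσS hall]
  field_simp

end setup

end Cfsg.Agent.Lib.helper8_Dih3
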