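import Mathlib

set_option autoImplicit false

namespace Cfsg.Agent.Lib.helper8_Dih4

variable {ι : Type*} [DecidableEq ι]

theorem pm_one_of_sq_le {x : ℤ} (h0 : x ≠ 0) (h : x ^ 2 ≤ 3) : x = 1 ∨ x = -1 := by
  have h1 : x ≤ 1 := by nlinarith
  have h2 : -1 ≤ x := by nlinarith
  omega

theorem peel (B : Finset ι) (c : ι → ℤ) (m : ℕ) (hm : m ≤ 2) (hs : ∑ i ∈ B, c i ^ 2 = m + 1) :
    ∃ p ∈ B, (c p = 1 ∨ c p = -1) ∧ ∑ i ∈ B.erase p, c i ^ 2 = m := by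
  have hne : ∑ i ∈ B, c i ^ 2 ≠ 0 := by rw [hs]; positivity
  obtain ⟨p, hp, hp0⟩ := Finset.exists_ne_zero_of_sum_ne_zero hne
  have hle : c p ^ 2 ≤ ∑ i ∈ B, c i ^ 2 :=
    Finset.single_le_sum (f := fun i => c i ^ 2) (fun i _ => sq_nonneg (c i)) hp
  have hcp : c p = 1 ∨ c p = -1 := by
    apply pm_one_of_sq_le (fun h => hp0 (by rw [h]; norm_num))
    rw [hs] at hle
    have : (m : ℤ) ≤ 2 := by exact_mod_cast hm
    linarith
  refine ⟨p, hp, hcp, ?_⟩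
  have h1 := Finset.add_sum_erase B (fun i => c i ^ 2) hp
  have h2 : c p ^ 2 = 1 := by rcases hcp with h | h <;> rw [h] <;> norm_num
  rw [hs, h2] at h1
  linarith

omit [DecidableEq ι] in
theorem zero_of_sum (B : Finset ι) (c : ι → ℤ) (hs : ∑ i ∈ B, c i ^ 2 = 0) : ∀ i ∈ B, c i = 0 := by
  intro i hi
  have := (Finset.sum_eq_zero_iff_of_nonneg (fun i _ => sq_nonneg (c i))).mp hs i hi
  exact pow_eq_zero_iff (two_ne_zero) |>.mp this

theorem sum_delta (B : Finset ι) {a : ι} (ha : a ∈ B) (x : ℤ) (g : ι → ℤ) :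
    ∑ i ∈ B, (if i = a then x else 0) * g i = x * g a := by
  simp only [ite_mul, zero_mul]
  rw [Finset.sum_ite_eq' B a, if_pos ha]

/-- shape of a vector of norm three with a coordinate one. -/
theorem shape3 (B : Finset ι) (c : ι → ℤ) {i0 : ι} (hi0 : i0 ∈ B) (h1 : c i0 = 1)
    (hs : ∑ i ∈ B, c i ^ 2 = 3) :
    ∃ p q : ι, p ∈ B ∧ q ∈ B ∧ p ≠ i0 ∧ q ≠ i0 ∧ p ≠ q ∧ (c p = 1 ∨ c p = -1) ∧
      (c q = 1 ∨ c q = -1) ∧ ∀ i ∈ B, c i = (if i = i0 then 1 else 0) + (if i = p then c p else 0) +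
        (if i = q then c q else 0) := by
  have e0 := Finset.add_sum_erase B (fun i => c i ^ 2) hi0
  rw [hs, h1] at e0
  obtain ⟨p, hp, hcp, e1⟩ := peel (B.erase i0) c 1 (by norm_num) (by push_cast; linarith)
  obtain ⟨q, hq, hcq, e2⟩ := peel ((B.erase i0).erase p) c 0 (by norm_num) (by rw [e1]; norm_num)
  have hz := zero_of_sum _ c (by exact_mod_cast e2)
  have hp' := Finset.mem_erase.mp hp
  have hq' := Finset.mem_erase.mp hq
  have hq'' := Finset.mem_erase.mp hq'.2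
  refine ⟨p, q, hp'.2, hq''.2, hp'.1, hq''.1, hq'.1.symm, hcp, hcq, ?_⟩
  intro i hi
  by_cases a0 : i = i0
  · subst a0
    rw [if_pos rfl, if_neg hp'.1.symm, if_neg hq''.1.symm, h1]; ring
  · by_cases a1 : i = p
    · subst a1
      rw [if_neg a0, if_pos rfl, if_neg hq'.1.symm]; ring
    · by_cases a2 : i = q
      · subst a2
        rw [if_neg a0, if_neg a1, if_pos rfl]; ring
      · rw [if_neg a0, if_neg a1, if_neg a2]
        rw [hz i (Finset.mem_erase.mpr ⟨a2, Finset.mem_erase.mpr ⟨a1, Finset.mem_erase.mpr ⟨a0, hi⟩⟩⟩)]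
        ring

theorem sum3 (B : Finset ι) (c : ι → ℤ) {i0 p q : ι} (hi0 : i0 ∈ B) (hp : p ∈ B) (hq : q ∈ B)
    (x y : ℤ) (hc : ∀ i ∈ B, c i = (if i = i0 then 1 else 0) + (if i = p then x else 0) +
        (if i = q then y else 0)) (g : ι → ℤ) :
    ∑ i ∈ B, c i * g i = g i0 + x * g p + y * g q := by
  rw [Finset.sum_congr rfl fun i hi => by rw [hc i hi]]
  simp only [add_mul, Finset.sum_add_distrib]
  rw [sum_delta B hi0, sum_delta B hp, sum_delta B hq, one_mul]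


theorem abs_le_one_of (B : Finset ι) (Y : ι → ℤ) {i0 : ι} (hi0 : i0 ∈ B) (h1 : Y i0 = 1)
    (hs : ∑ i ∈ B, Y i ^ 2 = 4) {i : ι} (hi : i ∈ B) : Y i = 0 ∨ Y i = 1 ∨ Y i = -1 := by
  by_cases a0 : i = i0
  · subst a0; right; left; exact h1
  · have e0 := Finset.add_sum_erase B (fun i => Y i ^ 2) hi0
    rw [hs, h1] at e0
    have hle : Y i ^ 2 ≤ ∑ i ∈ B.erase i0, Y i ^ 2 :=
      Finset.single_le_sum (f := fun i => Y i ^ 2) (fun i _ => sq_nonneg (Y i))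
        (Finset.mem_erase.mpr ⟨a0, hi⟩)
    by_cases h0 : Y i = 0
    · exact Or.inl h0
    · exact Or.inr (pm_one_of_sq_le h0 (by linarith))

/-- step 1 -/
theorem step1 (B : Finset ι) (c Y : ι → ℤ) {i0 : ι} (hi0 : i0 ∈ B) (h1 : c i0 = 1) (hY1 : Y i0 = 1)
    (hs : ∑ i ∈ B, c i ^ 2 = 3) (hYs : ∑ i ∈ B, Y i ^ 2 = 4) (hcY : ∑ i ∈ B, c i * Y i = 2) :
    ∃ (p q : ι) (s : ℤ), p ∈ B ∧ q ∈ B ∧ p ≠ i0 ∧ q ≠ i0 ∧ p ≠ q ∧ (Y p = 1 ∨ Y p = -1) ∧ Y q = 0 ∧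
      (s = 1 ∨ s = -1) ∧ ∀ i ∈ B, c i = (if i = i0 then 1 else 0) + (if i = p then Y p else 0) +
        (if i = q then s else 0) := by
  obtain ⟨p, q, hp, hq, hp0, hq0, hpq, hcp, hcq, hc⟩ := shape3 B c hi0 h1 hs
  have e := sum3 B c hi0 hp hq _ _ hc Y
  rw [hcY, hY1] at e
  have yp := abs_le_one_of B Y hi0 hY1 hYs hp
  have yq := abs_le_one_of B Y hi0 hY1 hYs hq
  have hcase : (Y p = c p ∧ Y q = 0) ∨ (Y q = c q ∧ Y p = 0) := by
    rcases hcp with a | a <;> rcases hcq with b | b <;> rcases yp with u | u | u <;>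
      rcases yq with v | v | v <;> rw [a, b, u, v] at e <;> simp [a, b, u, v] <;> norm_num at e
  rcases hcase with ⟨a, b⟩ | ⟨a, b⟩
  · refine ⟨p, q, c q, hp, hq, hp0, hq0, hpq, by rw [a]; exact hcp, b, hcq, ?_⟩
    rw [a]; exact hc
  · refine ⟨q, p, c p, hq, hp, hq0, hp0, hpq.symm, by rw [a]; exact hcq, b, hcp, ?_⟩
    intro i hi
    rw [a, hc i hi]; ring


theorem lattice (B : Finset ι) {i0 : ι} (hi0 : i0 ∈ B) (h : ℕ) (h2 : 2 ≤ h) (h3 : h ≠ 3)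
    (c : ℕ → ι → ℤ) (f : ι → ℤ) (hf : ∀ i ∈ B, 0 < f i) (hf0 : f i0 = 1)
    (H1 : ∀ j, 1 ≤ j → j ≤ h → c j i0 = 1)
    (H2 : ∀ j, 1 ≤ j → j < h → ∑ i ∈ B, c j i ^ 2 = 3)
    (H2' : ∑ i ∈ B, c h i ^ 2 = 4)
    (H3 : ∀ i j, 1 ≤ i → i ≤ h → 1 ≤ j → j ≤ h → i ≠ j → ∑ x ∈ B, c i x * c j x = 2)
    (H4 : ∀ j, 1 ≤ j → j ≤ h → ∑ i ∈ B, c j i * f i = 0) :
    ∃ (χ₁ χ₂ χ₃ : ι) (q : ℕ → ι) (δ₁ δ₂ δ₃ : ℤ),
      χ₁ ∈ B ∧ χ₂ ∈ B ∧ χ₃ ∈ B ∧ χ₁ ≠ i0 ∧ χ₂ ≠ i0 ∧ χ₃ ≠ i0 ∧ χ₁ ≠ χ₂ ∧ χ₁ ≠ χ₃ ∧ χ₂ ≠ χ₃ ∧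
      (δ₁ = 1 ∨ δ₁ = -1) ∧ (δ₂ = 1 ∨ δ₂ = -1) ∧ (δ₃ = 1 ∨ δ₃ = -1) ∧
      (∀ j, 1 ≤ j → j < h → q j ∈ B ∧ q j ≠ i0 ∧ q j ≠ χ₁ ∧ q j ≠ χ₂ ∧ q j ≠ χ₃) ∧
      (∀ j k, 1 ≤ j → j < h → 1 ≤ k → k < h → q j = q k → j = k) ∧
      (∀ i ∈ B, c h i = (if i = i0 then 1 else 0) + (if i = χ₁ then δ₁ else 0) +
        (if i = χ₂ then δ₂ else 0) + (if i = χ₃ then δ₃ else 0)) ∧
      (∀ j, 1 ≤ j → j < h → ∀ i ∈ B, c j i = (if i = i0 then 1 else 0) +
        (if i = χ₁ then δ₁ else 0) + (if i = q j then -δ₁ else 0)) := by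
  set Y := c h with hY
  have hY1 : Y i0 = 1 := H1 h (by omega) le_rfl
  have S1 : ∀ j, 1 ≤ j → j < h → ∃ (p q : ι) (s : ℤ), p ∈ B ∧ q ∈ B ∧ p ≠ i0 ∧ q ≠ i0 ∧ p ≠ q ∧
      (Y p = 1 ∨ Y p = -1) ∧ Y q = 0 ∧ (s = 1 ∨ s = -1) ∧
      ∀ i ∈ B, c j i = (if i = i0 then 1 else 0) + (if i = p then Y p else 0) +
        (if i = q then s else 0) := fun j a b =>
    step1 B (c j) Y hi0 (H1 j a b.le) hY1 (H2 j a b) H2' (H3 j h a b.le (by omega) le_rfl (by omega))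
  have : Nonempty ι := ⟨i0⟩
  choose! p q s hS1 using S1
  have step2 : ∀ j k, 1 ≤ j → j < h → 1 ≤ k → k < h → j ≠ k →
      (p j = p k ∧ q j ≠ q k) ∨ (p j ≠ p k ∧ q j = q k ∧ s j = s k) := by
    intro j k j1 jh k1 kh hjk
    obtain ⟨hpj, hqj, hpj0, hqj0, hpqj, hYpj, hYqj, hsj, hcj⟩ := hS1 j j1 jh
    obtain ⟨hpk, hqk, hpk0, hqk0, hpqk, hYpk, hYqk, hsk, hck⟩ := hS1 k k1 kh
    have e := sum3 B (c j) hi0 hpj hqj _ _ hcj (c k)
    rw [H3 j k j1 jh.le k1 kh.le hjk, H1 k k1 kh.le, hck _ hpj, hck _ hqj, if_neg hpj0,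
      if_neg hqj0] at e
    have n1 : p j ≠ q k := by
      intro hh
      rw [hh, hYqk] at hYpj
      rcases hYpj with a | a <;> norm_num at a
    have n2 : q j ≠ p k := by
      intro hh
      rw [← hh, hYqj] at hYpk
      rcases hYpk with a | a <;> norm_num at a
    rw [if_neg n1, if_neg n2] at e
    by_cases hpp : p j = p k
    · left
      refine ⟨hpp, ?_⟩
      intro hqq
      rw [if_pos hpp, if_pos hqq, ← hpp] at e
      rcases hYpj with a | a <;> rcases hsj with b | b <;> rcases hsk with d | d <;>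
        rw [a, b, d] at e <;> norm_num at e
    · right
      rw [if_neg hpp] at e
      by_cases hqq : q j = q k
      · refine ⟨hpp, hqq, ?_⟩
        rw [if_pos hqq] at e
        rcases hsj with b | b <;> rcases hsk with d | d <;> rw [b, d] at e ⊢ <;> norm_num at e
      · rw [if_neg hqq] at e
        norm_num at e
  obtain ⟨hp1, hq1, hp10, hq10, hpq1, hYp1, hYq1, hs1, hc1⟩ := hS1 1 le_rfl (by omega)
  have step3 : ∀ j, 1 ≤ j → j < h → p j = p 1 := by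
    intro j j1 jh
    by_contra hne
    have hj1 : j ≠ 1 := by rintro rfl; exact hne rfl
    obtain ⟨k, k1, kh, hk1, hkj⟩ : ∃ k, 1 ≤ k ∧ k < h ∧ k ≠ 1 ∧ k ≠ j := by
      by_cases hj2 : j = 2
      · exact ⟨3, by omega, by omega, by omega, by omega⟩
      · exact ⟨2, by omega, by omega, by omega, by omega⟩
    obtain ⟨hpj, hqj, hpj0, hqj0, hpqj, hYpj, hYqj, hsj, hcj⟩ := hS1 j j1 jh
    obtain ⟨hpk, hqk, hpk0, hqk0, hpqk, hYpk, hYqk, hsk, hck⟩ := hS1 k k1 kh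
    have a1 : q j = q 1 ∧ s j = s 1 := by
      rcases step2 j 1 j1 jh le_rfl (by omega) hj1 with a | a
      · exact absurd a.1 hne
      · exact a.2
    have a2 : p k ≠ p 1 ∧ q k = q 1 ∧ s k = s 1 := by
      rcases step2 k 1 k1 kh le_rfl (by omega) hk1 with a | a
      · exfalso
        rcases step2 k j k1 kh j1 jh hkj with b | b
        · exact hne (b.1.symm.trans a.1)
        · exact a.2 (b.2.1.trans a1.1)
      · exact a
    have a3 : p k ≠ p j := by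
      rcases step2 k j k1 kh j1 jh hkj with b | b
      · exact absurd (a2.2.1.trans a1.1.symm) b.2
      · exact b.1
    -- support of Y
    set T : Finset ι := {i0, p 1, p j, p k} with hT
    have hTB : T ⊆ B := by
      intro i hi
      simp only [hT, Finset.mem_insert, Finset.mem_singleton] at hi
      rcases hi with rfl | rfl | rfl | rfl <;> assumption
    have sumT : ∀ g : ι → ℤ, ∑ i ∈ T, g i = g i0 + g (p 1) + g (p j) + g (p k) := by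
      intro g
      rw [hT, Finset.sum_insert (by simp [hp10.symm, hpj0.symm, hpk0.symm]),
        Finset.sum_insert (by simp [Ne.symm hne, a2.1.symm]),
        Finset.sum_insert (by simp [a3.symm]), Finset.sum_singleton]
      ring
    have sq1 : ∀ {x : ℤ}, (x = 1 ∨ x = -1) → x ^ 2 = 1 := by
      intro x hx
      rcases hx with a | a <;> rw [a] <;> norm_num
    have hz : ∑ i ∈ B \ T, Y i ^ 2 = 0 := by
      have := Finset.sum_sdiff (f := fun i => Y i ^ 2) hTB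
      rw [H2', sumT, hY1, sq1 hYp1, sq1 hYpj, sq1 hYpk] at this
      linarith
    have hz' := zero_of_sum _ Y hz
    have hYf : ∑ i ∈ B, Y i * f i = f i0 + Y (p 1) * f (p 1) + Y (p j) * f (p j) +
        Y (p k) * f (p k) := by
      rw [← Finset.sum_sdiff hTB, sumT, hY1, one_mul,
        Finset.sum_eq_zero (fun i hi => by rw [hz' i hi, zero_mul]), zero_add]
    rw [H4 h (by omega) le_rfl] at hYf
    have d1 := sum3 B (c 1) hi0 hp1 hq1 _ _ hc1 f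
    have dj := sum3 B (c j) hi0 hpj hqj _ _ hcj f
    have dk := sum3 B (c k) hi0 hpk hqk _ _ hck f
    rw [H4 1 le_rfl (by omega)] at d1
    rw [H4 j j1 jh.le, a1.1, a1.2] at dj
    rw [H4 k k1 kh.le, a2.2.1, a2.2.2] at dk
    rw [hf0] at hYf d1 dj dk
    set t := s 1 * f (q 1)
    omega
  have sq1 : ∀ {x : ℤ}, (x = 1 ∨ x = -1) → x ^ 2 = 1 := by
    intro x hx
    rcases hx with a | a <;> rw [a] <;> norm_num
  have e0 := Finset.add_sum_erase B (fun i => Y i ^ 2) hi0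
  rw [H2', hY1] at e0
  have hp1' : p 1 ∈ B.erase i0 := Finset.mem_erase.mpr ⟨hp10, hp1⟩
  have e1 := Finset.add_sum_erase (B.erase i0) (fun i => Y i ^ 2) hp1'
  simp only [sq1 hYp1] at e1
  obtain ⟨χ₂, hχ₂, hY2, e2⟩ := peel ((B.erase i0).erase (p 1)) Y 1 (by norm_num)
    (by push_cast; linarith)
  obtain ⟨χ₃, hχ₃, hY3, e3⟩ := peel (((B.erase i0).erase (p 1)).erase χ₂) Y 0 (by norm_num)
    (by rw [e2]; norm_num)
  have hz := zero_of_sum _ Y (by exact_mod_cast e3)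
  have m2 := Finset.mem_erase.mp hχ₂
  have m2' := Finset.mem_erase.mp m2.2
  have m3 := Finset.mem_erase.mp hχ₃
  have m3' := Finset.mem_erase.mp m3.2
  have m3'' := Finset.mem_erase.mp m3'.2
  have hs : ∀ j, 1 ≤ j → j < h → s j = - Y (p 1) := by
    intro j j1 jh
    obtain ⟨hpj, hqj, hpj0, hqj0, hpqj, hYpj, hYqj, hsj, hcj⟩ := hS1 j j1 jh
    have dj := sum3 B (c j) hi0 hpj hqj _ _ hcj f
    rw [H4 j j1 jh.le, hf0, step3 j j1 jh] at dj
    have f1 := hf _ hp1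
    have f2 := hf _ hqj
    rcases hYp1 with a | a <;> rcases hsj with b | b <;> rw [a, b] at dj ⊢ <;> first
      | rfl
      | (exfalso; linarith)
      | norm_num
  refine ⟨p 1, χ₂, χ₃, q, Y (p 1), Y χ₂, Y χ₃, hp1, m2'.2, m3''.2, hp10, m2'.1, m3''.1, m2.1.symm,
    m3'.1.symm, m3.1.symm, hYp1, hY2, hY3, ?_, ?_, ?_, ?_⟩
  · intro j j1 jh
    obtain ⟨hpj, hqj, hpj0, hqj0, hpqj, hYpj, hYqj, hsj, hcj⟩ := hS1 j j1 jh
    refine ⟨hqj, hqj0, ?_, ?_, ?_⟩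
    · rw [← step3 j j1 jh]; exact hpqj.symm
    · intro hh
      rw [← hh, hYqj] at hY2
      rcases hY2 with a | a <;> norm_num at a
    · intro hh
      rw [← hh, hYqj] at hY3
      rcases hY3 with a | a <;> norm_num at a
  · intro j k j1 jh k1 kh hqq
    by_contra hjk
    rcases step2 j k j1 jh k1 kh hjk with a | a
    · exact a.2 hqq
    · exact a.1 ((step3 j j1 jh).trans (step3 k k1 kh).symm)
  · intro i hi
    by_cases a0 : i = i0
    · subst a0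
      rw [if_pos rfl, if_neg hp10.symm, if_neg m2'.1.symm, if_neg m3''.1.symm, hY1]; ring
    · by_cases a1 : i = p 1
      · rw [if_neg a0, if_pos a1, a1, if_neg m2.1.symm, if_neg m3'.1.symm]; ring
      · by_cases a2 : i = χ₂
        · subst a2
          rw [if_neg a0, if_neg a1, if_pos rfl, if_neg m3.1.symm]; ring
        · by_cases a3 : i = χ₃
          · subst a3
            rw [if_neg a0, if_neg a1, if_neg a2, if_pos rfl]; ring
          · rw [if_neg a0, if_neg a1, if_neg a2, if_neg a3]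
            rw [hz i (Finset.mem_erase.mpr ⟨a3, Finset.mem_erase.mpr ⟨a2, Finset.mem_erase.mpr
              ⟨a1, Finset.mem_erase.mpr ⟨a0, hi⟩⟩⟩⟩)]
            ring
  · intro j j1 jh i hi
    obtain ⟨hpj, hqj, hpj0, hqj0, hpqj, hYpj, hYqj, hsj, hcj⟩ := hS1 j j1 jh
    rw [hcj i hi, step3 j j1 jh, hs j j1 jh]

end Cfsg.Agent.Lib.helper8_Dih4
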