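import Mathlib
import Cfsg.Agent.Lib.helper8_Dih3
import Cfsg.Agent.Lib.helper8_Dih4

set_option autoImplicit false

namespace Cfsg.Agent.Lib.helper8_Dih5

open Cfsg Cfsg.Agent.Lib.Helper2_BlockLocal Cfsg.Agent.Lib.helper8_BlockSum
  Cfsg.Agent.Lib.Helper2_BlockOm Cfsg.Agent.Lib.Helper2_BlockThird Cfsg.Agent.Lib.CharBasic
  Cfsg.Agent.Lib.Helper2_PrincipalSection Cfsg.Agent.Lib.Helper2_BlockOrtho2 Cfsg.Agent.Lib.helper8_Defect
  Cfsg.Agent.Lib.Helper7_ZS1 Cfsg.Agent.Lib.Helper7_ZS13 Cfsg.Agent.Lib.Helper7_ZS14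
  Cfsg.Agent.Lib.Helper7_ZS15 Cfsg.Agent.Lib.helper8_Klein Cfsg.Agent.Lib.helper8_Klein2
  Cfsg.Agent.Lib.helper8_Klein3 Cfsg.Agent.Lib.helper8_Dih1 Cfsg.Agent.Lib.helper8_Dih2
  Cfsg.Agent.Lib.helper8_Dih3 Cfsg.Agent.Lib.helper8_Dih4
open scoped ComplexConjugate Classical

universe u

variable {M : Ideal AlgInt} {G : Type u} [Group G]

theorem sylow_le_centralizer [Finite G] (S : Sylow 2 G) {σ : G} (hσ : σ ∈ (S : Subgroup G))
    (hq : QLike (⟨σ, hσ⟩ : (S : Subgroup G))) {h : ℕ} (hσo : orderOf σ = 2 * h) :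
    (S : Subgroup G) ≤ Subgroup.centralizer ({σ ^ h} : Set G) := by
  have hzz : σ ^ h * σ ^ h = 1 := by
    rw [← pow_add, ← two_mul, ← hσo, pow_orderOf_eq_one]
  intro s hs
  rw [Subgroup.mem_centralizer_singleton_iff]
  rcases act_cases hσ hq hs with h1 | h1
  · obtain ⟨j, rfl⟩ := Subgroup.mem_zpowers_iff.mp h1
    exact (((Commute.refl σ).zpow_left j).pow_right h).eq
  · have h2 := conj_pow_inv h1 h
    have h3 : (σ ^ h)⁻¹ = σ ^ h := inv_eq_of_mul_eq_one_left hzz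
    rw [h3] at h2
    calc s * σ ^ h = s * σ ^ h * s⁻¹ * s := by group
      _ = σ ^ h * s := by rw [h2]

/-- characters of the principal block do not vanish at elements centralized by a Sylow subgroup. -/
theorem ne_zero_of_central [Finite G] (hM : IsPModular 2 M) (S : Sylow 2 G) {z : G}
    (hz : (S : Subgroup G) ≤ Subgroup.centralizer ({z} : Set G)) {χ : IrrCharacter G}
    (hχ : χ ∈ principalBlock M G) : (χ : G → ℂ) z ≠ 0 := by
  have : Fact (Nat.Prime 2) := ⟨Nat.prime_two⟩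
  have hPr := isPrime_of_modular hM
  intro h0
  have h1 := hχ z
  unfold centralChar at h1
  rw [h0, mul_zero, zero_div, sub_zero, mul_one, div_one, ideal_natCast_iff hM] at h1
  exact S.not_dvd_index (h1.trans (Subgroup.index_dvd_of_le hz))

theorem sum_deltaC {ι : Type*} [DecidableEq ι] (B : Finset ι) {a : ι} (ha : a ∈ B) (x : ℤ) (g : ι → ℂ) :
    ∑ i ∈ B, (((if i = a then x else 0 : ℤ)) : ℂ) * g i = x * g a := by
  have : ∀ i ∈ B, (((if i = a then x else 0 : ℤ)) : ℂ) * g i = if i = a then (x : ℂ) * g i else 0 := by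
    intro i _
    split_ifs <;> simp
  rw [Finset.sum_congr rfl this, Finset.sum_ite_eq' B a, if_pos ha]

theorem zeta_half {ζ : ℂ} {h : ℕ} (hh : 0 < h) (hζ : IsPrimitiveRoot ζ (2 * h)) : ζ ^ h = -1 := by
  have h1 : (ζ ^ h) ^ 2 = 1 := by rw [← pow_mul, mul_comm, hζ.pow_eq_one]
  have h2 : ζ ^ h ≠ 1 := by
    intro h3
    have := (hζ.pow_eq_one_iff_dvd h).mp h3
    exact absurd (Nat.le_of_dvd hh this) (by omega)
  rcases sq_eq_one_iff.mp h1 with h3 | h3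
  · exact absurd h3 h2
  · exact h3

/-- the trivial character. -/
noncomputable def triv (G : Type u) [Group G] [Finite G] : IrrCharacter G :=
  ⟨1, by
    have := Fintype.ofFinite G
    exact Cfsg.Agent.Lib.CharMore.isIrr_one⟩

theorem triv_apply [Finite G] (g : G) : (triv G : G → ℂ) g = 1 := rfl

theorem triv_mem [Finite G] (hM : IsPModular 2 M) : triv G ∈ principalBlock M G := by
  have hPr := isPrime_of_modular hM
  intro g
  have : centralChar (fun _ : G => (1 : ℂ)) g - centralChar (triv G : G → ℂ) g = 0 := sub_self _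
  rw [this]
  exact ideal_zero hPr

theorem two_pow_ne_three (k : ℕ) : 2 ^ k ≠ 3 := by
  intro h
  rcases k with _ | k
  · norm_num at h
  · rw [pow_succ] at h; omega

theorem sum4C {ι : Type*} [DecidableEq ι] (B : Finset ι) {a b c d : ι} (ha : a ∈ B) (hb : b ∈ B) (hc : c ∈ B)
    (hd : d ∈ B) (x y z w : ℤ) (g : ι → ℂ) :
    ∑ i ∈ B, (((if i = a then x else 0) + (if i = b then y else 0) + (if i = c then z else 0) +
      (if i = d then w else 0) : ℤ) : ℂ) * g i = x * g a + y * g b + z * g c + w * g d := by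
  simp only [Int.cast_add, add_mul, Finset.sum_add_distrib, sum_deltaC B ha, sum_deltaC B hb,
    sum_deltaC B hc, sum_deltaC B hd]

theorem sum3C {ι : Type*} [DecidableEq ι] (B : Finset ι) {a b c : ι} (ha : a ∈ B) (hb : b ∈ B) (hc : c ∈ B)
    (x y z : ℤ) (g : ι → ℂ) :
    ∑ i ∈ B, (((if i = a then x else 0) + (if i = b then y else 0) + (if i = c then z else 0)
      : ℤ) : ℂ) * g i = x * g a + y * g b + z * g c := by
  simp only [Int.cast_add, add_mul, Finset.sum_add_distrib, sum_deltaC B ha, sum_deltaC B hb,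
    sum_deltaC B hc]

theorem split_sum (F : ℕ → ℂ) {h : ℕ} (hh : 1 ≤ h) :
    ∑ j ∈ Finset.range (h + h), F j = F 0 + F h + ∑ j ∈ Finset.Ico 1 h, (F j + F (h + h - j)) := by
  rw [Finset.sum_add_distrib, Finset.sum_Ico_reflect F 1 (show h ≤ h + h + 1 by omega),
    Finset.range_eq_Ico, ← Finset.sum_Ico_consecutive F (show 0 ≤ 1 by omega)
      (show 1 ≤ h + h by omega), ← Finset.sum_Ico_consecutive F hh (show h ≤ h + h by omega),
    Finset.sum_eq_sum_Ico_succ_bot (show h < h + h by omega) F]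
  have e1 : h + h + 1 - h = h + 1 := by omega
  have e2 : h + h + 1 - 1 = h + h := by omega
  rw [e1, e2]
  simp
  ring

section setup

variable [Fintype G] (hM : IsPModular 2 M) (S : Sylow 2 G) {σ : G} {k : ℕ}
  (hσS : σ ∈ (S : Subgroup G)) (hσo : orderOf σ = 2 ^ (k + 1))
  (hS : Nat.card (S : Subgroup G) = 2 ^ (k + 2))
  (hall : ∀ (S' : Sylow 2 G) (h : σ ∈ (S' : Subgroup G)), DLike (⟨σ, h⟩ : (S' : Subgroup G)))
  {ζ : ℂ} (hζ : IsPrimitiveRoot ζ (2 ^ (k + 1)))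

include hM S hσS hσo hS hall hζ in
theorem structure_thm (hk : 1 ≤ k) :
    ∃ (χ₁ χ₂ χ₃ : IrrCharacter G) (q : ℕ → IrrCharacter G) (δ₁ δ₂ δ₃ : ℤ),
      χ₁ ∈ principalBlock M G ∧ χ₂ ∈ principalBlock M G ∧ χ₃ ∈ principalBlock M G ∧
      χ₁ ≠ triv G ∧ χ₂ ≠ triv G ∧ χ₃ ≠ triv G ∧ χ₁ ≠ χ₂ ∧ χ₁ ≠ χ₃ ∧ χ₂ ≠ χ₃ ∧
      (δ₁ = 1 ∨ δ₁ = -1) ∧ (δ₂ = 1 ∨ δ₂ = -1) ∧ (δ₃ = 1 ∨ δ₃ = -1) ∧
      (∀ j, 1 ≤ j → j < 2 ^ k → q j ∈ principalBlock M G ∧ q j ≠ triv G ∧ q j ≠ χ₁ ∧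
        q j ≠ χ₂ ∧ q j ≠ χ₃) ∧
      (∀ j k', 1 ≤ j → j < 2 ^ k → 1 ≤ k' → k' < 2 ^ k → q j = q k' → j = k') ∧
      (∀ χ ∈ principalBlock M G, cc ζ σ (2 ^ (k + 1)) (χ : G → ℂ) (2 ^ k) =
        (((if χ = triv G then 1 else 0) + (if χ = χ₁ then δ₁ else 0) +
        (if χ = χ₂ then δ₂ else 0) + (if χ = χ₃ then δ₃ else 0) : ℤ) : ℂ)) ∧
      (∀ j, 1 ≤ j → j < 2 ^ k → ∀ χ ∈ principalBlock M G, cc ζ σ (2 ^ (k + 1)) (χ : G → ℂ) j =
        (((if χ = triv G then 1 else 0) +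
        (if χ = χ₁ then δ₁ else 0) + (if χ = q j then -δ₁ else 0) : ℤ) : ℂ)) := by
  have hcc : ∀ (χ : IrrCharacter G) (j : ℕ), ∃ c : ℤ, cc ζ σ (2 ^ (k + 1)) (χ : G → ℂ) j = c :=
    fun χ j => cc_int hζ hσo (isCharacter_of_isIrr χ.2) j
  choose cI hcI using hcc
  set B : Finset (IrrCharacter G) := Finset.univ.filter (fun χ => χ ∈ principalBlock M G) with hB
  have hmem : ∀ χ, χ ∈ B ↔ χ ∈ principalBlock M G := by
    intro χ; simp [hB]
  have hh2 : 2 ≤ 2 ^ k := by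
    calc 2 = 2 ^ 1 := by norm_num
      _ ≤ 2 ^ k := Nat.pow_le_pow_right (by norm_num) hk
  have hNh : 2 ^ (k + 1) = 2 ^ k + 2 ^ k := by rw [pow_succ]; ring
  have conv : ∀ i j, ∑ χ : IrrCharacter G,
      (if χ ∈ principalBlock M G then cc ζ σ (2 ^ (k + 1)) (χ : G → ℂ) i else 0) *
        conj (cc ζ σ (2 ^ (k + 1)) (χ : G → ℂ) j) = ((∑ χ ∈ B, cI χ i * cI χ j : ℤ) : ℂ) := by
    intro i j
    rw [hB, Finset.sum_filter]
    push_cast
    refine Finset.sum_congr rfl fun χ _ => ?_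
    split_ifs
    · rw [hcI, hcI]
      congr 1
      exact map_intCast _ _
    · simp
  have conv2 : ∀ j, ∑ χ : IrrCharacter G,
      (if χ ∈ principalBlock M G then cc ζ σ (2 ^ (k + 1)) (χ : G → ℂ) j else 0) *
        conj ((χ : G → ℂ) 1) = ((∑ χ ∈ B, cI χ j * (charDegree (χ : G → ℂ) : ℤ) : ℤ) : ℂ) := by
    intro j
    rw [hB, Finset.sum_filter]
    push_cast
    refine Finset.sum_congr rfl fun χ _ => ?_
    split_ifs
    · rw [hcI, (irr_charDegree χ.2).2.1]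
      congr 1
      exact Complex.conj_natCast _
    · simp
  obtain ⟨χ₁, χ₂, χ₃, q, δ₁, δ₂, δ₃, a1, a2, a3, a4, a5, a6, a7, a8, a9, a10, a11, a12, a13, a14,
    a15, a16⟩ := lattice B ((hmem _).mpr (triv_mem hM)) (2 ^ k) hh2 (two_pow_ne_three k)
      (fun j χ => cI χ j) (fun χ => (charDegree (χ : G → ℂ) : ℤ))
      (fun χ _ => by exact_mod_cast (irr_charDegree χ.2).1)
      (by
        have : charDegree (triv G : G → ℂ) = 1 := charDegree_of_eq (by simp [triv_apply])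
        simp [this])
      (by
        intro j j1 jh
        have h1 := hcI (triv G) j
        have h2 : cc ζ σ (2 ^ (k + 1)) (triv G : G → ℂ) j = 1 :=
          cc_one hζ (by omega) (by omega)
        rw [h2] at h1
        exact_mod_cast h1.symm)
      (by
        intro j j1 jh
        have h1 := IP hM S hσS hσo hS hall hζ (i := j) (j := j) (by omega) (by omega) (by omega)
          (by omega)
        rw [conv, if_pos rfl, if_neg (by omega)] at h1
        have h2 : ∑ χ ∈ B, cI χ j * cI χ j = 3 := by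
          have : ((∑ χ ∈ B, cI χ j * cI χ j : ℤ) : ℂ) = ((3 : ℤ) : ℂ) := by
            rw [h1]; norm_num
          exact_mod_cast this
        rw [← h2]
        exact Finset.sum_congr rfl fun χ _ => by ring)
      (by
        have h1 := IP hM S hσS hσo hS hall hζ (i := 2 ^ k) (j := 2 ^ k) (by omega) (by omega)
          (by omega) (by omega)
        rw [conv, if_pos rfl, if_pos hNh.symm] at h1
        have h2 : ∑ χ ∈ B, cI χ (2 ^ k) * cI χ (2 ^ k) = 4 := by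
          have : ((∑ χ ∈ B, cI χ (2 ^ k) * cI χ (2 ^ k) : ℤ) : ℂ) = ((4 : ℤ) : ℂ) := by
            rw [h1]; norm_num
          exact_mod_cast this
        rw [← h2]
        exact Finset.sum_congr rfl fun χ _ => by ring)
      (by
        intro i j i1 ih j1 jh hij
        have h1 := IP hM S hσS hσo hS hall hζ (i := i) (j := j) (by omega) (by omega) (by omega)
          (by omega)
        rw [conv, if_neg hij, if_neg (by omega)] at h1
        have : ((∑ χ ∈ B, cI χ i * cI χ j : ℤ) : ℂ) = ((2 : ℤ) : ℂ) := by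
          rw [h1]; norm_num
        exact_mod_cast this)
      (by
        intro j j1 jh
        have h1 := cc_deg (ζ := ζ) hM hσo (j := j) (ρ := (1 : G)) (by simp)
        rw [conv2] at h1
        exact_mod_cast h1)
  refine ⟨χ₁, χ₂, χ₃, q, δ₁, δ₂, δ₃, (hmem _).mp a1, (hmem _).mp a2, (hmem _).mp a3, a4, a5, a6,
    a7, a8, a9, a10, a11, a12, ?_, a14, ?_, ?_⟩
  · intro j j1 jh
    obtain ⟨b1, b2⟩ := a13 j j1 jh
    exact ⟨(hmem _).mp b1, b2⟩
  · intro χ hχ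
    rw [hcI, a15 χ ((hmem _).mpr hχ)]
  · intro j j1 jh χ hχ
    rw [hcI, a16 j j1 jh χ ((hmem _).mpr hχ)]

include S hσS hσo hall hζ in
theorem inversion2 (χ : IrrCharacter G) {l : ℕ} (hl0 : 0 < l) (hl : l < 2 ^ (k + 1)) :
    (χ : G → ℂ) (σ ^ l) = - (cc ζ σ (2 ^ (k + 1)) (χ : G → ℂ) (2 ^ k) * (-1) ^ l +
      ∑ j ∈ Finset.Ico 1 (2 ^ k), cc ζ σ (2 ^ (k + 1)) (χ : G → ℂ) j *
        (ζ ^ (j * l) + (ζ ^ (j * l))⁻¹)) := by
  have hNh : 2 ^ (k + 1) = 2 ^ k + 2 ^ k := by rw [pow_succ]; ring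
  have hh1 : 1 ≤ 2 ^ k := Nat.one_le_two_pow
  have hz : ζ ^ (2 ^ k) = -1 := zeta_half (by omega) (by rw [← two_mul] at hNh; rw [← hNh]; exact hζ)
  rw [cc_inversion S hσS hσo hall hζ χ hl0 hl]
  congr 1
  have hsp := split_sum (fun j => cc ζ σ (2 ^ (k + 1)) (χ : G → ℂ) j * ζ ^ (j * l)) hh1
  rw [← hNh] at hsp
  rw [hsp]
  have e0 : cc ζ σ (2 ^ (k + 1)) (χ : G → ℂ) 0 = 0 := by
    unfold cc; simp
  rw [e0, zero_mul, zero_add, pow_mul, hz]
  congr 1
  refine Finset.sum_congr rfl fun j hj => ?_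
  have hj' := Finset.mem_Ico.mp hj
  rw [cc_symm S hσS hσo hall hζ χ (by omega), mul_add]
  congr 2
  have h1 : ζ ^ (j * l) * ζ ^ ((2 ^ (k + 1) - j) * l) = 1 := by
    rw [← pow_add, ← add_mul, Nat.add_sub_cancel' (by omega), pow_mul, hζ.pow_eq_one, one_pow]
  exact eq_inv_of_mul_eq_one_right h1

include hζ in
theorem zeta_sum {l : ℕ} (hl0 : 0 < l) (hl : l < 2 ^ (k + 1)) :
    (1 : ℂ) + (-1) ^ l + ∑ j ∈ Finset.Ico 1 (2 ^ k), (ζ ^ (j * l) + (ζ ^ (j * l))⁻¹) = 0 := by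
  have hNh : 2 ^ (k + 1) = 2 ^ k + 2 ^ k := by rw [pow_succ]; ring
  have hh1 : 1 ≤ 2 ^ k := Nat.one_le_two_pow
  have hz : ζ ^ (2 ^ k) = -1 := zeta_half (by omega) (by rw [← two_mul] at hNh; rw [← hNh]; exact hζ)
  have h0 := geom hζ l
  rw [if_neg (fun h => absurd (Nat.le_of_dvd hl0 h) (by omega))] at h0
  rw [← h0]
  conv_rhs => rw [hNh]
  rw [split_sum _ hh1, mul_zero, pow_zero, mul_comm l (2 ^ k), pow_mul, hz]
  congr 1
  refine Finset.sum_congr rfl fun j hj => ?_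
  have hj' := Finset.mem_Ico.mp hj
  rw [mul_comm l j]
  congr 1
  have h1 : ζ ^ (j * l) * ζ ^ (l * (2 ^ k + 2 ^ k - j)) = 1 := by
    rw [← pow_add, mul_comm l, ← add_mul, Nat.add_sub_cancel' (by omega), ← hNh, pow_mul,
      hζ.pow_eq_one, one_pow]
  exact (eq_inv_of_mul_eq_one_right h1).symm

include hM S hσS hσo hS hall hζ in
theorem dih_main (hk : 1 ≤ k) :
    Nat.card (principalBlock M G) = 3 + 2 ^ k ∧
    ∃ (χ₁ χ₂ χ₃ : IrrCharacter G) (χ' : Fin (2 ^ k - 1) → IrrCharacter G) (δ₁ δ₂ δ₃ : ℤ),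
      (δ₁ = 1 ∨ δ₁ = -1) ∧ (δ₂ = 1 ∨ δ₂ = -1) ∧ (δ₃ = 1 ∨ δ₃ = -1) ∧ Function.Injective χ' ∧
      (χ₁ : G → ℂ) ≠ (fun _ => 1) ∧ (χ₂ : G → ℂ) ≠ (fun _ => 1) ∧ (χ₃ : G → ℂ) ≠ (fun _ => 1) ∧
      χ₁ ≠ χ₂ ∧ χ₁ ≠ χ₃ ∧ χ₂ ≠ χ₃ ∧
      (∀ j, χ' j ≠ χ₁ ∧ χ' j ≠ χ₂ ∧ χ' j ≠ χ₃ ∧ (χ' j : G → ℂ) ≠ (fun _ => 1)) ∧
      principalBlock M G = {χ : IrrCharacter G | (χ : G → ℂ) = (fun _ => 1) ∨ χ = χ₁ ∨ χ = χ₂ ∨
        χ = χ₃ ∨ ∃ j, χ = χ' j} ∧
      (∀ l : ℕ, 0 < l → l < 2 ^ (k + 1) → (χ₁ : G → ℂ) (σ ^ l) = δ₁ ∧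
        (χ₂ : G → ℂ) (σ ^ l) = δ₂ * (-1) ^ (l + 1) ∧ (χ₃ : G → ℂ) (σ ^ l) = δ₃ * (-1) ^ (l + 1) ∧
        ∀ j : Fin (2 ^ k - 1), (χ' j : G → ℂ) (σ ^ l) =
          δ₁ * (ζ ^ (((j : ℕ) + 1) * l) + (ζ ^ (((j : ℕ) + 1) * l))⁻¹)) ∧
      ∀ ρ : G, Odd (orderOf ρ) → ∀ j : Fin (2 ^ k - 1),
        1 + δ₁ * (χ₁ : G → ℂ) ρ = -δ₂ * (χ₂ : G → ℂ) ρ - δ₃ * (χ₃ : G → ℂ) ρ ∧
        1 + δ₁ * (χ₁ : G → ℂ) ρ = δ₁ * (χ' j : G → ℂ) ρ := by
  obtain ⟨χ₁, χ₂, χ₃, q, δ₁, δ₂, δ₃, a1, a2, a3, a4, a5, a6, a7, a8, a9, a10, a11, a12, a13, a14,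
    a15, a16⟩ := structure_thm hM S hσS hσo hS hall hζ hk
  have hNh : 2 ^ (k + 1) = 2 ^ k + 2 ^ k := by rw [pow_succ]; ring
  have hh1 : 1 ≤ 2 ^ k := Nat.one_le_two_pow
  have htriv : ∀ χ : IrrCharacter G, (χ : G → ℂ) = (fun _ => 1) ↔ χ = triv G := by
    intro χ
    constructor
    · intro h; exact Subtype.ext h
    · rintro rfl; rfl
  set χ' : Fin (2 ^ k - 1) → IrrCharacter G := fun j => q ((j : ℕ) + 1) with hχ'
  have hjr : ∀ j : Fin (2 ^ k - 1), 1 ≤ (j : ℕ) + 1 ∧ (j : ℕ) + 1 < 2 ^ k := by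
    intro j
    have := j.2
    omega
  have hinj : Function.Injective χ' := by
    intro i j hij
    have := a14 _ _ (hjr i).1 (hjr i).2 (hjr j).1 (hjr j).2 hij
    exact Fin.ext (by omega)
  have hblock : principalBlock M G = {χ : IrrCharacter G | (χ : G → ℂ) = (fun _ => 1) ∨ χ = χ₁ ∨
      χ = χ₂ ∨ χ = χ₃ ∨ ∃ j, χ = χ' j} := by
    ext χ
    simp only [Set.mem_ofPred_eq, htriv]
    constructor
    · intro hχ
      by_contra hcon
      push Not at hcon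
      obtain ⟨n0, n1, n2, n3, n4⟩ := hcon
      have hne := ne_zero_of_central hM S (sylow_le_centralizer S hσS (hall S hσS).q
        (h := 2 ^ k) (by rw [hσo, hNh]; ring)) hχ
      apply hne
      rw [inversion2 S hσS hσo hall hζ χ (by omega) (by omega), a15 χ hχ, if_neg n0, if_neg n1,
        if_neg n2, if_neg n3, Finset.sum_eq_zero]
      · simp
      · intro j hj
        have hj' := Finset.mem_Ico.mp hj
        have : χ ≠ q j := by
          have := n4 ⟨j - 1, by omega⟩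
          simp only [hχ'] at this
          rwa [Nat.sub_add_cancel hj'.1] at this
        rw [a16 j hj'.1 hj'.2 χ hχ, if_neg n0, if_neg n1, if_neg this]
        simp
    · rintro (h | h | h | h | ⟨j, h⟩)
      · rw [h]; exact triv_mem hM
      · rw [h]; exact a1
      · rw [h]; exact a2
      · rw [h]; exact a3
      · rw [h]; exact (a13 _ (hjr j).1 (hjr j).2).1
  refine ⟨?_, χ₁, χ₂, χ₃, χ', δ₁, δ₂, δ₃, a10, a11, a12, hinj, fun h => a4 ((htriv _).mp h),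
    fun h => a5 ((htriv _).mp h), fun h => a6 ((htriv _).mp h), a7, a8, a9, ?_, hblock, ?_, ?_⟩
  · set T : Finset (IrrCharacter G) :=
      insert (triv G) (insert χ₁ (insert χ₂ (insert χ₃ (Finset.univ.image χ')))) with hT
    have hcard : Nat.card (principalBlock M G) = T.card := by
      refine Nat.subtype_card T fun χ => ?_
      rw [hblock]
      simp only [hT, Finset.mem_insert, Finset.mem_image, Finset.mem_univ, true_and,
        Set.mem_ofPred_eq, htriv]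
      constructor
      · rintro (h | h | h | h | ⟨j, h⟩)
        · exact Or.inl h
        · exact Or.inr (Or.inl h)
        · exact Or.inr (Or.inr (Or.inl h))
        · exact Or.inr (Or.inr (Or.inr (Or.inl h)))
        · exact Or.inr (Or.inr (Or.inr (Or.inr ⟨j, h.symm⟩)))
      · rintro (h | h | h | h | ⟨j, h⟩)
        · exact Or.inl h
        · exact Or.inr (Or.inl h)
        · exact Or.inr (Or.inr (Or.inl h))
        · exact Or.inr (Or.inr (Or.inr (Or.inl h)))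
        · exact Or.inr (Or.inr (Or.inr (Or.inr ⟨j, h.symm⟩)))
    have hn : ∀ χ : IrrCharacter G, (∀ j, χ' j ≠ χ) → χ ∉ Finset.univ.image χ' := by
      intro χ h hm
      obtain ⟨j, -, hj⟩ := Finset.mem_image.mp hm
      exact h j hj
    rw [hcard, hT, Finset.card_insert_of_notMem, Finset.card_insert_of_notMem,
      Finset.card_insert_of_notMem, Finset.card_insert_of_notMem,
      Finset.card_image_of_injective _ hinj, Finset.card_univ, Fintype.card_fin]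
    · omega
    · exact hn _ fun j => (a13 _ (hjr j).1 (hjr j).2).2.2.2.2
    · simp only [Finset.mem_insert, not_or]
      exact ⟨a9, hn _ fun j => (a13 _ (hjr j).1 (hjr j).2).2.2.2.1⟩
    · simp only [Finset.mem_insert, not_or]
      exact ⟨a7, a8, hn _ fun j => (a13 _ (hjr j).1 (hjr j).2).2.2.1⟩
    · simp only [Finset.mem_insert, not_or]
      exact ⟨a4.symm, a5.symm, a6.symm, hn _ fun j => (a13 _ (hjr j).1 (hjr j).2).2.1⟩
  · intro j
    obtain ⟨-, b0, b1, b2, b3⟩ := a13 _ (hjr j).1 (hjr j).2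
    exact ⟨b1, b2, b3, fun h => b0 ((htriv _).mp h)⟩
  · intro l hl0 hl
    have hW := zeta_sum hζ hl0 hl
    refine ⟨?_, ?_, ?_, ?_⟩
    · rw [inversion2 S hσS hσo hall hζ χ₁ hl0 hl, a15 χ₁ a1, if_neg a4, if_pos rfl, if_neg a7,
        if_neg a8]
      have : ∀ j ∈ Finset.Ico 1 (2 ^ k), cc ζ σ (2 ^ (k + 1)) (χ₁ : G → ℂ) j *
          (ζ ^ (j * l) + (ζ ^ (j * l))⁻¹) = (δ₁ : ℂ) * (ζ ^ (j * l) + (ζ ^ (j * l))⁻¹) := by
        intro j hj
        have hj' := Finset.mem_Ico.mp hj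
        rw [a16 j hj'.1 hj'.2 χ₁ a1, if_neg a4, if_pos rfl,
          if_neg (a13 j hj'.1 hj'.2).2.2.1.symm]
        simp
      rw [Finset.sum_congr rfl this, ← Finset.mul_sum]
      push_cast
      linear_combination (-(δ₁ : ℂ)) * hW
    · rw [inversion2 S hσS hσo hall hζ χ₂ hl0 hl, a15 χ₂ a2, if_neg a5, if_neg a7.symm, if_pos rfl,
        if_neg a9, Finset.sum_eq_zero]
      · push_cast; ring
      · intro j hj
        have hj' := Finset.mem_Ico.mp hj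
        rw [a16 j hj'.1 hj'.2 χ₂ a2, if_neg a5, if_neg a7.symm,
          if_neg (a13 j hj'.1 hj'.2).2.2.2.1.symm]
        simp
    · rw [inversion2 S hσS hσo hall hζ χ₃ hl0 hl, a15 χ₃ a3, if_neg a6, if_neg a8.symm,
        if_neg a9.symm, if_pos rfl, Finset.sum_eq_zero]
      · push_cast; ring
      · intro j hj
        have hj' := Finset.mem_Ico.mp hj
        rw [a16 j hj'.1 hj'.2 χ₃ a3, if_neg a6, if_neg a8.symm,
          if_neg (a13 j hj'.1 hj'.2).2.2.2.2.symm]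
        simp
    · intro j₀
      obtain ⟨b, b0, b1, b2, b3⟩ := a13 _ (hjr j₀).1 (hjr j₀).2
      rw [inversion2 S hσS hσo hall hζ (χ' j₀) hl0 hl, a15 (χ' j₀) b, if_neg b0, if_neg b1,
        if_neg b2, if_neg b3]
      have : ∀ j ∈ Finset.Ico 1 (2 ^ k), cc ζ σ (2 ^ (k + 1)) (χ' j₀ : G → ℂ) j *
          (ζ ^ (j * l) + (ζ ^ (j * l))⁻¹) =
          if j = (j₀ : ℕ) + 1 then - (δ₁ : ℂ) * (ζ ^ (j * l) + (ζ ^ (j * l))⁻¹) else 0 := by
        intro j hj
        have hj' := Finset.mem_Ico.mp hj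
        rw [a16 j hj'.1 hj'.2 (χ' j₀) b, if_neg b0, if_neg b1]
        by_cases hjj : j = (j₀ : ℕ) + 1
        · rw [if_pos hjj, if_pos (by rw [hjj])]
          simp
        · rw [if_neg hjj, if_neg (fun h => hjj (a14 _ _ (hjr j₀).1 (hjr j₀).2 hj'.1 hj'.2 h).symm)]
          simp
      rw [Finset.sum_congr rfl this, Finset.sum_ite_eq' (Finset.Ico 1 (2 ^ k)) ((j₀ : ℕ) + 1),
        if_pos (Finset.mem_Ico.mpr (hjr j₀))]
      push_cast
      ring
  · intro ρ hρ j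
    have hρ' : ¬ 2 ∣ orderOf ρ⁻¹ := by
      rw [orderOf_inv]
      exact hρ.not_two_dvd_nat
    set B : Finset (IrrCharacter G) := Finset.univ.filter (fun χ => χ ∈ principalBlock M G) with hB
    have hmem : ∀ χ, χ ∈ B ↔ χ ∈ principalBlock M G := by
      intro χ; simp [hB]
    have conv : ∀ i, ∑ χ : IrrCharacter G,
        (if χ ∈ principalBlock M G then cc ζ σ (2 ^ (k + 1)) (χ : G → ℂ) i else 0) *
          conj ((χ : G → ℂ) ρ⁻¹) = ∑ χ ∈ B, cc ζ σ (2 ^ (k + 1)) (χ : G → ℂ) i * (χ : G → ℂ) ρ := by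
      intro i
      rw [hB, Finset.sum_filter]
      refine Finset.sum_congr rfl fun χ _ => ?_
      rw [inv_of_isCharacter (isCharacter_of_isIrr χ.2), Complex.conj_conj]
      split_ifs <;> simp
    obtain ⟨b, b0, b1, b2, b3⟩ := a13 _ (hjr j).1 (hjr j).2
    have r1 := cc_deg (ζ := ζ) hM hσo (j := 2 ^ k) hρ'
    rw [conv, Finset.sum_congr rfl (fun χ hχ => by rw [a15 χ ((hmem χ).mp hχ)]),
      sum4C B ((hmem _).mpr (triv_mem hM)) ((hmem _).mpr a1) ((hmem _).mpr a2) ((hmem _).mpr a3)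
        1 δ₁ δ₂ δ₃ (fun χ : IrrCharacter G => (χ : G → ℂ) ρ), triv_apply] at r1
    have r2 := cc_deg (ζ := ζ) hM hσo (j := (j : ℕ) + 1) hρ'
    rw [conv, Finset.sum_congr rfl (fun χ hχ => by
        rw [a16 _ (hjr j).1 (hjr j).2 χ ((hmem χ).mp hχ)]),
      sum3C B ((hmem _).mpr (triv_mem hM)) ((hmem _).mpr a1) ((hmem _).mpr b)
        1 δ₁ (-δ₁) (fun χ : IrrCharacter G => (χ : G → ℂ) ρ), triv_apply] at r2
    push_cast at r1 r2
    constructor
    · linear_combination r1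
    · linear_combination r2

end setup

end Cfsg.Agent.Lib.helper8_Dih5
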