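import Mathlib
import Cfsg.Agent.Lib.helper8_Dih1

set_option autoImplicit false

namespace Cfsg.Agent.Lib.helper8_Dih6

open Cfsg Cfsg.Agent.Lib.helper8_Klein Cfsg.Agent.Lib.helper8_Dih1
open scoped Classical

theorem exists_exp {X : Type*} [Group X] [Finite X] (K : Subgroup X) (hK : Odd (Nat.card K)) {y : X}
    {a : ℕ} (hy : orderOf y = 2 ^ a) :
    ∃ m : ℕ, ∀ c ∈ K, Commute y c → (y * c) ^ m = y := by
  have co : (2 ^ a).Coprime (Nat.card K) :=
    Nat.Coprime.pow_left a (Nat.coprime_two_left.mpr hK)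
  obtain ⟨m, hm1, hm0⟩ := Nat.chineseRemainder co 1 0
  refine ⟨m, fun c hc hyc => ?_⟩
  rw [hyc.mul_pow]
  have h1 : y ^ m = y ^ 1 := by
    rw [pow_eq_pow_iff_modEq, hy]; exact hm1
  have h2 : c ^ m = 1 := by
    rw [← orderOf_dvd_iff_pow_eq_one]
    exact (Subgroup.orderOf_dvd_natCard K hc).trans ((Nat.modEq_zero_iff_dvd).mp hm0)
  rw [h1, h2, pow_one, mul_one]

theorem avg_lemma {X : Type*} [Group X] [Fintype X] (K : Subgroup X) (hK : Odd (Nat.card K))
    {y : X} {a : ℕ} (hy : orderOf y = 2 ^ a) (hyK : ∀ x ∈ K, y⁻¹ * x * y ∈ K) (ν : X → ℂ)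
    (hν : ∀ g w : X, ν (w * g * w⁻¹) = ν g) :
    ((Finset.univ.filter (fun c : X => c ∈ K ∧ Commute y c)).card : ℂ) *
        ∑ k ∈ Finset.univ.filter (fun k : X => k ∈ K), ν (y * k) =
      ((Finset.univ.filter (fun k : X => k ∈ K)).card : ℂ) *
        ∑ c ∈ Finset.univ.filter (fun c : X => c ∈ K ∧ Commute y c), ν (y * c) := by
  set Kf := Finset.univ.filter (fun k : X => k ∈ K) with hKf
  set Cf := Finset.univ.filter (fun c : X => c ∈ K ∧ Commute y c) with hCf
  have mK : ∀ x, x ∈ Kf ↔ x ∈ K := by intro x; simp [hKf]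
  have mC : ∀ x, x ∈ Cf ↔ x ∈ K ∧ Commute y x := by intro x; simp [hCf]
  obtain ⟨m, hm⟩ := exists_exp K hK hy
  set Φ : X × X → X := fun p => y⁻¹ * (p.1 * (y * p.2) * p.1⁻¹) with hΦ
  have hmaps : ∀ p ∈ Kf ×ˢ Cf, Φ p ∈ Kf := by
    intro p hp
    obtain ⟨h1, h2⟩ := Finset.mem_product.mp hp
    rw [mK] at h1 ⊢
    rw [mC] at h2
    have : Φ p = (y⁻¹ * p.1 * y) * p.2 * p.1⁻¹ := by simp only [hΦ]; group
    rw [this]
    exact K.mul_mem (K.mul_mem (hyK _ h1) h2.1) (K.inv_mem h1)
  have hconj : ∀ p ∈ Kf ×ˢ Cf, ∀ p' ∈ Kf ×ˢ Cf, Φ p = Φ p' → p.1 * y * p.1⁻¹ = p'.1 * y * p'.1⁻¹ := by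
    intro p hp p' hp' he
    have h2 := (mC _).mp (Finset.mem_product.mp hp).2
    have h2' := (mC _).mp (Finset.mem_product.mp hp').2
    have he' : p.1 * (y * p.2) * p.1⁻¹ = p'.1 * (y * p'.2) * p'.1⁻¹ := mul_left_cancel he
    have := congrArg (fun g => g ^ m) he'
    simp only [conj_pow, hm _ h2.1 h2.2, hm _ h2'.1 h2'.2] at this
    exact this
  have hbound : ∀ k ∈ Kf, ((Kf ×ˢ Cf).filter (fun p => Φ p = k)).card ≤ Cf.card := by
    intro k _
    by_cases hne : ((Kf ×ˢ Cf).filter (fun p => Φ p = k)).Nonempty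
    · obtain ⟨p₀, hp₀⟩ := hne
      obtain ⟨hp₀m, hp₀k⟩ := Finset.mem_filter.mp hp₀
      apply Finset.card_le_card_of_injOn (fun p => p₀.1⁻¹ * p.1)
      · intro p hp
        obtain ⟨hpm, hpk⟩ := Finset.mem_filter.mp hp
        have h1 := (mK _).mp (Finset.mem_product.mp hpm).1
        have h1' := (mK _).mp (Finset.mem_product.mp hp₀m).1
        have hc := hconj p hpm p₀ hp₀m (hpk.trans hp₀k.symm)
        simp only [Finset.mem_coe, mC]
        refine ⟨K.mul_mem (K.inv_mem h1') h1, ?_⟩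
        show y * (p₀.1⁻¹ * p.1) = p₀.1⁻¹ * p.1 * y
        calc y * (p₀.1⁻¹ * p.1) = p₀.1⁻¹ * (p₀.1 * y * p₀.1⁻¹) * p.1 := by group
          _ = p₀.1⁻¹ * (p.1 * y * p.1⁻¹) * p.1 := by rw [hc]
          _ = p₀.1⁻¹ * p.1 * y := by group
      · intro p hp p' hp' he
        obtain ⟨hpm, hpk⟩ := Finset.mem_filter.mp hp
        obtain ⟨hpm', hpk'⟩ := Finset.mem_filter.mp hp'
        have e1 : p.1 = p'.1 := mul_left_cancel he
        have e2 : Φ p = Φ p' := hpk.trans hpk'.symm
        simp only [hΦ, e1] at e2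
        have e3 : p.2 = p'.2 := by
          have := mul_left_cancel (mul_right_cancel (mul_left_cancel e2))
          exact mul_left_cancel this
        exact Prod.ext e1 e3
    · rw [Finset.not_nonempty_iff_eq_empty.mp hne]
      simp
  have htot : ∑ k ∈ Kf, ((Kf ×ˢ Cf).filter (fun p => Φ p = k)).card = ∑ _k ∈ Kf, Cf.card := by
    rw [← Finset.card_eq_sum_card_fiberwise hmaps, Finset.card_product, Finset.sum_const,
      smul_eq_mul]
  have heq := (Finset.sum_eq_sum_iff_of_le hbound).mp htot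
  have s1 : ∑ p ∈ Kf ×ˢ Cf, ν (y * Φ p) = (Kf.card : ℂ) * ∑ c ∈ Cf, ν (y * c) := by
    rw [Finset.sum_product]
    have : ∀ x ∈ Kf, ∑ c ∈ Cf, ν (y * Φ (x, c)) = ∑ c ∈ Cf, ν (y * c) := by
      intro x _
      refine Finset.sum_congr rfl fun c _ => ?_
      simp only [hΦ, mul_inv_cancel_left]
      exact hν _ _
    rw [Finset.sum_congr rfl this, Finset.sum_const, nsmul_eq_mul]
  have s2 : ∑ p ∈ Kf ×ˢ Cf, ν (y * Φ p) = (Cf.card : ℂ) * ∑ k ∈ Kf, ν (y * k) := by
    rw [← Finset.sum_fiberwise_of_maps_to hmaps, Finset.mul_sum]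
    refine Finset.sum_congr rfl fun k hk => ?_
    have : ∀ p ∈ (Kf ×ˢ Cf).filter (fun p => Φ p = k), ν (y * Φ p) = ν (y * k) := by
      intro p hp
      rw [(Finset.mem_filter.mp hp).2]
    rw [Finset.sum_congr rfl this, Finset.sum_const, nsmul_eq_mul, heq k hk]
  rw [← s1, ← s2]

section rels

variable {Q : Type*} [Group Q] {S T : Q}

theorem rel1 (hTS : T * S * T⁻¹ = S⁻¹) (j : ℤ) : T * S ^ j = S ^ (-j) * T := by
  have h : T * S ^ j * T⁻¹ = (S ^ j)⁻¹ := by rw [← conj_zpow, hTS, inv_zpow]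
  calc T * S ^ j = (T * S ^ j * T⁻¹) * T := by group
    _ = S ^ (-j) * T := by rw [h, zpow_neg]

theorem rel2 (hTS : T * S * T⁻¹ = S⁻¹) (i j : ℤ) : S ^ i * T * S ^ j = S ^ (i - j) * T := by
  rw [mul_assoc, rel1 hTS, ← mul_assoc, ← zpow_add, sub_eq_add_neg]

theorem refl_sq (hTT : T * T = 1) (hTS : T * S * T⁻¹ = S⁻¹) (i : ℤ) :
    (S ^ i * T) * (S ^ i * T) = 1 := by
  rw [← mul_assoc, rel2 hTS, sub_self, zpow_zero, one_mul, hTT]

theorem refl_inv (hTT : T * T = 1) (hTS : T * S * T⁻¹ = S⁻¹) (i : ℤ) :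
    (S ^ i * T)⁻¹ = S ^ i * T := inv_eq_of_mul_eq_one_left (refl_sq hTT hTS i)

theorem conj_refl (hTT : T * T = 1) (hTS : T * S * T⁻¹ = S⁻¹) {g : Q}
    (hg : ∃ i : ℤ, g = S ^ i ∨ g = S ^ i * T) (j : ℤ) :
    ∃ i' : ℤ, g * (S ^ j * T) * g⁻¹ = S ^ (j + 2 * i') * T := by
  obtain ⟨i, rfl | rfl⟩ := hg
  · refine ⟨i, ?_⟩
    rw [← zpow_neg, ← mul_assoc, ← zpow_add, rel2 hTS]
    congr 2; ring
  · refine ⟨i - j, ?_⟩
    rw [refl_inv hTT hTS]
    calc S ^ i * T * (S ^ j * T) * (S ^ i * T) = (S ^ i * T * S ^ j) * (T * S ^ i) * T := by group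
      _ = S ^ (i - j) * T * (S ^ (-i) * T) * T := by rw [rel2 hTS, rel1 hTS]
      _ = (S ^ (i - j) * T * S ^ (-i)) * (T * T) := by group
      _ = S ^ (j + 2 * (i - j)) * T := by
        rw [rel2 hTS, hTT, mul_one]
        congr 2; ring

theorem per2 (f : ℤ → ℕ) (hf : ∀ j, f (j + 2) = f j) (j : ℤ) :
    f j = if Even j then f 0 else f 1 := by
  have key : ∀ (c m : ℤ), f (c + 2 * m) = f c := by
    intro c m
    induction m using Int.induction_on with
    | zero => simp
    | succ i ih =>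
      have : c + 2 * ((i : ℤ) + 1) = (c + 2 * i) + 2 := by ring
      rw [this, hf, ih]
    | pred i ih =>
      have : c + 2 * (-(i : ℤ)) = (c + 2 * (-(i : ℤ) - 1)) + 2 := by ring
      rw [← ih, this, hf]
  rcases Int.even_or_odd' j with ⟨m, rfl | rfl⟩
  · rw [if_pos (by simp)]
    have := key 0 m
    rwa [zero_add] at this
  · rw [if_neg (by simp)]
    have := key 1 m
    rwa [add_comm] at this

theorem sum_alt (α β h : ℕ) :
    ∑ i ∈ Finset.range (2 * h), (if Even i then α else β) = h * (α + β) := by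
  induction h with
  | zero => simp
  | succ h ih =>
    have : 2 * (h + 1) = 2 * h + 1 + 1 := by ring
    rw [this, Finset.sum_range_succ, Finset.sum_range_succ, ih, if_pos (by simp),
      if_neg (by simp)]
    ring

end rels

section pair

variable {X : Type*} [Group X] [Fintype X] {Q : Type*} [Group Q] (q : X →* Q)

/-- involutions. -/
def Invo (a : X) : Prop := a * a = 1 ∧ a ≠ 1

omit [Fintype X] in
theorem invo_conj {a : X} (ha : Invo a) (x : X) : Invo (x * a * x⁻¹) := by
  refine ⟨?_, fun h => ha.2 ?_⟩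
  · calc x * a * x⁻¹ * (x * a * x⁻¹) = x * (a * a) * x⁻¹ := by group
      _ = 1 := by rw [ha.1]; group
  · simpa using h

/-- number of involutions in a fibre. -/
noncomputable def nn (w : Q) : ℕ := (Finset.univ.filter (fun b : X => Invo b ∧ q b = w)).card

theorem nn_conj (x : X) (w : Q) : nn q (q x * w * (q x)⁻¹) = nn q w := by
  unfold nn
  symm
  apply Finset.card_bij (fun b _ => x * b * x⁻¹)
  · intro b hb
    simp only [Finset.mem_filter, Finset.mem_univ, true_and] at hb ⊢
    exact ⟨invo_conj hb.1 x, by simp [hb.2]⟩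
  · intro b _ b' _ h
    simpa using h
  · intro c hc
    simp only [Finset.mem_filter, Finset.mem_univ, true_and] at hc
    refine ⟨x⁻¹ * c * x, ?_, by group⟩
    simp only [Finset.mem_filter, Finset.mem_univ, true_and]
    refine ⟨?_, ?_⟩
    · have := invo_conj hc.1 x⁻¹
      rwa [inv_inv] at this
    · rw [map_mul, map_mul, hc.2, map_inv]; group

theorem nn_zero_of_sq {w : Q} (hw : w * w ≠ 1) : nn q w = 0 := by
  unfold nn
  rw [Finset.card_eq_zero, Finset.filter_eq_empty_iff]
  rintro b _ ⟨⟨h1, _⟩, h3⟩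
  apply hw
  rw [← h3, ← map_mul, h1, map_one]

theorem nn_one (hker : ∀ x, q x = 1 → Odd (orderOf x)) : nn q 1 = 0 := by
  unfold nn
  rw [Finset.card_eq_zero, Finset.filter_eq_empty_iff]
  rintro b _ ⟨⟨h1, h2⟩, h3⟩
  exact h2 (eq_one_of_odd h1 (hker b h3))

/-- number of pairs of involutions with product in a fibre. -/
noncomputable def cnt (w : Q) : ℕ :=
  ∑ a : X, ∑ b : X, if Invo a ∧ Invo b ∧ q (a * b) = w then 1 else 0

theorem cnt_eq (w : Q) : cnt q w = ∑ a : X, if Invo a then nn q ((q a)⁻¹ * w) else 0 := by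
  unfold cnt nn
  refine Finset.sum_congr rfl fun a _ => ?_
  split_ifs with ha
  · rw [Finset.card_filter]
    refine Finset.sum_congr rfl fun b _ => ?_
    have : (Invo a ∧ Invo b ∧ q (a * b) = w) ↔ (Invo b ∧ q b = (q a)⁻¹ * w) := by
      rw [map_mul, eq_inv_mul_iff_mul_eq]; tauto
    simp only [this]
  · simp [ha]

theorem pair_count [Finite Q] (hker : ∀ x, q x = 1 → Odd (orderOf x)) {s t : X} {h : ℕ}
    (hh : Even h) (hh0 : 0 < h) (hS : orderOf (q s) = 2 * h) (htt : t * t = 1) (ht1 : t ≠ 1)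
    (hst1 : s * t ≠ 1) (hts : t * s * t⁻¹ = s⁻¹)
    (hQ : ∀ x : X, ∃ i : ℤ, q x = q s ^ i ∨ q x = q s ^ i * q t) :
    h * (cnt q (q s ^ h) + cnt q (q s)) =
      ((Finset.univ.filter (IsConj t)).card + (Finset.univ.filter (IsConj (s * t))).card) ^ 2 := by
  set S := q s with hSdef
  set T := q t with hTdef
  have hTT : T * T = 1 := by rw [hTdef, ← map_mul, htt, map_one]
  have hTS : T * S * T⁻¹ = S⁻¹ := by
    rw [hTdef, hSdef, ← map_inv, ← map_mul, ← map_mul, hts, map_inv]
  have hh2 : 2 ≤ h := by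
    obtain ⟨r, hr⟩ := hh
    omega
  set f : ℤ → ℕ := fun j => nn q (S ^ j * T) with hf
  have hf2 : ∀ j, f (j + 2) = f j := by
    intro j
    have := nn_conj q s (S ^ j * T)
    have e : S * (S ^ j * T) * S⁻¹ = S ^ (j + 2) * T := by
      calc S * (S ^ j * T) * S⁻¹ = S ^ (j + 1) * T * S ^ (-1 : ℤ) := by group
        _ = S ^ (j + 1 - (-1)) * T := rel2 hTS _ _
        _ = S ^ (j + 2) * T := by congr 2; ring
    rw [← hSdef, e] at this
    exact this
  have hpar := per2 f hf2
  set α := f 0 with hα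
  set β := f 1 with hβ
  set Irefl := Finset.univ.filter (fun a : X => Invo a ∧ ∃ i : ℤ, q a = S ^ i * T) with hIrefl
  have hA : cnt q (S ^ h) + cnt q S = (α + β) * Irefl.card := by
    rw [cnt_eq, cnt_eq, ← Finset.sum_add_distrib, hIrefl, Finset.card_filter, Finset.mul_sum]
    refine Finset.sum_congr rfl fun a _ => ?_
    by_cases ha : Invo a
    · rw [if_pos ha, if_pos ha]
      by_cases hr : ∃ i : ℤ, q a = S ^ i * T
      · rw [if_pos ⟨ha, hr⟩, mul_one]
        obtain ⟨i, hi⟩ := hr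
        rw [hi, refl_inv hTT hTS]
        have e1 : S ^ i * T * S ^ h = S ^ (i - h) * T := by
          rw [← zpow_natCast, rel2 hTS]
        have e2 : S ^ i * T * S = S ^ (i - 1) * T := by
          have := rel2 hTS i 1
          rwa [zpow_one] at this
        rw [e1, e2]
        show f (i - h) + f (i - 1) = α + β
        rw [hpar (i - h), hpar (i - 1)]
        have hhe : Even (h : ℤ) := by exact_mod_cast hh
        by_cases hi2 : Even i
        · rw [if_pos (hi2.sub hhe), if_neg (by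
            rw [Int.not_even_iff_odd]; exact hi2.sub_odd odd_one)]
        · have hi3 : Odd i := Int.not_even_iff_odd.mp hi2
          rw [if_neg (by rw [Int.not_even_iff_odd]; exact hi3.sub_even hhe),
            if_pos (hi3.sub_odd odd_one)]
          ring
      · rw [if_neg (fun h => hr h.2), mul_zero]
        obtain ⟨i, hi | hi⟩ := hQ a
        · have hsq : q a * q a = 1 := by rw [← map_mul, ha.1, map_one]
          have hne : q a ≠ 1 := fun h1 => ha.2 (eq_one_of_odd ha.1 (hker a h1))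
          have hZ : q a = S ^ h := by
            rcases sq_one_cases hS (hi ▸ Subgroup.zpow_mem_zpowers S i) hsq with h1 | h1
            · exact absurd h1 hne
            · exact h1
          have hz : nn q ((S ^ h)⁻¹ * S) = 0 := by
            apply nn_zero_of_sq
            intro hcon
            have h1 : (S ^ h)⁻¹ * S * ((S ^ h)⁻¹ * S) = (S ^ (2 * h))⁻¹ * S ^ 2 := by
              have hc : Commute (S ^ h)⁻¹ S := ((Commute.refl S).pow_left h).inv_left
              rw [two_mul, pow_add, mul_inv_rev, pow_two]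
              calc (S ^ h)⁻¹ * S * ((S ^ h)⁻¹ * S) = (S ^ h)⁻¹ * (S * (S ^ h)⁻¹) * S := by group
                _ = (S ^ h)⁻¹ * ((S ^ h)⁻¹ * S) * S := by rw [hc.eq]
                _ = _ := by group
            rw [h1, ← hS, pow_orderOf_eq_one, inv_one, one_mul] at hcon
            have := orderOf_dvd_of_pow_eq_one hcon
            rw [hS] at this
            have := Nat.le_of_dvd (by norm_num) this
            omega
          rw [hZ, inv_mul_cancel, nn_one q hker, hz, add_zero]
        · exact absurd ⟨i, hi⟩ hr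
    · rw [if_neg ha, if_neg ha, if_neg (fun h => ha h.1)]
      simp
  have hB : Irefl.card = h * (α + β) := by
    have hU : Irefl = (Finset.range (2 * h)).biUnion
        (fun i => Finset.univ.filter (fun a : X => Invo a ∧ q a = S ^ i * T)) := by
      ext a
      simp only [hIrefl, Finset.mem_filter, Finset.mem_univ, true_and, Finset.mem_biUnion,
        Finset.mem_range]
      constructor
      · rintro ⟨ha, i, hi⟩
        obtain ⟨l, hl, hl'⟩ := exists_pow_of_mem (Subgroup.zpow_mem_zpowers S i)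
        exact ⟨l, hS ▸ hl, ha, by rw [hi, hl']⟩
      · rintro ⟨l, _, ha, hl⟩
        exact ⟨ha, l, by rw [hl, zpow_natCast]⟩
    rw [hU, Finset.card_biUnion]
    · have : ∀ i ∈ Finset.range (2 * h),
          (Finset.univ.filter (fun a : X => Invo a ∧ q a = S ^ i * T)).card =
            if Even i then α else β := by
        intro i _
        have := hpar (i : ℤ)
        simp only [hf, zpow_natCast, Int.even_coe_nat] at this
        exact this
      rw [Finset.sum_congr rfl this, sum_alt]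
    · intro i hi j hj hij
      simp only [Function.onFun]
      rw [Finset.disjoint_left]
      intro a ha ha'
      simp only [Finset.mem_filter, Finset.mem_univ, true_and] at ha ha'
      apply hij
      have : S ^ i = S ^ j := mul_right_cancel (ha.2.symm.trans ha'.2)
      exact pow_injOn_Iio_orderOf (by rw [hS]; exact Finset.mem_range.mp hi)
        (by rw [hS]; exact Finset.mem_range.mp hj) this
  have hstst : (s * t) * (s * t) = 1 := by
    have hti : t⁻¹ = t := inv_eq_of_mul_eq_one_left htt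
    calc s * t * (s * t) = s * (t * s * t) := by group
      _ = s * (t * s * t⁻¹) := by rw [hti]
      _ = 1 := by rw [hts, mul_inv_cancel]
  have hconjT : ∀ (c : ℤ) (u : X), Invo u → q u = S ^ c * T → ∀ a, IsConj u a ↔
      (Invo a ∧ ∃ i : ℤ, q a = S ^ (c + 2 * i) * T) := by
    intro c u hu hqu a
    constructor
    · intro hc
      obtain ⟨x, rfl⟩ := isConj_iff.mp hc
      refine ⟨invo_conj hu x, ?_⟩
      rw [map_mul, map_mul, map_inv, hqu]
      exact conj_refl hTT hTS (hQ x) c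
    · rintro ⟨ha, i, hi⟩
      set u' := s ^ i * u * (s ^ i)⁻¹ with hu'
      have hu'I : Invo u' := invo_conj hu _
      have hqu' : q u' = S ^ (c + 2 * i) * T := by
        rw [hu', map_mul, map_mul, map_inv, map_zpow, hqu, ← zpow_neg, ← mul_assoc, ← zpow_add,
          rel2 hTS]
        congr 2; ring
      set k := a * u'⁻¹ with hk
      have hqk : q k = 1 := by rw [hk, map_mul, map_inv, hi, hqu', mul_inv_cancel]
      have hak : a = k * u' := by rw [hk]; group
      have h1 : IsConj u' (k * u') := conj_of_coset (hker k hqk) hu'I.1 (by rw [← hak]; exact ha.1)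
      rw [← hak] at h1
      exact (isConj_iff.mpr ⟨s ^ i, rfl⟩ : IsConj u u').trans h1
  have hct := hconjT 0 t ⟨htt, ht1⟩ (by simp [hTdef])
  have hcst := hconjT 1 (s * t) ⟨hstst, hst1⟩ (by simp [hTdef, hSdef])
  have hC : Irefl.card =
      (Finset.univ.filter (IsConj t)).card + (Finset.univ.filter (IsConj (s * t))).card := by
    rw [← Finset.card_union_of_disjoint]
    · congr 1
      ext a
      simp only [hIrefl, Finset.mem_filter, Finset.mem_univ, true_and, Finset.mem_union]
      rw [hct, hcst]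
      constructor
      · rintro ⟨ha, i, hi⟩
        rcases Int.even_or_odd' i with ⟨m, rfl | rfl⟩
        · left
          exact ⟨ha, m, by rw [hi]; congr 2; ring⟩
        · right
          exact ⟨ha, m, by rw [hi]; congr 2; ring⟩
      · rintro (⟨ha, i, hi⟩ | ⟨ha, i, hi⟩) <;> exact ⟨ha, _, hi⟩
    · rw [Finset.disjoint_left]
      intro a ha ha'
      simp only [Finset.mem_filter, Finset.mem_univ, true_and] at ha ha'
      obtain ⟨-, i, hi⟩ := (hct a).mp ha
      obtain ⟨-, j, hj⟩ := (hcst a).mp ha'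
      have h1 : S ^ (0 + 2 * i) = S ^ (1 + 2 * j) := mul_right_cancel (hi.symm.trans hj)
      have h2 : S ^ (1 + 2 * j - (0 + 2 * i)) = 1 := by
        rw [zpow_sub, h1, mul_inv_cancel]
      have h3 := orderOf_dvd_iff_zpow_eq_one.mpr h2
      rw [hS] at h3
      obtain ⟨c, hc⟩ := h3
      push_cast at hc
      have h4 : (2 : ℤ) ∣ 1 + 2 * j - (0 + 2 * i) := ⟨h * c, by rw [hc]; ring⟩
      omega
  rw [hA, ← hC]
  calc h * ((α + β) * Irefl.card) = (h * (α + β)) * Irefl.card := by ring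
    _ = Irefl.card ^ 2 := by rw [← hB]; ring

end pair

end Cfsg.Agent.Lib.helper8_Dih6
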