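import Mathlib
import Cfsg.Agent.Lib.helper8_Dih5
import Cfsg.Agent.Lib.helper8_Dih6

set_option autoImplicit false

namespace Cfsg.Agent.Lib.helper8_Dih7

open Cfsg Cfsg.Agent.Lib.Helper2_BlockLocal Cfsg.Agent.Lib.helper8_BlockSum
  Cfsg.Agent.Lib.Helper2_BlockOm Cfsg.Agent.Lib.Helper2_BlockThird Cfsg.Agent.Lib.CharBasic
  Cfsg.Agent.Lib.Helper2_PrincipalSection Cfsg.Agent.Lib.Helper2_BlockOrtho2 Cfsg.Agent.Lib.helper8_Defect
  Cfsg.Agent.Lib.Helper2_BlockOrtho Cfsg.Agent.Lib.Helper7_ZS3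
  Cfsg.Agent.Lib.Helper7_ZS1 Cfsg.Agent.Lib.Helper7_ZS13 Cfsg.Agent.Lib.Helper7_ZS14
  Cfsg.Agent.Lib.Helper7_ZS15 Cfsg.Agent.Lib.helper8_Klein Cfsg.Agent.Lib.helper8_Klein2
  Cfsg.Agent.Lib.helper8_Klein3 Cfsg.Agent.Lib.helper8_Dih1 Cfsg.Agent.Lib.helper8_Dih2
  Cfsg.Agent.Lib.helper8_Dih3 Cfsg.Agent.Lib.helper8_Dih4 Cfsg.Agent.Lib.helper8_Dih5
  Cfsg.Agent.Lib.helper8_Dih6
open scoped ComplexConjugate Classical

universe u

variable {M : Ideal AlgInt} {G : Type u} [Group G]

theorem mem_core_of_odd' {X : Type u} [Group X] [Finite X] {j : ℕ}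
    (hidx : (pPrimeCore 2 X).index = 2 ^ j) {k : X} (hk : Odd (orderOf k)) :
    k ∈ pPrimeCore 2 X := by
  have hn : (pPrimeCore 2 X).Normal := Cfsg.pPrimeCore_normal 2 X
  rw [← QuotientGroup.eq_one_iff]
  have h1 : ((k : X ⧸ pPrimeCore 2 X)) ^ orderOf k = 1 := by
    rw [← QuotientGroup.mk_pow, pow_orderOf_eq_one]; rfl
  have h2 : ((k : X ⧸ pPrimeCore 2 X)) ^ (2 ^ j) = 1 := by
    rw [← hidx, Subgroup.index_eq_card]
    exact pow_card_eq_one'
  have h3 := orderOf_dvd_of_pow_eq_one h1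
  have h4 := orderOf_dvd_of_pow_eq_one h2
  have hco : Nat.Coprime (orderOf k) (2 ^ j) :=
    Nat.Coprime.pow_right j (Nat.coprime_two_right.mpr hk)
  exact orderOf_eq_one_iff.mp (Nat.eq_one_of_dvd_coprimes hco h3 h4)

theorem odd_of_mem_core {X : Type u} [Group X] [Finite X] {k : X} (hk : k ∈ pPrimeCore 2 X) :
    Odd (orderOf k) := by
  have h1 := Cfsg.Agent.Lib.Helper3_PComp.pPrimeCore_coprime 2 X
  have h2 : Odd (Nat.card (pPrimeCore 2 X)) := Nat.coprime_two_right.mp h1
  exact Odd.of_dvd_nat h2 (Subgroup.orderOf_dvd_natCard _ hk)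

theorem sum_subgroup_if [Fintype G] (H : Subgroup G) (p : G → Prop) [DecidablePred p] (F : G → ℂ) :
    ∑ k : H, (if p (k : G) then F (k : G) else 0) =
      ∑ g ∈ Finset.univ.filter (fun g : G => g ∈ H ∧ p g), F g := by
  rw [← Finset.sum_subtype (Finset.univ.filter (fun x : G => x ∈ H)) (p := fun x => x ∈ H)
    (by simp) (fun x => if p x then F x else 0), ← Finset.sum_filter, Finset.filter_filter]

theorem T_general [Fintype G] (hM : IsPModular 2 M) {y z : G} (hyo : ∃ k : ℕ, orderOf y = 2 ^ k)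
    (hzz : z * z = 1) {j : ℕ}
    (hidx : (pPrimeCore 2 (Subgroup.centralizer ({y} : Set G))).index = 2 ^ j)
    (hfac : (Nat.card (Subgroup.centralizer ({y} : Set G))).factorization 2 = j) :
    ∑ χ : IrrCharacter G, (if χ ∈ principalBlock M G then (χ : G → ℂ) y else 0) *
        ((χ : G → ℂ) z * (χ : G → ℂ) z / (χ : G → ℂ) 1) =
      (2 ^ j / (Nat.card (Subgroup.centralizer ({y} : Set G)) : ℂ)) *
        ((Nat.card G : ℂ) / (((Subgroup.centralizer ({z} : Set G)).index : ℂ) *
          ((Subgroup.centralizer ({z} : Set G)).index : ℂ))) *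
        ∑ g ∈ Finset.univ.filter (fun g : G => g ∈ Subgroup.centralizer ({y} : Set G) ∧
          Odd (orderOf g)), conv (classInd z) (classInd z) (y * g) := by
  rw [T_formula hM hyo hzz hzz]
  have hd := d_formula hM hyo
  rw [norm_formula hM hyo hidx hfac] at hd
  set H := Subgroup.centralizer ({y} : Set G) with hH
  set b0 := principalBlock M H with hb0
  set N := conv (classInd z) (classInd z) with hN
  set it := ((Subgroup.centralizer ({z} : Set G)).index : ℂ) with hit
  have hH0 : (Nat.card H : ℂ) ≠ 0 := by exact_mod_cast Nat.card_pos.ne'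
  have hb1 : blockCoeff b0 1 = 2 ^ j / (Nat.card H : ℂ) := by
    rw [hd]; field_simp
  have hC : ∀ k : H, blockCoeff b0 k * ((Nat.card G : ℂ) / (it * it) * N (y * (k : G))) =
      2 ^ j / (Nat.card H : ℂ) * ((Nat.card G : ℂ) / (it * it)) *
        (if Odd (orderOf (k : G)) then N (y * (k : G)) else 0) := by
    intro k
    rw [Subgroup.orderOf_coe]
    by_cases hk : 2 ∣ orderOf k
    · rw [blockCoeff_singular hM (principalBlock_isPBlock M H) hk,
        if_neg (fun h : Odd (orderOf k) => h.not_two_dvd_nat hk)]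
      simp
    · have hk' := odd_of_not_two_dvd hk
      rw [if_pos hk', blockCoeff_core hM (mem_core_of_odd' hidx hk'), hb1]
      ring
  rw [Finset.sum_congr rfl fun k _ => hC k, ← Finset.mul_sum,
    sum_subgroup_if H (fun g => Odd (orderOf g)) (fun g => N (y * g))]

theorem card_centralizer_core [Fintype G] {y : G} {j : ℕ}
    (hidx : (pPrimeCore 2 (Subgroup.centralizer ({y} : Set G))).index = 2 ^ j) :
    Nat.card (Subgroup.centralizer ({y} : Set G)) =
      (Finset.univ.filter (fun g : G => g ∈ Subgroup.centralizer ({y} : Set G) ∧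
          Odd (orderOf g))).card * 2 ^ j := by
  set H := Subgroup.centralizer ({y} : Set G) with hH
  rw [← (pPrimeCore 2 H).card_mul_index, hidx]
  congr 1
  have h1 : Nat.card (pPrimeCore 2 H) = (Finset.univ.filter (fun k : H => Odd (orderOf (k : G)))).card := by
    refine Nat.subtype_card _ fun k => ?_
    simp only [Finset.mem_filter, Finset.mem_univ, true_and, Subgroup.orderOf_coe]
    exact ⟨fun h => mem_core_of_odd' hidx h, odd_of_mem_core⟩
  rw [h1]
  have h2 := sum_subgroup_if H (fun g => Odd (orderOf g)) (fun _ => 1)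
  rw [← Finset.sum_filter] at h2
  simp only [Finset.sum_const, nsmul_eq_mul, mul_one] at h2
  exact_mod_cast h2

/-- the core of `C(z)` as a subgroup of `G`. -/
noncomputable def KK (z : G) : Subgroup G :=
  (pPrimeCore 2 (Subgroup.centralizer ({z} : Set G))).map (Subgroup.centralizer ({z} : Set G)).subtype

theorem mem_KK [Finite G] {z : G} {n : ℕ}
    (hidx : (pPrimeCore 2 (Subgroup.centralizer ({z} : Set G))).index = 2 ^ n) (g : G) :
    g ∈ KK z ↔ g ∈ Subgroup.centralizer ({z} : Set G) ∧ Odd (orderOf g) := by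
  unfold KK
  rw [Subgroup.mem_map]
  constructor
  · rintro ⟨k, hk, rfl⟩
    refine ⟨k.2, ?_⟩
    rw [Subgroup.coe_subtype, Subgroup.orderOf_coe]
    exact odd_of_mem_core hk
  · rintro ⟨h1, h2⟩
    exact ⟨⟨g, h1⟩, mem_core_of_odd' hidx (by rw [← Subgroup.orderOf_coe]; exact h2), rfl⟩

theorem card_KK [Finite G] {z : G} {n : ℕ}
    (hidx : (pPrimeCore 2 (Subgroup.centralizer ({z} : Set G))).index = 2 ^ n) :
    Nat.card (KK z) * 2 ^ n = Nat.card (Subgroup.centralizer ({z} : Set G)) := by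
  unfold KK
  rw [Subgroup.card_subtype, ← hidx]
  exact Subgroup.card_mul_index _

theorem odd_card_KK [Finite G] (z : G) : Odd (Nat.card (KK z)) := by
  unfold KK
  rw [Subgroup.card_subtype]
  exact Nat.coprime_two_right.mp (Cfsg.Agent.Lib.Helper3_PComp.pPrimeCore_coprime 2 _)

theorem conj_mem_KK [Finite G] {z : G} {n : ℕ}
    (hidx : (pPrimeCore 2 (Subgroup.centralizer ({z} : Set G))).index = 2 ^ n) {x g : G}
    (hx : x ∈ Subgroup.centralizer ({z} : Set G)) (hg : g ∈ KK z) : x * g * x⁻¹ ∈ KK z := by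
  rw [mem_KK hidx] at hg ⊢
  refine ⟨Subgroup.mul_mem _ (Subgroup.mul_mem _ hx hg.1) (Subgroup.inv_mem _ hx), ?_⟩
  have : orderOf (x * g * x⁻¹) = orderOf g := (MulAut.conj x).orderOf_eq g
  rw [this]
  exact hg.2

theorem T_avg [Fintype G] (hM : IsPModular 2 M) {y z : G} {a : ℕ} (hyo : orderOf y = 2 ^ a)
    (hzz : z * z = 1) {j n : ℕ}
    (hidx : (pPrimeCore 2 (Subgroup.centralizer ({y} : Set G))).index = 2 ^ j)
    (hfac : (Nat.card (Subgroup.centralizer ({y} : Set G))).factorization 2 = j)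
    (hidz : (pPrimeCore 2 (Subgroup.centralizer ({z} : Set G))).index = 2 ^ n)
    (hyz : Subgroup.centralizer ({y} : Set G) ≤ Subgroup.centralizer ({z} : Set G))
    (hyH : y ∈ Subgroup.centralizer ({z} : Set G)) :
    ∑ χ : IrrCharacter G, (if χ ∈ principalBlock M G then (χ : G → ℂ) y else 0) *
        ((χ : G → ℂ) z * (χ : G → ℂ) z / (χ : G → ℂ) 1) =
        ((Nat.card G : ℂ) / (((Subgroup.centralizer ({z} : Set G)).index : ℂ) *
          ((Subgroup.centralizer ({z} : Set G)).index : ℂ))) *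
        (1 / (Nat.card (KK z) : ℂ)) *
        ∑ g ∈ Finset.univ.filter (fun g : G => g ∈ KK z), conv (classInd z) (classInd z) (y * g) := by
  rw [T_general hM ⟨a, hyo⟩ hzz hidx hfac, card_centralizer_core hidx]
  have hfil : Finset.univ.filter (fun g : G => g ∈ Subgroup.centralizer ({y} : Set G) ∧
      Odd (orderOf g)) = Finset.univ.filter (fun c : G => c ∈ KK z ∧ Commute y c) := by
    apply Finset.filter_congr
    intro g _
    rw [mem_KK hidz, Subgroup.mem_centralizer_singleton_iff]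
    constructor
    · rintro ⟨h1, h2⟩
      exact ⟨⟨hyz (Subgroup.mem_centralizer_singleton_iff.mpr h1), h2⟩, h1.symm⟩
    · rintro ⟨⟨_, h2⟩, h1⟩
      exact ⟨h1.symm, h2⟩
  rw [hfil]
  have havg := avg_lemma (KK z) (odd_card_KK z) hyo (by
    intro x hx
    have := conj_mem_KK hidz (Subgroup.inv_mem _ hyH) hx
    rwa [inv_inv] at this) (conv (classInd z) (classInd z))
    (fun g w => conv_classFunction (classInd_classFunction z) (classInd_classFunction z) g w)
  have hcardK : (Finset.univ.filter (fun k : G => k ∈ KK z)).card = Nat.card (KK z) :=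
    (Nat.subtype_card _ (by simp)).symm
  rw [hcardK] at havg
  set c := (Finset.univ.filter (fun c : G => c ∈ KK z ∧ Commute y c)).card with hc
  have hc0 : (c : ℂ) ≠ 0 := by
    have : 0 < c := Finset.card_pos.mpr ⟨1, by simp⟩
    exact_mod_cast this.ne'
  have hK0 : (Nat.card (KK z) : ℂ) ≠ 0 := by exact_mod_cast Nat.card_pos.ne'
  set sA := ∑ c ∈ Finset.univ.filter (fun c : G => c ∈ KK z ∧ Commute y c),
    conv (classInd z) (classInd z) (y * c)
  set sB := ∑ g ∈ Finset.univ.filter (fun g : G => g ∈ KK z), conv (classInd z) (classInd z) (y * g)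
  have h1 : sA = (c : ℂ) * sB / (Nat.card (KK z) : ℂ) := by
    rw [havg]; field_simp
  rw [h1]
  push_cast
  field_simp

theorem mem_KK_coe {z : G} (k : Subgroup.centralizer ({z} : Set G)) :
    (k : G) ∈ KK z ↔ k ∈ pPrimeCore 2 (Subgroup.centralizer ({z} : Set G)) := by
  unfold KK
  exact Subgroup.mem_map_iff_mem (Subgroup.subtype_injective _)

theorem pow_coset {K : Subgroup G} {y g : G} (hyK : ∀ x ∈ K, y⁻¹ * x * y ∈ K) (hg : g ∈ K) (e : ℕ) :
    ∃ g' ∈ K, (y * g) ^ e = y ^ e * g' := by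
  induction e with
  | zero => exact ⟨1, K.one_mem, by simp⟩
  | succ e ih =>
    obtain ⟨g', hg', h⟩ := ih
    refine ⟨y⁻¹ * g' * y * g, K.mul_mem (hyK _ hg') hg, ?_⟩
    rw [pow_succ, h, pow_succ]
    group

theorem pair_mem [Finite G] {y z : G} {n e : ℕ} (hzz : z * z = 1)
    (hidz : (pPrimeCore 2 (Subgroup.centralizer ({z} : Set G))).index = 2 ^ n)
    (hyH : y ∈ Subgroup.centralizer ({z} : Set G)) (hye : y ^ e = z) {x b : G}
    (hx : x * x = 1) (hb : b * b = 1) (hK : y⁻¹ * x * b ∈ KK z) :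
    x ∈ Subgroup.centralizer ({z} : Set G) ∧ b ∈ Subgroup.centralizer ({z} : Set G) := by
  set g := y⁻¹ * x * b with hg
  have hxb : x * b = y * g := by rw [hg]; group
  obtain ⟨g', hg', hpow⟩ := pow_coset (K := KK z) (y := y) (by
    intro x hx
    have := conj_mem_KK hidz (Subgroup.inv_mem _ hyH) hx
    rwa [inv_inv] at this) hK e
  rw [hye] at hpow
  obtain ⟨hg'H, hg'o⟩ := (mem_KK hidz g').mp hg'
  have hc : Commute z g' := (Subgroup.mem_centralizer_singleton_iff.mp hg'H).symm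
  have hz : (z * g') ^ orderOf g' = z := by
    rw [hc.mul_pow, pow_orderOf_eq_one, mul_one]
    obtain ⟨r, hr⟩ := hg'o
    rw [hr, pow_succ, pow_mul, pow_two, hzz, one_pow, one_mul]
  have hinv := inv_prod hx hb
  have h1 := conj_pow_inv hinv (e * orderOf g')
  rw [pow_mul, hxb, hpow, hz] at h1
  have hzi : z⁻¹ = z := inv_eq_of_mul_eq_one_left hzz
  rw [hzi] at h1
  have hxH : x ∈ Subgroup.centralizer ({z} : Set G) := by
    rw [Subgroup.mem_centralizer_singleton_iff]
    calc x * z = x * z * x⁻¹ * x := by group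
      _ = z * x := by rw [h1]
  refine ⟨hxH, ?_⟩
  have : b = x⁻¹ * (y * g) := by rw [← hxb]; group
  rw [this]
  exact Subgroup.mul_mem _ (Subgroup.inv_mem _ hxH)
    (Subgroup.mul_mem _ hyH ((mem_KK hidz g).mp hK).1)

theorem sum_subgroup [Fintype G] (H : Subgroup G) (F : G → ℂ) :
    ∑ k : H, F (k : G) = ∑ g : G, if g ∈ H then F g else 0 := by
  rw [← Finset.sum_subtype (Finset.univ.filter (fun x : G => x ∈ H)) (p := fun x => x ∈ H)
    (by simp) F, Finset.sum_filter]

theorem invo_coe {H : Subgroup G} (a : H) : Invo a ↔ Invo (a : G) := by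
  unfold Invo
  constructor
  · rintro ⟨h1, h2⟩
    exact ⟨congrArg Subtype.val h1, fun h => h2 (Subtype.ext h)⟩
  · rintro ⟨h1, h2⟩
    exact ⟨Subtype.ext h1, fun h => h2 (congrArg Subtype.val h)⟩

theorem sum_eq_cnt [Fintype G] {y z : G} {n e : ℕ} (hzz : z * z = 1) (hz1 : z ≠ 1)
    (hidz : (pPrimeCore 2 (Subgroup.centralizer ({z} : Set G))).index = 2 ^ n)
    (hyH : y ∈ Subgroup.centralizer ({z} : Set G)) (hye : y ^ e = z)
    (hinv : ∀ a : G, a * a = 1 → a ≠ 1 → IsConj z a)
    [hn : (pPrimeCore 2 (Subgroup.centralizer ({z} : Set G))).Normal] :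
    ∑ g ∈ Finset.univ.filter (fun g : G => g ∈ KK z), conv (classInd z) (classInd z) (y * g) =
      (cnt (QuotientGroup.mk' (pPrimeCore 2 (Subgroup.centralizer ({z} : Set G))))
        (QuotientGroup.mk' (pPrimeCore 2 (Subgroup.centralizer ({z} : Set G))) ⟨y, hyH⟩) : ℂ) := by
  set H := Subgroup.centralizer ({z} : Set G) with hH
  have hcI : ∀ a : G, classInd z a = if Invo a then 1 else 0 := by
    intro a
    unfold classInd
    by_cases h : IsConj z a
    · rw [if_pos h, if_pos ⟨sq_one_of_isConj hzz h, by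
        rintro rfl
        exact hz1 (isConj_one_right.mp h.symm)⟩]
    · rw [if_neg h, if_neg (fun h' : Invo a => h (hinv a h'.1 h'.2))]
  have e1 : ∑ g ∈ Finset.univ.filter (fun g : G => g ∈ KK z),
      conv (classInd z) (classInd z) (y * g) =
      ∑ x : G, ∑ b : G, if y⁻¹ * x * b ∈ KK z then classInd z x * classInd z b else 0 := by
    rw [Finset.sum_filter]
    unfold conv
    have : ∀ g : G, (if g ∈ KK z then ∑ x : G, classInd z x * classInd z (x⁻¹ * (y * g)) else 0) =
        ∑ x : G, if g ∈ KK z then classInd z x * classInd z (x⁻¹ * (y * g)) else 0 := by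
      intro g
      split_ifs <;> simp
    rw [Finset.sum_congr rfl fun g _ => this g, Finset.sum_comm]
    refine Finset.sum_congr rfl fun x _ => ?_
    rw [← Equiv.sum_comp (Equiv.mulLeft (y⁻¹ * x))]
    refine Finset.sum_congr rfl fun b _ => ?_
    have e2 : (Equiv.mulLeft (y⁻¹ * x)) b = y⁻¹ * x * b := rfl
    have e3 : x⁻¹ * (y * (y⁻¹ * x * b)) = b := by group
    rw [e2, e3]
  rw [e1]
  unfold cnt
  push_cast
  have e4 : ∀ a : H, ∑ b : H, (if Invo a ∧ Invo b ∧ (QuotientGroup.mk' (pPrimeCore 2 H)) (a * b) =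
      (QuotientGroup.mk' (pPrimeCore 2 H)) ⟨y, hyH⟩ then (1 : ℂ) else 0) =
      (fun x : G => ∑ b : G, if y⁻¹ * x * b ∈ KK z then classInd z x * classInd z b else 0) a := by
    intro a
    simp only
    have e5 : ∀ b : H, (if Invo a ∧ Invo b ∧ (QuotientGroup.mk' (pPrimeCore 2 H)) (a * b) =
        (QuotientGroup.mk' (pPrimeCore 2 H)) ⟨y, hyH⟩ then (1 : ℂ) else 0) =
        (fun b : G => if y⁻¹ * (a : G) * b ∈ KK z then classInd z a * classInd z b else 0) b := by
      intro b
      simp only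
      have e6 : ((QuotientGroup.mk' (pPrimeCore 2 H)) (a * b) =
          (QuotientGroup.mk' (pPrimeCore 2 H)) ⟨y, hyH⟩) ↔ y⁻¹ * (a : G) * b ∈ KK z := by
        rw [eq_comm, QuotientGroup.mk'_apply, QuotientGroup.mk'_apply, QuotientGroup.eq,
          ← mem_KK_coe]
        simp only [Subgroup.coe_mul, Subgroup.coe_inv, mul_assoc]
      have hiff : (Invo a ∧ Invo b ∧ (QuotientGroup.mk' (pPrimeCore 2 H)) (a * b) =
          (QuotientGroup.mk' (pPrimeCore 2 H)) ⟨y, hyH⟩) ↔
          (Invo (a : G) ∧ Invo (b : G) ∧ y⁻¹ * (a : G) * b ∈ KK z) := by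
        rw [e6, invo_coe, invo_coe]
      rw [hcI, hcI]
      by_cases hP : Invo (a : G) ∧ Invo (b : G) ∧ y⁻¹ * (a : G) * b ∈ KK z
      · rw [if_pos (hiff.mpr hP), if_pos hP.2.2, if_pos hP.1, if_pos hP.2.1, mul_one]
      · rw [if_neg (fun h => hP (hiff.mp h))]
        by_cases h3 : y⁻¹ * (a : G) * b ∈ KK z
        · rw [if_pos h3]
          by_cases h1 : Invo (a : G)
          · have h2 : ¬ Invo (b : G) := fun h2 => hP ⟨h1, h2, h3⟩
            rw [if_neg h2, mul_zero]
          · rw [if_neg h1, zero_mul]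
        · rw [if_neg h3]
    rw [Finset.sum_congr rfl fun b _ => e5 b, sum_subgroup H
      (fun b : G => if y⁻¹ * (a : G) * b ∈ KK z then classInd z a * classInd z b else 0)]
    refine Finset.sum_congr rfl fun b _ => ?_
    by_cases hb : b ∈ H
    · rw [if_pos hb]
    · rw [if_neg hb]
      symm
      by_cases h3 : y⁻¹ * (a : G) * b ∈ KK z
      · rw [if_pos h3, hcI, hcI]
        by_cases h1 : Invo (a : G)
        · by_cases h2 : Invo b
          · exact absurd (pair_mem hzz hidz hyH hye h1.1 h2.1 h3).2 hb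
          · rw [if_neg h2, mul_zero]
        · rw [if_neg h1, zero_mul]
      · rw [if_neg h3]
  rw [Finset.sum_congr rfl fun a _ => e4 a, sum_subgroup H
    (fun x : G => ∑ b : G, if y⁻¹ * x * b ∈ KK z then classInd z x * classInd z b else 0)]
  refine Finset.sum_congr rfl fun x _ => ?_
  by_cases hx : x ∈ H
  · rw [if_pos hx]
  · rw [if_neg hx]
    apply Finset.sum_eq_zero
    intro b _
    by_cases h3 : y⁻¹ * x * b ∈ KK z
    · rw [if_pos h3, hcI, hcI]
      by_cases h1 : Invo x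
      · by_cases h2 : Invo b
        · exact absurd (pair_mem hzz hidz hyH hye h1.1 h2.1 h3).1 hx
        · rw [if_neg h2, mul_zero]
      · rw [if_neg h1, zero_mul]
    · rw [if_neg h3]

end Cfsg.Agent.Lib.helper8_Dih7
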