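import Mathlib
import Cfsg.Agent.Lib.helper8_Dih7
import Cfsg.Agent.Lib.Helper7_PClass

set_option autoImplicit false

namespace Cfsg.Agent.Lib.helper8_Dih8

open Cfsg Cfsg.Agent.Lib.Helper2_BlockLocal Cfsg.Agent.Lib.helper8_BlockSum
  Cfsg.Agent.Lib.Helper2_BlockOm Cfsg.Agent.Lib.Helper2_BlockThird Cfsg.Agent.Lib.CharBasic
  Cfsg.Agent.Lib.Helper2_PrincipalSection Cfsg.Agent.Lib.Helper2_BlockOrtho2 Cfsg.Agent.Lib.helper8_Defect
  Cfsg.Agent.Lib.Helper2_BlockOrtho Cfsg.Agent.Lib.Helper7_ZS3 Cfsg.Agent.Lib.CharIntegral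
  Cfsg.Agent.Lib.Helper7_ZS1 Cfsg.Agent.Lib.Helper7_ZS13 Cfsg.Agent.Lib.Helper7_ZS14
  Cfsg.Agent.Lib.Helper7_ZS15 Cfsg.Agent.Lib.helper8_Klein Cfsg.Agent.Lib.helper8_Klein2
  Cfsg.Agent.Lib.helper8_Klein3 Cfsg.Agent.Lib.helper8_Dih1 Cfsg.Agent.Lib.helper8_Dih2
  Cfsg.Agent.Lib.helper8_Dih3 Cfsg.Agent.Lib.helper8_Dih4 Cfsg.Agent.Lib.helper8_Dih5
  Cfsg.Agent.Lib.helper8_Dih6 Cfsg.Agent.Lib.helper8_Dih7
open scoped ComplexConjugate Classical

universe u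

variable {M : Ideal AlgInt} {G : Type u} [Group G]

/-- elements of the dihedral Sylow subgroup. -/
theorem mem_cases [Finite G] (S : Sylow 2 G) {σ τ : G} (hσS : σ ∈ (S : Subgroup G))
    (hτS : τ ∈ (S : Subgroup G)) (hq : QLike (⟨σ, hσS⟩ : (S : Subgroup G)))
    (hτ : τ ∉ Subgroup.zpowers σ) {p : G} (hp : p ∈ (S : Subgroup G)) :
    ∃ i : ℤ, p = σ ^ i ∨ p = σ ^ i * τ := by
  by_cases h : p ∈ Subgroup.zpowers σ
  · obtain ⟨i, hi⟩ := Subgroup.mem_zpowers_iff.mp h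
    exact ⟨i, Or.inl hi.symm⟩
  · have h1 : (⟨p, hp⟩ : (S : Subgroup G)) ∉ Subgroup.zpowers (⟨σ, hσS⟩ : (S : Subgroup G)) := by
      rw [mem_zpowers_subtype]; exact h
    have h2 : (⟨τ, hτS⟩ : (S : Subgroup G))⁻¹ ∉ Subgroup.zpowers (⟨σ, hσS⟩ : (S : Subgroup G)) := by
      rw [Subgroup.inv_mem_iff, mem_zpowers_subtype]; exact hτ
    have h3 := (Subgroup.mul_mem_iff_of_index_two hq.idx (a := (⟨p, hp⟩ : (S : Subgroup G)))
      (b := (⟨τ, hτS⟩ : (S : Subgroup G))⁻¹)).mpr ⟨fun a => absurd a h1, fun a => absurd a h2⟩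
    rw [mem_zpowers_subtype] at h3
    obtain ⟨i, hi⟩ := Subgroup.mem_zpowers_iff.mp h3
    refine ⟨i, Or.inr ?_⟩
    rw [hi]
    simp

theorem all_conj [Finite G] (S : Sylow 2 G) {σ τ : G} {h : ℕ} (hσS : σ ∈ (S : Subgroup G))
    (hτS : τ ∈ (S : Subgroup G)) (hq : QLike (⟨σ, hσS⟩ : (S : Subgroup G)))
    (hσo : orderOf σ = 2 * h)
    (hτ : τ ∉ Subgroup.zpowers σ) (hrel : τ * σ * τ⁻¹ = σ⁻¹)
    (hconj : IsConj (σ ^ h) τ ∧ IsConj (σ ^ h) (σ * τ)) (a : G) (haa : a * a = 1) (ha1 : a ≠ 1) :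
    IsConj (σ ^ h) a := by
  have : Fact (Nat.Prime 2) := ⟨Nat.prime_two⟩
  have hao : ∃ k : ℕ, orderOf a = 2 ^ k :=
    Cfsg.Agent.Lib.Helper2_PPart.orderOf_eq_pow_of_pow_eq_one Nat.prime_two (s := 1)
      (by rw [pow_one, pow_two, haa])
  obtain ⟨g, hg⟩ := Cfsg.Agent.Lib.Helper7_PClass.exists_conj_mem_sylow S hao
  have hc : IsConj a (g * a * g⁻¹) := isConj_iff.mpr ⟨g, rfl⟩
  refine IsConj.trans ?_ hc.symm
  have hbb : (g * a * g⁻¹) * (g * a * g⁻¹) = 1 := sq_one_of_isConj haa hc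
  have hb1 : g * a * g⁻¹ ≠ 1 := by
    intro h1
    apply ha1
    simpa using h1
  set b := g * a * g⁻¹ with hb
  obtain ⟨i, hi | hi⟩ := mem_cases S hσS hτS hq hτ hg
  · rcases sq_one_cases hσo (hi ▸ Subgroup.zpow_mem_zpowers σ i) hbb with h1 | h1
    · exact absurd h1 hb1
    · rw [h1]
  · rcases Int.even_or_odd' i with ⟨m, rfl | rfl⟩
    · refine hconj.1.trans (isConj_iff.mpr ⟨σ ^ m, ?_⟩)
      rw [hi, ← zpow_neg, rel2 hrel]
      congr 2; ring
    · refine hconj.2.trans (isConj_iff.mpr ⟨σ ^ m, ?_⟩)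
      rw [hi, ← zpow_neg, ← mul_assoc, ← zpow_add_one, rel2 hrel]
      congr 2; ring

theorem card_joint [Finite G] {z t : G} (ht : t ∈ Subgroup.centralizer ({z} : Set G)) :
    Nat.card (Subgroup.centralizer ({(⟨t, ht⟩ : Subgroup.centralizer ({z} : Set G))} :
      Set (Subgroup.centralizer ({z} : Set G)))) =
      Nat.card (Subgroup.centralizer ({z, t} : Set G)) := by
  set H := Subgroup.centralizer ({z} : Set G) with hH
  rw [← Subgroup.card_subtype]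
  congr 2
  ext g
  rw [Subgroup.mem_map, Subgroup.mem_centralizer_iff]
  constructor
  · rintro ⟨k, hk, rfl⟩
    intro w hw
    rcases hw with rfl | hw
    · exact (Subgroup.mem_centralizer_singleton_iff.mp k.2).symm
    · rw [Set.mem_singleton_iff] at hw
      subst hw
      exact (congrArg Subtype.val (Subgroup.mem_centralizer_singleton_iff.mp hk)).symm
  · intro hg
    have h1 : g ∈ H := by
      rw [hH, Subgroup.mem_centralizer_singleton_iff]
      exact (hg z (by simp)).symm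
    refine ⟨⟨g, h1⟩, ?_, rfl⟩
    rw [Subgroup.mem_centralizer_singleton_iff]
    exact Subtype.ext (hg t (by simp)).symm

theorem final_algebra {Gc Hc i κ C₁ C₂ ct cst cz cs w : ℂ} (hG : Gc ≠ 0) (hH : Hc ≠ 0) (hw : w ≠ 0)
    (hC₁ : C₁ ≠ 0) (hC₂ : C₂ ≠ 0)
    (E1 : Hc * i = Gc) (E2 : κ * (4 * w) = Hc) (E3 : w * (cz + cs) = (ct + cst) ^ 2)
    (E4 : C₁ * ct = Hc) (E5 : C₂ * cst = Hc) :
    Gc / (i * i) * (1 / κ) * cz + Gc / (i * i) * (1 / κ) * cs =
      4 * Hc ^ 3 * (1 / C₁ + 1 / C₂) ^ 2 / Gc := by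
  have hi : i = Gc / Hc := by rw [← E1]; field_simp
  have hκ : κ = Hc / (4 * w) := by rw [← E2]; field_simp
  have hct : ct = Hc / C₁ := by rw [← E4]; field_simp
  have hcst : cst = Hc / C₂ := by rw [← E5]; field_simp
  have hsum : cz + cs = (ct + cst) ^ 2 / w := by rw [← E3]; field_simp
  rw [← mul_add, hsum, hi, hκ, hct, hcst]
  field_simp

theorem group_side [Fintype G] (hM : IsPModular 2 M) (S : Sylow 2 G) {σ τ : G} {k : ℕ} (hk : 1 ≤ k)
    (hσS : σ ∈ (S : Subgroup G)) (hτS : τ ∈ (S : Subgroup G)) (hσo : orderOf σ = 2 ^ (k + 1))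
    (hS : Nat.card (S : Subgroup G) = 2 ^ (k + 2))
    (hall : ∀ (S' : Sylow 2 G) (h : σ ∈ (S' : Subgroup G)), DLike (⟨σ, h⟩ : (S' : Subgroup G)))
    (hττ : τ * τ = 1) (hτ1 : τ ≠ 1) (hrel : τ * σ * τ⁻¹ = σ⁻¹)
    (hconj : IsConj (σ ^ 2 ^ k) τ ∧ IsConj (σ ^ 2 ^ k) (σ * τ)) :
    ∑ χ : IrrCharacter G, (if χ ∈ principalBlock M G then (χ : G → ℂ) (σ ^ 2 ^ k) else 0) *
        ((χ : G → ℂ) (σ ^ 2 ^ k) * (χ : G → ℂ) (σ ^ 2 ^ k) / (χ : G → ℂ) 1) +
    ∑ χ : IrrCharacter G, (if χ ∈ principalBlock M G then (χ : G → ℂ) σ else 0) *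
        ((χ : G → ℂ) (σ ^ 2 ^ k) * (χ : G → ℂ) (σ ^ 2 ^ k) / (χ : G → ℂ) 1) =
    4 * (Nat.card (Subgroup.centralizer ({σ ^ 2 ^ k} : Set G)) : ℂ) ^ 3 *
      (1 / (Nat.card (Subgroup.centralizer ({σ ^ 2 ^ k, τ} : Set G)) : ℂ) +
        1 / (Nat.card (Subgroup.centralizer ({σ ^ 2 ^ k, σ * τ} : Set G)) : ℂ)) ^ 2 /
      (Nat.card G : ℂ) := by
  have : Fact (Nat.Prime 2) := ⟨Nat.prime_two⟩
  have hσo' : orderOf σ = 2 * 2 ^ k := by rw [hσo, pow_succ]; ring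
  have hh2 : 2 ≤ 2 ^ k := by
    calc 2 = 2 ^ 1 := by norm_num
      _ ≤ 2 ^ k := Nat.pow_le_pow_right (by norm_num) hk
  set z := σ ^ 2 ^ k with hz
  have hzz : z * z = 1 := by
    rw [hz, ← pow_add, ← two_mul, ← hσo', pow_orderOf_eq_one]
  have hz1 : z ≠ 1 := pow_ne_one hσo' (by omega) (by omega)
  have hzo : orderOf z = 2 ^ 1 := by
    rw [pow_one]
    exact orderOf_eq_prime (by rw [pow_two, hzz]) hz1
  have hd := hall S hσS
  have hσσ : σ * σ ≠ 1 := by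
    intro h
    have := orderOf_dvd_of_pow_eq_one (show σ ^ 2 = 1 by rw [pow_two, h])
    rw [hσo'] at this
    have := Nat.le_of_dvd (by norm_num) this
    omega
  have hτ : τ ∉ Subgroup.zpowers σ := by
    intro h
    obtain ⟨i, hi⟩ := Subgroup.mem_zpowers_iff.mp h
    have hc : Commute τ σ := by rw [← hi]; exact (Commute.refl σ).zpow_left i
    apply hσσ
    have h1 : τ * σ * τ⁻¹ = σ := by rw [hc.eq]; group
    rw [h1] at hrel
    nth_rewrite 1 [hrel]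
    exact inv_mul_cancel σ
  obtain ⟨hidz, hfacz⟩ := centralizer_core_z S hσS hd hσo' hS
  obtain ⟨hids, hfacs⟩ := centralizer_core16 hσo (fun S' h => (hall S' h).q)
    (Subgroup.mem_zpowers σ) hσσ
  rw [← hz] at hidz hfacz
  set H := Subgroup.centralizer ({z} : Set G) with hH
  have hSH : (S : Subgroup G) ≤ H := sylow_le_centralizer S hσS hd.q hσo'
  have hzH : z ∈ H := hSH (Subgroup.pow_mem _ hσS _)
  have hσH : σ ∈ H := hSH hσS
  have hτH : τ ∈ H := hSH hτS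
  have hσz : Subgroup.centralizer ({σ} : Set G) ≤ H := by
    intro g hg
    rw [hH, Subgroup.mem_centralizer_singleton_iff]
    have : Commute g σ := Subgroup.mem_centralizer_singleton_iff.mp hg
    exact (this.pow_right _).eq
  have hinv := all_conj S hσS hτS hd.q hσo' hτ hrel hconj
  have hn : (pPrimeCore 2 H).Normal := Cfsg.pPrimeCore_normal 2 H
  rw [T_avg hM hzo hzz hidz hfacz hidz le_rfl hzH, T_avg hM hσo hzz hids hfacs hidz hσz hσH,
    sum_eq_cnt hzz hz1 hidz hzH (pow_one z) hinv, sum_eq_cnt hzz hz1 hidz hσH hz.symm hinv]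
  set q := QuotientGroup.mk' (pPrimeCore 2 H) with hq
  set σ' : H := ⟨σ, hσH⟩ with hσ'
  set τ' : H := ⟨τ, hτH⟩ with hτ'
  have hqz : q ⟨z, hzH⟩ = q σ' ^ 2 ^ k := by
    rw [← map_pow]
    congr 1
  have hker : ∀ x : H, q x = 1 → Odd (orderOf x) := by
    intro x hx
    rw [hq, QuotientGroup.mk'_apply, QuotientGroup.eq_one_iff] at hx
    exact odd_of_mem_core hx
  set φ : (S : Subgroup G) →* H ⧸ pPrimeCore 2 H := q.comp (Subgroup.inclusion hSH) with hφ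
  have hφinj : Function.Injective φ := by
    rw [injective_iff_map_eq_one]
    intro p hp
    have h1 : Odd (orderOf (Subgroup.inclusion hSH p)) := hker _ hp
    rw [orderOf_injective _ (Subgroup.inclusion_injective hSH)] at h1
    obtain ⟨r, hr⟩ := S.isPGroup' p
    have h2 := orderOf_dvd_of_pow_eq_one hr
    have hco : Nat.Coprime (orderOf p) (2 ^ r) :=
      Nat.Coprime.pow_right r (Nat.coprime_two_right.mpr h1)
    exact orderOf_eq_one_iff.mp (Nat.eq_one_of_dvd_coprimes hco dvd_rfl h2)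
  have hφbij := hφinj.bijective_of_nat_card_le (by
    rw [← Subgroup.index_eq_card, hidz, hS])
  have hQ : ∀ x : H, ∃ i : ℤ, q x = q σ' ^ i ∨ q x = q σ' ^ i * q τ' := by
    intro x
    obtain ⟨p, hp⟩ := hφbij.2 (q x)
    obtain ⟨i, hi | hi⟩ := mem_cases S hσS hτS hd.q hτ p.2
    · refine ⟨i, Or.inl ?_⟩
      rw [← hp, ← map_zpow]
      show q (Subgroup.inclusion hSH p) = _
      congr 1
      apply Subtype.ext
      simp [hi, hσ']
    · refine ⟨i, Or.inr ?_⟩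
      rw [← hp, ← map_zpow, ← map_mul]
      show q (Subgroup.inclusion hSH p) = _
      congr 1
      apply Subtype.ext
      simp [hi, hσ', hτ']
  have hSq : orderOf (q σ') = 2 * 2 ^ k := by
    have h1 : q σ' = φ ⟨σ, hσS⟩ := rfl
    rw [h1, orderOf_injective φ hφinj, Subgroup.orderOf_mk, hσo']
  have hpc := pair_count q hker (s := σ') (t := τ') (h := 2 ^ k)
    (Nat.even_pow.mpr ⟨even_two, by omega⟩) (by positivity) hSq (Subtype.ext hττ)
    (fun h => hτ1 (congrArg Subtype.val h))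
    (fun h => by
      have h1 : σ * τ = 1 := congrArg Subtype.val h
      apply hτ
      have : τ = σ⁻¹ := eq_inv_of_mul_eq_one_right h1
      rw [this]
      exact Subgroup.inv_mem _ (Subgroup.mem_zpowers σ))
    (Subtype.ext hrel) hQ
  rw [hqz]
  have hc1 := card_class_eq_index τ'
  have hc2 := card_class_eq_index (σ' * τ')
  have hi1 := (Subgroup.centralizer ({τ'} : Set H)).card_mul_index
  have hi2 := (Subgroup.centralizer ({σ' * τ'} : Set H)).card_mul_index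
  rw [hc1, hc2] at hpc
  rw [card_joint hτH] at hi1
  have hστ : σ' * τ' = ⟨σ * τ, H.mul_mem hσH hτH⟩ := rfl
  rw [hστ, card_joint (H.mul_mem hσH hτH)] at hi2
  rw [hστ] at hpc
  have hKc := card_KK hidz
  have hGi := H.card_mul_index
  generalize cnt q (q σ' ^ 2 ^ k) = cz at hpc ⊢
  generalize cnt q (q σ') = cs at hpc ⊢
  generalize (Subgroup.centralizer ({τ'} : Set H)).index = ct at hpc hi1
  generalize (Subgroup.centralizer ({(⟨σ * τ, H.mul_mem hσH hτH⟩ : H)} : Set H)).index = cst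
    at hpc hi2
  generalize Nat.card (KK z) = κ at hKc ⊢
  generalize H.index = i at hGi ⊢
  generalize Nat.card (Subgroup.centralizer ({z, τ} : Set G)) = C₁ at hi1 ⊢
  generalize Nat.card (Subgroup.centralizer ({z, σ * τ} : Set G)) = C₂ at hi2 ⊢
  have hH0 : Nat.card H ≠ 0 := Nat.card_pos.ne'
  have hG0 : Nat.card G ≠ 0 := Nat.card_pos.ne'
  generalize Nat.card H = Hc at hKc hGi hi1 hi2 hH0 ⊢
  generalize Nat.card G = Gc at hGi hG0 ⊢
  have hC₁ : C₁ ≠ 0 := by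
    rintro rfl
    apply hH0
    rw [← hi1, zero_mul]
  have hC₂ : C₂ ≠ 0 := by
    rintro rfl
    apply hH0
    rw [← hi2, zero_mul]
  apply final_algebra (w := (2 : ℂ) ^ k) (ct := (ct : ℂ)) (cst := (cst : ℂ))
  · exact_mod_cast hG0
  · exact_mod_cast hH0
  · exact pow_ne_zero k two_ne_zero
  · exact_mod_cast hC₁
  · exact_mod_cast hC₂
  · exact_mod_cast hGi
  · have : κ * (4 * 2 ^ k) = Hc := by
      rw [← hKc, pow_add]; ring
    exact_mod_cast this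
  · exact_mod_cast hpc
  · exact_mod_cast hi1
  · exact_mod_cast hi2

end Cfsg.Agent.Lib.helper8_Dih8
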