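import Mathlib
import Cfsg.Agent.Lib.helper8_Dih8

set_option autoImplicit false

namespace Cfsg.Agent.Lib.helper8_Dih9

open Cfsg Cfsg.Agent.Lib.Helper2_BlockLocal Cfsg.Agent.Lib.helper8_BlockSum
  Cfsg.Agent.Lib.Helper2_BlockOm Cfsg.Agent.Lib.Helper2_BlockThird Cfsg.Agent.Lib.CharBasic
  Cfsg.Agent.Lib.Helper2_PrincipalSection Cfsg.Agent.Lib.Helper2_BlockOrtho2 Cfsg.Agent.Lib.helper8_Defect
  Cfsg.Agent.Lib.Helper7_ZS1 Cfsg.Agent.Lib.Helper7_ZS13 Cfsg.Agent.Lib.Helper7_ZS14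
  Cfsg.Agent.Lib.Helper7_ZS15 Cfsg.Agent.Lib.helper8_Klein Cfsg.Agent.Lib.helper8_Klein2
  Cfsg.Agent.Lib.helper8_Klein3 Cfsg.Agent.Lib.helper8_Dih1 Cfsg.Agent.Lib.helper8_Dih2
  Cfsg.Agent.Lib.helper8_Dih3 Cfsg.Agent.Lib.helper8_Dih4 Cfsg.Agent.Lib.helper8_Dih5
open scoped ComplexConjugate Classical

universe u

variable {M : Ideal AlgInt} {G : Type u} [Group G]

theorem sum_fin_Ico (F : ℕ → ℂ) (h : ℕ) :
    ∑ j : Fin (h - 1), F ((j : ℕ) + 1) = ∑ i ∈ Finset.Ico 1 h, F i := by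
  rw [Fin.sum_univ_eq_sum_range (fun j => F (j + 1)) (h - 1), Finset.sum_Ico_eq_sum_range]
  refine Finset.sum_congr rfl fun j _ => ?_
  rw [add_comm]

theorem char_side [Fintype G] (hM : IsPModular 2 M) (S : Sylow 2 G) {σ : G} {k : ℕ} (hk : 1 ≤ k)
    (hσS : σ ∈ (S : Subgroup G)) (hσo : orderOf σ = 2 ^ (k + 1))
    (hS : Nat.card (S : Subgroup G) = 2 ^ (k + 2))
    (hall : ∀ (S' : Sylow 2 G) (h : σ ∈ (S' : Subgroup G)), DLike (⟨σ, h⟩ : (S' : Subgroup G)))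
    (ψ : IrrCharacter G) (hψ : ψ ∈ principalBlock M G) (hψ1 : (ψ : G → ℂ) ≠ (fun _ => 1)) (d : ℤ)
    (hd : d = 1 ∨ d = -1)
    (hval : ∀ l : ℕ, 0 < l → l < 2 ^ (k + 1) → (ψ : G → ℂ) (σ ^ l) = d) :
    ((charDegree (ψ : G → ℂ) : ℂ) + d ≠ 0) ∧
    ∑ χ : IrrCharacter G, (if χ ∈ principalBlock M G then (χ : G → ℂ) (σ ^ 2 ^ k) else 0) *
        ((χ : G → ℂ) (σ ^ 2 ^ k) * (χ : G → ℂ) (σ ^ 2 ^ k) / (χ : G → ℂ) 1) +
    ∑ χ : IrrCharacter G, (if χ ∈ principalBlock M G then (χ : G → ℂ) σ else 0) *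
        ((χ : G → ℂ) (σ ^ 2 ^ k) * (χ : G → ℂ) (σ ^ 2 ^ k) / (χ : G → ℂ) 1) =
      2 + 2 * d / (charDegree (ψ : G → ℂ) : ℂ) - 8 * d / ((charDegree (ψ : G → ℂ) : ℂ) + d) := by
  have hN0 : 2 ^ (k + 1) ≠ 0 := by positivity
  have hζ := Complex.isPrimitiveRoot_exp (2 ^ (k + 1)) hN0
  set ζ := Complex.exp (2 * Real.pi * Complex.I / ((2 ^ (k + 1) : ℕ) : ℂ)) with hζdef
  obtain ⟨-, χ₁, χ₂, χ₃, χ', δ₁, δ₂, δ₃, a1, a2, a3, hinj, b1, b2, b3, c12, c13, c23, hχ', hblock,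
    hvals, hodd⟩ := dih_main hM S hσS hσo hS hall hζ hk
  have hNh : 2 ^ (k + 1) = 2 ^ k + 2 ^ k := by rw [pow_succ]; ring
  have hh2 : 2 ≤ 2 ^ k := by
    calc 2 = 2 ^ 1 := by norm_num
      _ ≤ 2 ^ k := Nat.pow_le_pow_right (by norm_num) hk
  have hheven : Even (2 ^ k) := Nat.even_pow.mpr ⟨even_two, by omega⟩
  have hz : ζ ^ (2 ^ k) = -1 := zeta_half (by omega) (by rw [← two_mul] at hNh; rw [← hNh]; exact hζ)
  have hv1 := hvals 1 (by omega) (by omega)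
  have hv2 := hvals 2 (by omega) (by omega)
  have hvh := hvals (2 ^ k) (by omega) (by omega)
  rw [pow_one] at hv1
  have hpm : ∀ j : ℕ, (ζ ^ ((j + 1) * 2 ^ k) + (ζ ^ ((j + 1) * 2 ^ k))⁻¹) = 2 * (-1) ^ (j + 1) := by
    intro j
    rw [mul_comm, pow_mul, hz]
    rcases neg_one_pow_eq_or ℂ (j + 1) with h | h <;> rw [h] <;> norm_num
  -- identify ψ
  have hψe : ψ = χ₁ ∧ d = δ₁ := by
    have hm := hψ
    rw [hblock] at hm
    have e1 := hval 1 (by omega) (by omega)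
    have e2 := hval 2 (by omega) (by omega)
    have eh := hval (2 ^ k) (by omega) (by omega)
    rw [pow_one] at e1
    rcases hm with h | h | h | h | ⟨j, h⟩
    · exact absurd h hψ1
    · refine ⟨h, ?_⟩
      rw [h, hv1.1] at e1
      exact_mod_cast e1.symm
    · exfalso
      rw [h, hv1.2.1] at e1
      rw [h, hv2.2.1] at e2
      have : (δ₂ : ℂ) = 0 := by
        have := e1.trans e2.symm
        norm_num at this
        linear_combination this / 2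
      rcases a2 with a | a <;> rw [a] at this <;> norm_num at this
    · exfalso
      rw [h, hv1.2.2.1] at e1
      rw [h, hv2.2.2.1] at e2
      have : (δ₃ : ℂ) = 0 := by
        have := e1.trans e2.symm
        norm_num at this
        linear_combination this / 2
      rcases a3 with a | a <;> rw [a] at this <;> norm_num at this
    · exfalso
      rw [h, hvh.2.2.2 j, hpm] at eh
      rcases neg_one_pow_eq_or ℂ ((j : ℕ) + 1) with h' | h' <;> rw [h'] at eh <;>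
        rcases a1 with a | a <;> rcases hd with b | b <;> rw [a, b] at eh <;> norm_num at eh
  obtain ⟨e1, e2⟩ := hψe
  rw [e1, e2]
  have hδ : (δ₁ : ℂ) * δ₁ = 1 := by
    rcases a1 with a | a <;> rw [a] <;> norm_num
  obtain ⟨hx0, hx1, -⟩ := irr_charDegree χ₁.2
  set x₁ : ℂ := (charDegree (χ₁ : G → ℂ) : ℂ) with hx₁
  have hx₁0 : x₁ ≠ 0 := by rw [hx₁]; exact_mod_cast hx0.ne'
  have hdeg : ∀ j, (χ' j : G → ℂ) 1 = x₁ + δ₁ := by
    intro j
    have := (hodd 1 (by simp) j).2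
    rw [hx1] at this
    linear_combination (-(δ₁ : ℂ)) * this - ((χ' j : G → ℂ) 1 - x₁) * hδ
  have hxd : x₁ + δ₁ ≠ 0 := by
    have j0 : Fin (2 ^ k - 1) := ⟨0, by omega⟩
    rw [← hdeg j0, (irr_charDegree (χ' j0).2).2.1]
    exact_mod_cast (irr_charDegree (χ' j0).2).1.ne'
  refine ⟨hxd, ?_⟩
  have htriv : ∀ χ : IrrCharacter G, (χ : G → ℂ) = (fun _ => 1) ↔ χ = triv G := by
    intro χ
    constructor
    · intro h; exact Subtype.ext h
    · rintro rfl; rfl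
  have hsum : ∀ F : IrrCharacter G → ℂ,
      ∑ χ : IrrCharacter G, (if χ ∈ principalBlock M G then F χ else 0) =
        F (triv G) + F χ₁ + F χ₂ + F χ₃ + ∑ j, F (χ' j) := by
    intro F
    rw [← Finset.sum_filter]
    have hf : Finset.univ.filter (fun χ : IrrCharacter G => χ ∈ principalBlock M G) =
        insert (triv G) (insert χ₁ (insert χ₂ (insert χ₃ (Finset.univ.image χ')))) := by
      ext χ
      rw [hblock]
      simp only [Finset.mem_filter, Finset.mem_univ, true_and, Set.mem_ofPred_eq,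
        Finset.mem_insert, Finset.mem_image, htriv]
      constructor
      · rintro (h | h | h | h | ⟨j, h⟩)
        · exact Or.inl h
        · exact Or.inr (Or.inl h)
        · exact Or.inr (Or.inr (Or.inl h))
        · exact Or.inr (Or.inr (Or.inr (Or.inl h)))
        · exact Or.inr (Or.inr (Or.inr (Or.inr ⟨j, h.symm⟩)))
      · rintro (h | h | h | h | ⟨j, h⟩)
        · exact Or.inl h
        · exact Or.inr (Or.inl h)
        · exact Or.inr (Or.inr (Or.inl h))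
        · exact Or.inr (Or.inr (Or.inr (Or.inl h)))
        · exact Or.inr (Or.inr (Or.inr (Or.inr ⟨j, h.symm⟩)))
    have hn : ∀ χ : IrrCharacter G, (∀ j, χ' j ≠ χ) → χ ∉ Finset.univ.image χ' := by
      intro χ h hm
      obtain ⟨j, -, hj⟩ := Finset.mem_image.mp hm
      exact h j hj
    rw [hf, Finset.sum_insert, Finset.sum_insert, Finset.sum_insert, Finset.sum_insert,
      Finset.sum_image (fun a _ b _ h => hinj h)]
    · ring
    · exact hn _ fun j => (hχ' j).2.2.1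
    · simp only [Finset.mem_insert, not_or]
      exact ⟨c23, hn _ fun j => (hχ' j).2.1⟩
    · simp only [Finset.mem_insert, not_or]
      exact ⟨c12, c13, hn _ fun j => (hχ' j).1⟩
    · simp only [Finset.mem_insert, not_or]
      refine ⟨fun h => b1 ((htriv _).mpr h.symm), fun h => b2 ((htriv _).mpr h.symm),
        fun h => b3 ((htriv _).mpr h.symm), hn _ fun j h => (hχ' j).2.2.2 ((htriv _).mpr h)⟩
  simp only [ite_mul, zero_mul]
  rw [hsum, hsum]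
  simp only [triv_apply]
  have hp1 : ((-1 : ℂ)) ^ (2 ^ k + 1) = -1 := by
    rw [pow_succ, hheven.neg_one_pow]; norm_num
  have hp2 : ((-1 : ℂ)) ^ (2 ^ k) = 1 := hheven.neg_one_pow
  rw [hvh.1, hvh.2.1, hvh.2.2.1, hv1.1, hv1.2.1, hv1.2.2.1, hp1, hx1]
  have hW1 := zeta_sum hζ (l := 2 ^ k) (by omega) (by omega)
  have hW2 := zeta_sum hζ (l := 1) (by omega) (by omega)
  rw [hp2, ← sum_fin_Ico (fun i => ζ ^ (i * 2 ^ k) + (ζ ^ (i * 2 ^ k))⁻¹)] at hW1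
  rw [← sum_fin_Ico (fun i => ζ ^ (i * 1) + (ζ ^ (i * 1))⁻¹)] at hW2
  have hsq : ∀ j : Fin (2 ^ k - 1), (χ' j : G → ℂ) (σ ^ 2 ^ k) * (χ' j : G → ℂ) (σ ^ 2 ^ k) = 4 := by
    intro j
    rw [hvh.2.2.2 j, hpm]
    rcases neg_one_pow_eq_or ℂ ((j : ℕ) + 1) with h' | h' <;> rw [h'] <;>
      linear_combination 4 * hδ
  have hT1 : ∑ j, (χ' j : G → ℂ) (σ ^ 2 ^ k) * ((χ' j : G → ℂ) (σ ^ 2 ^ k) *
      (χ' j : G → ℂ) (σ ^ 2 ^ k) / (χ' j : G → ℂ) 1) =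
      δ₁ * (4 / (x₁ + δ₁)) * ∑ j : Fin (2 ^ k - 1),
        (ζ ^ (((j : ℕ) + 1) * 2 ^ k) + (ζ ^ (((j : ℕ) + 1) * 2 ^ k))⁻¹) := by
    rw [Finset.mul_sum]
    refine Finset.sum_congr rfl fun j _ => ?_
    rw [hsq, hdeg, hvh.2.2.2 j]
    ring
  have hT2 : ∑ j, (χ' j : G → ℂ) σ * ((χ' j : G → ℂ) (σ ^ 2 ^ k) *
      (χ' j : G → ℂ) (σ ^ 2 ^ k) / (χ' j : G → ℂ) 1) =
      δ₁ * (4 / (x₁ + δ₁)) * ∑ j : Fin (2 ^ k - 1),
        (ζ ^ (((j : ℕ) + 1) * 1) + (ζ ^ (((j : ℕ) + 1) * 1))⁻¹) := by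
    rw [Finset.mul_sum]
    refine Finset.sum_congr rfl fun j _ => ?_
    rw [hsq, hdeg, hv1.2.2.2 j]
    ring
  rw [hT1, hT2]
  have hS1 : ∑ j : Fin (2 ^ k - 1),
      (ζ ^ (((j : ℕ) + 1) * 2 ^ k) + (ζ ^ (((j : ℕ) + 1) * 2 ^ k))⁻¹) = -2 := by
    linear_combination hW1
  have hS2 : ∑ j : Fin (2 ^ k - 1),
      (ζ ^ (((j : ℕ) + 1) * 1) + (ζ ^ (((j : ℕ) + 1) * 1))⁻¹) = 0 := by
    linear_combination hW2
  rw [hS1, hS2]
  have hδ3 : (δ₁ : ℂ) * (δ₁ * δ₁ / x₁) = δ₁ / x₁ := by rw [hδ]; ring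
  rw [hδ3]
  ring

end Cfsg.Agent.Lib.helper8_Dih9
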