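import Mathlib

set_option autoImplicit false
universe u

namespace Cfsg.Agent.Lib.helper8_Landau

/-- Finiteness of the solutions of `∑ 1 / n_i = r` with a fixed number of terms. -/
theorem unitFractions_bound (k : ℕ) : ∀ r : ℚ, ∃ N : ℕ, ∀ s : Multiset ℕ, Multiset.card s = k →
    (∀ n ∈ s, 0 < n) → (s.map (fun n : ℕ => (1 : ℚ) / n)).sum = r → ∀ n ∈ s, n ≤ N := by
  induction k with
  | zero =>
    intro r
    refine ⟨0, fun s hs _ _ n hn => ?_⟩
    rw [Multiset.card_eq_zero.mp hs] at hn
    simp at hn
  | succ k ih =>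
    intro r
    choose f hf using ih
    by_cases hr : 0 < r
    swap
    · refine ⟨0, fun s hs hpos hsum n hn => ?_⟩
      exfalso
      obtain ⟨t, rfl⟩ := Multiset.exists_cons_of_mem hn
      rw [Multiset.map_cons, Multiset.sum_cons] at hsum
      have h1 : 0 ≤ (t.map (fun n : ℕ => (1 : ℚ) / n)).sum := by
        apply Multiset.sum_nonneg
        intro x hx
        obtain ⟨m, -, rfl⟩ := Multiset.mem_map.mp hx
        positivity
      have h2 : (0 : ℚ) < 1 / n := by
        have : (0 : ℚ) < n := by exact_mod_cast hpos n hn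
        positivity
      linarith
    set m0 : ℕ := ⌈((k : ℚ) + 1) / r⌉₊ with hm0
    refine ⟨m0 + ∑ m ∈ Finset.range (m0 + 1), f (r - 1 / m), fun s hs hpos hsum => ?_⟩
    have hex : ∃ m ∈ s, m ≤ m0 := by
      by_contra hcon
      push Not at hcon
      have h1 : (s.map (fun n : ℕ => (1 : ℚ) / n)).sum ≤
          Multiset.card (s.map (fun n : ℕ => (1 : ℚ) / n)) • ((1 : ℚ) / (m0 + 1)) := by
        apply Multiset.sum_le_card_nsmul
        intro x hx
        obtain ⟨m, hm, rfl⟩ := Multiset.mem_map.mp hx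
        have h2 : ((m0 : ℚ) + 1) ≤ m := by exact_mod_cast hcon m hm
        exact one_div_le_one_div_of_le (by positivity) h2
      rw [Multiset.card_map, hs, hsum, nsmul_eq_mul] at h1
      have h3 : ((k : ℚ) + 1) / r ≤ m0 := Nat.le_ceil _
      rw [div_le_iff₀ hr] at h3
      have h4 : (0 : ℚ) < (m0 : ℚ) + 1 := by positivity
      rw [mul_one_div, le_div_iff₀ h4] at h1
      push_cast at h1
      nlinarith
    obtain ⟨m, hm, hmle⟩ := hex
    obtain ⟨t, rfl⟩ := Multiset.exists_cons_of_mem hm
    rw [Multiset.map_cons, Multiset.sum_cons] at hsum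
    rw [Multiset.card_cons] at hs
    have ht := hf (r - 1 / m) t (Nat.succ_injective hs)
      (fun n hn => hpos n (Multiset.mem_cons_of_mem hn)) (by linarith)
    have hle : f (r - 1 / m) ≤ ∑ m ∈ Finset.range (m0 + 1), f (r - 1 / m) :=
      Finset.single_le_sum (f := fun m : ℕ => f (r - 1 / m)) (fun _ _ => Nat.zero_le _)
        (Finset.mem_range.mpr (Nat.lt_succ_of_le hmle))
    intro n hn
    rcases Multiset.mem_cons.mp hn with rfl | hn
    · omega
    · have := ht n hn
      omega

/-- **Landau's theorem**: the order of a finite group is bounded in terms of its class number. -/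
theorem landau (K : ℕ) : ∃ N : ℕ, ∀ (G : Type u) [Group G] [Finite G],
    Nat.card (ConjClasses G) ≤ K → Nat.card G ≤ N := by
  classical
  choose f hf using fun k => unitFractions_bound k 1
  refine ⟨∑ k ∈ Finset.range (K + 1), f k, fun G _ _ hK => ?_⟩
  have := Fintype.ofFinite G
  have hG : (Nat.card G : ℚ) ≠ 0 := by exact_mod_cast Nat.card_pos.ne'
  have hdvd : ∀ c : ConjClasses G, c.carrier.ncard ∣ Nat.card G := by
    intro c
    obtain ⟨g, rfl⟩ := ConjClasses.mk_surjective c
    rw [← ConjAct.orbit_eq_carrier_conjClasses, ← Nat.card_coe_set_eq]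
    have := MulAction.card_orbit_mul_card_stabilizer_eq_card_group (ConjAct G) g
    rw [← Nat.card_eq_fintype_card, ← Nat.card_eq_fintype_card, ← Nat.card_eq_fintype_card] at this
    exact ⟨_, this.symm⟩
  have hpos : ∀ c : ConjClasses G, 0 < c.carrier.ncard := by
    intro c
    obtain ⟨g, rfl⟩ := ConjClasses.mk_surjective c
    exact (Set.ncard_pos (Set.toFinite _)).mpr ⟨g, ConjClasses.mem_carrier_mk⟩
  set s : Multiset ℕ := (Finset.univ : Finset (ConjClasses G)).val.map
    (fun c => Nat.card G / c.carrier.ncard) with hs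
  have hcard : Multiset.card s = Nat.card (ConjClasses G) := by
    rw [hs, Multiset.card_map, Nat.card_eq_fintype_card]
    rfl
  have h1 := hf (Nat.card (ConjClasses G)) s hcard (by
    intro n hn
    obtain ⟨c, -, rfl⟩ := Multiset.mem_map.mp hn
    exact Nat.div_pos (Nat.le_of_dvd Nat.card_pos (hdvd c)) (hpos c)) (by
    rw [hs, Multiset.map_map]
    change ∑ c : ConjClasses G, (1 : ℚ) / ((Nat.card G / c.carrier.ncard : ℕ) : ℚ) = 1
    have h2 : ∀ c : ConjClasses G, (1 : ℚ) / ((Nat.card G / c.carrier.ncard : ℕ) : ℚ) =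
        (c.carrier.ncard : ℚ) / (Nat.card G : ℚ) := by
      intro c
      have h3 : (c.carrier.ncard : ℚ) ≠ 0 := by exact_mod_cast (hpos c).ne'
      rw [Nat.cast_div (hdvd c) h3]
      field_simp
    rw [Finset.sum_congr rfl fun c _ => h2 c, ← Finset.sum_div, div_eq_one_iff_eq hG]
    have h4 := Group.sum_card_conj_classes_eq_card (G := G)
    rw [finsum_eq_sum_of_fintype] at h4
    exact_mod_cast h4)
  have h5 : Nat.card G ∈ s := by
    rw [hs]
    refine Multiset.mem_map.mpr ⟨ConjClasses.mk 1, Finset.mem_univ _, ?_⟩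
    have : (ConjClasses.mk (1 : G)).carrier = {1} := by
      ext x
      rw [ConjClasses.mem_carrier_iff_mk_eq, ConjClasses.mk_eq_mk_iff_isConj, Set.mem_singleton_iff]
      constructor
      · intro h
        exact isConj_one_right.mp h.symm
      · rintro rfl
        exact IsConj.refl _
    rw [this, Set.ncard_singleton, Nat.div_one]
  have h6 := h1 _ h5
  have h7 : f (Nat.card (ConjClasses G)) ≤ ∑ k ∈ Finset.range (K + 1), f k :=
    Finset.single_le_sum (f := f) (fun _ _ => Nat.zero_le _)
      (Finset.mem_range.mpr (Nat.lt_succ_of_le hK))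
  omega

end Cfsg.Agent.Lib.helper8_Landau
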