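import Mathlib
import Cfsg.Prelude.Def_Characters
import Cfsg.Agent.Lib.CharPermChar

set_option autoImplicit false

namespace Cfsg.Agent.Lib.helper8_PermRing

open Cfsg Cfsg.Agent.Lib.CharBasic Cfsg.Agent.Lib.CharInd Cfsg.Agent.Lib.CharPermChar
open scoped ComplexConjugate Classical

universe u v

variable {G : Type u} [Group G]

theorem indFun_one_congr [Fintype G] {H K : Subgroup G} (h : H = K) :
    indFun H (fun _ => (1 : ℂ)) = indFun K (fun _ => 1) := by
  subst h; rfl

theorem stabilizer_orbit {X : Type v} [MulAction G X] (x : X) :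
    MulAction.stabilizer G (⟨x, MulAction.mem_orbit_self x⟩ : MulAction.orbit G x) =
      MulAction.stabilizer G x := by
  ext g
  simp [MulAction.mem_stabilizer_iff, Subtype.ext_iff]

/-- The permutation character is the sum over the orbits of the characters induced from the
stabilizers of representatives. -/
theorem permChar_eq_sum_orbits [Fintype G] {X : Type v} [MulAction G X] [Fintype X]
    (rep : MulAction.orbitRel.Quotient G X → X)
    (hrep : ∀ ω, (Quotient.mk'' (rep ω) : MulAction.orbitRel.Quotient G X) = ω) :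
    permChar (G := G) X =
      ∑ ω : MulAction.orbitRel.Quotient G X,
        indFun (MulAction.stabilizer G (rep ω)) (fun _ => (1 : ℂ)) := by
  have h1 : ∀ ω, indFun (MulAction.stabilizer G (rep ω)) (fun _ => (1 : ℂ)) =
      permChar (G := G) (MulAction.orbit G (rep ω)) := by
    intro ω
    rw [permChar_eq_indFun (G := G) (MulAction.orbit G (rep ω))
      ⟨rep ω, MulAction.mem_orbit_self _⟩]
    exact indFun_one_congr (stabilizer_orbit _).symm
  simp only [h1]
  ext g
  rw [Finset.sum_apply]
  simp only [permChar_apply]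
  rw [← Nat.cast_sum]
  congr 1
  rw [Nat.card_eq_fintype_card, Fintype.card_subtype]
  rw [Finset.card_eq_sum_card_fiberwise (f := fun z : X =>
    (Quotient.mk'' z : MulAction.orbitRel.Quotient G X)) (t := Finset.univ)
    (fun _ _ => Finset.mem_coe.mpr (Finset.mem_univ _))]
  refine Finset.sum_congr rfl fun ω _ => ?_
  rw [Nat.card_eq_fintype_card, ← Fintype.card_coe]
  refine Fintype.card_congr
    { toFun := fun z => ⟨⟨z.1, ?_⟩, ?_⟩
      invFun := fun z => ⟨z.1.1, ?_⟩
      left_inv := fun z => rfl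
      right_inv := fun z => rfl }
  · have h2 := (Finset.mem_filter.mp z.2).2
    have h3 := h2.trans (hrep ω).symm
    exact MulAction.orbitRel_apply.mp (Quotient.exact' h3)
  · have h2 := (Finset.mem_filter.mp (Finset.mem_filter.mp z.2).1).2
    rw [MulAction.mem_fixedBy] at h2 ⊢
    exact Subtype.ext h2
  · rw [Finset.mem_filter, Finset.mem_filter]
    refine ⟨⟨Finset.mem_univ _, ?_⟩, ?_⟩
    · have h2 := z.2
      rw [MulAction.mem_fixedBy] at h2 ⊢
      exact congrArg Subtype.val h2
    · refine Eq.trans ?_ (hrep ω)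
      exact Quotient.sound' (MulAction.orbitRel_apply.mpr z.1.2)

theorem permChar_prod {X Y : Type v} [MulAction G X] [MulAction G Y] [Finite X] [Finite Y] :
    permChar (G := G) (X × Y) = permChar (G := G) X * permChar (G := G) Y := by
  ext g
  rw [Pi.mul_apply, permChar_apply, permChar_apply, permChar_apply, ← Nat.cast_mul,
    ← Nat.card_prod]
  congr 1
  refine Nat.card_congr
    { toFun := fun z => (⟨z.1.1, ?_⟩, ⟨z.1.2, ?_⟩)
      invFun := fun z => ⟨(z.1.1, z.2.1), ?_⟩
      left_inv := fun z => rfl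
      right_inv := fun z => rfl }
  · have := z.2
    rw [MulAction.mem_fixedBy] at this ⊢
    exact congrArg Prod.fst this
  · have := z.2
    rw [MulAction.mem_fixedBy] at this ⊢
    exact congrArg Prod.snd this
  · rw [MulAction.mem_fixedBy]
    exact Prod.ext z.1.2 z.2.2

theorem permChar_quotient [Fintype G] (H : Subgroup G) :
    permChar (G := G) (G ⧸ H) = indFun H (fun _ => (1 : ℂ)) := by
  rw [permChar_eq_indFun (G := G) (G ⧸ H) ((1 : G) : G ⧸ H)]
  exact indFun_one_congr (MulAction.stabilizer_quotient H)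

/-- Product of permutation characters. -/
theorem indFun_one_mul [Fintype G] (H K : Subgroup G) :
    ∃ a : Subgroup G → ℕ, (∀ U, a U ≠ 0 → U ≤ H) ∧
      indFun H (fun _ => (1 : ℂ)) * indFun K (fun _ => 1) =
        ∑ U : Subgroup G, (a U : ℂ) • indFun U (fun _ => (1 : ℂ)) := by
  have := Fintype.ofFinite (G ⧸ H)
  have := Fintype.ofFinite (G ⧸ K)
  have hex : ∀ ω : MulAction.orbitRel.Quotient G ((G ⧸ H) × (G ⧸ K)),
      ∃ z : (G ⧸ H) × (G ⧸ K), Quotient.mk'' z = ω ∧ z.1 = ((1 : G) : G ⧸ H) := by
    intro ω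
    induction ω using Quotient.inductionOn' with
    | h z =>
      obtain ⟨g, hg⟩ := MulAction.exists_smul_eq G z.1 ((1 : G) : G ⧸ H)
      refine ⟨g • z, ?_, hg⟩
      apply Quotient.sound'
      rw [MulAction.orbitRel_apply]
      exact MulAction.mem_orbit _ _
  choose rep hrep hrep1 using hex
  refine ⟨fun U => (Finset.univ.filter fun ω => MulAction.stabilizer G (rep ω) = U).card, ?_, ?_⟩
  · intro U hU
    obtain ⟨ω, hω⟩ := Finset.card_pos.mp (Nat.pos_of_ne_zero hU)
    rw [← (Finset.mem_filter.mp hω).2]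
    intro g hg
    rw [MulAction.mem_stabilizer_iff] at hg
    have h1 := congrArg Prod.fst hg
    rw [Prod.smul_fst, hrep1] at h1
    have h2 : g ∈ MulAction.stabilizer G ((1 : G) : G ⧸ H) := h1
    rwa [MulAction.stabilizer_quotient] at h2
  · rw [← permChar_quotient, ← permChar_quotient, ← permChar_prod,
      permChar_eq_sum_orbits rep hrep]
    rw [← Finset.sum_fiberwise Finset.univ (fun ω => MulAction.stabilizer G (rep ω))]
    refine Finset.sum_congr rfl fun U _ => ?_
    rw [Finset.sum_congr rfl (g := fun _ => indFun U (fun _ => (1 : ℂ)))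
      (fun ω hω => indFun_one_congr (Finset.mem_filter.mp hω).2)]
    rw [Finset.sum_const, Nat.cast_smul_eq_nsmul]

/-- Integer combinations of the permutation characters on the cosets of subgroups in `F`. -/
def P [Fintype G] (F : Subgroup G → Prop) : AddSubgroup (G → ℂ) :=
  AddSubgroup.closure {f | ∃ H : Subgroup G, F H ∧ f = indFun H (fun _ => (1 : ℂ))}

theorem mem_P [Fintype G] {F : Subgroup G → Prop} {H : Subgroup G} (h : F H) :
    indFun H (fun _ => (1 : ℂ)) ∈ P F :=
  AddSubgroup.subset_closure ⟨H, h, rfl⟩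

theorem mul_mem_P [Fintype G] {F : Subgroup G → Prop} (hF : ∀ H U : Subgroup G, F H → U ≤ H → F U)
    {f g : G → ℂ} (hf : f ∈ P F) (hg : g ∈ P F) : f * g ∈ P F := by
  induction hf using AddSubgroup.closure_induction with
  | mem x hx =>
    obtain ⟨H, hH, rfl⟩ := hx
    induction hg using AddSubgroup.closure_induction with
    | mem y hy =>
      obtain ⟨K, -, rfl⟩ := hy
      obtain ⟨a, ha, hs⟩ := indFun_one_mul H K
      rw [hs]
      refine AddSubgroup.sum_mem _ fun U _ => ?_
      by_cases hU : a U = 0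
      · rw [hU]; simp only [Nat.cast_zero, zero_smul]; exact (P F).zero_mem
      · rw [Nat.cast_smul_eq_nsmul]
        exact (P F).nsmul_mem (mem_P (hF H U hH (ha U hU))) _
    | zero => rw [mul_zero]; exact (P F).zero_mem
    | add x y _ _ hx hy => rw [mul_add]; exact (P F).add_mem hx hy
    | neg x _ hx => rw [mul_neg]; exact (P F).neg_mem hx
  | zero => rw [zero_mul]; exact (P F).zero_mem
  | add x y _ _ hx hy => rw [add_mul]; exact (P F).add_mem hx hy
  | neg x _ hx => rw [neg_mul]; exact (P F).neg_mem hx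

theorem exists_coeff_of_mem_P [Fintype G] {F : Subgroup G → Prop} {f : G → ℂ} (hf : f ∈ P F) :
    ∃ a : Subgroup G → ℤ, (∀ H, a H ≠ 0 → F H) ∧
      f = ∑ H : Subgroup G, (a H : ℂ) • indFun H (fun _ => (1 : ℂ)) := by
  induction hf using AddSubgroup.closure_induction with
  | mem x hx =>
    obtain ⟨H, hH, rfl⟩ := hx
    refine ⟨fun U => if U = H then 1 else 0, ?_, ?_⟩
    · intro U hU
      by_cases h : U = H
      · rw [h]; exact hH
      · simp [h] at hU
    · rw [Finset.sum_eq_single H]
      · simp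
      · intro U _ hU
        simp [hU]
      · intro h; exact absurd (Finset.mem_univ _) h
  | zero => exact ⟨0, by simp, by simp⟩
  | add x y _ _ hx hy =>
    obtain ⟨a, ha, rfl⟩ := hx
    obtain ⟨b, hb, rfl⟩ := hy
    refine ⟨a + b, ?_, ?_⟩
    · intro H hH
      by_cases h : a H = 0
      · apply hb
        intro h'
        apply hH
        rw [Pi.add_apply, h, h', add_zero]
      · exact ha H h
    · rw [← Finset.sum_add_distrib]
      refine Finset.sum_congr rfl fun H _ => ?_
      rw [Pi.add_apply, Int.cast_add, add_smul]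
  | neg x _ hx =>
    obtain ⟨a, ha, rfl⟩ := hx
    refine ⟨-a, ?_, ?_⟩
    · intro H hH
      apply ha
      intro h
      apply hH
      rw [Pi.neg_apply, h, neg_zero]
    · rw [← Finset.sum_neg_distrib]
      refine Finset.sum_congr rfl fun H _ => ?_
      rw [Pi.neg_apply, Int.cast_neg, neg_smul]

/-- Local form of Banaschewski's lemma for a multiplicatively closed group of functions. -/
theorem const_mem_of_mul_closed [Fintype G] (A : AddSubgroup (G → ℂ))
    (hmul : ∀ f ∈ A, ∀ g ∈ A, f * g ∈ A) {p : ℕ} (hp : p.Prime)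
    (h : ∀ x : G, ∃ f ∈ A, ∃ n : ℤ, f x = n ∧ ¬ (p : ℤ) ∣ n) :
    ∃ m : ℤ, ¬ (p : ℤ) ∣ m ∧ (fun _ : G => (m : ℂ)) ∈ A := by
  choose f hf n hfx hn using h
  have hp' : Prime (p : ℤ) := Nat.prime_iff_prime_int.mp hp
  have key : ∀ S : Finset G, ∃ r ∈ A, ∃ m : ℤ, ¬ (p : ℤ) ∣ m ∧ ∀ x ∈ S, r x = m := by
    intro S
    induction S using Finset.induction_on with
    | empty => exact ⟨0, A.zero_mem, 1, fun h => hp'.not_isUnit (isUnit_of_dvd_one h), by simp⟩
    | insert a S _ ih =>
      obtain ⟨r, hr, m, hm, hrS⟩ := ih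
      refine ⟨(n a) • r + m • f a - r * f a,
        A.sub_mem (A.add_mem (A.zsmul_mem hr _) (A.zsmul_mem (hf a) _))
          (hmul r hr _ (hf a)), m * n a, ?_, ?_⟩
      · intro hd
        rcases hp'.dvd_or_dvd hd with h | h
        · exact hm h
        · exact hn a h
      · intro x hx
        simp only [Pi.add_apply, Pi.sub_apply, Pi.mul_apply, zsmul_eq_mul, Pi.intCast_apply]
        push_cast
        rcases Finset.mem_insert.mp hx with rfl | hx
        · rw [hfx]; ring
        · rw [hrS x hx]; ring
  obtain ⟨r, hr, m, hm, hr1⟩ := key Finset.univ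
  refine ⟨m, hm, ?_⟩
  have : r = fun _ => (m : ℂ) := by
    ext x
    exact hr1 x (Finset.mem_univ x)
  rwa [this] at hr

end Cfsg.Agent.Lib.helper8_PermRing
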