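import Mathlib
import Cfsg.Prelude.Def_RootSubgroups

set_option autoImplicit false

namespace Cfsg.Agent.Lib.helper8_RankOne

open Cfsg

variable {G : Type*} [Group G]

/-! ### conjBy basics -/

lemma mem_conjBy {A : Subgroup G} {g x : G} : x ∈ conjBy A g ↔ g⁻¹ * x * g ∈ A := by
  constructor
  · rintro ⟨y, hy, rfl⟩
    simpa [MulAut.conj_apply, mul_assoc] using hy
  · intro h
    exact ⟨_, h, by simp [MulAut.conj_apply, mul_assoc]⟩

lemma conj_mem_conjBy {A : Subgroup G} {x : G} (hx : x ∈ A) (g : G) : g * x * g⁻¹ ∈ conjBy A g := by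
  rw [mem_conjBy]; simpa [mul_assoc] using hx

lemma conjBy_one (A : Subgroup G) : conjBy A 1 = A := by
  ext x; simp

lemma conjBy_conjBy (A : Subgroup G) (g h : G) : conjBy (conjBy A g) h = conjBy A (h * g) := by
  ext x; simp [mul_assoc]

lemma conjBy_of_mem {A : Subgroup G} {g : G} (hg : g ∈ A) : conjBy A g = A := by
  ext x; rw [mem_conjBy]
  constructor
  · intro h
    have := A.mul_mem (A.mul_mem hg h) (A.inv_mem hg)
    simpa [mul_assoc] using this
  · intro h; exact A.mul_mem (A.mul_mem (A.inv_mem hg) h) hg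

lemma conjBy_eq_iff {A B : Subgroup G} {g : G} : conjBy A g = B ↔ A = conjBy B g⁻¹ := by
  constructor
  · rintro rfl; rw [conjBy_conjBy]; simp [conjBy_one]
  · intro h; rw [h, conjBy_conjBy]; simp [conjBy_one]

lemma conjBy_inj {A B : Subgroup G} {g : G} : conjBy A g = conjBy B g ↔ A = B := by
  rw [conjBy_eq_iff, conjBy_conjBy]; simp [conjBy_one]

lemma conjBy_mono {A B : Subgroup G} (h : A ≤ B) (g : G) : conjBy A g ≤ conjBy B g :=
  Subgroup.map_mono h

lemma conjBy_le_iff {A B : Subgroup G} {g : G} : conjBy A g ≤ conjBy B g ↔ A ≤ B := by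
  constructor
  · intro h x hx
    have := h (conj_mem_conjBy hx g)
    rw [mem_conjBy] at this
    simpa [mul_assoc] using this
  · intro h; exact conjBy_mono h g

lemma conjBy_le_of_le_of_mem {A U : Subgroup G} {g : G} (h : A ≤ U) (hg : g ∈ U) : conjBy A g ≤ U := by
  have := conjBy_mono h g
  rwa [conjBy_of_mem hg] at this

lemma mem_normalizer_iff_conjBy {A : Subgroup G} {g : G} :
    g ∈ Subgroup.normalizer (A : Set G) ↔ conjBy A g = A :=
  Subgroup.mem_normalizer_iff_map_conj_eq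

lemma conjBy_sup (A B : Subgroup G) (g : G) : conjBy (A ⊔ B) g = conjBy A g ⊔ conjBy B g :=
  Subgroup.map_sup _ _ _

lemma conjBy_bot (g : G) : conjBy (⊥ : Subgroup G) g = ⊥ := Subgroup.map_bot _

lemma conjBy_eq_bot_iff {A : Subgroup G} {g : G} : conjBy A g = ⊥ ↔ A = ⊥ := by
  rw [conjBy_eq_iff, conjBy_bot]

lemma conjBy_top (g : G) : conjBy (⊤ : Subgroup G) g = ⊤ := conjBy_of_mem (Subgroup.mem_top g)

lemma conjBy_normal {N : Subgroup G} (hN : N.Normal) (g : G) : conjBy N g = N := by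
  ext x; rw [mem_conjBy]
  constructor
  · intro h
    have := hN.conj_mem _ h g
    simpa [mul_assoc] using this
  · intro h
    have := hN.conj_mem _ h g⁻¹
    simpa [mul_assoc] using this

/-- the isomorphism `A ≃* conjBy A g`. -/
noncomputable def conjByEquiv (A : Subgroup G) (g : G) : A ≃* conjBy A g :=
  A.equivMapOfInjective _ (MulAut.conj g).injective

lemma conjBy_nilpotent {A : Subgroup G} (h : Group.IsNilpotent A) (g : G) :
    Group.IsNilpotent (conjBy A g) :=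
  (Group.isNilpotent_congr (conjByEquiv A g)).mp h


/-- The subgroup of elements stabilising a family of subgroups under conjugation. -/
def famStab (Δ : Set (Subgroup G)) : Subgroup G where
  carrier := {x | ∀ C, conjBy C x ∈ Δ ↔ C ∈ Δ}
  one_mem' := by intro C; rw [conjBy_one]
  mul_mem' := by
    intro x y hx hy C
    rw [← conjBy_conjBy, hx, hy]
  inv_mem' := by
    intro x hx C
    rw [← hx (conjBy C x⁻¹), conjBy_conjBy]; simp [conjBy_one]

lemma mem_famStab {Δ : Set (Subgroup G)} {x : G} : x ∈ famStab Δ ↔ ∀ C, conjBy C x ∈ Δ ↔ C ∈ Δ :=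
  Iff.rfl

lemma le_famStab {Δ : Set (Subgroup G)} {A : Subgroup G}
    (hA : ∀ x ∈ A, ∀ C ∈ Δ, conjBy C x ∈ Δ) : A ≤ famStab Δ := by
  intro x hx C
  refine ⟨fun h => ?_, hA x hx C⟩
  have := hA x⁻¹ (A.inv_mem hx) _ h
  rw [conjBy_conjBy] at this
  simpa [conjBy_one] using this

/-! ### Rank one pairs -/

section RankOne

variable {A B : Subgroup G}

lemma cond_left' (h : IsRankOnePair A B) {a : G} (ha : a ∈ A) (ha1 : a ≠ 1) :
    ∃ b ∈ B, b ≠ 1 ∧ conjBy A b = conjBy B a := by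
  obtain ⟨b, hb, hb1, e⟩ := h.cond_left a⁻¹ (A.inv_mem ha) (inv_ne_one.mpr ha1)
  exact ⟨b⁻¹, B.inv_mem hb, inv_ne_one.mpr hb1, by simpa using e⟩

lemma cond_right' (h : IsRankOnePair A B) {b : G} (hb : b ∈ B) (hb1 : b ≠ 1) :
    ∃ a ∈ A, a ≠ 1 ∧ conjBy A b = conjBy B a := by
  obtain ⟨a, ha, ha1, e⟩ := cond_left' (RankOnePair_symm h) hb hb1
  exact ⟨a, ha, ha1, e.symm⟩

lemma eq_one_of_normalizes_right (h : IsRankOnePair A B) {a : G} (ha : a ∈ A)
    (hn : conjBy B a = B) : a = 1 := by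
  by_contra ha1
  obtain ⟨b, hb, -, e⟩ := cond_left' h ha ha1
  rw [hn, conjBy_eq_iff, conjBy_of_mem (B.inv_mem hb)] at e
  exact h.ne e

lemma eq_one_of_normalizes_left (h : IsRankOnePair A B) {b : G} (hb : b ∈ B)
    (hn : conjBy A b = A) : b = 1 :=
  eq_one_of_normalizes_right (RankOnePair_symm h) hb hn

lemma inf_normalizer_right (h : IsRankOnePair A B) : A ⊓ Subgroup.normalizer (B : Set G) = ⊥ := by
  rw [eq_bot_iff]
  rintro a ⟨ha, hn⟩
  exact eq_one_of_normalizes_right h ha (mem_normalizer_iff_conjBy.mp hn)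

lemma inf_normalizer_left (h : IsRankOnePair A B) : B ⊓ Subgroup.normalizer (A : Set G) = ⊥ :=
  inf_normalizer_right (RankOnePair_symm h)

lemma inf_eq_bot (h : IsRankOnePair A B) : A ⊓ B = ⊥ := by
  rw [eq_bot_iff]
  rintro a ⟨ha, hb⟩
  exact eq_one_of_normalizes_right h ha (conjBy_of_mem hb)

lemma conjBy_right_inj (h : IsRankOnePair A B) {a a' : G} (ha : a ∈ A) (ha' : a' ∈ A)
    (e : conjBy B a = conjBy B a') : a = a' := by
  rw [conjBy_eq_iff, conjBy_conjBy] at e
  have := eq_one_of_normalizes_right h (A.mul_mem (A.inv_mem ha) ha') e.symm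
  exact (inv_mul_eq_one.mp this)

lemma conjBy_left_inj (h : IsRankOnePair A B) {b b' : G} (hb : b ∈ B) (hb' : b' ∈ B)
    (e : conjBy A b = conjBy A b') : b = b' :=
  conjBy_right_inj (RankOnePair_symm h) hb hb' e

lemma exists_ne_one_left (h : IsRankOnePair A B) : ∃ a ∈ A, a ≠ 1 := by
  by_contra hcon
  push Not at hcon
  have hA : A = ⊥ := (Subgroup.eq_bot_iff_forall A).mpr hcon
  have hB : B ≠ ⊥ := fun hB => h.ne (hA.trans hB.symm)
  obtain ⟨b, hb, hb1⟩ : ∃ b ∈ B, b ≠ 1 := by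
    by_contra hc
    push Not at hc
    exact hB ((Subgroup.eq_bot_iff_forall B).mpr hc)
  obtain ⟨a, ha, ha1, -⟩ := cond_right' h hb hb1
  exact ha1 (hcon a ha)

lemma exists_ne_one_right (h : IsRankOnePair A B) : ∃ b ∈ B, b ≠ 1 :=
  exists_ne_one_left (RankOnePair_symm h)

lemma ne_bot_left (h : IsRankOnePair A B) : A ≠ ⊥ := by
  obtain ⟨a, ha, ha1⟩ := exists_ne_one_left h
  intro e; rw [e] at ha; exact ha1 (Subgroup.mem_bot.mp ha)

lemma ne_bot_right (h : IsRankOnePair A B) : B ≠ ⊥ := ne_bot_left (RankOnePair_symm h)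

lemma conjBy_right_ne_left (h : IsRankOnePair A B) {a : G} (ha : a ∈ A) : conjBy B a ≠ A := by
  intro e
  rw [conjBy_eq_iff, conjBy_of_mem (A.inv_mem ha)] at e
  exact h.ne e.symm

/-- conjugating a rank one pair -/
lemma conj_pair (h : IsRankOnePair A B) (g : G) : IsRankOnePair (conjBy A g) (conjBy B g) := by
  have key : ∀ {A B : Subgroup G}, RankOneCondition A B →
      RankOneCondition (conjBy A g) (conjBy B g) := by
    intro A B hc a ha ha1
    rw [mem_conjBy] at ha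
    obtain ⟨b, hb, hb1, e⟩ := hc _ ha (by
      intro e; apply ha1
      have : a = g * (g⁻¹ * a * g) * g⁻¹ := by group
      rw [this, e]; group)
    refine ⟨g * b * g⁻¹, conj_mem_conjBy hb g, ?_, ?_⟩
    · intro e'; apply hb1
      have : b = g⁻¹ * (g * b * g⁻¹) * g := by group
      rw [this, e']; group
    · rw [conjBy_conjBy, conjBy_conjBy]
      have e1 : (g * b * g⁻¹)⁻¹ * g = g * b⁻¹ := by group
      have e2 : a⁻¹ * g = g * (g⁻¹ * a * g)⁻¹ := by group
      rw [e1, e2, ← conjBy_conjBy, ← conjBy_conjBy B, e]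
  exact ⟨fun e => h.ne (conjBy_inj.mp e), conjBy_nilpotent h.nilpotent_left g,
    conjBy_nilpotent h.nilpotent_right g, key h.cond_left, key h.cond_right⟩

/-- The family `{A} ∪ B^A`. -/
def omega (A B : Subgroup G) : Set (Subgroup G) := {C | C = A ∨ ∃ a ∈ A, C = conjBy B a}

lemma sup_le_famStab_omega (h : IsRankOnePair A B) : A ⊔ B ≤ famStab (omega A B) := by
  refine sup_le (le_famStab ?_) (le_famStab ?_)
  · rintro x hx C (rfl | ⟨a, ha, rfl⟩)
    · left; exact conjBy_of_mem hx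
    · right; exact ⟨x * a, A.mul_mem hx ha, conjBy_conjBy _ _ _⟩
  · rintro x hx C (rfl | ⟨a, ha, rfl⟩)
    · by_cases hx1 : x = 1
      · left; rw [hx1, conjBy_one]
      · obtain ⟨a, ha, -, e⟩ := cond_right' h hx hx1
        right; exact ⟨a, ha, e⟩
    · by_cases ha1 : a = 1
      · right; exact ⟨1, A.one_mem, by rw [ha1, conjBy_one, conjBy_of_mem hx]⟩
      · obtain ⟨b, hb, -, e⟩ := cond_left' h ha ha1
        rw [← e, conjBy_conjBy]
        by_cases hxb : x * b = 1
        · left; rw [hxb, conjBy_one]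
        · obtain ⟨a', ha', -, e'⟩ := cond_right' h (B.mul_mem hx hb) hxb
          right; exact ⟨a', ha', e'⟩

lemma right_mem_unipotent (h : IsRankOnePair A B) : B ∈ unipotentSubgroups A B := by
  obtain ⟨a, ha, ha1⟩ := exists_ne_one_left h
  obtain ⟨b, hb, -, e⟩ := cond_left' h ha ha1
  refine ⟨a⁻¹ * b, (A ⊔ B).mul_mem ((A ⊔ B).inv_mem (Subgroup.mem_sup_left ha))
    (Subgroup.mem_sup_right hb), ?_⟩
  rw [← conjBy_conjBy, e, conjBy_conjBy]; simp [conjBy_one]

lemma left_mem_unipotent (A B : Subgroup G) : A ∈ unipotentSubgroups A B :=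
  ⟨1, Subgroup.one_mem _, (conjBy_one A).symm⟩

lemma conjBy_mem_unipotent {C : Subgroup G} (hC : C ∈ unipotentSubgroups A B) {x : G}
    (hx : x ∈ A ⊔ B) : conjBy C x ∈ unipotentSubgroups A B := by
  obtain ⟨y, hy, rfl⟩ := hC
  exact ⟨x * y, Subgroup.mul_mem _ hx hy, conjBy_conjBy _ _ _⟩

lemma mem_unipotent_iff (h : IsRankOnePair A B) {C : Subgroup G} :
    C ∈ unipotentSubgroups A B ↔ C = A ∨ ∃ a ∈ A, C = conjBy B a := by
  constructor
  · rintro ⟨x, hx, rfl⟩
    exact ((sup_le_famStab_omega h hx) A).mpr (Or.inl rfl)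
  · rintro (rfl | ⟨a, ha, rfl⟩)
    · exact left_mem_unipotent _ _
    · exact conjBy_mem_unipotent (right_mem_unipotent h) (Subgroup.mem_sup_left ha)

lemma unipotent_le {C : Subgroup G} (hC : C ∈ unipotentSubgroups A B) : C ≤ A ⊔ B := by
  obtain ⟨x, hx, rfl⟩ := hC
  exact conjBy_le_of_le_of_mem le_sup_left hx

/-- move any ordered pair of distinct unipotent subgroups to `(A, B)`. -/
lemma exists_conj_to_pair (h : IsRankOnePair A B) {C D : Subgroup G}
    (hC : C ∈ unipotentSubgroups A B) (hD : D ∈ unipotentSubgroups A B) (hne : C ≠ D) :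
    ∃ x ∈ A ⊔ B, conjBy C x = A ∧ conjBy D x = B := by
  obtain ⟨y, hy, rfl⟩ := hC
  have hD' : conjBy D y⁻¹ ∈ unipotentSubgroups A B := conjBy_mem_unipotent hD (Subgroup.inv_mem _ hy)
  rcases (mem_unipotent_iff h).mp hD' with e | ⟨a, ha, e⟩
  · exact absurd (conjBy_eq_iff.mp e) (by simpa using hne.symm)
  · refine ⟨a⁻¹ * y⁻¹, Subgroup.mul_mem _ (Subgroup.inv_mem _ (Subgroup.mem_sup_left ha))
      (Subgroup.inv_mem _ hy), ?_, ?_⟩
    · rw [conjBy_conjBy]; simpa using conjBy_of_mem (A.inv_mem ha)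
    · rw [← conjBy_conjBy, e, conjBy_conjBy]; simp [conjBy_one]

lemma two_transitive (h : IsRankOnePair A B) {C₁ C₂ D₁ D₂ : Subgroup G}
    (hC₁ : C₁ ∈ unipotentSubgroups A B) (hC₂ : C₂ ∈ unipotentSubgroups A B)
    (hD₁ : D₁ ∈ unipotentSubgroups A B) (hD₂ : D₂ ∈ unipotentSubgroups A B)
    (hC : C₁ ≠ C₂) (hD : D₁ ≠ D₂) :
    ∃ x ∈ A ⊔ B, conjBy C₁ x = D₁ ∧ conjBy C₂ x = D₂ := by
  obtain ⟨x, hx, e1, e2⟩ := exists_conj_to_pair h hC₁ hC₂ hC
  obtain ⟨y, hy, f1, f2⟩ := exists_conj_to_pair h hD₁ hD₂ hD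
  refine ⟨y⁻¹ * x, Subgroup.mul_mem _ (Subgroup.inv_mem _ hy) hx, ?_, ?_⟩
  · rw [← conjBy_conjBy, e1, ← f1, conjBy_conjBy]; simp [conjBy_one]
  · rw [← conjBy_conjBy, e2, ← f2, conjBy_conjBy]; simp [conjBy_one]

lemma regular (h : IsRankOnePair A B) {C D : Subgroup G}
    (hC : C ∈ unipotentSubgroups A B) (hD : D ∈ unipotentSubgroups A B) (hCA : C ≠ A) (hDA : D ≠ A) :
    ∃! a : G, a ∈ A ∧ conjBy C a = D := by
  rcases (mem_unipotent_iff h).mp hC with e | ⟨a₁, ha₁, rfl⟩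
  · exact absurd e hCA
  rcases (mem_unipotent_iff h).mp hD with e | ⟨a₂, ha₂, rfl⟩
  · exact absurd e hDA
  refine ⟨a₂ * a₁⁻¹, ⟨A.mul_mem ha₂ (A.inv_mem ha₁), by rw [conjBy_conjBy]; simp⟩, ?_⟩
  rintro a ⟨ha, e⟩
  rw [conjBy_conjBy] at e
  have := conjBy_right_inj h (A.mul_mem ha ha₁) ha₂ e
  rw [← this]; group

/-- any two distinct unipotent subgroups form a rank one pair generating the same group -/
lemma pair_of_unipotent (h : IsRankOnePair A B) {C D : Subgroup G}
    (hC : C ∈ unipotentSubgroups A B) (hD : D ∈ unipotentSubgroups A B) (hne : C ≠ D) :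
    IsRankOnePair C D ∧ C ⊔ D = A ⊔ B := by
  obtain ⟨x, hx, e1, e2⟩ := exists_conj_to_pair h hC hD hne
  rw [conjBy_eq_iff] at e1 e2
  subst e1 e2
  refine ⟨conj_pair h _, ?_⟩
  rw [← conjBy_sup, conjBy_of_mem (Subgroup.inv_mem _ hx)]

lemma centralizes_of_normalizes (h : IsRankOnePair A B) {N : Subgroup G}
    (hN : ∀ x ∈ A ⊔ B, conjBy N x = N) (hNA : ∀ n ∈ N, conjBy A n = A)
    (hNB : ∀ n ∈ N, conjBy B n = B) :
    N ≤ Subgroup.centralizer ((A ⊔ B : Subgroup G) : Set G) := by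
  have key : ∀ {A B : Subgroup G}, IsRankOnePair A B → (∀ x ∈ A, conjBy N x = N) →
      (∀ n ∈ N, conjBy A n = A) → (∀ n ∈ N, conjBy B n = B) →
      A ≤ Subgroup.centralizer (N : Set G) := by
    intro A B h hN hNA hNB a ha
    rw [Subgroup.mem_centralizer_iff]
    intro n hn
    have h1 : n * a * n⁻¹ ∈ A := by
      have := conj_mem_conjBy ha n
      rwa [hNA n hn] at this
    have h2 : a * n⁻¹ * a⁻¹ ∈ N := by
      have := conj_mem_conjBy (N.inv_mem hn) a
      rwa [hN a ha] at this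
    have hcA : n * a * n⁻¹ * a⁻¹ ∈ A := A.mul_mem h1 (A.inv_mem ha)
    have hcN : n * a * n⁻¹ * a⁻¹ ∈ N := by
      have := N.mul_mem hn h2
      simpa [mul_assoc] using this
    have := eq_one_of_normalizes_right h hcA (hNB _ hcN)
    have e : n * a = (n * a * n⁻¹ * a⁻¹) * (a * n) := by group
    rw [e, this, one_mul]
  rw [Subgroup.le_centralizer_iff]
  exact sup_le (key h (fun x hx => hN x (Subgroup.mem_sup_left hx)) hNA hNB)
    (key (RankOnePair_symm h) (fun x hx => hN x (Subgroup.mem_sup_right hx)) hNB hNA)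

lemma normal_dichotomy (h : IsRankOnePair A B) {N : Subgroup G} (hNX : N ≤ A ⊔ B)
    (hN : ∀ x ∈ A ⊔ B, conjBy N x = N) :
    N ⊔ A = A ⊔ B ∨ N ≤ Subgroup.centralizer ((A ⊔ B : Subgroup G) : Set G) := by
  have claim1 : (∃ n ∈ N, conjBy A n ≠ A) → N ⊔ A = A ⊔ B := by
    rintro ⟨n, hn, hne⟩
    have hmem : conjBy A n ∈ unipotentSubgroups A B :=
      conjBy_mem_unipotent (left_mem_unipotent A B) (hNX hn)
    rcases (mem_unipotent_iff h).mp hmem with e | ⟨a, ha, e⟩
    · exact absurd e hne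
    · apply le_antisymm (sup_le hNX le_sup_left)
      refine sup_le le_sup_right ?_
      have hB : B = conjBy A (a⁻¹ * n) := by
        rw [← conjBy_conjBy, e, conjBy_conjBy]; simp [conjBy_one]
      rw [hB]
      exact conjBy_le_of_le_of_mem le_sup_right
        (Subgroup.mul_mem _ (Subgroup.inv_mem _ (Subgroup.mem_sup_right ha)) (Subgroup.mem_sup_left hn))
  by_cases h1 : ∃ n ∈ N, conjBy A n ≠ A
  · exact Or.inl (claim1 h1)
  by_cases h2 : ∃ n ∈ N, conjBy B n ≠ B
  · left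
    apply claim1
    obtain ⟨n, hn, hne⟩ := h2
    obtain ⟨x, hx, e⟩ := right_mem_unipotent h
    refine ⟨x⁻¹ * n * x, ?_, ?_⟩
    · have := conj_mem_conjBy hn x⁻¹
      rw [hN _ (Subgroup.inv_mem _ hx)] at this
      simpa using this
    · intro e'
      apply hne
      rw [e, conjBy_conjBy]
      have : n * x = x * (x⁻¹ * n * x) := by group
      rw [this, ← conjBy_conjBy, e']
  · right
    push Not at h1 h2
    exact centralizes_of_normalizes h hN h1 h2

lemma not_commute (h : IsRankOnePair A B) {a : G} (ha : a ∈ A) (ha1 : a ≠ 1) :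
    ∃ b ∈ B, a * b ≠ b * a := by
  by_contra hcon
  push Not at hcon
  apply ha1
  apply eq_one_of_normalizes_right h ha
  ext x
  rw [mem_conjBy]
  constructor
  · intro hx
    have := hcon _ hx
    have e : x = a * (a⁻¹ * x * a) * a⁻¹ := by group
    rw [e, this]
    simpa using hx
  · intro hx
    have := hcon _ hx
    have e : a⁻¹ * x * a = a⁻¹ * (x * a) := by group
    rw [e, ← this]
    simpa using hx

end RankOne

end Cfsg.Agent.Lib.helper8_RankOne
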