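import Mathlib
import Cfsg.Prelude.Def_RootSubgroups
import Cfsg.Agent.Lib.helper8_RankOne

set_option autoImplicit false

namespace Cfsg.Agent.Lib.helper8_Root

open Cfsg Cfsg.Agent.Lib.helper8_RankOne
open scoped commutatorElement

variable {G : Type*} [Group G]

lemma comm_of_isMulCommutative {A : Subgroup G} (h : IsMulCommutative A) {x y : G}
    (hx : x ∈ A) (hy : y ∈ A) : x * y = y * x := by
  have := (isMulCommutative_iff.mp h) ⟨x, hx⟩ ⟨y, hy⟩
  exact congrArg Subtype.val this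

lemma conjBy_of_centralizes {C U : Subgroup G} {z : G}
    (hz : z ∈ Subgroup.centralizer (U : Set G)) (hC : C ≤ U) : conjBy C z = C := by
  ext x
  rw [mem_conjBy]
  constructor
  · intro h
    have h1 := Subgroup.mem_centralizer_iff.mp hz _ (hC h)
    have e : x = z * (z⁻¹ * x * z) * z⁻¹ := by group
    rw [e, ← h1]
    simpa using h
  · intro h
    have h1 := Subgroup.mem_centralizer_iff.mp hz _ (hC h)
    have e : z⁻¹ * x * z = z⁻¹ * (x * z) := by group
    rw [e, h1]
    simpa using h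

lemma commute_of_commutator_eq_bot {A B : Subgroup G} (h : ⁅A, B⁆ = ⊥) {a b : G}
    (ha : a ∈ A) (hb : b ∈ B) : a * b = b * a := by
  have := (Subgroup.commutator_eq_bot_iff_le_centralizer.mp h) ha
  exact (Subgroup.mem_centralizer_iff.mp this b hb).symm

lemma conjBy_of_commutator_eq_bot {A B : Subgroup G} (h : ⁅A, B⁆ = ⊥) {a : G}
    (ha : a ∈ A) : conjBy B a = B :=
  conjBy_of_centralizes ((Subgroup.commutator_eq_bot_iff_le_centralizer.mp h) ha) le_rfl

lemma comm_elem_mem {A B : Subgroup G} {a b : G} (ha : a ∈ A) (hb : b ∈ B) :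
    a * b * a⁻¹ * b⁻¹ ∈ ⁅A, B⁆ := Subgroup.commutator_mem_commutator ha hb

/-- In the commutator case `B` commutes with each conjugate `c B c⁻¹`, `c ∈ C`. -/
lemma commCase_commute_conj {S : Set (Subgroup G)} {C B : Subgroup G}
    (h : RootCommutatorCase S C B) (hB : IsMulCommutative B) {c : G} (hc : c ∈ C)
    {b b' : G} (hb : b ∈ B) (hb' : b' ∈ conjBy B c) : b * b' = b' * b := by
  rw [mem_conjBy] at hb'
  set y := c⁻¹ * b' * c with hy
  have e : b' = (c * y * c⁻¹ * y⁻¹) * y := by rw [hy]; group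
  have hz := h.2.1 _ (comm_elem_mem hc hb') b (Subgroup.mem_sup_right hb)
  have hyb := comm_of_isMulCommutative hB hb hb'
  clear_value y
  generalize c * y * c⁻¹ * y⁻¹ = w at e hz
  rw [e, ← mul_assoc, ← hz, mul_assoc, hyb, mul_assoc]

lemma commCase_symm_commute_conj {S : Set (Subgroup G)} {C B : Subgroup G}
    (h : RootCommutatorCase S C B) (hC : IsMulCommutative C) {b : G} (hb : b ∈ B)
    {c c' : G} (hc : c ∈ C) (hc' : c' ∈ conjBy C b) : c * c' = c' * c := by
  rw [mem_conjBy] at hc'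
  set y := b⁻¹ * c' * b with hy
  have e : c' = (y * b * y⁻¹ * b⁻¹)⁻¹ * y := by rw [hy]; group
  have hz := h.2.1 _ (Subgroup.inv_mem _ (comm_elem_mem hc' hb)) c (Subgroup.mem_sup_left hc)
  have hyb := comm_of_isMulCommutative hC hc hc'
  clear_value y
  generalize (y * b * y⁻¹ * b⁻¹)⁻¹ = w at e hz
  rw [e, ← mul_assoc, ← hz, mul_assoc, hyb, mul_assoc]

section RootSet

variable {S : Set (Subgroup G)}

/-- if some `c ∈ C` moves `B` to a subgroup forming a rank one pair with `B`, then `(C, B)` is a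
rank one pair. -/
lemma rankOne_of_moves (hS : IsRootSubgroupSet S) {B C : Subgroup G} (hB : B ∈ S) (hC : C ∈ S)
    {c : G} (hc : c ∈ C) (hp : IsRankOnePair B (conjBy B c)) : IsRankOnePair C B := by
  rcases hS.pair C hC B hB with h | h | h
  · exact absurd (conjBy_of_commutator_eq_bot h hc).symm hp.ne
  · exact h
  · exfalso
    obtain ⟨b, hb, hb1⟩ := exists_ne_one_left hp
    obtain ⟨b', hb', hne⟩ := not_commute hp hb hb1
    exact hne (commCase_commute_conj h (hS.commutative B hB) hc hb hb')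

lemma pair_conj_right {A B : Subgroup G} (h : IsRankOnePair A B) {a : G} (ha : a ∈ A)
    (ha1 : a ≠ 1) : IsRankOnePair B (conjBy B a) := by
  refine (pair_of_unipotent h (right_mem_unipotent h)
    (conjBy_mem_unipotent (right_mem_unipotent h) (Subgroup.mem_sup_left ha)) ?_).1
  intro e
  exact ha1 (eq_one_of_normalizes_right h ha e.symm)

lemma not_commute_elem {A B : Subgroup G} (h : IsRankOnePair A B) {a b : G} (ha : a ∈ A)
    (ha1 : a ≠ 1) (hb : b ∈ B) (hb1 : b ≠ 1) : a * b ≠ b * a := by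
  intro e
  have hp := pair_conj_right h ha ha1
  have h1 : b ∈ conjBy B a := by
    have := conj_mem_conjBy hb a
    rwa [e, mul_assoc, mul_inv_cancel, mul_one] at this
  have : b ∈ B ⊓ conjBy B a := ⟨hb, h1⟩
  rw [inf_eq_bot hp] at this
  exact hb1 this

lemma mem_unipotent_of_same_move {A B C : Subgroup G} (h : IsRankOnePair A B)
    (h' : IsRankOnePair C B) {a c : G} (ha : a ∈ A) (ha1 : a ≠ 1) (hc : c ∈ C)
    (e : conjBy B a = conjBy B c) : C ∈ unipotentSubgroups A B := by
  have hc1 : c ≠ 1 := by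
    rintro rfl
    rw [conjBy_one] at e
    exact ha1 (eq_one_of_normalizes_right h ha e)
  obtain ⟨b, hb, -, e1⟩ := cond_left' h ha ha1
  obtain ⟨b', hb', -, e2⟩ := cond_left' h' hc hc1
  refine ⟨b'⁻¹ * b, Subgroup.mul_mem _ (Subgroup.inv_mem _ (Subgroup.mem_sup_right hb'))
    (Subgroup.mem_sup_right hb), ?_⟩
  rw [← conjBy_conjBy, e1, e, ← e2, conjBy_conjBy]; simp [conjBy_one]

lemma exists_partner {A : Subgroup G} (hAS : A ∈ S) (hA : ¬ IsIsolatedIn (FAdj S) S A) :
    ∃ D ∈ S, IsRankOnePair A D := by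
  unfold IsIsolatedIn at hA
  push Not at hA
  obtain ⟨D, hD⟩ := hA hAS
  by_cases h : FAdj S A D
  · exact ⟨D, h.2.1, h.2.2⟩
  · have := hD h
    exact ⟨D, this.1, RankOnePair_symm this.2.2⟩

/-- (2.2): central translates of root elements are not root elements. -/
lemma central_translate (hS : IsRootSubgroupSet S) {A B : Subgroup G} (hA : A ∈ S) (hB : B ∈ S)
    (h : IsRankOnePair A B) {z : G} (hz : z ∈ Subgroup.centralizer ((A ⊔ B : Subgroup G) : Set G))
    (hz1 : z ≠ 1) {a : G} (ha : a ∈ A) (ha1 : a ≠ 1) {C : Subgroup G} (hC : C ∈ S) :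
    z * a ∉ C := by
  intro hza
  have hmove : conjBy B (z * a) = conjBy B a := by
    rw [← conjBy_conjBy]
    exact conjBy_of_centralizes hz (conjBy_le_of_le_of_mem le_sup_right (Subgroup.mem_sup_left ha))
  have hCB : IsRankOnePair C B := by
    apply rankOne_of_moves hS hB hC hza
    rw [hmove]
    exact pair_conj_right h ha ha1
  have hCmem := mem_unipotent_of_same_move h hCB ha ha1 hza hmove.symm
  by_cases hCA : C = A
  · subst hCA
    have hzA : z ∈ C := by
      have := C.mul_mem hza (C.inv_mem ha)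
      simpa using this
    exact hz1 (eq_one_of_normalizes_right h hzA (conjBy_of_centralizes hz le_sup_right))
  · have hp := (pair_of_unipotent h hCmem (left_mem_unipotent A B) hCA).1
    have hza1 : z * a ≠ 1 := by
      intro e
      rw [e, conjBy_one] at hmove
      exact ha1 (eq_one_of_normalizes_right h ha hmove.symm)
    obtain ⟨a', ha', hne⟩ := not_commute hp hza hza1
    apply hne
    have h1 := Subgroup.mem_centralizer_iff.mp hz a' (Subgroup.mem_sup_left ha')
    rw [mul_assoc, comm_of_isMulCommutative (hS.commutative A hA) ha ha', ← mul_assoc, ← h1,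
      mul_assoc]

/-- (2.8): trivial intersection. -/
lemma inf_eq_bot_or_eq' (hS : IsRootSubgroupSet S) {A D : Subgroup G} (hD : D ∈ S)
    (hp : IsRankOnePair A D) {B : Subgroup G} (hB : B ∈ S) : A ⊓ B = ⊥ ∨ A = B := by
  by_cases hAB : A = B
  · exact Or.inr hAB
  left
  rw [eq_bot_iff]
  rintro x ⟨hxA, hxB⟩
  by_contra hx1
  have hx1' : x ≠ 1 := hx1
  have hBD : IsRankOnePair B D := rankOne_of_moves hS hD hB hxB (pair_conj_right hp hxA hx1')
  have hmem := mem_unipotent_of_same_move hp hBD hxA hx1' hxB rfl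
  have hp2 := (pair_of_unipotent hp (left_mem_unipotent A D) hmem hAB).1
  have : x ∈ A ⊓ B := ⟨hxA, hxB⟩
  rw [inf_eq_bot hp2] at this
  exact hx1 this

lemma inf_eq_bot_or_eq (hS : IsRootSubgroupSet S) {A : Subgroup G} (hAS : A ∈ S)
    (hA : ¬ IsIsolatedIn (FAdj S) S A) {B : Subgroup G} (hB : B ∈ S) : A ⊓ B = ⊥ ∨ A = B := by
  obtain ⟨D, hD, hp⟩ := exists_partner hAS hA
  exact inf_eq_bot_or_eq' hS hD hp hB

lemma eq_of_le (hS : IsRootSubgroupSet S) {A D : Subgroup G} (hD : D ∈ S)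
    (hp : IsRankOnePair A D) {B : Subgroup G} (hB : B ∈ S) (hle : B ≤ A) : A = B := by
  rcases inf_eq_bot_or_eq' hS hD hp hB with h | h
  · rw [inf_eq_right.mpr hle] at h
    exact absurd h (hS.ne_bot B hB)
  · exact h

lemma eq_of_le' (hS : IsRootSubgroupSet S) {A D : Subgroup G} (hD : D ∈ S)
    (hp : IsRankOnePair A D) {B : Subgroup G} (hB : B ∈ S) (hle : A ≤ B) : A = B := by
  rcases inf_eq_bot_or_eq' hS hD hp hB with h | h
  · rw [inf_eq_left.mpr hle] at h
    exact absurd h (ne_bot_left hp)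
  · exact h

/-- an element centralising `E` and normalising `E'` centralises `E'`. -/
lemma centralizes_right_of_centralizes_left {E E' : Subgroup G} (hp : IsRankOnePair E E') {h : G}
    (hE : h ∈ Subgroup.centralizer (E : Set G)) (hE' : conjBy E' h = E') :
    h ∈ Subgroup.centralizer ((E ⊔ E' : Subgroup G) : Set G) := by
  have h2 : h ∈ Subgroup.centralizer (E' : Set G) := by
    rw [Subgroup.mem_centralizer_iff]
    intro e' he'
    by_cases he1 : e' = 1
    · rw [he1]; simp
    obtain ⟨e₁, he₁, -, eq⟩ := cond_right' hp he' he1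
    have hmem : h * e' * h⁻¹ ∈ E' := by
      have := conj_mem_conjBy he' h
      rwa [hE'] at this
    have hEh : conjBy E h = E := conjBy_of_centralizes hE le_rfl
    have hEh' : conjBy E h⁻¹ = E := conjBy_of_centralizes (Subgroup.inv_mem _ hE) le_rfl
    have key : conjBy E (h * e' * h⁻¹) = conjBy E e' := by
      have e1 : conjBy E (h * e' * h⁻¹) = conjBy (conjBy (conjBy E h⁻¹) e') h := by
        rw [conjBy_conjBy, conjBy_conjBy, mul_assoc]
      rw [e1, hEh', eq, conjBy_conjBy]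
      have e2 : h * e₁ = e₁ * h := (Subgroup.mem_centralizer_iff.mp hE e₁ he₁).symm
      rw [e2, ← conjBy_conjBy, hE']
    have := conjBy_left_inj hp hmem he' key
    have e3 : h * e' = (h * e' * h⁻¹) * h := by group
    rw [e3, this]
  have : E ⊔ E' ≤ Subgroup.centralizer ({h} : Set G) := by
    refine sup_le ?_ ?_
    · intro x hx
      rw [Subgroup.mem_centralizer_singleton_iff]
      exact (Subgroup.mem_centralizer_iff.mp hE x hx)
    · intro x hx
      rw [Subgroup.mem_centralizer_singleton_iff]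
      exact (Subgroup.mem_centralizer_iff.mp h2 x hx)
  rw [Subgroup.mem_centralizer_iff]
  intro x hx
  have := this hx
  rw [Subgroup.mem_centralizer_singleton_iff] at this
  exact this

/-- the commutator case never happens between a member `A ≤ ⟨C, D⟩` and `C`. -/
lemma not_commCase_of_le (hS : IsRootSubgroupSet S) {A C D : Subgroup G} (hC : C ∈ S)
    (hD : D ∈ S) (hp : IsRankOnePair C D) (hle : A ≤ C ⊔ D) : ¬ RootCommutatorCase S A C := by
  intro h
  have hnorm : ∀ a ∈ A, conjBy C a = C := by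
    intro a ha
    by_contra hne
    have hp2 := (pair_of_unipotent hp (left_mem_unipotent C D)
      (conjBy_mem_unipotent (left_mem_unipotent C D) (hle ha)) (Ne.symm hne)).1
    obtain ⟨c, hc, hc1⟩ := exists_ne_one_left hp2
    obtain ⟨c', hc', hne'⟩ := not_commute hp2 hc hc1
    exact hne' (commCase_commute_conj h (hS.commutative C hC) ha hc hc')
  have hFle : ⁅A, C⁆ ≤ C := by
    rw [Subgroup.commutator_le]
    intro a ha c hc
    have h1 := conj_mem_conjBy hc a
    rw [hnorm a ha] at h1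
    exact C.mul_mem h1 (C.inv_mem hc)
  have hCF : C = ⁅A, C⁆ := eq_of_le hS hD hp h.1 hFle
  have hbot : ⁅A, C⁆ = ⊥ := by
    rw [Subgroup.commutator_eq_bot_iff_le_centralizer]
    intro a ha
    rw [Subgroup.mem_centralizer_iff]
    intro c hc
    exact h.2.1 c (hCF ▸ hc) a (Subgroup.mem_sup_left ha)
  exact hS.ne_bot _ h.1 hbot

/-- (2.1): members of `S` inside a rank one group `⟨C, D⟩` which are not central are unipotent
subgroups. -/
lemma mem_unipotent_of_le (hS : IsRootSubgroupSet S) {A C D : Subgroup G} (hA : A ∈ S)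
    (hC : C ∈ S) (hD : D ∈ S) (hp : IsRankOnePair C D) (hle : A ≤ C ⊔ D)
    (hnc : ∃ a ∈ A, a ∉ Subgroup.centralizer ((C ⊔ D : Subgroup G) : Set G)) :
    A ∈ unipotentSubgroups C D := by
  rcases hS.pair A hA C hC with h | h | h
  · obtain ⟨a, ha, hac⟩ := hnc
    have haC : a ∈ Subgroup.centralizer (C : Set G) :=
      (Subgroup.commutator_eq_bot_iff_le_centralizer.mp h) ha
    have hmem : conjBy D a ∈ unipotentSubgroups C D :=
      conjBy_mem_unipotent (right_mem_unipotent hp) (hle ha)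
    rcases (mem_unipotent_iff hp).mp hmem with e | ⟨c, hc, e⟩
    · exfalso
      rw [conjBy_eq_iff, conjBy_of_centralizes (Subgroup.inv_mem _ haC) le_rfl] at e
      exact hp.ne e.symm
    · have hcC : c ∈ Subgroup.centralizer (C : Set G) := by
        rw [Subgroup.mem_centralizer_iff]
        intro x hx
        exact comm_of_isMulCommutative (hS.commutative C hC) hx hc
      have hh : c⁻¹ * a ∈ Subgroup.centralizer ((C ⊔ D : Subgroup G) : Set G) := by
        apply centralizes_right_of_centralizes_left hp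
        · exact Subgroup.mul_mem _ (Subgroup.inv_mem _ hcC) haC
        · rw [← conjBy_conjBy, e, conjBy_conjBy]; simp [conjBy_one]
      have hc1 : c ≠ 1 := by
        rintro rfl
        apply hac
        simpa using hh
      by_cases hh1 : c⁻¹ * a = 1
      · have hac' : a = c := by
          have := inv_mul_eq_one.mp hh1
          exact this.symm
        have : C = A := by
          rcases inf_eq_bot_or_eq' hS hD hp hA with h0 | h0
          · have : c ∈ C ⊓ A := ⟨hc, hac' ▸ ha⟩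
            rw [h0] at this
            exact absurd this hc1
          · exact h0
        rw [← this]
        exact left_mem_unipotent C D
      · exfalso
        apply central_translate hS hC hD hp hh hh1 hc hc1 hA
        have e1 : c⁻¹ * a * c = a := by
          have := Subgroup.mem_centralizer_iff.mp haC c hc
          rw [mul_assoc, ← this]; group
        rw [e1]; exact ha
  · obtain ⟨a, ha, ha1⟩ := exists_ne_one_left h
    obtain ⟨c, hc, -, e⟩ := cond_left' h ha ha1
    refine ⟨c⁻¹ * a, Subgroup.mul_mem _ (Subgroup.inv_mem _ (Subgroup.mem_sup_left hc)) (hle ha), ?_⟩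
    rw [← conjBy_conjBy, ← e, conjBy_conjBy]; simp [conjBy_one]
  · exact absurd h (not_commCase_of_le hS hC hD hp hle)

end RootSet

lemma fadj_symm {S : Set (Subgroup G)} {X Y : Subgroup G} (h : FAdj S X Y) : FAdj S Y X :=
  ⟨h.2.1, h.1, RankOnePair_symm h.2.2⟩

lemma fpath_symm {S : Set (Subgroup G)} {X Y : Subgroup G}
    (h : Relation.ReflTransGen (FAdj S) X Y) : Relation.ReflTransGen (FAdj S) Y X := by
  induction h with
  | refl => exact .refl
  | tail _ b c => exact c.head (fadj_symm b)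

lemma component_eq_of_path {S : Set (Subgroup G)} {X Y : Subgroup G}
    (h : Relation.ReflTransGen (FAdj S) X Y) :
    componentOf (FAdj S) S X = componentOf (FAdj S) S Y := by
  ext Z
  constructor
  · rintro ⟨hZ, h1⟩
    exact ⟨hZ, (fpath_symm h).trans h1⟩
  · rintro ⟨hZ, h1⟩
    exact ⟨hZ, h.trans h1⟩

/-! ### general subgroup lemmas -/

lemma conjBy_commutator_le_left (A B : Subgroup G) {x : G} (hx : x ∈ A) :
    conjBy ⁅A, B⁆ x ≤ ⁅A, B⁆ := by
  rw [Subgroup.map_le_iff_le_comap, Subgroup.commutator_le]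
  intro a ha b hb
  rw [Subgroup.mem_comap]
  change x * ⁅a, b⁆ * x⁻¹ ∈ ⁅A, B⁆
  have e : x * ⁅a, b⁆ * x⁻¹ = ((x * a) * b * (x * a)⁻¹ * b⁻¹) * (x * b * x⁻¹ * b⁻¹)⁻¹ := by
    rw [commutatorElement_def]; group
  rw [e]
  exact Subgroup.mul_mem _ (comm_elem_mem (A.mul_mem hx ha) hb)
    (Subgroup.inv_mem _ (comm_elem_mem hx hb))

lemma conjBy_commutator_of_mem_sup (A B : Subgroup G) {x : G} (hx : x ∈ A ⊔ B) :
    conjBy ⁅A, B⁆ x = ⁅A, B⁆ := by
  have key : ∀ (A B : Subgroup G), A ≤ Subgroup.normalizer ((⁅A, B⁆ : Subgroup G) : Set G) := by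
    intro A B a ha
    rw [mem_normalizer_iff_conjBy]
    apply le_antisymm (conjBy_commutator_le_left A B ha)
    have := conjBy_mono (conjBy_commutator_le_left A B (A.inv_mem ha)) a
    rw [conjBy_conjBy] at this
    simpa [conjBy_one] using this
  have h2 : B ≤ Subgroup.normalizer ((⁅A, B⁆ : Subgroup G) : Set G) := by
    rw [Subgroup.commutator_comm]; exact key B A
  exact mem_normalizer_iff_conjBy.mp ((sup_le (key A B) h2) hx)

lemma mem_sup_of_commute {A C : Subgroup G} (h : ∀ a ∈ A, ∀ c ∈ C, a * c = c * a) {x : G}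
    (hx : x ∈ A ⊔ C) : ∃ a ∈ A, ∃ c ∈ C, x = a * c := by
  let K : Subgroup G :=
    { carrier := {x | ∃ a ∈ A, ∃ c ∈ C, x = a * c}
      one_mem' := ⟨1, A.one_mem, 1, C.one_mem, by simp⟩
      mul_mem' := by
        rintro _ _ ⟨a, ha, c, hc, rfl⟩ ⟨a', ha', c', hc', rfl⟩
        refine ⟨a * a', A.mul_mem ha ha', c * c', C.mul_mem hc hc', ?_⟩
        rw [mul_assoc, ← mul_assoc c, ← h a' ha' c hc]; simp only [mul_assoc]
      inv_mem' := by
        rintro _ ⟨a, ha, c, hc, rfl⟩
        refine ⟨a⁻¹, A.inv_mem ha, c⁻¹, C.inv_mem hc, ?_⟩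
        rw [mul_inv_rev, h a⁻¹ (A.inv_mem ha) c⁻¹ (C.inv_mem hc)] }
  have : A ⊔ C ≤ K := by
    refine sup_le ?_ ?_
    · intro a ha; exact ⟨a, ha, 1, C.one_mem, by simp⟩
    · intro c hc; exact ⟨1, A.one_mem, c, hc, by simp⟩
  exact this hx

/-! ### the commutator case -/

section CommCase

variable {S : Set (Subgroup G)} {P Q : Subgroup G}

lemma commCase_symm (h : RootCommutatorCase S P Q) : RootCommutatorCase S Q P := by
  obtain ⟨h1, h2, h3, h4⟩ := h
  have hinv : ∀ (T : Set G) (f g : G → G), (∀ x, g x = (f x)⁻¹) →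
      Subgroup.closure (g '' T) = Subgroup.closure (f '' T) := by
    intro T f g hfg
    rw [← Subgroup.closure_inv (f '' T)]
    congr 1
    ext y
    simp only [Set.mem_image, Set.mem_inv]
    constructor
    · rintro ⟨x, hx, rfl⟩
      exact ⟨x, hx, by rw [hfg, inv_inv]⟩
    · rintro ⟨x, hx, e⟩
      exact ⟨x, hx, by rw [hfg, e, inv_inv]⟩
  refine ⟨by rwa [Subgroup.commutator_comm], ?_, ?_, ?_⟩
  · intro c hc x hx
    rw [Subgroup.commutator_comm] at hc
    rw [sup_comm] at hx
    exact h2 c hc x hx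
  · intro q hq hq1
    rw [Subgroup.commutator_comm, ← h4 q hq hq1]
    apply hinv
    intro x; group
  · intro p hp hp1
    rw [Subgroup.commutator_comm, ← h3 p hp hp1]
    apply hinv
    intro x; group

lemma kappa_mul_right (h : RootCommutatorCase S P Q) {p q q' : G} (hp : p ∈ P) (hq : q ∈ Q)
    (hq' : q' ∈ Q) :
    p * (q * q') * p⁻¹ * (q * q')⁻¹ = (p * q * p⁻¹ * q⁻¹) * (p * q' * p⁻¹ * q'⁻¹) := by
  have hcen := h.2.1 _ (comm_elem_mem hp hq') q (Subgroup.mem_sup_right hq)
  have e1 : p * (q * q') * p⁻¹ * (q * q')⁻¹ =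
      (p * q * p⁻¹ * q⁻¹) * (q * (p * q' * p⁻¹ * q'⁻¹)) * q⁻¹ := by group
  rw [e1, ← hcen]; group

lemma kappa_mul_left (h : RootCommutatorCase S P Q) {p p' q : G} (hp : p ∈ P) (hp' : p' ∈ P)
    (hq : q ∈ Q) :
    (p * p') * q * (p * p')⁻¹ * q⁻¹ = (p * q * p⁻¹ * q⁻¹) * (p' * q * p'⁻¹ * q⁻¹) := by
  have hcen := h.2.1 _ (comm_elem_mem hp' hq) p (Subgroup.mem_sup_left hp)
  have hmem : p * q * p⁻¹ * q⁻¹ ∈ P ⊔ Q :=
    Subgroup.mul_mem _ (Subgroup.mul_mem _ (Subgroup.mul_mem _ (Subgroup.mem_sup_left hp)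
      (Subgroup.mem_sup_right hq)) (Subgroup.inv_mem _ (Subgroup.mem_sup_left hp)))
      (Subgroup.inv_mem _ (Subgroup.mem_sup_right hq))
  have hcen2 := h.2.1 _ (comm_elem_mem hp' hq) _ hmem
  have e1 : (p * p') * q * (p * p')⁻¹ * q⁻¹ =
      (p * (p' * q * p'⁻¹ * q⁻¹)) * p⁻¹ * (p * q * p⁻¹ * q⁻¹) := by group
  rw [e1, ← hcen, ← hcen2]; group

/-- the homomorphism `q ↦ p q p⁻¹ q⁻¹`. -/
def kappaHom (h : RootCommutatorCase S P Q) {p : G} (hp : p ∈ P) : Q →* G :=
  MonoidHom.mk' (fun q => p * (q : G) * p⁻¹ * (q : G)⁻¹)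
    (fun q q' => kappa_mul_right h hp q.2 q'.2)

lemma exists_kappa_eq (h : RootCommutatorCase S P Q) {p : G} (hp : p ∈ P) (hp1 : p ≠ 1) {c : G}
    (hc : c ∈ ⁅P, Q⁆) : ∃ q ∈ Q, p * q * p⁻¹ * q⁻¹ = c := by
  have hle : ⁅P, Q⁆ ≤ (kappaHom h hp).range := by
    rw [← h.2.2.1 p hp hp1, Subgroup.closure_le]
    rintro _ ⟨q, hq, rfl⟩
    exact ⟨⟨q, hq⟩, rfl⟩
  obtain ⟨q, hq⟩ := hle hc
  exact ⟨q, q.2, hq⟩

lemma exists_kappa_eq' (h : RootCommutatorCase S P Q) {q : G} (hq : q ∈ Q) (hq1 : q ≠ 1) {c : G}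
    (hc : c ∈ ⁅P, Q⁆) : ∃ p ∈ P, p * q * p⁻¹ * q⁻¹ = c := by
  have hc' : c⁻¹ ∈ ⁅Q, P⁆ := by
    rw [Subgroup.commutator_comm]; exact Subgroup.inv_mem _ hc
  obtain ⟨p, hp, e⟩ := exists_kappa_eq (commCase_symm h) hq hq1 hc'
  refine ⟨p, hp, ?_⟩
  have : p * q * p⁻¹ * q⁻¹ = (q * p * q⁻¹ * p⁻¹)⁻¹ := by group
  rw [this, e, inv_inv]

lemma commCase_ne_bot (hS : IsRootSubgroupSet S) (h : RootCommutatorCase S P Q) : ⁅P, Q⁆ ≠ ⊥ :=
  hS.ne_bot _ h.1

lemma commCase_left_ne (hS : IsRootSubgroupSet S) (h : RootCommutatorCase S P Q) :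
    P ≠ ⁅P, Q⁆ := by
  intro e
  apply commCase_ne_bot hS h
  rw [Subgroup.commutator_eq_bot_iff_le_centralizer]
  intro p hp
  rw [Subgroup.mem_centralizer_iff]
  intro q hq
  exact (h.2.1 p (e ▸ hp) q (Subgroup.mem_sup_right hq)).symm

/-- in the commutator case non-identity elements of `P` and `Q` never commute, if `P` is not
isolated. -/
lemma commCase_not_commute (hS : IsRootSubgroupSet S) (hP : P ∈ S)
    (h : RootCommutatorCase S P Q) {D : Subgroup G} (hD : D ∈ S) (hpD : IsRankOnePair P D)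
    {p q : G} (hp : p ∈ P) (hp1 : p ≠ 1) (hq : q ∈ Q) (hq1 : q ≠ 1) : p * q ≠ q * p := by
  intro e
  have h1 : p ∈ P ⊓ conjBy P q := by
    refine ⟨hp, ?_⟩
    have := conj_mem_conjBy hp q
    rwa [← e, mul_assoc, mul_inv_cancel, mul_one] at this
  have h2 : P = conjBy P q := by
    rcases inf_eq_bot_or_eq' hS hD hpD (hS.conj_mem P hP q) with h0 | h0
    · rw [h0] at h1; exact absurd h1 hp1
    · exact h0
  have h3 : ⁅P, Q⁆ ≤ P := by
    rw [← h.2.2.2 q hq hq1, Subgroup.closure_le]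
    rintro _ ⟨x, hx, rfl⟩
    have h4 : q * x⁻¹ * q⁻¹ ∈ P := by
      have := conj_mem_conjBy (P.inv_mem hx) q
      rwa [← h2] at this
    have := P.mul_mem hx h4
    simpa [mul_assoc] using this
  exact commCase_left_ne hS h (eq_of_le hS hD hpD h.1 h3)

lemma commutator_le_sup (A B : Subgroup G) : ⁅A, B⁆ ≤ A ⊔ B := by
  rw [Subgroup.commutator_le]
  intro a ha b hb
  exact Subgroup.mul_mem _ (Subgroup.mul_mem _ (Subgroup.mul_mem _ (Subgroup.mem_sup_left ha)
      (Subgroup.mem_sup_right hb)) (Subgroup.inv_mem _ (Subgroup.mem_sup_left ha)))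
      (Subgroup.inv_mem _ (Subgroup.mem_sup_right hb))

/-- if `⁅A, B⁆ ∈ S` then `(A, B)` is in the commutator case. -/
lemma commCase_of_commutator_mem (hS : IsRootSubgroupSet S) {A B : Subgroup G} (hA : A ∈ S)
    (hB : B ∈ S) (hC : ⁅A, B⁆ ∈ S) : RootCommutatorCase S A B := by
  rcases hS.pair A hA B hB with h | h | h
  · exact absurd h (hS.ne_bot _ hC)
  · exfalso
    by_cases hcz : ∃ c ∈ ⁅A, B⁆, c ∉ Subgroup.centralizer ((A ⊔ B : Subgroup G) : Set G)
    · obtain ⟨x, hx, e⟩ := mem_unipotent_of_le hS hC hA hB h (commutator_le_sup A B) hcz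
      obtain ⟨y, hy, e'⟩ := right_mem_unipotent h
      have h1 : A = ⁅A, B⁆ := by
        have := conjBy_commutator_of_mem_sup A B (Subgroup.inv_mem _ hx)
        rw [← this]
        conv_rhs => rw [e]
        rw [conjBy_conjBy]; simp [conjBy_one]
      have h2 : B = ⁅A, B⁆ := by
        have := conjBy_commutator_of_mem_sup A B hy
        rw [← this, ← h1]; exact e'
      exact h.ne (h1.trans h2.symm)
    · push Not at hcz
      obtain ⟨a, ha, ha1⟩ := exists_ne_one_left h
      have hp := pair_conj_right h ha ha1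
      obtain ⟨b, hb, hb1⟩ := exists_ne_one_left hp
      obtain ⟨b', hb', hne⟩ := not_commute hp hb hb1
      apply hne
      rw [mem_conjBy] at hb'
      have hz := Subgroup.mem_centralizer_iff.mp (hcz _ (comm_elem_mem ha hb')) b
        (Subgroup.mem_sup_right hb)
      have hyb := comm_of_isMulCommutative (hS.commutative B hB) hb hb'
      have e : b' = (a * (a⁻¹ * b' * a) * a⁻¹ * (a⁻¹ * b' * a)⁻¹) * (a⁻¹ * b' * a) := by group
      generalize a⁻¹ * b' * a = y at *
      generalize a * y * a⁻¹ * y⁻¹ = w at *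
      rw [e, ← mul_assoc, hz, mul_assoc, hyb, mul_assoc]
  · exact h

section Line

variable {A B D : Subgroup G}

lemma commCase_exists_conj (h : RootCommutatorCase S A B) {a c : G} (ha : a ∈ A) (ha1 : a ≠ 1)
    (hc : c ∈ ⁅A, B⁆) : ∃ b ∈ B, b * a * b⁻¹ = c * a := by
  obtain ⟨b, hb, e⟩ := exists_kappa_eq h ha ha1 (Subgroup.inv_mem _ hc)
  refine ⟨b, hb, ?_⟩
  have : b * a * b⁻¹ = (a * b * a⁻¹ * b⁻¹)⁻¹ * a := by group
  rw [this, e, inv_inv]

lemma commCase_conjBy_le (A B : Subgroup G) {b : G} (hb : b ∈ B) :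
    conjBy A b ≤ A ⊔ ⁅A, B⁆ := by
  intro x hx
  rw [mem_conjBy] at hx
  have e : x = ((b⁻¹ * x * b) * b * (b⁻¹ * x * b)⁻¹ * b⁻¹)⁻¹ * (b⁻¹ * x * b) := by group
  rw [e]
  exact Subgroup.mul_mem _ (Subgroup.inv_mem _ (Subgroup.mem_sup_right (comm_elem_mem hx hb)))
    (Subgroup.mem_sup_left hx)

/-- a member of `S` inside `⁅A, B⁆` is all of it (`A` not isolated). -/
lemma eq_of_le_commutator (hS : IsRootSubgroupSet S) (hA : A ∈ S)
    (h : RootCommutatorCase S A B) (hD : D ∈ S) (hp : IsRankOnePair A D) {E : Subgroup G}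
    (hE : E ∈ S) (hle : E ≤ ⁅A, B⁆) : E = ⁅A, B⁆ := by
  obtain ⟨e, he, he1⟩ : ∃ e ∈ E, e ≠ 1 := by
    by_contra hc
    push Not at hc
    exact hS.ne_bot E hE ((Subgroup.eq_bot_iff_forall E).mpr hc)
  have heC := hle he
  have hecA : e ∈ Subgroup.centralizer (A : Set G) := by
    rw [Subgroup.mem_centralizer_iff]
    intro a ha
    exact (h.2.1 e heC a (Subgroup.mem_sup_left ha)).symm
  have hmove : conjBy D e ≠ D := by
    intro hfix
    have hz := centralizes_right_of_centralizes_left hp hecA hfix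
    obtain ⟨a, ha, ha1⟩ := exists_ne_one_left hp
    obtain ⟨b, hb, eb⟩ := commCase_exists_conj h ha ha1 heC
    apply central_translate hS hA hD hp hz he1 ha ha1 (hS.conj_mem A hA b)
    rw [← eb]
    exact conj_mem_conjBy ha b
  rcases hS.pair _ h.1 D hD with hCD | hCD | hCD
  · exact absurd (conjBy_of_commutator_eq_bot hCD heC) hmove
  · exact (eq_of_le hS hD hCD hE hle).symm
  · rcases hS.pair E hE D hD with hED | hED | hED
    · exact absurd (conjBy_of_commutator_eq_bot hED he) hmove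
    · exfalso
      have hp2 := pair_conj_right hED he he1
      obtain ⟨d, hd, hd1⟩ := exists_ne_one_left hp2
      obtain ⟨d', hd', hne⟩ := not_commute hp2 hd hd1
      exact hne (commCase_commute_conj hCD (hS.commutative D hD) heC hd hd')
    · have hF : ⁅E, D⁆ = ⁅⁅A, B⁆, D⁆ := by
        rw [← hED.2.2.1 e he he1, ← hCD.2.2.1 e heC he1]
      obtain ⟨d, hd, hd1⟩ := exists_ne_one_right hp
      apply le_antisymm hle
      intro c hc
      have hk : c * d * c⁻¹ * d⁻¹ ∈ ⁅E, D⁆ := by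
        rw [hF]; exact comm_elem_mem hc hd
      obtain ⟨x, hx, ex⟩ := exists_kappa_eq' hED hd hd1 hk
      have hcomm : d * (c⁻¹ * x) = (c⁻¹ * x) * d := by
        have e1 : x * d * x⁻¹ = c * d * c⁻¹ := by
          have := congrArg (fun t => t * d) ex
          simpa using this
        have e2 : x * d = c * d * c⁻¹ * x := by
          rw [← e1]; group
        rw [mul_assoc, e2]; group
      by_contra hcE
      have hne1 : c⁻¹ * x ≠ 1 := by
        intro e1
        apply hcE
        have : c = x := (inv_mul_eq_one.mp e1)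
        rw [this]; exact hx
      exact commCase_not_commute hS hD (commCase_symm hCD) hA (RankOnePair_symm hp) hd hd1
        (Subgroup.mul_mem _ (Subgroup.inv_mem _ hc) (hle hx)) hne1 hcomm

/-- points of a line through `A` other than the one in `Ψ_D` are opposite to `D ∈ Ω_A`. -/
lemma rankOne_of_line (hS : IsRootSubgroupSet S) {E : Subgroup G} (hA : A ∈ S)
    (hD : D ∈ S) (hE : E ∈ S) (hAB : ⁅A, B⁆ = ⊥) (hp : IsRankOnePair A D)
    (hBD : RootCommutatorCase S B D) {a b : G} (ha : a ∈ A) (ha1 : a ≠ 1) (hb : b ∈ B)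
    (he : a * b ∈ E) : IsRankOnePair E D := by
  have key : ¬ (∀ d ∈ D, ∀ d' ∈ conjBy D (a * b), d * d' = d' * d) := by
    intro hcom
    obtain ⟨da, hda, hda1, eY⟩ := cond_left' hp ha ha1
    have hab : a * b = b * a := commute_of_commutator_eq_bot hAB ha hb
    have hf₀ : b⁻¹ * da⁻¹ * b * da ∈ ⁅B, D⁆ := by
      have := comm_elem_mem (B.inv_mem hb) (D.inv_mem hda)
      simpa using this
    have hw : b⁻¹ * da⁻¹ * b ∈ Subgroup.centralizer ((conjBy D a : Subgroup G) : Set G) := by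
      rw [Subgroup.mem_centralizer_iff]
      intro y hy
      have hy' : b * y * b⁻¹ ∈ conjBy D (a * b) := by
        rw [hab, ← conjBy_conjBy]
        exact conj_mem_conjBy hy b
      have h1 := hcom _ (D.inv_mem hda) _ hy'
      calc y * (b⁻¹ * da⁻¹ * b) = b⁻¹ * ((b * y * b⁻¹) * da⁻¹) * b := by group
        _ = b⁻¹ * (da⁻¹ * (b * y * b⁻¹)) * b := by rw [h1]
        _ = b⁻¹ * da⁻¹ * b * y := by group
    have hfA : conjBy A (b⁻¹ * da⁻¹ * b * da) = conjBy D a := by
      rw [← conjBy_conjBy, eY]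
      exact conjBy_of_centralizes hw le_rfl
    have hYmem : conjBy D a ∈ unipotentSubgroups A D :=
      conjBy_mem_unipotent (right_mem_unipotent hp) (Subgroup.mem_sup_left ha)
    have hAY : IsRankOnePair A (conjBy D a) :=
      (pair_of_unipotent hp (left_mem_unipotent A D) hYmem (conjBy_right_ne_left hp ha).symm).1
    have hFA : IsRankOnePair ⁅B, D⁆ A :=
      rankOne_of_moves hS hA hBD.1 hf₀ (by rw [hfA]; exact hAY)
    have hf₀1 : b⁻¹ * da⁻¹ * b * da ≠ 1 := by
      intro e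
      rw [e, conjBy_one] at hfA
      exact conjBy_right_ne_left hp ha hfA.symm
    obtain ⟨a₀, ha₀, -, e₀⟩ := cond_left' hFA hf₀ hf₀1
    have hF : ⁅B, D⁆ = conjBy D (a₀⁻¹ * a) := by
      rw [← conjBy_conjBy, ← hfA, ← e₀, conjBy_conjBy]; simp [conjBy_one]
    have hFmem : ⁅B, D⁆ ∈ unipotentSubgroups A D := by
      rw [hF]
      exact conjBy_mem_unipotent (right_mem_unipotent hp)
        (Subgroup.mem_sup_left (A.mul_mem (A.inv_mem ha₀) ha))
    have hne : D ≠ ⁅B, D⁆ := by
      rw [Subgroup.commutator_comm]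
      exact commCase_left_ne hS (commCase_symm hBD)
    have hDF := (pair_of_unipotent hp (right_mem_unipotent hp) hFmem hne).1
    obtain ⟨d, hd, hd1⟩ := exists_ne_one_left hDF
    obtain ⟨f, hf, hne'⟩ := not_commute hDF hd hd1
    exact hne' (hBD.2.1 f hf d (Subgroup.mem_sup_right hd)).symm
  rcases hS.pair E hE D hD with h | h | h
  · exfalso
    apply key
    intro d hd d' hd'
    rw [conjBy_of_commutator_eq_bot h he] at hd'
    exact comm_of_isMulCommutative (hS.commutative D hD) hd hd'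
  · exact h
  · exfalso
    apply key
    intro d hd d' hd'
    exact commCase_commute_conj h (hS.commutative D hD) he hd hd'

end Line

end CommCase

end Cfsg.Agent.Lib.helper8_Root
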